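/-
The Griess algebra: definitions.
-/
import Mathlib

set_option autoImplicit false

namespace CfsgMO

open Matrix

noncomputable section

abbrev F2 := ZMod 2
abbrev E := Fin 12 → F2
abbrev Cl := Fin 24 → F2
abbrev M24 := Matrix (Fin 24) (Fin 24) ℚ
abbrev ME := Matrix E E ℚ
abbrev MW := Matrix E (Fin 24) ℚ

/-- the sign `(-1) ^ a` -/
def sg (a : F2) : ℚ := if a = 0 then 1 else -1
/-- translation part of a class -/
def lo (c : Cl) : E := fun i => c (Fin.castAdd 12 i)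
/-- phase part of a class -/
def hi (c : Cl) : E := fun i => c (Fin.natAdd 12 i)
/-- the generalised Pauli matrix of a class -/
def q (c : Cl) : ME := Matrix.of fun x y => if x = y + lo c then sg (hi c ⬝ᵥ y) else 0
/-- the cocycle: `q c * q d = sg (Bf c d) • q (c + d)` -/
def Bf (c d : Cl) : F2 := hi c ⬝ᵥ lo d
/-- `a e_i` -/
def ev (i : Fin 24) (a : ℚ) : Fin 24 → ℚ := Pi.single i a
/-- equality up to sign -/
def PM (u v : Fin 24 → ℚ) : Prop := u = v ∨ u = -v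

/-- short vectors up to sign and their classes -/
structure Dat where
  I : Type
  [fin : Fintype I]
  [dec : DecidableEq I]
  lam : I → Fin 24 → ℚ
  cls : I → Cl
  c2 : ℚ
  c2_sq : c2 * c2 = 1
  cls_inj : Function.Injective cls
  cls_ne : ∀ p, cls p ≠ 0
  cls_sing : ∀ p, Bf (cls p) (cls p) = 0
  cls_span : Submodule.span F2 (Set.range cls) = ⊤
  lam_norm : ∀ p, lam p ⬝ᵥ lam p = 32
  lam_inj : ∀ p s, PM (lam p) (lam s) → p = s
  duad : ∀ i j, i ≠ j → (∃ p, PM (lam p) (ev i 4 + ev j 4)) ∧ ∃ p, PM (lam p) (ev i 4 - ev j 4)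

attribute [instance] Dat.fin Dat.dec

/-- symmetric matrices -/
def Sy : Submodule ℚ M24 where
  carrier := {A | Aᵀ = A}
  add_mem' := fun {a b} ha hb => by
    simp only [Set.mem_ofPred_eq] at *; rw [transpose_add, ha, hb]
  zero_mem' := transpose_zero
  smul_mem' := fun c a ha => by simp only [Set.mem_ofPred_eq] at *; rw [transpose_smul, ha]

namespace Dat

variable (D : Dat)

/-- the underlying space of dimension `300 + 98280 + 98304` -/
abbrev V : Type := Sy × (D.I → ℚ) × MW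

abbrev Γ : Type := (Module.End ℚ D.V)ˣ

def rho (x : D.I → ℚ) : ME := ∑ p, x p • q (D.cls p)

def kap (M : ME) : D.I → ℚ := fun p => trace (q (D.cls p) * M) / 4096

/-- the action of a pair of matrices -/
def actL (U : ME) (σ : M24) : Module.End ℚ D.V where
  toFun v := (⟨σ * v.1.1 * σᵀ, by
      have h : v.1.1ᵀ = v.1.1 := v.1.2
      show _ = _
      rw [transpose_mul, transpose_mul, transpose_transpose, h, Matrix.mul_assoc]⟩,
    D.kap (U * D.rho v.2.1 * Uᵀ), U * v.2.2 * σᵀ)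
  map_add' v w := by
    refine Prod.ext (Subtype.ext ?_) (Prod.ext (funext fun p => ?_) ?_) <;>
      simp [kap, rho, Matrix.mul_add, Matrix.add_mul, add_smul, Finset.sum_add_distrib, add_div]
  map_smul' c v := by
    refine Prod.ext (Subtype.ext ?_) (Prod.ext (funext fun p => ?_) ?_)
    · simp
    · simp [kap, rho, mul_smul, ← Finset.smul_sum, mul_div_assoc]
    · simp

/-- the pair `(U, σ)` is orthogonal and permutes the short vectors and their matrices -/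
def IsN (U : ME) (σ : M24) : Prop :=
  Uᵀ * U = 1 ∧ σᵀ * σ = 1 ∧ ∀ p, ∃ s, ∃ ε : F2,
    U * q (D.cls p) = sg ε • (q (D.cls s) * U) ∧ PM (σ *ᵥ D.lam p) (D.lam s)

/-- the invariant form -/
def ip (u v : D.V) : ℚ := trace (u.1.1 * v.1.1) + u.2.1 ⬝ᵥ v.2.1 + trace (u.2.2ᵀ * v.2.2)

/-- the terms of the trilinear form in which the first argument plays a special role -/
def f1 (u v w : D.V) : ℚ :=
  (∑ p, (D.lam p ⬝ᵥ u.1.1 *ᵥ D.lam p) / 8 * v.2.1 p * w.2.1 p) +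
  (trace (v.2.2 * u.1.1 * w.2.2ᵀ) + trace u.1.1 / 8 * trace (v.2.2 * w.2.2ᵀ)) +
  (∑ p, u.2.1 p / 8 * (trace (v.2.2ᵀ * q (D.cls p) * w.2.2) -
    (v.2.2 *ᵥ D.lam p) ⬝ᵥ q (D.cls p) *ᵥ (w.2.2 *ᵥ D.lam p) / 4))

/-- the trilinear form of the Griess algebra -/
def f (u v w : D.V) : ℚ :=
  2 * (trace (u.1.1 * v.1.1 * w.1.1) + trace (v.1.1 * u.1.1 * w.1.1)) +
  D.c2 * trace (D.rho u.2.1 * D.rho v.2.1 * D.rho w.2.1) / 4096 +
  D.f1 u v w + D.f1 v u w + D.f1 w u v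

/-- the automorphisms of both forms -/
def Au : Subgroup D.Γ where
  carrier := {g | (∀ a b, D.ip (g.1 a) (g.1 b) = D.ip a b) ∧
    ∀ a b c, D.f (g.1 a) (g.1 b) (g.1 c) = D.f a b c}
  one_mem' := ⟨fun _ _ => rfl, fun _ _ _ => rfl⟩
  mul_mem' := fun {g h} hg hh => ⟨fun a b => (hg.1 _ _).trans (hh.1 a b),
    fun a b c => (hg.2 _ _ _).trans (hh.2 a b c)⟩
  inv_mem' := fun {g} hg => by
    have e : ∀ a, g.1 ((g⁻¹).1 a) = a := fun a => LinearMap.congr_fun g.mul_inv a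
    exact ⟨fun a b => by rw [← hg.1, e, e], fun a b c => by rw [← hg.2, e, e, e]⟩

/-- the axes of the short elements -/
def ax (p : D.I) (η : F2) : D.V :=
  (⟨(1 / 16 : ℚ) • vecMulVec (D.lam p) (D.lam p), by
    show _ = _
    rw [transpose_smul, transpose_vecMulVec]⟩, Pi.single p (-2 * sg η), 0)

/-- the set of these axes -/
def O1 : Set D.V := {a | ∃ p η, a = D.ax p η}

/-- inner products with the short vector `p` -/
def Ips (p : D.I) : Prop := ∀ s, s ≠ p →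
  (D.lam p ⬝ᵥ D.lam s = 0 ∧ Bf (D.cls p) (D.cls s) = Bf (D.cls s) (D.cls p) ∧
    ∀ r, D.cls r ≠ D.cls p + D.cls s) ∨
  ((D.lam p ⬝ᵥ D.lam s) ^ 2 = 64 ∧ Bf (D.cls p) (D.cls s) ≠ Bf (D.cls s) (D.cls p)) ∨
  ((D.lam p ⬝ᵥ D.lam s) ^ 2 = 256 ∧ ∃ r, D.cls r = D.cls p + D.cls s)

/-- the class `Ω` belongs to the standard frame -/
def Frame (Ω : Cl) : Prop :=
  Ω ≠ 0 ∧ Bf Ω Ω = 0 ∧ (∀ p, D.cls p ≠ Ω) ∧
  (∀ p s, D.cls p + D.cls s = Ω → ∃ i, PM (D.lam p + D.lam s) (ev i 8) ∨ PM (D.lam p - D.lam s) (ev i 8)) ∧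
  ∀ i, ∃ p s, D.cls p + D.cls s = Ω ∧ (PM (D.lam p + D.lam s) (ev i 8) ∨ PM (D.lam p - D.lam s) (ev i 8))

/-- the monomial matrices permuting the short vectors -/
def Mo : Set M24 := {σ | σᵀ * σ = 1 ∧ (∀ p, ∃ s, PM (σ *ᵥ D.lam p) (D.lam s)) ∧
  ∀ i, ∃ j, PM (σ *ᵥ ev i 8) (ev j 8)}

end Dat

end

end CfsgMO
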