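/-
Generalised Pauli matrices, and the action of pairs of matrices on the Griess algebra.
-/
import Cfsg.Agent.MO.Defs

set_option autoImplicit false

namespace CfsgMO

open Matrix

noncomputable section

theorem F2_cases : ∀ a : F2, a = 0 ∨ a = 1 := by decide
theorem sg_add : ∀ a b : F2, sg (a + b) = sg a * sg b := by decide +kernel
theorem sg_mul_self : ∀ a : F2, sg a * sg a = 1 := by decide +kernel
theorem sg_zero : sg 0 = 1 := rfl
theorem sg_one : sg 1 = -1 := rfl
theorem sg_inj : ∀ {a b : F2}, sg a = sg b → a = b := by decide +kernel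
theorem sg_ne_zero : ∀ a : F2, sg a ≠ 0 := by decide +kernel
theorem exists_sg {a : ℚ} (h : a * a = 1) : ∃ ε, a = sg ε :=
  (mul_self_eq_one_iff.1 h).elim (fun h => ⟨0, h⟩) fun h => ⟨1, h⟩

theorem add_self {ι : Type} (x : ι → F2) : x + x = 0 := funext fun _ => CharTwo.add_self_eq_zero _

theorem eq_of_add {ι : Type} {x y : ι → F2} (h : x + y = 0) : x = y := by
  rw [← add_zero x, ← add_self y, ← add_assoc, h, zero_add]

theorem lo_add (c d : Cl) : lo (c + d) = lo c + lo d := rfl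
theorem hi_add (c d : Cl) : hi (c + d) = hi c + hi d := rfl

/-- the class with given parts -/
def mkc (l h : E) : Cl := Fin.append l h

theorem lo_mk (l h : E) : lo (mkc l h) = l := funext fun i => Fin.append_left l h i
theorem hi_mk (l h : E) : hi (mkc l h) = h := funext fun i => Fin.append_right l h i

theorem cl_ext {c d : Cl} (h1 : lo c = lo d) (h2 : hi c = hi d) : c = d :=
  funext fun i => Fin.addCases (m := 12) (n := 12) (motive := fun i => c i = d i)
    (congrFun h1) (congrFun h2) i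

theorem Bf_add_left (c d e : Cl) : Bf (c + d) e = Bf c e + Bf d e := add_dotProduct _ _ _
theorem Bf_add_right (c d e : Cl) : Bf c (d + e) = Bf c d + Bf c e := dotProduct_add _ _ _
theorem Bf_zero_left (c : Cl) : Bf 0 c = 0 := zero_dotProduct _
theorem Bf_zero_right (c : Cl) : Bf c 0 = 0 := dotProduct_zero _

theorem eq_zero_of_Bf {c : Cl} (h : ∀ d, Bf c d + Bf d c = 0) : c = 0 := by
  refine cl_ext (funext fun j => show lo c j = 0 from ?_) (funext fun j => show hi c j = 0 from ?_)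
  · simpa [Bf, lo_mk, hi_mk] using h (mkc 0 (Pi.single j 1))
  · simpa [Bf, lo_mk, hi_mk] using h (mkc (Pi.single j 1) 0)

theorem mul_q_apply {ι : Type} (M : Matrix ι E ℚ) (c : Cl) (x : ι) (y : E) :
    (M * q c) x y = M x (y + lo c) * sg (hi c ⬝ᵥ y) := by
  rw [mul_apply, Finset.sum_eq_single (y + lo c) (fun w _ hw => by simp [q, hw]) (by simp)]
  simp [q]

theorem q_mul_apply {ι : Type} (M : Matrix E ι ℚ) (c : Cl) (x : E) (y : ι) :
    (q c * M) x y = sg (hi c ⬝ᵥ (x + lo c)) * M (x + lo c) y := by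
  rw [mul_apply, Finset.sum_eq_single (x + lo c) (fun w _ hw => by
    rw [q, of_apply, if_neg, zero_mul]
    rintro rfl
    exact hw (by rw [add_assoc, add_self, add_zero])) (by simp)]
  simp [q, add_assoc, add_self]

theorem q_mul (c d : Cl) : q c * q d = sg (Bf c d) • q (c + d) := by
  ext x y
  rw [mul_q_apply]
  simp only [q, of_apply, Matrix.smul_apply, lo_add, hi_add, smul_eq_mul, add_assoc,
    add_comm (lo d), dotProduct_add, add_dotProduct, sg_add, Bf]
  split_ifs <;> ring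

theorem q_zero : q 0 = 1 := by
  ext x y
  simp [q, one_apply, show lo 0 = 0 from rfl, show hi 0 = 0 from rfl, sg_zero]

theorem q_transpose (c : Cl) : (q c)ᵀ = sg (Bf c c) • q c := by
  ext x y
  simp only [q, transpose_apply, of_apply, Matrix.smul_apply, smul_eq_mul]
  by_cases h : x = y + lo c
  · subst h
    rw [if_pos (by rw [add_assoc, add_self, add_zero]), if_pos rfl, dotProduct_add, sg_add, mul_comm,
      Bf]
  · rw [if_neg h, if_neg, mul_zero]
    rintro rfl
    exact h (by rw [add_assoc, add_self, add_zero])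

theorem q_mul_self (c : Cl) : q c * q c = sg (Bf c c) • (1 : ME) := by
  rw [q_mul, add_self, q_zero]

theorem q_orth (c : Cl) : (q c)ᵀ * q c = 1 := by
  rw [q_transpose, smul_mul, q_mul_self, smul_smul, sg_mul_self, one_smul]

theorem q_comm (c d : Cl) : q c * q d = sg (Bf c d + Bf d c) • (q d * q c) := by
  rw [q_mul, q_mul, smul_smul, sg_add, mul_assoc, sg_mul_self, mul_one, add_comm]

theorem card_E : Fintype.card E = 4096 := by simp

theorem trace_q (c : Cl) : trace (q c) = if c = 0 then 4096 else 0 := by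
  split_ifs with h
  · rw [h, q_zero, trace_one, card_E]
    norm_num
  · obtain ⟨d, hd⟩ := not_forall.1 (mt eq_zero_of_Bf h)
    have h1 := trace_mul_comm (q d * q c) (q d)ᵀ
    rw [← Matrix.mul_assoc, q_orth, Matrix.one_mul, q_comm, add_comm,
      (F2_cases _).resolve_left hd, smul_mul, Matrix.mul_assoc, mul_eq_one_comm.1 (q_orth d),
      Matrix.mul_one, trace_smul, sg_one, smul_eq_mul] at h1
    linarith

theorem q_eq {a b : F2} {c d : Cl} (h : sg a • q c = sg b • q d) : a = b ∧ c = d := by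
  have h1 := congrArg (fun M => trace (M * q d)) h
  simp only [smul_mul, q_mul, trace_smul, trace_q, add_self, if_true, smul_eq_mul] at h1
  split_ifs at h1 with h2
  · obtain rfl := eq_of_add h2
    exact ⟨sg_inj (mul_right_cancel₀ (mul_ne_zero (sg_ne_zero _) (by norm_num)) h1), rfl⟩
  · exact absurd h1.symm (by simp [sg_ne_zero])

theorem comm_q {M : ME} (h : ∀ c, M * q c = q c * M) : ∃ a : ℚ, M = a • (1 : ME) := by
  refine ⟨M 0 0, ?_⟩
  ext x y
  by_cases e : x = y
  · have := congrFun (congrFun (h (mkc x 0)) x) 0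
    simpa [mul_q_apply, q_mul_apply, lo_mk, hi_mk, add_self, sg_zero, e] using this
  · obtain ⟨j, hj⟩ := Function.ne_iff.1 e
    have := congrFun (congrFun (h (mkc 0 (Pi.single j 1))) x) y
    simp only [mul_q_apply, q_mul_apply, lo_mk, hi_mk, add_zero, single_one_dotProduct,
      mul_comm (M x y)] at this
    rw [Matrix.smul_apply, one_apply_ne e, smul_zero]
    exact (mul_eq_mul_right_iff.1 this).resolve_left fun h => hj (sg_inj h).symm

theorem sum_sg (h : E) : ∑ l : E, sg (h ⬝ᵥ l) = if h = 0 then 4096 else 0 := by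
  have e : mkc 0 h = 0 ↔ h = 0 := ⟨fun e => (hi_mk 0 h).symm.trans (congrArg hi e),
    fun e => cl_ext (lo_mk _ _) ((hi_mk _ _).trans e)⟩
  rw [← if_congr e rfl rfl, ← trace_q]
  exact Finset.sum_congr rfl fun l _ => by simp [q, lo_mk, hi_mk]

theorem sum_sg_Bf : ∑ c : Cl, sg (Bf c c) = 4096 := by
  let e : E × E ≃ Cl := ⟨fun x => mkc x.1 x.2, fun c => (lo c, hi c),
    fun x => Prod.ext (lo_mk _ _) (hi_mk _ _), fun c => cl_ext (lo_mk _ _) (hi_mk _ _)⟩
  rw [← e.sum_comp, Fintype.sum_prod_type_right]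
  simp only [e, Equiv.coe_fn_mk, Bf, lo_mk, hi_mk, sum_sg, Finset.sum_ite_eq', Finset.mem_univ,
    if_true]

theorem card_of_sum {α : Type} [Fintype α] (f : α → F2) {n : ℕ} {m : ℚ}
    (h : ∑ c, sg (f c) = m) (h' : m + Fintype.card α = 2 * n) :
    (Finset.univ.filter fun c => f c = 0).card = n := by
  have h2 := Finset.card_filter_add_card_filter_not (s := Finset.univ) fun c => f c = 0
  simp only [sg, Finset.sum_ite, Finset.sum_const, nsmul_eq_mul] at h
  have h3 := congrArg (Nat.cast : ℕ → ℚ) h2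
  rw [Finset.card_univ, Nat.cast_add] at h3
  exact Nat.cast_injective (R := ℚ) (by linarith)

theorem card_sing : (Finset.univ.filter fun c : Cl => Bf c c = 0).card = 8390656 :=
  card_of_sum _ sum_sg_Bf (by simp; norm_num)

theorem q_eq' {U : ME} (hU : Uᵀ * U = 1) {a b : F2} {c d : Cl}
    (h : sg a • (q c * U) = sg b • (q d * U)) : a = b ∧ c = d := by
  have := congrArg (· * Uᵀ) h
  simp only [smul_mul, Matrix.mul_assoc, mul_eq_one_comm.1 hU, Matrix.mul_one] at this
  exact q_eq this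

theorem eq_of_mul_W {U U' : ME} (h : ∀ w : MW, U * w = U' * w) : U = U' := by
  ext x y
  simpa [mul_apply] using congrFun (congrFun (h (of fun u _ => if u = y then 1 else 0)) x) 0

theorem PM.refl (u : Fin 24 → ℚ) : PM u u := Or.inl rfl
theorem PM.symm {u v : Fin 24 → ℚ} (h : PM u v) : PM v u := by
  rcases h with rfl | rfl <;> simp [PM]
theorem PM.trans {u v w : Fin 24 → ℚ} (h : PM u v) (h' : PM v w) : PM u w := by
  rcases h with rfl | rfl <;> rcases h' with rfl | rfl <;> simp [PM]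
theorem PM.mulVec {u v : Fin 24 → ℚ} (h : PM u v) (σ : M24) : PM (σ *ᵥ u) (σ *ᵥ v) := by
  rcases h with rfl | rfl <;> simp [PM, mulVec_neg]
theorem PM.smul (a : F2) (u : Fin 24 → ℚ) : PM (sg a • u) u := by
  rcases F2_cases a with rfl | rfl <;> simp [PM, sg_zero, sg_one]
theorem PM.add {a b c d : Fin 24 → ℚ} (h : PM a c) (h' : PM b d) :
    PM (a + b) (c + d) ∨ PM (a + b) (c - d) := by
  rcases h with rfl | rfl <;> rcases h' with rfl | rfl
  exacts [Or.inl (Or.inl rfl), Or.inr (Or.inl (by abel)), Or.inr (Or.inr (by abel)),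
    Or.inl (Or.inr (by abel))]

namespace Dat

variable {D : Dat}

theorem IsN.perm {U : ME} {σ : M24} (h : D.IsN U σ) : ∃ (π : D.I ≃ D.I) (ε : D.I → F2), ∀ p,
    U * q (D.cls p) = sg (ε p) • (q (D.cls (π p)) * U) ∧ PM (σ *ᵥ D.lam p) (D.lam (π p)) := by
  choose π ε h1 using h.2.2
  refine ⟨Equiv.ofBijective π (Finite.injective_iff_bijective.1 fun p p' e => D.cls_inj ?_), ε, h1⟩
  have h2 : U * (sg (ε p') • q (D.cls p)) = U * (sg (ε p) • q (D.cls p')) := by
    rw [Matrix.mul_smul, Matrix.mul_smul, (h1 p).1, (h1 p').1, e, smul_comm]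
  have h3 := congrArg (Uᵀ * ·) h2
  simp only [← Matrix.mul_assoc, h.1, Matrix.one_mul] at h3
  exact (q_eq h3).2

theorem IsN.mul {U U' : ME} {σ σ' : M24} (h : D.IsN U σ) (h' : D.IsN U' σ') :
    D.IsN (U * U') (σ * σ') := by
  refine ⟨?_, ?_, fun p => ?_⟩
  · rw [transpose_mul, Matrix.mul_assoc, ← Matrix.mul_assoc Uᵀ, h.1, Matrix.one_mul, h'.1]
  · rw [transpose_mul, Matrix.mul_assoc, ← Matrix.mul_assoc σᵀ, h.2.1, Matrix.one_mul, h'.2.1]
  · obtain ⟨s, ε, h1, h2⟩ := h'.2.2 p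
    obtain ⟨r, ε', h3, h4⟩ := h.2.2 s
    refine ⟨r, ε + ε', ?_, by rw [← mulVec_mulVec]; exact (h2.mulVec σ).trans h4⟩
    rw [Matrix.mul_assoc, h1, Matrix.mul_smul, ← Matrix.mul_assoc, h3, smul_mul, smul_smul, sg_add,
      Matrix.mul_assoc]

theorem IsN.transpose {U : ME} {σ : M24} (h : D.IsN U σ) : D.IsN Uᵀ σᵀ := by
  obtain ⟨π, ε, h1⟩ := h.perm
  refine ⟨mul_eq_one_comm.1 h.1, mul_eq_one_comm.1 h.2.1, fun s => ?_⟩
  obtain ⟨p, rfl⟩ := π.surjective s
  refine ⟨p, ε p, ?_, ?_⟩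
  · have := congrArg (fun M => sg (ε p) • (Uᵀ * M * Uᵀ)) (h1 p).1
    simp only [← Matrix.mul_assoc, h.1, Matrix.one_mul, Matrix.mul_smul, smul_mul, smul_smul,
      sg_mul_self, one_smul] at this
    rw [this, Matrix.mul_assoc _ U, mul_eq_one_comm.1 h.1, Matrix.mul_one]
  · have := ((h1 p).2.mulVec σᵀ).symm
    rwa [mulVec_mulVec, h.2.1, one_mulVec] at this

theorem isN_smul_q (a : F2) (c : Cl) : D.IsN (sg a • q c) 1 := by
  refine ⟨?_, by simp, fun p => ⟨p, Bf c (D.cls p) + Bf (D.cls p) c, ?_, by simp [PM]⟩⟩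
  · rw [transpose_smul, smul_mul, Matrix.mul_smul, q_orth, smul_smul, sg_mul_self, one_smul]
  · rw [smul_mul, Matrix.mul_smul, q_comm c, smul_comm]

theorem isN_q (c : Cl) : D.IsN (q c) 1 := by simpa [sg_zero] using isN_smul_q (D := D) 0 c
theorem isN_neg : D.IsN (-1) 1 := by simpa [sg_one, q_zero] using isN_smul_q (D := D) 1 0

theorem kap_rho (y : D.I → ℚ) : D.kap (D.rho y) = y := funext fun p => by
  simp only [kap, rho, Matrix.mul_sum, Matrix.mul_smul, trace_sum, trace_smul, q_mul, trace_q,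
    smul_eq_mul]
  rw [Finset.sum_eq_single p (fun s _ hs => by
    rw [if_neg fun h => hs (D.cls_inj (eq_of_add h)).symm, mul_zero, mul_zero]) (by simp),
    if_pos (add_self _), D.cls_sing, sg_zero]
  ring

theorem conj_rho {U : ME} (h : Uᵀ * U = 1) {π : D.I ≃ D.I} {ε : D.I → F2}
    (h1 : ∀ p, U * q (D.cls p) = sg (ε p) • (q (D.cls (π p)) * U)) (x : D.I → ℚ) :
    U * D.rho x * Uᵀ = D.rho fun s => sg (ε (π.symm s)) * x (π.symm s) := by
  rw [rho, Matrix.mul_sum, Matrix.sum_mul, eq_comm, rho, ← π.sum_comp, eq_comm]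
  refine Finset.sum_congr rfl fun p _ => ?_
  rw [Matrix.mul_smul, h1, smul_mul, smul_mul, Matrix.mul_assoc, mul_eq_one_comm.1 h,
    Matrix.mul_one, smul_smul, π.symm_apply_apply, mul_comm]

variable (D)

/-- the pairs of matrices -/
def Nh : Subgroup (MEˣ × M24ˣ) where
  carrier := {n | D.IsN n.1.1 n.2.1}
  one_mem' := by simpa [q_zero] using isN_q (D := D) 0
  mul_mem' := IsN.mul
  inv_mem' := fun {n} h => by
    have h1 : (n⁻¹).1.1 = n.1.1ᵀ := Units.inv_eq_of_mul_eq_one_left h.1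
    have h2 : (n⁻¹).2.1 = n.2.1ᵀ := Units.inv_eq_of_mul_eq_one_left h.2.1
    change D.IsN _ _
    rw [h1, h2]
    exact IsN.transpose h

theorem actL_one : D.actL 1 1 = 1 := LinearMap.ext fun v =>
  Prod.ext (Subtype.ext (by simp [actL])) (Prod.ext (by simp [actL, kap_rho]) (by simp [actL]))

theorem actL_mul {U U' : ME} {σ σ' : M24} (h' : D.IsN U' σ') :
    D.actL (U * U') (σ * σ') = D.actL U σ * D.actL U' σ' := LinearMap.ext fun v => by
  obtain ⟨π, ε, h1⟩ := h'.perm
  refine Prod.ext (Subtype.ext ?_) (Prod.ext ?_ ?_)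
  · simp [actL, Matrix.mul_assoc]
  · change D.kap _ = D.kap (U * D.rho (D.kap (U' * D.rho v.2.1 * U'ᵀ)) * Uᵀ)
    rw [conj_rho h'.1 fun p => (h1 p).1, kap_rho, ← conj_rho h'.1 fun p => (h1 p).1]
    simp [Matrix.mul_assoc]
  · simp [actL, Matrix.mul_assoc]

theorem actL_neg (U : ME) (σ : M24) : D.actL (-U) (-σ) = D.actL U σ := LinearMap.ext fun v =>
  Prod.ext (Subtype.ext (by simp [actL])) (Prod.ext (by simp [actL]) (by simp [actL]))

/-- the action of the pairs -/
def act : D.Nh →* D.Γ := MonoidHom.toHomUnits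
  { toFun := fun n => D.actL n.1.1.1 n.1.2.1
    map_one' := D.actL_one
    map_mul' := fun _ n' => D.actL_mul n'.2 }

/-- the group `2^(1+24).Co1` -/
def N : Subgroup D.Γ := D.act.range

variable {D}

theorem exists_N {U : ME} {σ : M24} (h : D.IsN U σ) : ∃ g ∈ D.N, g.1 = D.actL U σ :=
  ⟨_, ⟨⟨(⟨U, Uᵀ, mul_eq_one_comm.1 h.1, h.1⟩, ⟨σ, σᵀ, mul_eq_one_comm.1 h.2.1, h.2.1⟩), h⟩, rfl⟩,
    rfl⟩

theorem of_mem_N {g : D.Γ} (h : g ∈ D.N) : ∃ U σ, D.IsN U σ ∧ g.1 = D.actL U σ := by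
  obtain ⟨n, rfl⟩ := h
  exact ⟨_, _, n.2, rfl⟩

/-- the action on the monomial part -/
theorem actL_X {U : ME} {σ : M24} (h : D.IsN U σ) {p s : D.I} {ε : F2}
    (e : U * q (D.cls p) = sg ε • (q (D.cls s) * U)) (v : D.V) :
    (D.actL U σ v).2.1 s = sg ε * v.2.1 p := by
  obtain ⟨π, ε', h1⟩ := h.perm
  obtain ⟨rfl, h2⟩ := q_eq' h.1 (e.symm.trans (h1 p).1)
  change D.kap (U * D.rho v.2.1 * Uᵀ) s = _
  rw [conj_rho h.1 fun p => (h1 p).1, kap_rho, D.cls_inj h2, π.symm_apply_apply]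

theorem actL_ax {U : ME} {σ : M24} (h : D.IsN U σ) {p s : D.I} {ε : F2}
    (e : U * q (D.cls p) = sg ε • (q (D.cls s) * U)) (e' : PM (σ *ᵥ D.lam p) (D.lam s)) (η : F2) :
    D.actL U σ (D.ax p η) = D.ax s (η + ε) := by
  refine Prod.ext (Subtype.ext ?_) (Prod.ext (funext fun r => ?_) (by simp [actL, ax]))
  · change σ * ((1 / 16 : ℚ) • vecMulVec (D.lam p) (D.lam p)) * σᵀ =
      (1 / 16 : ℚ) • vecMulVec (D.lam s) (D.lam s)
    rw [Matrix.mul_smul, smul_mul, mul_vecMulVec, vecMulVec_mul, vecMul_transpose]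
    rcases e' with e' | e' <;> simp [e']
  · obtain ⟨π, ε', h1⟩ := h.perm
    obtain ⟨rfl, h2⟩ := q_eq' h.1 (e.symm.trans (h1 p).1)
    obtain rfl := D.cls_inj h2
    obtain ⟨r, rfl⟩ := π.surjective r
    rw [actL_X h (h1 r).1]
    by_cases hr : r = p
    · subst hr
      simp only [ax, Pi.single_eq_same, sg_add]
      ring
    · simp [ax, hr]

end Dat

end

end CfsgMO
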