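/-
The group `N = 2^(1+24).Co1` acting on the Griess algebra.
-/
import Cfsg.Agent.MO.A1a
import Cfsg.Agent.H2.Extraspecial

set_option autoImplicit false

namespace CfsgMO

open Matrix
open scoped commutatorElement

noncomputable section

namespace Dat

variable (D : Dat)

/-- the central involution -/
def z : D.Γ := (exists_N (D := D) isN_neg).choose
/-- the elements of the extraspecial group -/
def xq (c : Cl) : D.Γ := (exists_N (D := D) (isN_q c)).choose
/-- the powers of the central involution -/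
def zp (a : F2) : D.Γ := if a = 0 then 1 else D.z

theorem z_mem : D.z ∈ D.N := (exists_N (D := D) isN_neg).choose_spec.1
theorem z_val : D.z.1 = D.actL (-1) 1 := (exists_N (D := D) isN_neg).choose_spec.2
theorem xq_mem (c : Cl) : D.xq c ∈ D.N := (exists_N (D := D) (isN_q c)).choose_spec.1
theorem xq_val (c : Cl) : (D.xq c).1 = D.actL (q c) 1 := (exists_N (D := D) (isN_q c)).choose_spec.2

theorem z_apply (v : D.V) : D.z.1 v = (v.1, v.2.1, -v.2.2) := by
  rw [z_val]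
  exact Prod.ext (Subtype.ext (by simp [actL])) (Prod.ext (by simp [actL, kap_rho]) (by simp [actL]))

theorem zp_zero : D.zp 0 = 1 := rfl
theorem zp_one : D.zp 1 = D.z := rfl

theorem z_comm {g : D.Γ} (h : g ∈ D.N) : g * D.z = D.z * g := by
  obtain ⟨U, σ, h1, h2⟩ := of_mem_N h
  refine Units.ext ?_
  rw [Units.val_mul, Units.val_mul, h2, z_val, ← D.actL_mul isN_neg, ← D.actL_mul h1]
  simp

theorem zp_mem (a : F2) : D.zp a ∈ D.N := by
  rcases F2_cases a with rfl | rfl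
  exacts [one_mem _, D.z_mem]

theorem zp_comm {g : D.Γ} (h : g ∈ D.N) (a : F2) : g * D.zp a = D.zp a * g := by
  rcases F2_cases a with rfl | rfl
  exacts [(mul_one g).trans (one_mul g).symm, D.z_comm h]

theorem zp_mul_val (a : F2) {g : D.Γ} {U : ME} {σ : M24} (h : D.IsN U σ) (hg : g.1 = D.actL U σ) :
    (D.zp a * g).1 = D.actL (sg a • U) σ := by
  rcases F2_cases a with rfl | rfl
  · rw [zp_zero, one_mul, sg_zero, one_smul, hg]
  · rw [zp_one, Units.val_mul, z_val, hg, ← D.actL_mul h, sg_one]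
    simp

theorem zp_xq_val (a : F2) (c : Cl) : (D.zp a * D.xq c).1 = D.actL (sg a • q c) 1 :=
  D.zp_mul_val a (isN_q c) (D.xq_val c)

theorem z_mul_z : D.z * D.z = 1 := Units.ext (by
  rw [Units.val_mul, z_val, ← D.actL_mul isN_neg]
  simp [actL_one])

theorem zp_add (a b : F2) : D.zp (a + b) = D.zp a * D.zp b := by
  rcases F2_cases a with rfl | rfl <;> rcases F2_cases b with rfl | rfl
  exacts [(one_mul _).symm, (one_mul _).symm, (mul_one _).symm, D.z_mul_z.symm]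

theorem xq_zero : D.xq 0 = 1 := Units.ext (by rw [xq_val, q_zero, actL_one]; rfl)

theorem xq_mul (c d : Cl) : D.xq c * D.xq d = D.zp (Bf c d) * D.xq (c + d) := Units.ext (by
  rw [zp_xq_val, Units.val_mul, xq_val, xq_val, ← D.actL_mul (isN_q d), q_mul, Matrix.one_mul])

theorem zp_xq_inj {a b : F2} {c d : Cl} (h : D.zp a * D.xq c = D.zp b * D.xq d) :
    a = b ∧ c = d := by
  have h1 := congrArg Units.val h
  rw [zp_xq_val, zp_xq_val] at h1
  refine q_eq (eq_of_mul_W fun w => ?_)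
  simpa [actL] using congrArg (fun f : Module.End ℚ D.V => (f (0, 0, w)).2.2) h1

theorem zp_inj {a b : F2} (h : D.zp a = D.zp b) : a = b :=
  (D.zp_xq_inj (c := 0) (d := 0) (by rw [h])).1

theorem z_ne_one : D.z ≠ 1 := fun h => absurd (D.zp_inj (a := 1) (b := 0) h) (by decide)

theorem zx_mul (a b : F2) (c d : Cl) :
    D.zp a * D.xq c * (D.zp b * D.xq d) = D.zp (a + b + Bf c d) * D.xq (c + d) := by
  rw [mul_assoc, ← mul_assoc (D.xq c), D.zp_comm (D.xq_mem c), mul_assoc, xq_mul, zp_add, zp_add]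
  simp only [mul_assoc]

theorem zx_comm (a b : F2) (c d : Cl) : D.zp a * D.xq c * (D.zp b * D.xq d) =
    D.zp (Bf c d + Bf d c) * (D.zp b * D.xq d * (D.zp a * D.xq c)) := by
  rw [zx_mul, zx_mul, ← mul_assoc, ← zp_add, add_comm d]
  congr 2
  have := CharTwo.add_self_eq_zero (Bf d c)
  linear_combination -this

variable {D}

theorem conj_xq {g : D.Γ} {U : ME} {σ : M24} (h : D.IsN U σ) (hg : g.1 = D.actL U σ) {c d : Cl}
    {ε : F2} (e : U * q c = sg ε • (q d * U)) : g * D.xq c * g⁻¹ = D.zp ε * D.xq d := by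
  rw [mul_inv_eq_iff_eq_mul]
  refine Units.ext ?_
  rw [Units.val_mul, Units.val_mul _ g, zp_xq_val, hg, xq_val, ← D.actL_mul (isN_q c),
    ← D.actL_mul h, e, smul_mul, Matrix.mul_one, Matrix.one_mul]

theorem IsN.exists_q {U : ME} {σ : M24} (h : D.IsN U σ) (c : Cl) :
    ∃ d ε, U * q c = sg ε • (q d * U) := by
  have h0 : ∃ d ε, U * q 0 = sg ε • (q d * U) := ⟨0, 0, by simp [q_zero, sg_zero]⟩
  induction (D.cls_span ▸ Submodule.mem_top : c ∈ Submodule.span F2 (Set.range D.cls))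
    using Submodule.span_induction with
  | mem _ hc =>
    obtain ⟨p, rfl⟩ := hc
    obtain ⟨s, ε, h1, -⟩ := h.2.2 p
    exact ⟨_, ε, h1⟩
  | zero => exact h0
  | add c c' _ _ h1 h2 =>
    obtain ⟨d, ε, h1⟩ := h1
    obtain ⟨d', ε', h2⟩ := h2
    refine ⟨d + d', Bf c c' + (ε + (ε' + Bf d d')), ?_⟩
    have e : q (c + c') = sg (Bf c c') • (q c * q c') := by
      rw [q_mul, smul_smul, sg_mul_self, one_smul]
    rw [e, Matrix.mul_smul, ← Matrix.mul_assoc, h1, smul_mul, Matrix.mul_assoc, h2, Matrix.mul_smul,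
      ← Matrix.mul_assoc, q_mul, smul_mul]
    simp only [smul_smul, sg_add]
  | smul a c _ h1 =>
    rcases F2_cases a with rfl | rfl
    · rwa [zero_smul]
    · rwa [one_smul]

theorem conj_zx {g : D.Γ} (hg : g ∈ D.N) {c d : Cl} {ε : F2}
    (h : g * D.xq c * g⁻¹ = D.zp ε * D.xq d) (a : F2) :
    g * (D.zp a * D.xq c) * g⁻¹ = D.zp (a + ε) * D.xq d := by
  rw [← mul_assoc, D.zp_comm hg, zp_add, mul_assoc (D.zp a), mul_assoc (D.zp a), h, mul_assoc]

variable (D)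

theorem exists_Ah : ∃ A : D.N →* (Matrix (Fin 24) (Fin 24) F2)ˣ,
    ∀ (n : D.N) (c : Cl), ∃ ε, n.1 * D.xq c * n.1⁻¹ = D.zp ε * D.xq ((A n).1 *ᵥ c) := by
  have h : ∀ (n : D.N) (c : Cl), ∃ d ε, n.1 * D.xq c * n.1⁻¹ = D.zp ε * D.xq d := fun n c => by
    obtain ⟨U, σ, h1, h2⟩ := of_mem_N n.2
    obtain ⟨d, ε, h3⟩ := h1.exists_q c
    exact ⟨d, ε, conj_xq h1 h2 h3⟩
  choose φ ε h using h
  have ha : ∀ n c d, φ n (c + d) = φ n c + φ n d := fun n c d => by
    have := conj_zx n.2 (h n (c + d)) (Bf c d)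
    rw [← xq_mul, ← conj_mul, h, h, zx_mul] at this
    exact (D.zp_xq_inj this).2.symm
  let M : D.N → Matrix (Fin 24) (Fin 24) F2 := fun n =>
    LinearMap.toMatrix' ((AddMonoidHom.mk' (φ n) (ha n)).toZModLinearMap 2)
  have hM : ∀ n c, M n *ᵥ c = φ n c := fun n c => LinearMap.toMatrix'_mulVec _ _
  refine ⟨MonoidHom.toHomUnits ⟨⟨M, ext_iff_mulVec.2 fun c => ?_⟩, fun n m =>
    ext_iff_mulVec.2 fun c => ?_⟩, fun n c => ⟨ε n c, (h n c).trans (by rw [← hM]; rfl)⟩⟩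
  · rw [hM, one_mulVec]
    exact (D.zp_xq_inj (b := 0) ((h 1 c).symm.trans (by simp [zp_zero]))).2
  · rw [← mulVec_mulVec, hM, hM, hM]
    have := conj_zx n.2 (h n (φ m c)) (ε m c)
    rw [← h] at this
    exact (D.zp_xq_inj ((h (n * m) c).symm.trans (Eq.trans (by simp [mul_assoc]) this))).2

/-- the action of `N` on `Q / Z(Q)` -/
def Ah : D.N →* (Matrix (Fin 24) (Fin 24) F2)ˣ := D.exists_Ah.choose

variable {D}

theorem Ah_spec (n : D.N) (c : Cl) :
    ∃ ε, n.1 * D.xq c * n.1⁻¹ = D.zp ε * D.xq ((D.Ah n).1 *ᵥ c) := D.exists_Ah.choose_spec n c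

theorem Ah_of {n : D.N} {c d : Cl} {ε : F2} (e : n.1 * D.xq c * n.1⁻¹ = D.zp ε * D.xq d) :
    (D.Ah n).1 *ᵥ c = d := by
  obtain ⟨ε', h⟩ := Ah_spec n c
  exact (D.zp_xq_inj (h.symm.trans e)).2

theorem Ah_Bf (n : D.N) (c : Cl) : Bf ((D.Ah n).1 *ᵥ c) ((D.Ah n).1 *ᵥ c) = Bf c c := by
  obtain ⟨ε, h⟩ := Ah_spec n c
  have h1 := conj_zx n.2 (c := 0) (d := 0) (ε := 0) (by simp [xq_zero, zp_zero]) (Bf c c)
  rw [← add_self c, ← xq_mul, ← conj_mul, h, zx_mul, CharTwo.add_self_eq_zero, zero_add,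
    add_zero] at h1
  exact (D.zp_xq_inj h1).1

theorem exists_dual {s : Cl → F2} (h : ∀ c d, s (c + d) = s c + s d) :
    ∃ d, ∀ c, s c = Bf d c + Bf c d := by
  refine ⟨mkc (fun j => s fun i => if Fin.natAdd 12 j = i then 1 else 0) fun j =>
    s fun i => if Fin.castAdd 12 j = i then 1 else 0, fun c => ?_⟩
  have := ((AddMonoidHom.mk' s h).toZModLinearMap 2).pi_apply_eq_sum_univ c
  rw [Fin.sum_univ_add (a := 12) (b := 12)] at this
  rw [Bf, Bf, lo_mk, hi_mk, dotProduct_comm]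
  exact this

theorem eq_pm_one {σ : M24} (h : ∀ p, PM (σ *ᵥ D.lam p) (D.lam p)) : σ = 1 ∨ σ = -1 := by
  have h1 : ∀ w, (∃ p, PM (D.lam p) w) → ∃ a : ℚ, a * a = 1 ∧ σ *ᵥ w = a • w := by
    rintro w ⟨p, hp⟩
    rcases ((hp.mulVec σ).symm.trans (h p)).trans hp with e | e
    exacts [⟨1, by norm_num, by simpa using e⟩, ⟨-1, by norm_num, by simpa using e⟩]
  have h2 : ∀ i j, i ≠ j → ∃ a b : ℚ, a * a = 1 ∧ ∀ k,
      σ k i + σ k j = a * ((if k = i then 1 else 0) + if k = j then 1 else 0) ∧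
      σ k i - σ k j = b * ((if k = i then 1 else 0) - if k = j then 1 else 0) := fun i j hij => by
    obtain ⟨a, ha, e1⟩ := h1 _ (D.duad i j hij).1
    obtain ⟨b, -, e2⟩ := h1 _ (D.duad i j hij).2
    refine ⟨a, b, ha, fun k => ?_⟩
    have e3 := congrFun e1 k
    have e4 := congrFun e2 k
    simp only [ev, mulVec_add, mulVec_sub, mulVec_single, Pi.add_apply, Pi.sub_apply, Pi.smul_apply,
      Pi.single_apply, smul_eq_mul, MulOpposite.smul_eq_mul_unop, MulOpposite.unop_op, col_apply]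
      at e3 e4
    constructor <;> split_ifs at e3 e4 ⊢ <;> linarith
  have h3 : ∀ k i, k ≠ i → σ k i = 0 := fun k i hk => by
    obtain ⟨j, h4, h5⟩ := Fin.exists_ne_and_ne_of_two_lt i k (by norm_num)
    obtain ⟨a, b, -, e⟩ := h2 i j h4.symm
    have := e k
    rw [if_neg hk, if_neg h5.symm] at this
    linarith [this.1, this.2]
  have h4 : ∀ i j, i ≠ j → σ i i * σ i i = 1 ∧ σ j j = σ i i := fun i j hij => by
    obtain ⟨a, b, ha, e⟩ := h2 i j hij
    have e1 := (e i).1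
    have e2 := (e j).1
    simp only [h3 i j hij, h3 j i hij.symm, hij, hij.symm, if_true, if_false, add_zero, zero_add,
      mul_one] at e1 e2
    rw [e1, e2]
    exact ⟨ha, rfl⟩
  have h5 : σ = σ 0 0 • (1 : M24) := by
    ext i j
    by_cases e : i = j
    · subst e
      by_cases e0 : 0 = i
      · simp [e0]
      · simp [(h4 0 i e0).2]
    · simp [h3 i j e, one_apply_ne e]
  rcases mul_self_eq_one_iff.1 (h4 0 1 (by decide)).1 with e | e <;> rw [e] at h5 <;> simp [h5]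

theorem mem_ker {n : D.N} : n ∈ D.Ah.ker ↔ ∃ ε c, n.1 = D.zp ε * D.xq c := by
  constructor
  · intro hn
    obtain ⟨U, σ, h1, h2⟩ := of_mem_N n.2
    have h3 : ∀ {c d ε}, U * q c = sg ε • (q d * U) → c = d := fun h => by
      simpa [MonoidHom.mem_ker.1 hn] using Ah_of (n := n) (conj_xq h1 h2 h)
    have h4 : ∀ c, ∃ ε, U * q c = sg ε • (q c * U) := fun c => by
      obtain ⟨d, ε, h⟩ := h1.exists_q c
      exact ⟨ε, h3 h ▸ h⟩
    choose s hs using h4
    obtain ⟨d, hd⟩ := exists_dual (s := s) fun c d => by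
      have e : U * (q c * q d) = sg (s c + s d) • (q c * q d * U) := by
        rw [← Matrix.mul_assoc, hs, smul_mul, Matrix.mul_assoc, hs, Matrix.mul_smul, smul_smul,
          sg_add, Matrix.mul_assoc]
      rw [q_mul, Matrix.mul_smul, hs, smul_mul, smul_smul, smul_smul, ← sg_add, ← sg_add,
        add_comm] at e
      exact add_right_cancel (q_eq' h1.1 e).1
    obtain ⟨a, ha⟩ := comm_q (M := q d * U) fun c => by
      rw [Matrix.mul_assoc, hs, hd, Matrix.mul_smul, ← Matrix.mul_assoc, q_comm d c, smul_mul,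
        smul_smul, sg_mul_self, one_smul, Matrix.mul_assoc]
    have h5 := ((isN_q d).mul h1).1
    rw [ha, transpose_smul, smul_mul, Matrix.mul_smul, smul_smul] at h5
    obtain ⟨ε, rfl⟩ := exists_sg (a := a) (by simpa using congrFun (congrFun h5 0) 0)
    have h6 : U = sg (ε + Bf d d) • q d := by
      rw [← Matrix.one_mul U, ← q_orth d, Matrix.mul_assoc, ha, Matrix.mul_smul, Matrix.mul_one,
        q_transpose, smul_smul, sg_add]
    rcases eq_pm_one (D := D) (σ := σ) fun p => by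
      obtain ⟨r, ε, e1, e2⟩ := h1.2.2 p
      rwa [← D.cls_inj (h3 e1)] at e2
      with rfl | rfl
    · exact ⟨_, d, Units.ext (by rw [h2, zp_xq_val, h6])⟩
    · refine ⟨1 + (ε + Bf d d), d, Units.ext ?_⟩
      rw [h2, zp_xq_val, ← actL_neg, h6, sg_add 1, sg_one, neg_neg, neg_one_mul, neg_smul]
  · rintro ⟨ε, c, h⟩
    refine Units.ext (ext_iff_mulVec.2 fun d => ?_)
    rw [Units.val_one, one_mulVec]
    refine Ah_of (ε := Bf c d + Bf d c) ?_
    have := D.zx_comm ε 0 c d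
    rwa [zp_zero, one_mul, ← h, ← mul_assoc, ← mul_inv_eq_iff_eq_mul] at this

theorem zx_bij : Function.Bijective fun e : F2 × Cl => (⟨⟨D.zp e.1 * D.xq e.2,
    mul_mem (D.zp_mem _) (D.xq_mem _)⟩, mem_ker.2 ⟨_, _, rfl⟩⟩ : D.Ah.ker) :=
  ⟨fun _ _ h => Prod.ext_iff.2 (D.zp_xq_inj (congrArg (fun x : D.Ah.ker => x.1.1) h)), fun x => by
    obtain ⟨ε, c, h⟩ := mem_ker.1 x.2
    exact ⟨(ε, c), Subtype.ext (Subtype.ext h.symm)⟩⟩

theorem card_ker : Nat.card D.Ah.ker = 2 ^ 25 := by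
  rw [← Nat.card_congr (Equiv.ofBijective _ zx_bij)]
  simp

instance finite_N : Finite D.N := (MonoidHom.finite_iff_finite_ker_range D.Ah).2
  ⟨Finite.of_surjective _ zx_bij.2, inferInstance⟩

theorem cent_Q {g : D.Γ} (hg : g ∈ D.N) (h : ∀ c, g * D.xq c = D.xq c * g) : g = 1 ∨ g = D.z := by
  obtain ⟨ε, d, e⟩ := (mem_ker (n := ⟨g, hg⟩)).1 (Units.ext (ext_iff_mulVec.2 fun c => by
    rw [Units.val_one, one_mulVec]
    exact Ah_of (ε := 0) (by simp [h c, zp_zero])))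
  obtain rfl : d = 0 := eq_zero_of_Bf fun c => by
    have := D.zx_comm ε 0 d c
    rw [zp_zero, one_mul, ← e, h c, eq_comm, mul_eq_right] at this
    exact D.zp_inj (b := 0) this
  rw [xq_zero, mul_one] at e
  rcases F2_cases ε with rfl | rfl
  exacts [Or.inl e, Or.inr e]

theorem extraspecial_ker : Cfsg.IsExtraspecial 2 D.Ah.ker := by
  let z0 : D.Ah.ker := ⟨⟨D.z, D.z_mem⟩, mem_ker.2 ⟨1, 0, by rw [xq_zero, mul_one]; rfl⟩⟩
  have hz : ∀ x : D.Ah.ker, ∀ a, x.1.1 = D.zp a → x ∈ Subgroup.zpowers z0 := fun x a h => by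
    rcases F2_cases a with rfl | rfl
    · exact (show x = 1 from Subtype.ext (Subtype.ext h)) ▸ one_mem _
    · exact (show x = z0 from Subtype.ext (Subtype.ext h)) ▸ Subgroup.mem_zpowers _
  have hs : CfsgH2.Sympl 2 z0 ⊤ := by
    refine ⟨Subgroup.mem_center_iff.2 fun g => Subtype.ext (Subtype.ext (D.z_comm g.1.2)),
      fun h => D.z_ne_one (congrArg (fun x : D.Ah.ker => x.1.1) h),
      Subtype.ext (Subtype.ext ((sq _).trans D.z_mul_z)), trivial, fun x _ y _ => ?_,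
      fun x _ => ?_, fun x hx => ?_⟩
    · obtain ⟨a, c, h1⟩ := mem_ker.1 x.2
      obtain ⟨b, d, h2⟩ := mem_ker.1 y.2
      refine hz _ (Bf c d + Bf d c) ?_
      change x.1.1 * y.1.1 * x.1.1⁻¹ * y.1.1⁻¹ = _
      rw [mul_inv_eq_iff_eq_mul, mul_inv_eq_iff_eq_mul, h1, h2, zx_comm, mul_assoc _ (_ * _)]
    · obtain ⟨a, c, h1⟩ := mem_ker.1 x.2
      refine hz _ (a + a + Bf c c) ?_
      change x.1.1 ^ 2 = _
      rw [sq, h1, zx_mul, add_self, xq_zero, mul_one]
    · rcases cent_Q x.1.2 fun c => congrArg (fun x : D.Ah.ker => x.1.1)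
        (hx.2 ⟨⟨D.xq c, D.xq_mem c⟩, mem_ker.2 ⟨0, c, (one_mul _).symm⟩⟩ trivial).symm with h | h
      exacts [hz x 0 h, hz x 1 h]
  refine CfsgH2.isExtraspecial_of_sympl hs fun h => ?_
  have := hs.card_zpowers
  rw [h, Subgroup.card_top, card_ker] at this
  norm_num at this

/-- a normal subgroup of `N` which is not trivial contains `z` -/
theorem z_mem_normal {L : Subgroup D.Γ} (hL : L ≤ D.N) (hn : ∀ g ∈ D.N, ∀ l ∈ L, g * l * g⁻¹ ∈ L)
    (h : L ≠ ⊥) : D.z ∈ L := by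
  obtain ⟨⟨l, hl⟩, h1⟩ := Subgroup.ne_bot_iff_exists_ne_one.1 h
  replace h1 : l ≠ 1 := fun e => h1 (Subtype.ext e)
  by_cases hc : ∀ c, l * D.xq c = D.xq c * l
  · exact (cent_Q (hL hl) hc).resolve_left h1 ▸ hl
  obtain ⟨c, hc⟩ := not_forall.1 hc
  obtain ⟨ε, h2⟩ := Ah_spec ⟨l, hL hl⟩ c
  have h3 : l * D.xq c * l⁻¹ * (D.xq c)⁻¹ ∈ L := by
    simpa [mul_assoc] using L.mul_mem hl (hn _ (D.xq_mem c) _ (L.inv_mem hl))
  have h4 : l * D.xq c * l⁻¹ * (D.xq c)⁻¹ ≠ 1 := fun e => hc (by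
    rwa [mul_inv_eq_one, mul_inv_eq_iff_eq_mul] at e)
  have h5 : (D.xq c)⁻¹ = D.zp (Bf c c) * D.xq c := inv_eq_of_mul_eq_one_left (by
    rw [mul_assoc, xq_mul, add_self, xq_zero, mul_one, ← zp_add, CharTwo.add_self_eq_zero, zp_zero])
  rw [h2, h5, zx_mul] at h3 h4
  generalize ε + Bf c c + _ = a, _ + c = d at h3 h4
  by_cases hd : d = 0
  · rw [hd, xq_zero, mul_one] at h3 h4
    rcases F2_cases a with rfl | rfl
    exacts [absurd rfl h4, h3]
  · obtain ⟨e, he⟩ := not_forall.1 (mt eq_zero_of_Bf hd)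
    have h6 := D.zx_comm 0 a e d
    rw [add_comm, (F2_cases _).resolve_left he, zp_zero, one_mul, ← mul_assoc (D.zp 1),
      ← mul_inv_eq_iff_eq_mul, ← mul_inv_eq_iff_eq_mul] at h6
    exact (show _ = D.z from h6) ▸ L.mul_mem (hn _ (D.xq_mem e) _ h3) (L.inv_mem h3)

theorem ax_inj {p s : D.I} {η θ : F2} (h : D.ax p η = D.ax s θ) : p = s ∧ η = θ := by
  have h1 := congrArg (fun v : D.V => v.2.1 p) h
  simp only [ax, Pi.single_apply, if_true] at h1
  split_ifs at h1 with h2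
  · exact ⟨h2, sg_inj (by linarith)⟩
  · exact absurd h1 (by simp [sg_ne_zero])

theorem ncard_O1 : D.O1.ncard = 2 * Fintype.card D.I := by
  have : D.O1 = Set.range fun e : D.I × F2 => D.ax e.1 e.2 := by
    ext a
    simp [O1, eq_comm]
  rw [this, Set.ncard_range_of_injective fun _ _ h => Prod.ext_iff.2 (ax_inj h)]
  simp [mul_comm]

theorem act_ax (n : D.N) (p : D.I) : ∃ s ε, D.cls s = (D.Ah n).1 *ᵥ D.cls p ∧
    n.1 * D.xq (D.cls p) * n.1⁻¹ = D.zp ε * D.xq (D.cls s) ∧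
    ∀ η, n.1.1 (D.ax p η) = D.ax s (η + ε) := by
  obtain ⟨U, σ, h1, h2⟩ := of_mem_N n.2
  obtain ⟨s, ε, h3, h4⟩ := h1.2.2 p
  exact ⟨s, ε, (Ah_of (conj_xq h1 h2 h3)).symm, conj_xq h1 h2 h3,
    fun η => h2 ▸ actL_ax h1 h3 h4 η⟩

theorem xq_ax (c : Cl) (p : D.I) (η : F2) :
    (D.xq c).1 (D.ax p η) = D.ax p (η + (Bf c (D.cls p) + Bf (D.cls p) c)) := by
  rw [xq_val]
  exact actL_ax (isN_q c) (q_comm _ _) (by simp [PM]) η

/-- the class `Ω` belongs to the standard frame -/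
def Frame2 (D : Dat) (Ω : Cl) : Prop :=
  Ω ≠ 0 ∧ Bf Ω Ω = 0 ∧ (∀ p, D.cls p ≠ Ω) ∧
  (∀ p s, D.cls p + D.cls s = Ω → (∃ i, PM (D.lam p + D.lam s) (ev i 8)) ∧ ∃ i, PM (D.lam p - D.lam s) (ev i 8)) ∧
  ∀ i, ∃ p s, D.cls p + D.cls s = Ω ∧ PM (D.lam p + D.lam s) (ev i 8) ∨ D.cls p + D.cls s = Ω ∧ PM (D.lam p - D.lam s) (ev i 8)

/-- the bound for the image of `N` in the orthogonal group: orbit of `Ω` times its stabiliser -/
theorem card_range_le {Ω : Cl} (hΩ : D.Frame2 Ω) (hM : D.Mo.Finite) :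
    2 * Nat.card D.Ah.range ≤ (8390655 - Fintype.card D.I) * D.Mo.ncard := by
  classical
  have h1 : ∀ r : D.Ah.range, ∃ σ : M24, σᵀ * σ = 1 ∧ ∀ p, ∃ s,
      D.cls s = r • D.cls p ∧ PM (σ *ᵥ D.lam p) (D.lam s) := by
    rintro ⟨_, n, rfl⟩
    obtain ⟨U, σ, h1, h2⟩ := of_mem_N n.2
    refine ⟨σ, h1.2.1, fun p => ?_⟩
    obtain ⟨s, ε, h3, h4⟩ := h1.2.2 p
    exact ⟨s, (Ah_of (conj_xq h1 h2 h3)).symm, h4⟩
  choose σ h1 π h2 h3 using h1
  have ho : Nat.card (MulAction.orbit D.Ah.range Ω) ≤ 8390655 - Fintype.card D.I := by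
    have e : ((Finset.univ.filter fun c : Cl => Bf c c = 0) \
        insert 0 (Finset.univ.image D.cls)).card = 8390655 - Fintype.card D.I := by
      rw [Finset.card_sdiff_of_subset (by
        simp [Finset.insert_subset_iff, Finset.image_subset_iff, Bf_zero_left, D.cls_sing]),
        card_sing, Finset.card_insert_of_notMem (by simp [D.cls_ne]),
        Finset.card_image_of_injective _ D.cls_inj, Finset.card_univ]
      omega
    rw [← e, ← Set.ncard_coe_finset]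
    refine Set.ncard_le_ncard ?_ (Finset.finite_toSet _)
    rintro _ ⟨r, rfl⟩
    simp only [Finset.coe_sdiff, Finset.coe_filter, Finset.mem_univ, true_and, Finset.coe_insert,
      Finset.coe_image, Finset.coe_univ, Set.image_univ, Set.mem_sdiff, Set.mem_ofPred_eq,
      Set.mem_insert_iff, Set.mem_range, not_or, not_exists]
    refine ⟨?_, fun h => hΩ.1 ((smul_eq_zero_iff_eq r).1 h), fun p h => hΩ.2.2.1 (π r⁻¹ p) ?_⟩
    · obtain ⟨_, n, rfl⟩ := r
      exact (Ah_Bf n Ω).trans hΩ.2.1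
    · rw [h2, h, inv_smul_smul]
  have hs : Nat.card (MulAction.stabilizer D.Ah.range Ω × F2) ≤ D.Mo.ncard := by
    have hp : ∀ r (a : F2) p, PM ((sg a • σ r) *ᵥ D.lam p) (D.lam (π r p)) := fun r a p => by
      rw [smul_mulVec]
      exact (PM.smul a _).trans (h3 r p)
    have := hM.to_subtype
    refine Nat.card_le_card_of_injective (β := D.Mo) (fun e => ⟨sg e.2 • σ e.1.1, ?_,
      fun p => ⟨_, hp _ _ p⟩, fun i => ?_⟩) ?_
    · rw [transpose_smul, smul_mul, Matrix.mul_smul, h1, smul_smul, sg_mul_self, one_smul]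
    · obtain ⟨p, s, h⟩ := hΩ.2.2.2.2 i
      obtain ⟨⟨j, h4⟩, k, h5⟩ := hΩ.2.2.2.1 (π e.1.1 p) (π e.1.1 s) (by
        rw [h2, h2, ← smul_add, h.elim And.left And.left]
        exact e.1.2)
      rcases h with ⟨-, h⟩ | ⟨-, h⟩
      · have := (h.mulVec (sg e.2 • σ e.1.1)).symm
        rw [mulVec_add] at this
        exact ((hp e.1.1 e.2 p).add (hp e.1.1 e.2 s)).elim (fun h => ⟨j, (this.trans h).trans h4⟩)
          fun h => ⟨k, (this.trans h).trans h5⟩
      · have := (h.mulVec (sg e.2 • σ e.1.1)).symm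
        rw [mulVec_sub, sub_eq_add_neg] at this
        exact ((hp e.1.1 e.2 p).add (PM.trans (Or.inr rfl) (hp e.1.1 e.2 s))).elim
          (fun h => ⟨j, (this.trans h).trans h4⟩) fun h => ⟨k, (this.trans h).trans h5⟩
    · rintro ⟨r, a⟩ ⟨r', b⟩ e
      replace e : sg a • σ r.1 = sg b • σ r'.1 := congrArg Subtype.val e
      obtain rfl : r = r' := by
        refine Subtype.ext (Subtype.ext (Units.ext (toLin'.injective
          (LinearMap.ext_on_range D.cls_span fun p => ?_))))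
        exact (h2 r.1 p).symm.trans ((congrArg D.cls (D.lam_inj _ _
          ((hp r.1 a p).symm.trans (e ▸ hp r'.1 b p)))).trans (h2 r'.1 p))
      have := congrArg (fun M => (σ r.1)ᵀ * M) e
      simp only [Matrix.mul_smul, h1] at this
      rw [sg_inj (a := a) (b := b) (by simpa using congrFun (congrFun this 0) 0)]
  rw [Nat.card_prod, Nat.card_zmod] at hs
  rw [← Nat.card_congr (MulAction.orbitProdStabilizerEquivGroup D.Ah.range Ω), Nat.card_prod]
  calc _ = _ * (_ * 2) := by ring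
    _ ≤ _ := Nat.mul_le_mul ho hs

end Dat

end

end CfsgMO
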