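/-
Bit-sliced evaluation of structured linear maps (WP E), part 1: semantics, masks, labels.
-/
import Mathlib

set_option autoImplicit false

namespace CfsgMO

/-- all positions are below `NB` -/
def NB : ℕ := 262144

/-- layers; all are symmetric orthogonal involutions when well formed -/
inductive Lay
  | swap (δ m : ℕ)
  | sign (m : ℕ)
  | had (δ ε m : ℕ)

def Lay.sem : Lay → (ℕ → ℚ) → ℕ → ℚ
  | .swap δ m, y, i =>
      if m.testBit i then y (i + δ) else if (m <<< δ).testBit i then y (i - δ) else y i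
  | .sign m, y, i => if m.testBit i then -y i else y i
  | .had δ ε m, y, i =>
      if m.testBit i then (y i + y (i + δ) + y (i + ε) + y (i + δ + ε)) / 2
      else if (m <<< δ).testBit i then
        (y (i - δ) - y i + y (i - δ + ε) - y (i + ε)) / 2
      else if (m <<< ε).testBit i then
        (y (i - ε) + y (i - ε + δ) - y i - y (i + δ)) / 2
      else if (m <<< (δ + ε)).testBit i then
        (y (i - δ - ε) - y (i - ε) - y (i - δ) + y i) / 2
      else y i

/-- the first layer of the list acts first -/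
def sem (P : List Lay) (y : ℕ → ℚ) : ℕ → ℚ := P.foldl (fun y l => l.sem y) y

/-! ### kernel helpers -/

/-- evaluate `x`, then continue -/
def fb {α : Type} (x : ℕ) (k : α) : α := Bool.rec k k (Nat.beq x 0)

@[simp] theorem fb_eq {α : Type} (x : ℕ) (k : α) : fb x k = k := by
  unfold fb; cases Nat.beq x 0 <;> rfl

/-- conjunction -/
def an (a b : Bool) : Bool := Bool.rec false b a

@[simp] theorem an_eq (a b : Bool) : an a b = (a && b) := by cases a <;> rfl

/-- test for zero -/
def iz (x : ℕ) : Bool := Nat.beq x 0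

theorem iz_iff {x : ℕ} : iz x = true ↔ x = 0 := by simp [iz]

theorem iz_bit {x : ℕ} (h : iz x = true) (i : ℕ) : x.testBit i = false := by
  rw [iz_iff.1 h]; simp

/-- bit test -/
def tb (m i : ℕ) : Bool := Nat.beq (Nat.land (Nat.shiftRight m i) 1) 1

theorem tb_land (a b i : ℕ) : (Nat.land a b).testBit i = (a.testBit i && b.testBit i) :=
  Nat.testBit_and a b i
theorem tb_lor (a b i : ℕ) : (Nat.lor a b).testBit i = (a.testBit i || b.testBit i) :=
  Nat.testBit_or a b i
theorem tb_xor (a b i : ℕ) : (Nat.xor a b).testBit i = (a.testBit i ^^ b.testBit i) :=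
  Nat.testBit_xor a b i
theorem tb_shr (a d i : ℕ) : (Nat.shiftRight a d).testBit i = a.testBit (i + d) := by
  rw [Nat.add_comm]; exact Nat.testBit_shiftRight a
theorem tb_shl (a d i : ℕ) : (Nat.shiftLeft a d).testBit i = (a <<< d).testBit i := rfl
theorem tb_shl_add (a d j : ℕ) : (a <<< d).testBit (j + d) = a.testBit j := by
  rw [Nat.testBit_shiftLeft]; simp
theorem tb_shl_iff {a d i : ℕ} : (a <<< d).testBit i = true ↔ ∃ j, a.testBit j = true ∧ i = j + d := by
  rw [Nat.testBit_shiftLeft]
  constructor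
  · intro h
    simp only [Bool.and_eq_true, decide_eq_true_eq] at h
    exact ⟨i - d, h.2, by omega⟩
  · rintro ⟨j, h, rfl⟩; simp [h]
theorem tb_shl_land (a m d i : ℕ) :
    ((Nat.land a m) <<< d).testBit i = (a.testBit (i - d) && (m <<< d).testBit i) := by
  simp only [Nat.testBit_shiftLeft, tb_land]
  cases a.testBit (i - d) <;> simp

@[simp] theorem tb_eq (m i : ℕ) : tb m i = m.testBit i := by
  have : Nat.land (Nat.shiftRight m i) 1 = (m >>> i) % 2 := Nat.and_one_is_mod _
  rw [tb, this, Nat.testBit, Nat.one_and_eq_mod_two]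
  rcases Nat.mod_two_eq_zero_or_one (m >>> i) with h | h <;> rw [h] <;> rfl

/-! ### well formed layers -/

def Lay.wf (l : Lay) : Bool :=
  Lay.casesOn (motive := fun _ => Bool) l
    (fun δ m => (fun s => an (iz (Nat.land m s)) (iz (Nat.shiftRight s 262144))) (Nat.shiftLeft m δ))
    (fun m => iz (Nat.shiftRight m 262144))
    (fun δ ε m => (fun a b c => an (iz (Nat.land m a)) (an (iz (Nat.land m b)) (an (iz (Nat.land m c))
      (an (iz (Nat.land a b)) (iz (Nat.shiftRight c 262144))))))
      (Nat.shiftLeft m δ) (Nat.shiftLeft m ε) (Nat.shiftLeft m (Nat.add δ ε)))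

def Lay.mono (l : Lay) : Bool :=
  Lay.casesOn (motive := fun _ => Bool) l (fun _ _ => true) (fun _ => true) (fun _ _ _ => false)

/-- shifted masks pairwise disjoint and everything below `2 ^ NB` -/
def wf (P : List Lay) : Bool := List.rec true (fun l _ ih => an l.wf ih) P
/-- no `had` layer -/
def mono (P : List Lay) : Bool := List.rec true (fun l _ ih => an l.mono ih) P
/-- number of `had` layers -/
def nhad (P : List Lay) : ℕ := List.rec 0 (fun l _ ih => Bool.rec (Nat.succ ih) ih l.mono) P

theorem wf_cons {l : Lay} {P : List Lay} : wf (l :: P) = true ↔ l.wf = true ∧ wf P = true := by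
  change an l.wf (wf P) = true ↔ _
  simp
theorem mono_cons {l : Lay} {P : List Lay} :
    mono (l :: P) = true ↔ l.mono = true ∧ mono P = true := by
  change an l.mono (mono P) = true ↔ _
  simp
theorem wf_iff {P : List Lay} : wf P = true ↔ ∀ l ∈ P, l.wf = true := by
  induction P with
  | nil => simp [wf]
  | cons l P ih => rw [wf_cons, ih]; simp
theorem mono_iff {P : List Lay} : mono P = true ↔ ∀ l ∈ P, l.mono = true := by
  induction P with
  | nil => simp [mono]
  | cons l P ih => rw [mono_cons, ih]; simp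

theorem lt_NB_of {s : ℕ} (h : iz (Nat.shiftRight s 262144) = true) {i : ℕ}
    (hi : s.testBit i = true) : i < NB := by
  by_contra hn
  have := iz_bit h (i - 262144)
  have hn' : 262144 ≤ i := not_lt.1 hn
  rw [tb_shr, Nat.sub_add_cancel hn', hi] at this
  exact absurd this (by simp)

theorem dis_of {a b : ℕ} (h : iz (Nat.land a b) = true) {i : ℕ} (hi : a.testBit i = true) :
    b.testBit i = false := by
  have := iz_bit h i
  rwa [tb_land, hi, Bool.true_and] at this

theorem dis_of' {a b : ℕ} (h : iz (Nat.land a b) = true) {i : ℕ} (hi : b.testBit i = true) :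
    a.testBit i = false := by
  have := iz_bit h i
  rwa [tb_land, hi, Bool.and_true] at this

structure WFs (δ m : ℕ) : Prop where
  d : ∀ j, m.testBit j = true → m.testBit (j + δ) = false
  lt : ∀ j, m.testBit j = true → j + δ < NB

structure WFh (δ ε m : ℕ) : Prop where
  d1 : ∀ j, m.testBit j = true → m.testBit (j + δ) = false
  d2 : ∀ j, m.testBit j = true → m.testBit (j + ε) = false
  d3 : ∀ j, m.testBit j = true → m.testBit (j + δ + ε) = false
  d12 : ∀ j, m.testBit j = true → (m <<< δ).testBit (j + ε) = false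
  lt : ∀ j, m.testBit j = true → j + δ + ε < NB

theorem wfs_of {δ m : ℕ} (h : (Lay.swap δ m).wf = true) : WFs δ m := by
  change an (iz (Nat.land m (m <<< δ))) (iz (Nat.shiftRight (m <<< δ) 262144)) = true at h
  rw [an_eq, Bool.and_eq_true] at h
  exact ⟨fun j hj => dis_of' h.1 (by rwa [tb_shl_add]), fun j hj => lt_NB_of h.2 (by rwa [tb_shl_add])⟩

theorem wfg_of {m : ℕ} (h : (Lay.sign m).wf = true) {j : ℕ} (hj : m.testBit j = true) : j < NB :=
  lt_NB_of h hj

theorem wfh_of {δ ε m : ℕ} (h : (Lay.had δ ε m).wf = true) : WFh δ ε m := by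
  change an (iz (Nat.land m (m <<< δ))) (an (iz (Nat.land m (m <<< ε))) (an (iz (Nat.land m (m <<< (δ + ε))))
      (an (iz (Nat.land (m <<< δ) (m <<< ε))) (iz (Nat.shiftRight (m <<< (δ + ε)) 262144))))) = true at h
  simp only [an_eq, Bool.and_eq_true] at h
  obtain ⟨h1, h2, h3, h4, h5⟩ := h
  refine ⟨fun j hj => dis_of' h1 (by rwa [tb_shl_add]), fun j hj => dis_of' h2 (by rwa [tb_shl_add]),
    fun j hj => dis_of' h3 (by rwa [add_assoc, tb_shl_add]),
    fun j hj => dis_of' h4 (by rwa [tb_shl_add]),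
    fun j hj => lt_NB_of h5 (by rwa [add_assoc, tb_shl_add])⟩

theorem swap_cases (δ m i : ℕ) : m.testBit i = true ∨ (∃ j, m.testBit j = true ∧ i = j + δ) ∨
    (m.testBit i = false ∧ (m <<< δ).testBit i = false) := by
  rw [← tb_shl_iff]
  cases m.testBit i <;> cases (m <<< δ).testBit i <;> simp

theorem had_cases (δ ε m i : ℕ) : m.testBit i = true ∨ (∃ j, m.testBit j = true ∧ i = j + δ) ∨
    (∃ j, m.testBit j = true ∧ i = j + ε) ∨ (∃ j, m.testBit j = true ∧ i = j + δ + ε) ∨
    (m.testBit i = false ∧ (m <<< δ).testBit i = false ∧ (m <<< ε).testBit i = false ∧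
      (m <<< (δ + ε)).testBit i = false) := by
  simp only [add_assoc]
  rw [← tb_shl_iff, ← tb_shl_iff, ← tb_shl_iff]
  cases m.testBit i <;> cases (m <<< δ).testBit i <;> cases (m <<< ε).testBit i <;>
    cases (m <<< (δ + ε)).testBit i <;> simp

namespace WFs

variable {δ m : ℕ} (h : WFs δ m)
include h

theorem b0 {j : ℕ} (hj : m.testBit j = true) : (m <<< δ).testBit j = false := by
  by_contra hn
  obtain ⟨k, hk, rfl⟩ := tb_shl_iff.1 (Bool.of_not_eq_false hn)
  rw [h.d k hk] at hj; exact absurd hj (by simp)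

end WFs

namespace WFh

variable {δ ε m : ℕ} (h : WFh δ ε m)
include h

/-- the four masks at `j` -/
theorem at0 {j : ℕ} (hj : m.testBit j = true) : (m <<< δ).testBit j = false ∧
    (m <<< ε).testBit j = false ∧ (m <<< (δ + ε)).testBit j = false := by
  refine ⟨?_, ?_, ?_⟩ <;> by_contra hn <;>
    obtain ⟨k, hk, rfl⟩ := tb_shl_iff.1 (Bool.of_not_eq_false hn)
  · rw [h.d1 k hk] at hj; exact absurd hj (by simp)
  · rw [h.d2 k hk] at hj; exact absurd hj (by simp)
  · rw [← add_assoc, h.d3 k hk] at hj; exact absurd hj (by simp)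

theorem at1 {j : ℕ} (hj : m.testBit j = true) : m.testBit (j + δ) = false ∧
    (m <<< δ).testBit (j + δ) = true ∧
    (m <<< ε).testBit (j + δ) = false ∧ (m <<< (δ + ε)).testBit (j + δ) = false := by
  refine ⟨h.d1 j hj, by rwa [tb_shl_add], ?_, ?_⟩ <;> by_contra hn <;>
    obtain ⟨k, hk, e⟩ := tb_shl_iff.1 (Bool.of_not_eq_false hn)
  · have := h.d12 k hk
    rw [← e, tb_shl_add, hj] at this; exact absurd this (by simp)
  · have := h.d2 k hk
    rw [show k + ε = j by omega, hj] at this; exact absurd this (by simp)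

theorem at2 {j : ℕ} (hj : m.testBit j = true) : m.testBit (j + ε) = false ∧
    (m <<< δ).testBit (j + ε) = false ∧
    (m <<< ε).testBit (j + ε) = true ∧ (m <<< (δ + ε)).testBit (j + ε) = false := by
  refine ⟨h.d2 j hj, h.d12 j hj, by rwa [tb_shl_add], ?_⟩
  by_contra hn
  obtain ⟨k, hk, e⟩ := tb_shl_iff.1 (Bool.of_not_eq_false hn)
  have := h.d1 k hk
  rw [show k + δ = j by omega, hj] at this; exact absurd this (by simp)

theorem at3 {j : ℕ} (hj : m.testBit j = true) : m.testBit (j + δ + ε) = false ∧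
    (m <<< δ).testBit (j + δ + ε) = false ∧
    (m <<< ε).testBit (j + δ + ε) = false ∧ (m <<< (δ + ε)).testBit (j + δ + ε) = true := by
  refine ⟨h.d3 j hj, ?_, ?_, by rwa [add_assoc, tb_shl_add]⟩
  · rw [show j + δ + ε = j + ε + δ by omega, tb_shl_add]; exact h.d2 j hj
  · rw [tb_shl_add]; exact h.d1 j hj

theorem s0 {j : ℕ} (hj : m.testBit j = true) (y : ℕ → ℚ) : (Lay.had δ ε m).sem y j =
    (y j + y (j + δ) + y (j + ε) + y (j + δ + ε)) / 2 := by
  simp [Lay.sem, hj]

theorem s1 {j : ℕ} (hj : m.testBit j = true) (y : ℕ → ℚ) : (Lay.had δ ε m).sem y (j + δ) =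
    (y j - y (j + δ) + y (j + ε) - y (j + δ + ε)) / 2 := by
  obtain ⟨a, b, -, -⟩ := h.at1 hj
  simp only [Lay.sem, a, b, Nat.add_sub_cancel]; simp

theorem s2 {j : ℕ} (hj : m.testBit j = true) (y : ℕ → ℚ) : (Lay.had δ ε m).sem y (j + ε) =
    (y j + y (j + δ) - y (j + ε) - y (j + δ + ε)) / 2 := by
  obtain ⟨a, b, c, -⟩ := h.at2 hj
  simp only [Lay.sem, a, b, c, Nat.add_sub_cancel, show j + ε + δ = j + δ + ε by omega]; simp

theorem s3 {j : ℕ} (hj : m.testBit j = true) (y : ℕ → ℚ) : (Lay.had δ ε m).sem y (j + δ + ε) =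
    (y j - y (j + δ) - y (j + ε) + y (j + δ + ε)) / 2 := by
  obtain ⟨a, b, c, d⟩ := h.at3 hj
  simp only [Lay.sem, a, b, c, d, Nat.add_sub_cancel, show j + δ + ε - δ = j + ε by omega]; simp

end WFh

theorem had_s4 {δ ε m i : ℕ} (h : m.testBit i = false ∧ (m <<< δ).testBit i = false ∧
    (m <<< ε).testBit i = false ∧ (m <<< (δ + ε)).testBit i = false) (y : ℕ → ℚ) :
    (Lay.had δ ε m).sem y i = y i := by
  obtain ⟨a, b, c, d⟩ := h
  simp only [Lay.sem, a, b, c, d]; simp

/-- source position of a layer -/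
def Lay.pm (l : Lay) (i : ℕ) : ℕ :=
  Lay.casesOn (motive := fun _ => ℕ) l
    (fun δ m => Bool.rec (Bool.rec i (Bool.rec i (Nat.sub i δ) (tb m (Nat.sub i δ))) (Nat.ble δ i))
      (Nat.add i δ) (tb m i))
    (fun _ => i) (fun _ _ _ => i)

theorem pm_swap (δ m i : ℕ) : (Lay.swap δ m).pm i =
    if m.testBit i then i + δ else if (m <<< δ).testBit i then i - δ else i := by
  change (Bool.rec (Bool.rec i (Bool.rec i (i - δ) (tb m (i - δ)) : ℕ) (Nat.ble δ i) : ℕ) (i + δ)
    (tb m i) : ℕ) = _
  rw [tb_eq, tb_eq, Nat.testBit_shiftLeft]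
  have : Nat.ble δ i = decide (i ≥ δ) := by
    by_cases h : δ ≤ i
    · simp [h, Nat.ble_eq]
    · have : ¬ Nat.ble δ i = true := by rwa [Nat.ble_eq]
      simp [h, this]
  rw [this]
  cases m.testBit i <;> cases decide (i ≥ δ) <;> cases m.testBit (i - δ) <;> rfl

theorem sem_swap (δ m : ℕ) (y : ℕ → ℚ) (i : ℕ) : (Lay.swap δ m).sem y i = y ((Lay.swap δ m).pm i) := by
  rw [pm_swap, Lay.sem]; split_ifs <;> rfl

theorem WFs.pm_pm {δ m : ℕ} (h : WFs δ m) (i : ℕ) :
    (Lay.swap δ m).pm ((Lay.swap δ m).pm i) = i := by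
  rcases swap_cases δ m i with hi | ⟨j, hj, rfl⟩ | ⟨a, b⟩
  · simp [pm_swap, hi, h.d i hi, tb_shl_add]
  · simp [pm_swap, hj, h.d j hj, tb_shl_add]
  · simp only [pm_swap, a, b]; simp [a, b]

theorem Lay.pm_pm {l : Lay} (h : l.wf = true) (i : ℕ) : l.pm (l.pm i) = i := by
  cases l with
  | swap δ m => exact (wfs_of h).pm_pm i
  | sign m => rfl
  | had δ ε m => rfl

theorem Lay.sem_sem {l : Lay} (h : l.wf = true) (y : ℕ → ℚ) : l.sem (l.sem y) = y := by
  funext i
  cases l with
  | swap δ m => rw [sem_swap, sem_swap, (wfs_of h).pm_pm]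
  | sign m => simp only [Lay.sem]; split_ifs <;> simp
  | had δ ε m =>
    have w := wfh_of h
    rcases had_cases δ ε m i with hi | ⟨j, hj, rfl⟩ | ⟨j, hj, rfl⟩ | ⟨j, hj, rfl⟩ | hi
    · rw [w.s0 hi, w.s0 hi, w.s1 hi, w.s2 hi, w.s3 hi]; ring
    · rw [w.s1 hj, w.s0 hj, w.s1 hj, w.s2 hj, w.s3 hj]; ring
    · rw [w.s2 hj, w.s0 hj, w.s1 hj, w.s2 hj, w.s3 hj]; ring
    · rw [w.s3 hj, w.s0 hj, w.s1 hj, w.s2 hj, w.s3 hj]; ring
    · rw [had_s4 hi, had_s4 hi]

theorem Lay.sem_out {l : Lay} (h : l.wf = true) (y : ℕ → ℚ) {i : ℕ} (hi : NB ≤ i) :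
    l.sem y i = y i := by
  cases l with
  | swap δ m =>
    have w := wfs_of h
    rcases swap_cases δ m i with hj | ⟨j, hj, rfl⟩ | ⟨a, b⟩
    · have := w.lt i hj; omega
    · have := w.lt j hj; omega
    · simp only [Lay.sem, a, b]; simp
  | sign m =>
    have : m.testBit i = false := by
      by_contra hn
      have := wfg_of h (Bool.of_not_eq_false hn); omega
    simp [Lay.sem, this]
  | had δ ε m =>
    have w := wfh_of h
    rcases had_cases δ ε m i with hj | ⟨j, hj, rfl⟩ | ⟨j, hj, rfl⟩ | ⟨j, hj, rfl⟩ | hj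
    · have := w.lt i hj; omega
    · have := w.lt j hj; omega
    · have := w.lt j hj; omega
    · have := w.lt j hj; omega
    · exact had_s4 hj y

theorem sem_nil (y : ℕ → ℚ) : sem [] y = y := rfl
theorem sem_cons (l : Lay) (P : List Lay) (y : ℕ → ℚ) : sem (l :: P) y = sem P (l.sem y) := rfl

theorem sem_append (P Q : List Lay) (y : ℕ → ℚ) : sem (P ++ Q) y = sem Q (sem P y) :=
  List.foldl_append
theorem wf_append {P Q : List Lay} (hP : wf P = true) (hQ : wf Q = true) : wf (P ++ Q) = true := by
  rw [wf_iff] at *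
  intro l hl
  exact (List.mem_append.1 hl).elim (hP l) (hQ l)
theorem wf_reverse {P : List Lay} (hP : wf P = true) : wf P.reverse = true := by
  rw [wf_iff] at *
  exact fun l hl => hP l (List.mem_reverse.1 hl)
theorem mono_append {P Q : List Lay} (hP : mono P = true) (hQ : mono Q = true) :
    mono (P ++ Q) = true := by
  rw [mono_iff] at *
  intro l hl
  exact (List.mem_append.1 hl).elim (hP l) (hQ l)
theorem mono_reverse {P : List Lay} (hP : mono P = true) : mono P.reverse = true := by
  rw [mono_iff] at *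
  exact fun l hl => hP l (List.mem_reverse.1 hl)

theorem Lay.sem_add (l : Lay) (y y' : ℕ → ℚ) : l.sem (y + y') = l.sem y + l.sem y' := by
  funext i
  cases l <;> simp only [Lay.sem, Pi.add_apply] <;> split_ifs <;> ring
theorem Lay.sem_smul (l : Lay) (c : ℚ) (y : ℕ → ℚ) : l.sem (c • y) = c • l.sem y := by
  funext i
  cases l <;> simp only [Lay.sem, Pi.smul_apply, smul_eq_mul] <;> split_ifs <;> ring

theorem sem_add (P : List Lay) (y y' : ℕ → ℚ) : sem P (y + y') = sem P y + sem P y' := by
  induction P generalizing y y' with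
  | nil => rfl
  | cons l P ih => rw [sem_cons, sem_cons, sem_cons, Lay.sem_add, ih]
theorem sem_smul (P : List Lay) (c : ℚ) (y : ℕ → ℚ) : sem P (c • y) = c • sem P y := by
  induction P generalizing y with
  | nil => rfl
  | cons l P ih => rw [sem_cons, sem_cons, Lay.sem_smul, ih]
theorem sem_reverse {P : List Lay} (h : wf P = true) (y : ℕ → ℚ) : sem P.reverse (sem P y) = y := by
  induction P generalizing y with
  | nil => rfl
  | cons l P ih =>
    rw [wf_cons] at h
    rw [List.reverse_cons, sem_append, sem_cons l P, ih h.2, sem_cons, sem_nil, Lay.sem_sem h.1]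
theorem sem_out {P : List Lay} (h : wf P = true) (y : ℕ → ℚ) {i : ℕ} (hi : NB ≤ i) :
    sem P y i = y i := by
  induction P generalizing y with
  | nil => rfl
  | cons l P ih =>
    rw [wf_cons] at h
    rw [sem_cons, ih h.2, Lay.sem_out h.1 y hi]

theorem sum_shlE {m d : ℕ} (h : ∀ j, m.testBit j = true → j + d < NB) (F : ℕ → ℚ) :
    ∑ i ∈ Finset.range NB, (if (m <<< d).testBit i then F i else 0) =
      ∑ j ∈ Finset.range NB, if m.testBit j then F (j + d) else 0 := by
  rw [← Finset.sum_filter, ← Finset.sum_filter]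
  symm
  refine Finset.sum_bij (fun j _ => j + d) (fun j hj => ?_) (fun a _ b _ e => by omega)
    (fun i hi => ?_) (fun _ _ => rfl)
  · rw [Finset.mem_filter] at hj ⊢
    exact ⟨Finset.mem_range.2 (h j hj.2), by rw [tb_shl_add]; exact hj.2⟩
  · rw [Finset.mem_filter] at hi
    obtain ⟨j, hj, rfl⟩ := tb_shl_iff.1 hi.2
    have := h j hj
    exact ⟨j, Finset.mem_filter.2 ⟨Finset.mem_range.2 (by omega), hj⟩, rfl⟩

theorem Lay.sem_orth {l : Lay} (h : l.wf = true) (y y2 : ℕ → ℚ) :
    ∑ k ∈ Finset.range NB, l.sem y k * l.sem y2 k = ∑ k ∈ Finset.range NB, y k * y2 k := by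
  rw [← sub_eq_zero, ← Finset.sum_sub_distrib]
  set F : ℕ → ℚ := fun k => l.sem y k * l.sem y2 k - y k * y2 k with hF
  change ∑ k ∈ Finset.range NB, F k = 0
  cases l with
  | swap δ m =>
    have w := wfs_of h
    have e : ∀ i, F i = (if m.testBit i then F i else 0) + if (m <<< δ).testBit i then F i else 0 := by
      intro i
      rcases swap_cases δ m i with hj | ⟨j, hj, rfl⟩ | ⟨a, b⟩
      · simp only [hj, w.b0 hj]; simp
      · simp only [w.d j hj, tb_shl_add, hj]; simp
      · simp only [hF, Lay.sem, a, b]; simp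
    rw [Finset.sum_congr rfl fun i _ => e i, Finset.sum_add_distrib, sum_shlE w.lt,
      ← Finset.sum_add_distrib]
    refine Finset.sum_eq_zero fun j _ => ?_
    split_ifs with hj
    · simp only [hF, Lay.sem, hj, w.d j hj, tb_shl_add, Nat.add_sub_cancel]; simp
    · simp
  | sign m =>
    refine Finset.sum_eq_zero fun j _ => ?_
    simp only [hF, Lay.sem]; split_ifs <;> simp
  | had δ ε m =>
    have w := wfh_of h
    have e : ∀ i, F i = (if m.testBit i then F i else 0) + (if (m <<< δ).testBit i then F i else 0) +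
        (if (m <<< ε).testBit i then F i else 0) + if (m <<< (δ + ε)).testBit i then F i else 0 := by
      intro i
      rcases had_cases δ ε m i with hj | ⟨j, hj, rfl⟩ | ⟨j, hj, rfl⟩ | ⟨j, hj, rfl⟩ | hj
      · obtain ⟨a, b, c⟩ := w.at0 hj
        simp only [hj, a, b, c]; simp
      · obtain ⟨a, b, c, d⟩ := w.at1 hj
        simp only [a, b, c, d]; simp
      · obtain ⟨a, b, c, d⟩ := w.at2 hj
        simp only [a, b, c, d]; simp
      · obtain ⟨a, b, c, d⟩ := w.at3 hj
        simp only [a, b, c, d]; simp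
      · simp only [hF, had_s4 hj]; simp
    rw [Finset.sum_congr rfl fun i _ => e i, Finset.sum_add_distrib, Finset.sum_add_distrib,
      Finset.sum_add_distrib, sum_shlE fun j hj => by have := w.lt j hj; omega,
      sum_shlE fun j hj => by have := w.lt j hj; omega,
      sum_shlE fun j hj => by have := w.lt j hj; omega,
      ← Finset.sum_add_distrib, ← Finset.sum_add_distrib, ← Finset.sum_add_distrib]
    refine Finset.sum_eq_zero fun j _ => ?_
    split_ifs with hj
    · simp only [hF, ← add_assoc, w.s0 hj, w.s1 hj, w.s2 hj, w.s3 hj]; ring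
    · simp

theorem sem_orth {P : List Lay} (h : wf P = true) (y y2 : ℕ → ℚ) :
    ∑ k ∈ Finset.range NB, sem P y k * sem P y2 k = ∑ k ∈ Finset.range NB, y k * y2 k := by
  induction P generalizing y y2 with
  | nil => rfl
  | cons l P ih =>
    rw [wf_cons] at h
    rw [sem_cons, sem_cons, ih h.2, Lay.sem_orth h.1]

/-! ### monomial programs -/

/-- exchange of the bits of `x` at `j` and `j + δ` for `j` in `m` -/
def swp (δ m x : ℕ) : ℕ :=
  (fun t => Nat.xor (Nat.xor x t) (Nat.shiftLeft t δ)) (Nat.land (Nat.xor (Nat.shiftRight x δ) x) m)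

theorem WFs.swp_bit {δ m : ℕ} (h : WFs δ m) (x i : ℕ) :
    (swp δ m x).testBit i = x.testBit ((Lay.swap δ m).pm i) := by
  simp only [swp, tb_xor, tb_shl, tb_shl_land, tb_land, tb_shr, pm_swap]
  rcases swap_cases δ m i with hi | ⟨j, hj, rfl⟩ | ⟨a, b⟩
  · simp only [hi, h.b0 hi, if_true]
    cases x.testBit i <;> cases x.testBit (i + δ) <;> simp
  · simp only [h.d j hj, tb_shl_add, hj, Nat.add_sub_cancel, if_true, Bool.false_eq_true, if_false]
    cases x.testBit j <;> cases x.testBit (j + δ) <;> simp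
  · simp only [a, b]; simp

/-- move a mask through a layer -/
def Lay.mv (l : Lay) (x : ℕ) : ℕ :=
  Lay.casesOn (motive := fun _ => ℕ) l (fun δ m => swp δ m x) (fun _ => x) (fun _ _ _ => x)

/-- move a sign mask through a layer -/
def Lay.smv (l : Lay) (x : ℕ) : ℕ :=
  Lay.casesOn (motive := fun _ => ℕ) l (fun δ m => swp δ m x) (fun m => Nat.xor x m) (fun _ _ _ => x)

theorem Lay.mv_bit {l : Lay} (h : l.wf = true) (x i : ℕ) :
    (l.mv x).testBit i = x.testBit (l.pm i) := by
  cases l with
  | swap δ m => exact (wfs_of h).swp_bit x i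
  | sign m => rfl
  | had δ ε m => rfl

/-- iterate a mask operation through a program -/
def itr (f : Lay → ℕ → ℕ) (P : List Lay) : ℕ → ℕ :=
  List.rec (motive := fun _ => ℕ → ℕ) (fun m => m)
    (fun l _ ih m => (fun y => fb y (ih y)) (f l m)) P

theorem itr_cons (f : Lay → ℕ → ℕ) (l : Lay) (P : List Lay) (m : ℕ) :
    itr f (l :: P) m = itr f P (f l m) := fb_eq _ _

/-- source position -/
def pm (P : List Lay) (i : ℕ) : ℕ := List.rec i (fun l _ ih => (fun y => fb y (l.pm y)) ih) P
/-- move a mask -/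
def prun (P : List Lay) (m : ℕ) : ℕ := itr Lay.mv P m
/-- the sign mask of the output -/
def srun (P : List Lay) : ℕ := itr Lay.smv P 0

theorem pm_cons (l : Lay) (P : List Lay) (i : ℕ) : pm (l :: P) i = l.pm (pm P i) := fb_eq _ _

set_option linter.unusedVariables false in
theorem testBit_prun {P : List Lay} (h : wf P = true) (hm : mono P = true) (m i : ℕ) :
    (prun P m).testBit i = m.testBit (pm P i) := by
  clear hm
  induction P generalizing m with
  | nil => rfl
  | cons l P ih =>
    rw [wf_cons] at h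
    rw [prun, itr_cons, pm_cons, ← Lay.mv_bit h.1]
    exact ih h.2 _

/-- change signs under a mask -/
def sgm (s : ℕ) (y : ℕ → ℚ) : ℕ → ℚ := fun i => if s.testBit i then -y i else y i

theorem Lay.sem_sgm {l : Lay} (h : l.wf = true) (hm : l.mono = true) (s : ℕ) (y : ℕ → ℚ) :
    l.sem (sgm s y) = sgm (l.smv s) (fun i => y (l.pm i)) := by
  funext i
  cases l with
  | swap δ m =>
    rw [sem_swap]
    simp only [sgm]
    rw [show (Lay.swap δ m).smv s = swp δ m s from rfl, (wfs_of h).swp_bit]
  | sign m =>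
    simp only [sgm, Lay.sem]
    rw [show (Lay.sign m).smv s = Nat.xor s m from rfl, tb_xor, show (Lay.sign m).pm i = i from rfl]
    cases s.testBit i <;> cases m.testBit i <;> simp
  | had δ ε m => exact absurd hm (by simp [Lay.mono])

theorem sem_sgm {P : List Lay} (h : wf P = true) (hm : mono P = true) (s : ℕ) (y : ℕ → ℚ) :
    sem P (sgm s y) = sgm (itr Lay.smv P s) (fun i => y (pm P i)) := by
  induction P generalizing s y with
  | nil => rfl
  | cons l P ih =>
    rw [wf_cons] at h
    rw [mono_cons] at hm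
    rw [sem_cons, Lay.sem_sgm h.1 hm.1, ih h.2 hm.2, itr_cons]
    simp only [pm_cons]

theorem sem_mono {P : List Lay} (h : wf P = true) (hm : mono P = true) (y : ℕ → ℚ) (i : ℕ) :
    sem P y i = if (srun P).testBit i then -y (pm P i) else y (pm P i) := by
  have := congrFun (sem_sgm h hm 0 y) i
  rwa [show sgm 0 y = y from funext fun i => by simp [sgm]] at this

set_option linter.unusedVariables false in
theorem pm_bij {P : List Lay} (h : wf P = true) (hm : mono P = true) :
    Function.Bijective (pm P) := by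
  clear hm
  induction P with
  | nil => exact Function.bijective_id
  | cons l P ih =>
    rw [wf_cons] at h
    have : pm (l :: P) = l.pm ∘ pm P := funext (pm_cons l P)
    rw [this]
    exact (Function.Involutive.bijective (Lay.pm_pm h.1)).comp (ih h.2)

/-- support propagation through a layer -/
def Lay.sup (l : Lay) (x : ℕ) : ℕ :=
  Lay.casesOn (motive := fun _ => ℕ) l (fun δ m => swp δ m x) (fun _ => x)
    (fun δ ε m => (fun a => Nat.lor (Nat.lor (Nat.lor x a) (Nat.shiftLeft a δ))
        (Nat.lor (Nat.shiftLeft a ε) (Nat.shiftLeft a (Nat.add δ ε))))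
      (Nat.land (Nat.lor (Nat.lor x (Nat.shiftRight x δ))
        (Nat.lor (Nat.shiftRight x ε) (Nat.shiftRight x (Nat.add δ ε)))) m))

theorem Lay.sup_sound {l : Lay} (h : l.wf = true) {x : ℕ} {y : ℕ → ℚ}
    (hy : ∀ i, x.testBit i = false → y i = 0) (i : ℕ) (hi : (l.sup x).testBit i = false) :
    l.sem y i = 0 := by
  cases l with
  | swap δ m =>
    rw [sem_swap]
    exact hy _ (by rw [← (wfs_of h).swp_bit]; exact hi)
  | sign m =>
    have := hy i hi
    simp [Lay.sem, this]
  | had δ ε m =>
    have w := wfh_of h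
    set a := Nat.land (Nat.lor (Nat.lor x (Nat.shiftRight x δ))
        (Nat.lor (Nat.shiftRight x ε) (Nat.shiftRight x (δ + ε)))) m with ha
    change (Nat.lor (Nat.lor (Nat.lor x a) (a <<< δ)) (Nat.lor (a <<< ε) (a <<< (δ + ε)))).testBit i
      = false at hi
    simp only [tb_lor, Bool.or_eq_false_iff] at hi
    obtain ⟨⟨⟨h0, h1⟩, h2⟩, h3, h4⟩ := hi
    have key : ∀ j, m.testBit j = true → a.testBit j = false →
        y j = 0 ∧ y (j + δ) = 0 ∧ y (j + ε) = 0 ∧ y (j + δ + ε) = 0 := by
      intro j hj haj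
      simp only [ha, tb_land, tb_lor, tb_shr, hj, Bool.and_true, Bool.or_eq_false_iff] at haj
      exact ⟨hy _ haj.1.1, hy _ haj.1.2, hy _ haj.2.1, hy _ (by rw [add_assoc]; exact haj.2.2)⟩
    rcases had_cases δ ε m i with hj | ⟨j, hj, rfl⟩ | ⟨j, hj, rfl⟩ | ⟨j, hj, rfl⟩ | hj
    · obtain ⟨a, b, c, d⟩ := key i hj h1
      rw [w.s0 hj, a, b, c, d]; simp
    · obtain ⟨a, b, c, d⟩ := key j hj (by rwa [tb_shl_add] at h2)
      rw [w.s1 hj, a, b, c, d]; simp
    · obtain ⟨a, b, c, d⟩ := key j hj (by rwa [tb_shl_add] at h3)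
      rw [w.s2 hj, a, b, c, d]; simp
    · obtain ⟨a, b, c, d⟩ := key j hj (by rwa [add_assoc, tb_shl_add] at h4)
      rw [w.s3 hj, a, b, c, d]; simp
    · rw [had_s4 hj, hy i h0]

/-- support propagation for arbitrary programs -/
def supp (P : List Lay) (m : ℕ) : ℕ := itr Lay.sup P m

theorem supp_sound {P : List Lay} (h : wf P = true) {m : ℕ} {y : ℕ → ℚ}
    (hy : ∀ i, m.testBit i = false → y i = 0) (i : ℕ) (hi : (supp P m).testBit i = false) :
    sem P y i = 0 := by
  induction P generalizing m y with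
  | nil => exact hy i hi
  | cons l P ih =>
    rw [wf_cons] at h
    rw [supp, itr_cons] at hi
    exact ih h.2 (Lay.sup_sound h.1 hy) hi

/-! ### labels -/

/-- the label stored at position `i` in the planes `L`, lowest bit first -/
def lab : List ℕ → ℕ → ℕ
  | [], _ => 0
  | p :: r, i => (if p.testBit i then 1 else 0) + 2 * lab r i

theorem testBit_lab (L : List ℕ) (i k : ℕ) : (lab L i).testBit k = (L.getD k 0).testBit i := by
  induction L generalizing k with
  | nil => simp [lab]
  | cons p r ih =>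
    cases k with
    | zero =>
      rw [lab, Nat.testBit_zero, List.getD_cons_zero]
      cases p.testBit i <;> simp
    | succ k =>
      rw [lab, Nat.testBit_succ, List.getD_cons_succ, ← ih]
      congr 1
      cases p.testBit i <;> simp <;> omega

/-- parity -/
def od (l : ℕ) : Bool := Nat.beq (Nat.land l 1) 1

theorem od_eq (l : ℕ) : od l = decide (l % 2 = 1) := by
  have : Nat.land l 1 = l % 2 := Nat.and_one_is_mod _
  rw [od, this]
  rcases Nat.mod_two_eq_zero_or_one l with h | h <;> rw [h] <;> rfl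

theorem shr_one (l : ℕ) : Nat.shiftRight l 1 = l / 2 := Nat.shiftRight_one l

/-- positions of `M` with label `l` -/
def look (L : List ℕ) (M l : ℕ) : ℕ :=
  List.rec (motive := fun _ => ℕ → ℕ → ℕ) (fun M _ => M)
    (fun p _ ih M l => (fun y l' => fb y (fb l' (ih y l')))
      ((fun a => Bool.rec (Nat.xor M a) a (od l)) (Nat.land M p)) (Nat.shiftRight l 1)) L M l

theorem look_cons (p : ℕ) (L : List ℕ) (M l : ℕ) : look (p :: L) M l =
    look L (Bool.rec (Nat.xor M (Nat.land M p)) (Nat.land M p) (od l)) (Nat.shiftRight l 1) :=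
  (fb_eq _ _).trans (fb_eq _ _)

theorem testBit_look (L : List ℕ) (M : ℕ) {l : ℕ} (hl : l < 2 ^ L.length) (i : ℕ) :
    (look L M l).testBit i = true ↔ M.testBit i = true ∧ lab L i = l := by
  induction L generalizing M l with
  | nil =>
    have : l = 0 := by simpa using hl
    simp [look, lab, this]
  | cons p L ih =>
    rw [List.length_cons, pow_succ] at hl
    rw [look_cons, shr_one, ih _ (by omega), od_eq, lab]
    rcases Nat.mod_two_eq_zero_or_one l with h | h
    · simp only [h, zero_ne_one, decide_false, tb_xor, tb_land]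
      cases M.testBit i <;> cases p.testBit i <;> simp <;> omega
    · simp only [h, decide_true, tb_land]
      cases M.testBit i <;> cases p.testBit i <;> simp <;> omega

/-- `xor` of the planes selected by the bits of `r`, with an accumulator -/
def xselA (L : List ℕ) (r a : ℕ) : ℕ :=
  List.rec (motive := fun _ => ℕ → ℕ → ℕ) (fun _ a => a)
    (fun p _ ih r a => (fun y r' => fb y (fb r' (ih r' y)))
      (Bool.rec a (Nat.xor a p) (od r)) (Nat.shiftRight r 1)) L r a

theorem xselA_cons (p : ℕ) (L : List ℕ) (r a : ℕ) : xselA (p :: L) r a =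
    xselA L (Nat.shiftRight r 1) (Bool.rec a (Nat.xor a p) (od r)) :=
  (fb_eq _ _).trans (fb_eq _ _)

/-- `xor` of the planes selected by the bits of `r` -/
def xsel (L : List ℕ) (r : ℕ) : ℕ := xselA L r 0

theorem testBit_xselA (L : List ℕ) (r a i : ℕ) :
    (if (xselA L r a).testBit i then (1 : ZMod 2) else 0) = (if a.testBit i then 1 else 0) +
      ∑ k : Fin L.length, (if r.testBit k then (1 : ZMod 2) else 0) *
        (if (L.get k).testBit i then 1 else 0) := by
  induction L generalizing r a with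
  | nil => simp only [List.length_nil, Finset.univ_eq_empty, Finset.sum_empty, add_zero]; rfl
  | cons p L ih =>
    rw [xselA_cons, ih, shr_one, od_eq]
    erw [Fin.sum_univ_succ]
    rw [← add_assoc]
    congr 1
    · simp only [Fin.val_zero, Nat.testBit_zero, List.get_eq_getElem, List.getElem_cons_zero]
      by_cases h : r % 2 = 1
      · simp only [h, decide_true, tb_xor]
        by_cases ha : a.testBit i = true <;> by_cases hp : p.testBit i = true <;> simp [ha, hp]
        decide
      · simp [h]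
    · refine Finset.sum_congr rfl fun k _ => ?_
      simp [Nat.testBit_succ]

theorem testBit_xsel (L : List ℕ) (r i : ℕ) :
    (if (xsel L r).testBit i then (1 : ZMod 2) else 0) =
      ∑ k : Fin L.length, (if r.testBit k then (1 : ZMod 2) else 0) *
        (if (L.get k).testBit i then 1 else 0) := by
  rw [xsel, testBit_xselA]; simp

/-- the vector with entry `x (lab L i)` at the positions of `M` -/
def lv (M : ℕ) (L : List ℕ) (x : ℕ → ℚ) : ℕ → ℚ := fun i => if M.testBit i then x (lab L i) else 0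

/-! ### counting bits and building masks -/

/-- the mask of the positions below `w` -/
def ones (w : ℕ) : ℕ := Nat.sub (Nat.shiftLeft 1 w) 1

theorem ones_bit (w i : ℕ) : (ones w).testBit i = decide (i < w) := by
  change (1 <<< w - 1).testBit i = _
  rw [Nat.one_shiftLeft, Nat.testBit_two_pow_sub_one]

/-- add the upper half of the counters to the lower half -/
def addH (w mk : ℕ) (L : List ℕ) (c : ℕ) : List ℕ :=
  List.rec (motive := fun _ => ℕ → List ℕ) (fun c => [c])
    (fun p _ ih c => (fun a b => (fun x => (fun s c' => fb s (fb c' (s :: ih c')))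
      (Nat.xor x c) (Nat.lor (Nat.land a b) (Nat.land x c))) (Nat.xor a b))
      (Nat.land p mk) (Nat.shiftRight p w)) L c

theorem addH_cons (w mk p : ℕ) (L : List ℕ) (c : ℕ) : addH w mk (p :: L) c =
    Nat.xor (Nat.xor (Nat.land p mk) (Nat.shiftRight p w)) c ::
      addH w mk L (Nat.lor (Nat.land (Nat.land p mk) (Nat.shiftRight p w))
        (Nat.land (Nat.xor (Nat.land p mk) (Nat.shiftRight p w)) c)) :=
  (fb_eq _ _).trans (fb_eq _ _)

theorem lab_addH (w : ℕ) (L : List ℕ) (c : ℕ) {i : ℕ} (hi : i < w) :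
    lab (addH w (ones w) L c) i = lab L i + lab L (i + w) + if c.testBit i then 1 else 0 := by
  induction L generalizing c with
  | nil => simp [addH, lab]
  | cons p L ih =>
    rw [addH_cons, lab, ih, lab, lab]
    simp only [tb_xor, tb_land, tb_lor, tb_shr, ones_bit, hi, decide_true, Bool.and_true]
    cases p.testBit i <;> cases p.testBit (i + w) <;> cases c.testBit i <;> simp <;> omega

/-- the label at position `0` -/
def lab0 (L : List ℕ) : ℕ := List.rec 0 (fun p _ ih => Nat.add (Nat.land p 1) (Nat.mul 2 ih)) L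

theorem lab0_eq (L : List ℕ) : lab0 L = lab L 0 := by
  induction L with
  | nil => rfl
  | cons p L ih =>
    change Nat.land p 1 + 2 * lab0 L = _
    have : Nat.land p 1 = p % 2 := Nat.and_one_is_mod _
    rw [ih, lab, this, Nat.testBit_zero]
    rcases Nat.mod_two_eq_zero_or_one p with h | h <;> simp [h]

def popA (n : ℕ) (L : List ℕ) : ℕ :=
  Nat.rec (motive := fun _ => List ℕ → ℕ) lab0
    (fun n ih L => (fun w => fb w ((fun mk => fb mk (ih (addH w mk L 0))) (ones w)))
      (Nat.shiftLeft 1 n)) n L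

theorem popA_succ (n : ℕ) (L : List ℕ) :
    popA (n + 1) L = popA n (addH (1 <<< n) (ones (1 <<< n)) L 0) :=
  (fb_eq _ _).trans (fb_eq _ _)

theorem popA_eq (n : ℕ) (L : List ℕ) : popA n L = ∑ i ∈ Finset.range (2 ^ n), lab L i := by
  induction n generalizing L with
  | zero => simp [popA, lab0_eq]
  | succ n ih =>
    rw [popA_succ, ih, Nat.one_shiftLeft, pow_succ, mul_two, Finset.sum_range_add,
      ← Finset.sum_add_distrib]
    refine Finset.sum_congr rfl fun i hi => ?_
    rw [lab_addH _ _ _ (Finset.mem_range.1 hi), add_comm (2 ^ n) i]; simp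

/-- number of set bits below `2 ^ n` (SWAR; used up to `n = 24`) -/
def popc (n m : ℕ) : ℕ := popA n [m]

theorem popc_eq' (n m : ℕ) :
    popc n m = ((Finset.range (2 ^ n)).filter fun i => m.testBit i = true).card := by
  rw [popc, popA_eq, Finset.card_filter]
  simp [lab]

set_option linter.unusedVariables false in
theorem popc_eq (n : ℕ) {m : ℕ} (h : m < 2 ^ 2 ^ n) :
    popc n m = ((Finset.range (2 ^ n)).filter fun i => m.testBit i = true).card := popc_eq' n m

/-- the mask of a predicate on `[0, 2 ^ n)` shifted by `b` -/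
def mkM (f : ℕ → Bool) (n b : ℕ) : ℕ :=
  Nat.rec (motive := fun _ => ℕ → ℕ) (fun b => Bool.rec 0 1 (f b))
    (fun n ih b => (fun w => (fun b' => fb b' (Nat.lor (ih b) (Nat.shiftLeft (ih b') w))) (Nat.add b w))
      (Nat.shiftLeft 1 n)) n b

theorem mkM_succ (f : ℕ → Bool) (n b : ℕ) :
    mkM f (n + 1) b = Nat.lor (mkM f n b) (mkM f n (b + 1 <<< n) <<< (1 <<< n)) := fb_eq _ _

theorem testBit_mkM (f : ℕ → Bool) (n b i : ℕ) :
    (mkM f n b).testBit i = (decide (i < 2 ^ n) && f (b + i)) := by
  induction n generalizing b i with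
  | zero =>
    change (Bool.rec 0 1 (f b) : ℕ).testBit i = _
    rcases i with _ | i
    · simp only [add_zero]; cases f b <;> simp
    · cases f b <;> simp [Nat.testBit_succ]
  | succ n ih =>
    rw [mkM_succ, tb_lor, Nat.testBit_shiftLeft, ih, ih, Nat.one_shiftLeft, pow_succ]
    by_cases h : i < 2 ^ n
    · have h1 : ¬ i ≥ 2 ^ n := by omega
      have h2 : i < 2 ^ n * 2 := by omega
      simp [h, h1, h2]
    · have h1 : i ≥ 2 ^ n := by omega
      have h3 : b + 2 ^ n + (i - 2 ^ n) = b + i := by omega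
      have h4 : (i - 2 ^ n < 2 ^ n) ↔ i < 2 ^ n * 2 := by omega
      simp [h, h1, h3, h4]

end CfsgMO
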