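/-
Bit codes of classes and matrices.
-/
import Cfsg.Agent.MO.Defs

set_option autoImplicit false

namespace CfsgMO

/-- the class with the given bits -/
def cd (n : ℕ) : Cl := fun k => if n.testBit k then 1 else 0
/-- the point of `E` with the given bits -/
def ce (n : ℕ) : E := fun k => if n.testBit k then 1 else 0
/-- the matrix with the given rows -/
def mat2 (n : ℕ) (a : List ℕ) : Matrix (Fin n) (Fin n) F2 :=
  Matrix.of fun i j => if (a.getD i 0).testBit j then 1 else 0

end CfsgMO
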