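/-
Integer codes of orthogonal matrices of degree 24.
-/
import Cfsg.Agent.MO.K0

set_option autoImplicit false

namespace CfsgMO

noncomputable section

/-- the matrix whose double has the given rows -/
def smat (m : List (List ℤ)) : M24 := Matrix.of fun i j => (((m.getD i []).getD j 0 : ℤ) : ℚ) / 2

/-- signed permutation matrix: `e_j ↦ ± e_(r j)`, the sign given by the bit `r j` of `s` -/
def spm (r : List ℕ) (s : ℕ) : M24 :=
  Matrix.of fun i j => if r.getD j 0 = i then (if s.testBit i then -1 else 1) else 0

end

end CfsgMO
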