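/-
Coordinates of the Griess algebra (WP K1, part a): kernel helpers, layout, labels.
-/
import Cfsg.Agent.MO.A1
import Cfsg.Agent.MO.E1
import Cfsg.Agent.MO.K0b

set_option autoImplicit false

namespace CfsgMO

open Matrix

noncomputable section

/-! ### kernel helpers -/

/-- a bit as an element of the field with two elements -/
def bt (m k : ℕ) : F2 := if m.testBit k then 1 else 0

theorem bt_xor (a b k : ℕ) : bt (Nat.xor a b) k = bt a k + bt b k := by
  simp only [bt, tb_xor]
  cases a.testBit k <;> cases b.testBit k <;> decide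
theorem bt_land (a b k : ℕ) : bt (Nat.land a b) k = bt a k * bt b k := by
  simp only [bt, tb_land]
  cases a.testBit k <;> cases b.testBit k <;> decide
theorem bt_zero (k : ℕ) : bt 0 k = 0 := by simp [bt]
theorem bt_of {m k : ℕ} (h : m.testBit k = true) : bt m k = 1 := if_pos h
theorem bt_of' {m k : ℕ} (h : m.testBit k = false) : bt m k = 0 := by simp [bt, h]
theorem bt_inj {a b i j : ℕ} (h : bt a i = bt b j) : a.testBit i = b.testBit j := by
  revert h
  unfold bt
  cases a.testBit i <;> cases b.testBit j <;> decide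
theorem bt_congr {a b i j : ℕ} (h : a.testBit i = b.testBit j) : bt a i = bt b j := by
  rw [bt, bt, h]
theorem sg_bt (m k : ℕ) (y : ℚ) : (if m.testBit k then -y else y) = sg (bt m k) * y := by
  unfold bt
  cases m.testBit k <;> simp [sg_zero, sg_one]
theorem cast_eq_bt (e : ℕ) : (e : F2) = bt e 0 := by
  rw [bt, Nat.testBit_zero, ← ZMod.natCast_mod e 2]
  rcases Nat.mod_two_eq_zero_or_one e with h | h <;> simp [h]

/-- bounded universal quantifier -/
def kall (n : ℕ) (f : ℕ → Bool) : Bool := Nat.rec true (fun i ih => an (f i) ih) n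
/-- bounded existential quantifier -/
def kany (n : ℕ) (f : ℕ → Bool) : Bool := Nat.rec false (fun i ih => Bool.rec ih true (f i)) n

theorem kall_iff {n : ℕ} {f : ℕ → Bool} : kall n f = true ↔ ∀ i < n, f i = true := by
  induction n with
  | zero => simp [kall]
  | succ n ih =>
    change an (f n) (kall n f) = true ↔ _
    rw [an_eq, Bool.and_eq_true, ih, Nat.forall_lt_succ_right, and_comm]

theorem kany_iff {n : ℕ} {f : ℕ → Bool} : kany n f = true ↔ ∃ i < n, f i = true := by
  induction n with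
  | zero => simp [kany]
  | succ n ih =>
    change (Bool.rec (kany n f) true (f n) : Bool) = true ↔ _
    rw [Nat.exists_lt_succ_right, ← ih]
    cases f n <;> simp

/-- list access -/
def kgd (L : List ℕ) : ℕ → ℕ :=
  List.rec (motive := fun _ => ℕ → ℕ) (fun _ => 0)
    (fun p _ ih t => Nat.rec (motive := fun _ => ℕ) p (fun t' _ => ih t') t) L

@[simp] theorem kgd_eq (L : List ℕ) (t : ℕ) : kgd L t = L.getD t 0 := by
  induction L generalizing t with
  | nil => rfl
  | cons p L ih => cases t with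
    | zero => rfl
    | succ t => exact ih t

/-- evaluate a number and pass on its value -/
def kfo (x : ℕ) (k : ℕ → Bool) : Bool := Nat.rec (k 0) (fun n _ => k (Nat.succ n)) x

@[simp] theorem kfo_eq (x : ℕ) (k : ℕ → Bool) : kfo x k = k x := by cases x <;> rfl

/-- evaluate `f 0, …, f (n - 1)` and pass on the list of the values -/
def ktab (n : ℕ) (f : ℕ → ℕ) (k : List ℕ → Bool) : Bool :=
  Nat.rec (motive := fun _ => List ℕ → Bool) k
    (fun i ih r => kfo (f i) fun y => ih (y :: r)) n []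

theorem ktab_eq (n : ℕ) (f : ℕ → ℕ) (k : List ℕ → Bool) :
    ktab n f k = k ((List.range n).map f) := by
  have : ∀ r, Nat.rec (motive := fun _ => List ℕ → Bool) k
      (fun i ih r => kfo (f i) fun y => ih (y :: r)) n r = k ((List.range n).map f ++ r) := by
    induction n with
    | zero => intro r; rfl
    | succ n ih =>
      intro r
      change kfo (f n) _ = _
      rw [kfo_eq, ih, List.range_succ, List.map_append, List.append_assoc]
      rfl
  rw [ktab, this, List.append_nil]

theorem getD_tab {n : ℕ} (f : ℕ → ℕ) {t : ℕ} (h : t < n) :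
    ((List.range n).map f).getD t 0 = f t := by
  simp [List.getD_eq_getElem?_getD, h]

/-- `xor` of `f 0, …, f (n - 1)` -/
def kxo (n : ℕ) (f : ℕ → ℕ) : ℕ := Nat.rec 0 (fun t ih => Nat.xor ih (f t)) n

theorem bt_kxo (n : ℕ) (f : ℕ → ℕ) (k : ℕ) : bt (kxo n f) k = ∑ t : Fin n, bt (f t) k := by
  induction n with
  | zero => exact bt_zero k
  | succ n ih =>
    change bt (Nat.xor (kxo n f) (f n)) k = _
    rw [bt_xor, ih, Fin.sum_univ_castSucc]
    rfl

/-- `xor` of the planes `o, …, o + n - 1` selected by the bits of `r` -/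
def kxs (n o : ℕ) (L : List ℕ) (r : ℕ) : ℕ :=
  Nat.rec 0 (fun t ih => Bool.rec ih (Nat.xor ih (kgd L (Nat.add o t))) (tb r t)) n

/-- the vector at position `k` of the planes `o, …, o + n - 1` -/
def vc (n o : ℕ) (L : List ℕ) (k : ℕ) : Fin n → F2 := fun t => bt (L.getD (o + t) 0) k

theorem bt_kxs (n o : ℕ) (L : List ℕ) (r k : ℕ) :
    bt (kxs n o L r) k = ∑ t : Fin n, bt r t * vc n o L k t := by
  induction n with
  | zero => exact bt_zero k
  | succ n ih =>
    change bt (Bool.rec (kxs n o L r) (Nat.xor (kxs n o L r) (kgd L (o + n))) (tb r n)) k = _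
    rw [Fin.sum_univ_castSucc, tb_eq, kgd_eq]
    change _ = (∑ t : Fin n, bt r t * vc n o L k t) + bt r n * bt (L.getD (o + n) 0) k
    rw [← ih]
    cases h : r.testBit n
    · simp [bt_of' h]
    · rw [bt_of h, one_mul]
      exact bt_xor _ _ _

theorem bt_kxs' (n o : ℕ) (L a : List ℕ) (k : ℕ) (r : Fin n) :
    bt (kxs n o L (a.getD r 0)) k = (mat2 n a *ᵥ vc n o L k) r := bt_kxs n o L _ k

/-- `a` and `b` agree on the mask `m` -/
def kagr (a b m : ℕ) : Bool := iz (Nat.land (Nat.xor a b) m)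

theorem kagr_bt {a b m k : ℕ} (h : kagr a b m = true) (hk : m.testBit k = true) :
    bt a k = bt b k := by
  have := dis_of' h hk
  rw [tb_xor] at this
  exact bt_congr (by simpa using this)

/-- the block of 4096 bits at `a` -/
def kcut (p a : ℕ) : ℕ := Nat.land (Nat.shiftRight p a) (ones 4096)

theorem kcut_bit (p a : ℕ) {x : ℕ} (hx : x < 4096) : (kcut p a).testBit x = p.testBit (a + x) := by
  rw [kcut, tb_land, tb_shr, ones_bit, add_comm]
  simp [hx]

/-- the constant block -/
def kcst (b : Bool) : ℕ := Bool.rec 0 (ones 4096) b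

theorem kcst_bit (b : Bool) {x : ℕ} (hx : x < 4096) : (kcst b).testBit x = b := by
  cases b
  · exact Nat.zero_testBit x
  · exact (ones_bit _ _).trans (by simp [hx])

theorem kcut_cst {p a : ℕ} {b : Bool} (h : Nat.beq (kcut p a) (kcst b) = true) {x : ℕ}
    (hx : x < 4096) : p.testBit (a + x) = b := by
  rw [← kcut_bit p a hx, Nat.eq_of_beq_eq_true h, kcst_bit b hx]

/-- `n` copies of `m` at distance `w` -/
def krep (w m n : ℕ) : ℕ := Nat.rec 0 (fun _ ih => Nat.lor m (Nat.shiftLeft ih w)) n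

theorem krep_bit (w m n k : ℕ) :
    (krep w m n).testBit k = true ↔ ∃ i < n, ∃ j, m.testBit j = true ∧ k = w * i + j := by
  induction n generalizing k with
  | zero => simp [krep]
  | succ n ih =>
    change (Nat.lor m (krep w m n <<< w)).testBit k = true ↔ _
    rw [tb_lor, Bool.or_eq_true, tb_shl_iff, Nat.exists_lt_succ_left]
    refine or_congr (by simp) ⟨?_, ?_⟩
    · rintro ⟨k, h, rfl⟩
      obtain ⟨i, hi, j, hj, rfl⟩ := (ih k).1 h
      exact ⟨i, hi, j, hj, by ring⟩
    · rintro ⟨i, hi, j, hj, rfl⟩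
      exact ⟨_, (ih _).2 ⟨i, hi, j, hj, rfl⟩, by ring⟩

/-- the label at a position -/
def klab (L : List ℕ) (k : ℕ) : ℕ :=
  List.rec 0 (fun p _ ih => Nat.add (Nat.land (Nat.shiftRight p k) 1) (Nat.mul 2 ih)) L

theorem klab_eq (L : List ℕ) (k : ℕ) : klab L k = lab L k := by
  induction L with
  | nil => rfl
  | cons p L ih =>
    change Nat.land (Nat.shiftRight p k) 1 + 2 * klab L k = _
    have : Nat.land (Nat.shiftRight p k) 1 = (p >>> k) % 2 := Nat.and_one_is_mod _
    rw [ih, lab, this, Nat.testBit, Nat.one_and_eq_mod_two]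
    rcases Nat.mod_two_eq_zero_or_one (p >>> k) with h | h <;> simp [h]

theorem lab_lt (L : List ℕ) (k : ℕ) {n : ℕ} (h : ∀ t, n ≤ t → (L.getD t 0).testBit k = false) :
    lab L k < 2 ^ n := Nat.lt_pow_two_of_testBit _ fun t ht => by rw [testBit_lab, h t ht]

theorem lab_lt_len (L : List ℕ) (k : ℕ) : lab L k < 2 ^ L.length :=
  lab_lt L k fun t ht => by simp [List.getD_eq_getElem?_getD, ht]

theorem lab_tab {L : List ℕ} {n : ℕ} (hL : L.length = n) {f : ℕ → ℕ} {k l : ℕ}
    (h : ∀ p, (f p).testBit k = p.testBit l) :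
    lab ((List.range n).map fun t => f (kgd L t)) k = lab L l := Nat.eq_of_testBit_eq fun t => by
  rw [testBit_lab, testBit_lab]
  by_cases ht : t < n
  · rw [getD_tab _ ht, h, kgd_eq]
  · simp [List.getD_eq_getElem?_getD, ht, hL.le.trans (not_lt.1 ht)]

theorem vc_lab (n o : ℕ) (L : List ℕ) (k : ℕ) (t : Fin n) : vc n o L k t = bt (lab L k) (o + t) :=
  bt_congr (testBit_lab _ _ _).symm

theorem cd_lab (L : List ℕ) (k : ℕ) : cd (lab L k) = vc 24 0 L k :=
  funext fun t => by rw [vc_lab, zero_add]; rfl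
theorem ce_lab (L : List ℕ) (k : ℕ) : ce (lab L k) = vc 12 0 L k :=
  funext fun t => by rw [vc_lab, zero_add]; rfl
theorem lo_vc (L : List ℕ) (k : ℕ) : lo (vc 24 0 L k) = vc 12 0 L k := rfl
theorem hi_vc (L : List ℕ) (k : ℕ) : hi (vc 24 0 L k) = vc 12 12 L k :=
  funext fun t => by simp only [hi, vc, zero_add, Fin.val_natAdd]

theorem bits_inj {n a b : ℕ} (ha : a < 2 ^ n) (hb : b < 2 ^ n) (h : ∀ t < n, bt a t = bt b t) :
    a = b := Nat.eq_of_testBit_eq fun t => by
  by_cases ht : t < n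
  · exact bt_inj (h t ht)
  · have := Nat.pow_le_pow_right (show 0 < 2 by norm_num) (not_lt.1 ht)
    rw [Nat.testBit_lt_two_pow (ha.trans_le this), Nat.testBit_lt_two_pow (hb.trans_le this)]

theorem cd_inj {a b : ℕ} (ha : a < 2 ^ 24) (hb : b < 2 ^ 24) (h : cd a = cd b) : a = b :=
  bits_inj ha hb fun t ht => congrFun h ⟨t, ht⟩
theorem ce_inj {a b : ℕ} (ha : a < 4096) (hb : b < 4096) (h : ce a = ce b) : a = b :=
  bits_inj (n := 12) ha hb fun t ht => congrFun h ⟨t, ht⟩

theorem ce_surj (x : E) : ∃ a < 4096, ce a = x := by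
  have : Function.Bijective fun a : Fin 4096 => ce a :=
    (Fintype.bijective_iff_injective_and_card _).2
      ⟨fun a b h => Fin.ext (ce_inj a.2 b.2 h), by rw [card_E, Fintype.card_fin]⟩
  obtain ⟨a, h⟩ := this.2 x
  exact ⟨a, a.2, h⟩

theorem ce_mod (x : ℕ) : ce (x % 4096) = ce x := funext fun t => bt_congr (by
  rw [show 4096 = 2 ^ 12 from rfl, Nat.testBit_mod_two_pow]
  simp [t.2])

theorem testBit_add_pow {x a : ℕ} (h : x.testBit a = false) (j : ℕ) :
    (x + 2 ^ a).testBit j = (x.testBit j || decide (j = a)) := by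
  induction a generalizing x j with
  | zero =>
    rw [Nat.testBit_zero, decide_eq_false_iff_not] at h
    cases j with
    | zero => simp; omega
    | succ j => simp [Nat.testBit_succ, show (x + 1) / 2 = x / 2 by omega]
  | succ a ih =>
    cases j with
    | zero => simp [pow_succ, Nat.add_mul_mod_self_right]
    | succ j =>
      rw [Nat.testBit_succ] at h
      rw [Nat.testBit_succ, Nat.testBit_succ, show (x + 2 ^ (a + 1)) / 2 = x / 2 + 2 ^ a by omega,
        ih h]
      simp

theorem ce_add_pow {x : ℕ} {a : Fin 12} (h : x.testBit a = false) :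
    ce (x + 2 ^ (a : ℕ)) = ce x + Pi.single a 1 := funext fun t => by
  rw [Pi.add_apply, ce, ce, testBit_add_pow h]
  by_cases e : t = a
  · subst e
    simp [h]
  · simp [e, Fin.val_inj]

/-! ### the layout -/

def posA (i j : ℕ) : ℕ := 128 * i + j
def posW (i x : ℕ) : ℕ := 52736 + 6144 * i + x
/-- the mask of the positions `posA i j`, `i, j < 24` -/
def mA : ℕ := krep 128 (ones 24) 24
/-- the pattern `p` in all slices of the last block -/
def mWp (p : ℕ) : ℕ := Nat.shiftLeft (krep 6144 p 24) 52736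
/-- the mask of the positions `posW i x`, `i < 24`, `x < 4096` -/
def mW : ℕ := mWp (ones 4096)

theorem testBit_mA (k : ℕ) : mA.testBit k = true ↔ ∃ i < 24, ∃ j < 24, k = posA i j := by
  refine (krep_bit 128 (ones 24) 24 k).trans ?_
  simp only [ones_bit, decide_eq_true_eq]
  rfl

theorem krep_shl_bit (w m n o k : ℕ) : (Nat.shiftLeft (krep w m n) o).testBit k = true ↔
    ∃ i < n, ∃ j, m.testBit j = true ∧ k = o + w * i + j := by
  rw [tb_shl, tb_shl_iff]
  constructor
  · rintro ⟨j, h, rfl⟩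
    obtain ⟨i, hi, x, hx, rfl⟩ := (krep_bit _ _ _ _).1 h
    exact ⟨i, hi, x, hx, by ring⟩
  · rintro ⟨i, hi, x, hx, rfl⟩
    exact ⟨_, (krep_bit _ _ _ _).2 ⟨i, hi, x, hx, rfl⟩, by ring⟩

theorem testBit_mWp (p k : ℕ) :
    (mWp p).testBit k = true ↔ ∃ i < 24, ∃ x, p.testBit x = true ∧ k = posW i x :=
  krep_shl_bit 6144 p 24 52736 k

theorem testBit_mW (k : ℕ) : mW.testBit k = true ↔ ∃ i < 24, ∃ x < 4096, k = posW i x := by
  simp only [mW, testBit_mWp, ones_bit, decide_eq_true_eq]

theorem mA_pos {i j : ℕ} (hi : i < 24) (hj : j < 24) : mA.testBit (posA i j) = true :=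
  (testBit_mA _).2 ⟨i, hi, j, hj, rfl⟩
theorem mW_pos {i x : ℕ} (hi : i < 24) (hx : x < 4096) : mW.testBit (posW i x) = true :=
  (testBit_mW _).2 ⟨i, hi, x, hx, rfl⟩
theorem mW_posA {i j : ℕ} (hi : i < 24) (hj : j < 24) : mW.testBit (posA i j) = false := by
  rw [← Bool.not_eq_true, testBit_mW]
  rintro ⟨a, -, x, -, h⟩
  unfold posA posW at h
  omega
theorem mA_posW (i x : ℕ) : mA.testBit (posW i x) = false := by
  rw [← Bool.not_eq_true, testBit_mA]
  rintro ⟨a, ha, b, hb, h⟩
  unfold posA posW at h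
  omega

/-- the positions of the monomial part and the 26 label planes -/
structure Lb where
  X : ℕ
  L : List ℕ

def Lb.M (B : Lb) : ℕ := Nat.lor (Nat.lor mA mW) B.X

theorem Lb.M_bit (B : Lb) (k : ℕ) :
    B.M.testBit k = (mA.testBit k || mW.testBit k || B.X.testBit k) := by
  rw [Lb.M, tb_lor, tb_lor]

def f24 (n : ℕ) : Fin 24 := ⟨n % 24, Nat.mod_lt _ (by norm_num)⟩
def labA (i j : ℕ) : ℕ := 2 ^ 24 + 32 * min i j + max i j
def labW (i x : ℕ) : ℕ := 2 ^ 25 + 4096 * i + x

theorem f24_val (i : Fin 24) : f24 i = i := Fin.ext (Nat.mod_eq_of_lt i.2)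
theorem labA_comm (i j : ℕ) : labA i j = labA j i := by rw [labA, labA, min_comm, max_comm]
theorem labA_bd {i j : ℕ} (hi : i < 24) (hj : j < 24) : 2 ^ 24 ≤ labA i j ∧ labA i j < 2 ^ 25 := by
  unfold labA
  omega
theorem labW_bit {i x : ℕ} (hx : x < 4096) (t : ℕ) :
    (labW i x).testBit t = if t < 12 then x.testBit t else (8192 + i).testBit (t - 12) := by
  rw [← Nat.testBit_two_pow_mul_add _ (show x < 2 ^ 12 from hx), labW]
  congr 1
  ring
theorem ce_labW (i x : ℕ) : ce (labW i x) = ce x := by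
  rw [← ce_mod, ← ce_mod x]
  congr 1
  unfold labW
  omega

/-- the coordinate with a given label -/
def valL (D : Dat) (v : D.V) (l : ℕ) : ℚ :=
  if l < 2 ^ 24 then ∑ p, if D.cls p = cd l then v.2.1 p else 0
  else if l < 2 ^ 25 then v.1.1 (f24 ((l - 2 ^ 24) / 32)) (f24 (l % 32))
  else v.2.2 (ce (l % 4096)) (f24 ((l - 2 ^ 25) / 4096))

def co (D : Dat) (B : Lb) (v : D.V) : ℕ → ℚ := lv B.M B.L (valL D v)

structure Good (D : Dat) (B : Lb) : Prop where
  len : B.L.length = 26
  lt : B.M < 2 ^ NB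
  hA : ∀ i < 24, ∀ j < 24, lab B.L (posA i j) = labA i j
  hW : ∀ i < 24, ∀ x < 4096, lab B.L (posW i x) = labW i x
  disj : Nat.land (Nat.lor mA mW) B.X = 0
  hX : ∀ k, B.X.testBit k = true → lab B.L k < 2 ^ 24 ∧ ∃ p, D.cls p = cd (lab B.L k)
  inj : ∀ k l, B.X.testBit k = true → B.X.testBit l = true → lab B.L k = lab B.L l → k = l
  surj : ∀ p, ∃ k, B.X.testBit k = true ∧ D.cls p = cd (lab B.L k)

/-- the classes which occur as labels -/
def Lb.C (B : Lb) : Set Cl := {c | ∃ k, B.X.testBit k = true ∧ c = cd (lab B.L k)}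

/-- the numbers below 4096 with the bit `t` -/
def kpat (t : ℕ) : ℕ := mkM (fun x => tb x t) 12 0

/-- the planes cut to the first block -/
def cutA (L : List ℕ) (k : List ℕ → Bool) : Bool :=
  ktab 26 (fun t => Nat.land (kgd L t) (ones 3072)) k

theorem cutA_eq {L : List ℕ} (hL : L.length = 26) {k : List ℕ → Bool} (h : cutA L k = true) :
    ∃ L', k L' = true ∧ ∀ i < 24, ∀ j < 24, klab L' (posA i j) = lab L (posA i j) := by
  rw [cutA, ktab_eq] at h
  refine ⟨_, h, fun i hi j hj => ?_⟩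
  rw [klab_eq]
  refine lab_tab hL (f := fun p => Nat.land p (ones 3072)) fun p => ?_
  have : posA i j < 3072 := by unfold posA; omega
  simp [tb_land, ones_bit, this]

/-- length, bounds, labels on the two fixed regions, disjointness, 98280 positions with labels
below `2 ^ 24` -/
def okB (B : Lb) : Bool :=
  an (Nat.beq B.L.length 26) <| an (iz (Nat.shiftRight B.M 262144)) <|
  an (cutA B.L fun L => kall 24 fun i => kall 24 fun j => Nat.beq (klab L (posA i j)) (labA i j)) <|
  an (ktab 12 kpat fun T => kall 24 fun i => kall 26 fun t =>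
    Nat.beq (kcut (kgd B.L t) (posW i 0))
      (Bool.rec (kcst (tb (Nat.add 8192 i) (Nat.sub t 12))) (kgd T t) (Nat.blt t 12))) <|
  an (iz (Nat.land (Nat.lor mA mW) B.X)) <|
  an (iz (Nat.land (Nat.lor (kgd B.L 24) (kgd B.L 25)) B.X)) (Nat.beq (popc 18 B.X) 98280)

theorem okB_len {B : Lb} (h : okB B = true) : B.L.length = 26 := by
  simp only [okB, an_eq, Bool.and_eq_true] at h
  exact Nat.eq_of_beq_eq_true h.1

theorem good_of {D : Dat} {B : Lb} (h : okB B = true) (hI : Fintype.card D.I = 98280)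
    (hs : ∀ p, D.cls p ∈ B.C) : Good D B := by
  have hl := okB_len h
  simp only [okB, an_eq, Bool.and_eq_true] at h
  obtain ⟨-, h2, h3, h4, h5, h6, h7⟩ := h
  have hlt : ∀ k, B.X.testBit k = true → lab B.L k < 2 ^ 24 := fun k hk => lab_lt _ _ fun t ht => by
    have := dis_of' h6 hk
    rw [tb_lor, Bool.or_eq_false_iff, kgd_eq, kgd_eq] at this
    obtain rfl | rfl | ht : t = 24 ∨ t = 25 ∨ 26 ≤ t := by omega
    exacts [this.1, this.2, by simp [List.getD_eq_getElem?_getD, hl, ht]]
  choose f h8 h9 using hs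
  have hb : ∀ k, B.X.testBit k = true → ∃ p, f p = k := fun k hk => by
    have h10 := Finset.eq_of_subset_of_card_le (s := Finset.univ.image f)
      (t := (Finset.range (2 ^ 18)).filter fun i => B.X.testBit i = true) (fun k hk => by
        obtain ⟨p, -, rfl⟩ := Finset.mem_image.1 hk
        exact Finset.mem_filter.2 ⟨Finset.mem_range.2 (lt_NB_of h2 (by simp [Lb.M_bit, h8])), h8 p⟩)
      (by
        rw [← popc_eq', Nat.eq_of_beq_eq_true h7, Finset.card_image_of_injective _ fun p s e =>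
          D.cls_inj (by rw [h9, h9, e]), Finset.card_univ, hI])
    have : k ∈ Finset.univ.image f := h10 ▸ Finset.mem_filter.2
      ⟨Finset.mem_range.2 (lt_NB_of h2 (by simp [Lb.M_bit, hk])), hk⟩
    simpa using this
  refine ⟨hl, Nat.lt_pow_two_of_testBit _ fun t ht => ?_, fun i hi j hj => ?_, fun i hi x hx => ?_,
    iz_iff.1 h5, fun k hk => ⟨hlt k hk, ?_⟩, fun k l hk hl e => ?_, fun p => ⟨f p, h8 p, h9 p⟩⟩
  · by_contra hn
    exact absurd (lt_NB_of h2 (Bool.of_not_eq_false hn)) (not_lt.2 ht)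
  · obtain ⟨L', h3, e⟩ := cutA_eq hl h3
    rw [← e i hi j hj]
    exact Nat.eq_of_beq_eq_true (kall_iff.1 (kall_iff.1 h3 i hi) j hj)
  · rw [ktab_eq] at h4
    refine Nat.eq_of_testBit_eq fun t => ?_
    by_cases ht : t < 26
    · have := congrArg (·.testBit x) (Nat.eq_of_beq_eq_true (kall_iff.1 (kall_iff.1 h4 i hi) t ht))
      simp only [kcut_bit _ _ hx, kgd_eq] at this
      rw [testBit_lab, labW_bit hx, show posW i x = posW i 0 + x from rfl, this]
      by_cases h12 : t < 12
      · rw [Nat.blt_eq.mpr h12, if_pos h12]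
        change (((List.range 12).map kpat).getD t 0).testBit x = _
        rw [getD_tab _ h12, kpat, testBit_mkM]
        simp [hx]
      · rw [Bool.eq_false_iff.2 (mt Nat.blt_eq.mp h12), if_neg h12]
        simp [kcst_bit _ hx]
    · have h26 := Nat.pow_le_pow_right (show 0 < 2 by norm_num) (not_lt.1 ht)
      rw [Nat.testBit_lt_two_pow ((hl ▸ lab_lt_len B.L _).trans_le h26),
        Nat.testBit_lt_two_pow (lt_of_lt_of_le (by unfold labW; omega) h26)]
  · obtain ⟨p, rfl⟩ := hb k hk
    exact ⟨p, h9 p⟩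
  · obtain ⟨p, rfl⟩ := hb k hk
    obtain ⟨s, rfl⟩ := hb l hl
    rw [D.cls_inj (show D.cls p = D.cls s by rw [h9, h9, e])]

/-- the label planes moved by a program -/
def mvL (L : List ℕ) (P : List Lay) (k : List ℕ → Bool) : Bool :=
  ktab 26 (fun t => prun P (kgd L t)) k

theorem mvL_eq (L : List ℕ) (P : List Lay) (k : List ℕ → Bool) :
    mvL L P k = k ((List.range 26).map fun t => prun P (kgd L t)) := ktab_eq _ _ _

theorem lab_mv {L : List ℕ} (hL : L.length = 26) {P : List Lay} (h : wf P = true)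
    (hm : mono P = true) (k : ℕ) :
    lab ((List.range 26).map fun t => prun P (kgd L t)) k = lab L (pm P k) :=
  lab_tab hL fun p => testBit_prun h hm p k

/-- the check of the labels of the monomial part; `L'` are the planes of the source labels -/
def okXa (B : Lb) (a : List ℕ) (P : List Lay) (L' : List ℕ) : Bool :=
  an (Nat.beq (prun P B.X) B.X)
    (kall 24 fun r => kagr (kxs 24 0 L' (kgd a r)) (kgd B.L r) B.X)

/-- the monomial program `P` permutes the positions of `X` according to the matrix `a` -/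
def okX (B : Lb) (a : List ℕ) (P : List Lay) : Bool :=
  an (wf P) (an (mono P) (mvL B.L P (okXa B a P)))

theorem okXa_sound {B : Lb} {a : List ℕ} {P : List Lay} {L' : List ℕ} (h : okXa B a P L' = true)
    {k : ℕ} (hk : B.X.testBit k = true) : cd (lab B.L k) = mat2 24 a *ᵥ cd (lab L' k) := by
  simp only [okXa, an_eq, Bool.and_eq_true] at h
  funext r
  rw [cd_lab, cd_lab, ← bt_kxs', ← kgd_eq, kagr_bt (kall_iff.1 h.2 r r.2) hk, vc, zero_add, kgd_eq]

theorem okXa_fix {B : Lb} {a : List ℕ} {P : List Lay} {L' : List ℕ} (h : okXa B a P L' = true) :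
    prun P B.X = B.X := by
  simp only [okXa, an_eq, Bool.and_eq_true] at h
  exact Nat.eq_of_beq_eq_true h.1

theorem okX_sound {B : Lb} (hB : okB B = true) {a : List ℕ} {P : List Lay} (h : okX B a P = true) :
    ∀ c ∈ B.C, mat2 24 a *ᵥ c ∈ B.C := by
  simp only [okX, an_eq, Bool.and_eq_true, mvL_eq] at h
  obtain ⟨h1, h2, h3⟩ := h
  rintro _ ⟨k, hk, rfl⟩
  obtain ⟨k, rfl⟩ := (pm_bij h1 h2).2 k
  rw [← testBit_prun h1 h2, okXa_fix h3] at hk
  exact ⟨k, hk, by rw [okXa_sound h3 hk, lab_mv (okB_len hB) h1 h2]⟩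

theorem mem_C {B : Lb} (hB : okB B = true) {c : ℕ} (hc : c < 2 ^ 24) (h : look B.L B.X c ≠ 0) :
    cd c ∈ B.C := by
  obtain ⟨k, hk⟩ := Nat.exists_testBit_of_ne_zero h
  rw [testBit_look _ _ (by rw [okB_len hB]; omega)] at hk
  exact ⟨k, hk.1, by rw [hk.2]⟩

end

end CfsgMO
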