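/-
Coordinates of the Griess algebra (WP K1, part b): coordinates, basis vectors, programs.
-/
import Cfsg.Agent.MO.K1a

set_option autoImplicit false

namespace CfsgMO

open Matrix

noncomputable section

variable {D : Dat} {B : Lb}

theorem valL_add (u v : D.V) (l : ℕ) : valL D (u + v) l = valL D u l + valL D v l := by
  unfold valL
  split_ifs
  · rw [← Finset.sum_add_distrib]
    exact Finset.sum_congr rfl fun p _ => by split_ifs <;> simp
  · rfl
  · rfl

theorem valL_smul (c : ℚ) (v : D.V) (l : ℕ) : valL D (c • v) l = c * valL D v l := by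
  unfold valL
  split_ifs
  · rw [Finset.mul_sum]
    exact Finset.sum_congr rfl fun p _ => by split_ifs <;> simp
  · rfl
  · rfl

theorem valL_A (v : D.V) (i j : Fin 24) : valL D v (labA i j) = v.1.1 i j := by
  obtain ⟨h1, h2⟩ := labA_bd i.2 j.2
  have hi := i.2
  have hj := j.2
  rw [valL, if_neg (not_lt.2 h1), if_pos h2,
    show (labA i j - 2 ^ 24) / 32 = min i.1 j.1 by unfold labA; omega,
    show labA i j % 32 = max i.1 j.1 by unfold labA; omega]
  rcases le_total i.1 j.1 with h | h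
  · rw [min_eq_left h, max_eq_right h, f24_val, f24_val]
  · rw [min_eq_right h, max_eq_left h, f24_val, f24_val]
    exact congrFun (congrFun v.1.2 i) j

theorem valL_W (v : D.V) (i : Fin 24) {x : ℕ} (hx : x < 4096) :
    valL D v (labW i x) = v.2.2 (ce x) i := by
  rw [valL, if_neg (by unfold labW; omega), if_neg (by unfold labW; omega), ce_mod, ce_labW,
    show (labW i x - 2 ^ 25) / 4096 = i by unfold labW; omega, f24_val]

theorem valL_X (v : D.V) {l : ℕ} (hl : l < 2 ^ 24) {p : D.I} (hp : D.cls p = cd l) :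
    valL D v l = v.2.1 p := by
  rw [valL, if_pos hl, Finset.sum_eq_single p (fun s _ hs => if_neg fun e =>
    hs (D.cls_inj (e.trans hp.symm))) (by simp), if_pos hp]

theorem co_of (v : D.V) {k : ℕ} (h : B.M.testBit k = true) :
    co D B v k = valL D v (lab B.L k) := if_pos h

theorem co_out (v : D.V) {k : ℕ} (h : B.M.testBit k = false) : co D B v k = 0 := by
  simp [co, lv, h]

theorem co_add (u v : D.V) : co D B (u + v) = co D B u + co D B v := funext fun k => by
  simp only [co, lv, Pi.add_apply, valL_add]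
  split_ifs <;> simp

theorem co_smul (c : ℚ) (v : D.V) : co D B (c • v) = c • co D B v := funext fun k => by
  simp only [co, lv, Pi.smul_apply, valL_smul]
  split_ifs <;> simp

theorem M_of_A {k : ℕ} (h : mA.testBit k = true) : B.M.testBit k = true := by simp [Lb.M_bit, h]
theorem M_of_W {k : ℕ} (h : mW.testBit k = true) : B.M.testBit k = true := by simp [Lb.M_bit, h]
theorem M_of_X {k : ℕ} (h : B.X.testBit k = true) : B.M.testBit k = true := by simp [Lb.M_bit, h]

theorem co_A (hG : Good D B) (v : D.V) (i j : Fin 24) : co D B v (posA i j) = v.1.1 i j := by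
  rw [co_of v (M_of_A (mA_pos i.2 j.2)), hG.hA i i.2 j j.2, valL_A]

theorem co_W (hG : Good D B) (v : D.V) (i : Fin 24) {x : ℕ} (hx : x < 4096) :
    co D B v (posW i x) = v.2.2 (ce x) i := by
  rw [co_of v (M_of_W (mW_pos i.2 hx)), hG.hW i i.2 x hx, valL_W v i hx]

theorem co_X (hG : Good D B) (v : D.V) {k : ℕ} (hk : B.X.testBit k = true) {p : D.I}
    (hp : D.cls p = cd (lab B.L k)) : co D B v k = v.2.1 p := by
  rw [co_of v (M_of_X hk), valL_X v (hG.hX k hk).1 hp]

theorem Good.X_out (hG : Good D B) {k : ℕ} (hk : B.X.testBit k = true) :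
    mA.testBit k = false ∧ mW.testBit k = false := by
  have := dis_of' (iz_iff.2 hG.disj) hk
  rwa [tb_lor, Bool.or_eq_false_iff] at this

theorem Good.X_A (hG : Good D B) {k : ℕ} (hk : mA.testBit k = true) : B.X.testBit k = false :=
  dis_of (iz_iff.2 hG.disj) (by simp [tb_lor, hk])
theorem Good.X_W (hG : Good D B) {k : ℕ} (hk : mW.testBit k = true) : B.X.testBit k = false :=
  dis_of (iz_iff.2 hG.disj) (by simp [tb_lor, hk])

theorem Good.lt_NB (hG : Good D B) {k : ℕ} (hk : B.M.testBit k = true) : k < NB := by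
  by_contra h
  rw [Nat.testBit_lt_two_pow
    (hG.lt.trans_le (Nat.pow_le_pow_right (by norm_num) (not_lt.1 h)))] at hk
  exact absurd hk (by simp)

/-- the four kinds of positions -/
theorem pos_cases (hG : Good D B) {Q : ℕ → Prop} (hA : ∀ i j : Fin 24, Q (posA i j))
    (hW : ∀ (i : Fin 24) (x : ℕ), x < 4096 → Q (posW i x))
    (hX : ∀ k p, B.X.testBit k = true → D.cls p = cd (lab B.L k) → Q k)
    (h0 : ∀ k, B.M.testBit k = false → Q k) (k : ℕ) : Q k := by
  by_cases h : B.M.testBit k = true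
  · rw [Lb.M_bit, Bool.or_eq_true, Bool.or_eq_true, testBit_mA, testBit_mW] at h
    rcases h with (⟨i, hi, j, hj, e⟩ | ⟨i, hi, x, hx, e⟩) | h
    · exact e ▸ hA ⟨i, hi⟩ ⟨j, hj⟩
    · exact e ▸ hW ⟨i, hi⟩ x hx
    · exact (hG.hX k h).2.elim fun p hp => hX k p h hp
  · exact h0 k (Bool.eq_false_iff.2 h)

theorem co_inj (hG : Good D B) : Function.Injective (co D B) := fun u v h => by
  refine Prod.ext (Subtype.ext ?_) (Prod.ext (funext fun p => ?_) ?_)
  · ext i j
    rw [← co_A hG, h, co_A hG]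
  · obtain ⟨k, hk, hp⟩ := hG.surj p
    rw [← co_X hG u hk hp, h, co_X hG v hk hp]
  · ext x i
    obtain ⟨a, ha, rfl⟩ := ce_surj x
    rw [← co_W hG u i ha, h, co_W hG v i ha]

/-- a function is a coordinate vector if it has the right values -/
theorem co_eq (hG : Good D B) {v : D.V} {y : ℕ → ℚ} (hA : ∀ i j : Fin 24, v.1.1 i j = y (posA i j))
    (hW : ∀ (i : Fin 24) (x : ℕ), x < 4096 → v.2.2 (ce x) i = y (posW i x))
    (hX : ∀ k p, B.X.testBit k = true → D.cls p = cd (lab B.L k) → v.2.1 p = y k)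
    (h0 : ∀ k, B.M.testBit k = false → y k = 0) : co D B v = y := funext fun k =>
  pos_cases hG (Q := fun k => co D B v k = y k) (fun i j => (co_A hG v i j).trans (hA i j))
    (fun i x hx => (co_W hG v i hx).trans (hW i x hx))
    (fun k p hk hp => (co_X hG v hk hp).trans (hX k p hk hp))
    (fun k hk => (co_out v hk).trans (h0 k hk).symm) k

theorem exists_co' (hG : Good D B) {y : ℕ → ℚ} (h0 : ∀ k, B.M.testBit k = false → y k = 0)
    (hs : ∀ i j : Fin 24, y (posA j i) = y (posA i j)) : ∃ v, co D B v = y := by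
  choose f h1 h2 using hG.surj
  choose g h3 h4 using ce_surj
  refine ⟨(⟨of fun i j => y (posA i j), Matrix.ext hs⟩, fun p => y (f p),
    of fun x i => y (posW i (g x))), co_eq hG (fun _ _ => rfl) (fun i x hx => ?_)
    (fun k p hk hp => ?_) h0⟩
  · exact congrArg (fun x => y (posW i x)) (ce_inj (h3 _) hx (h4 _))
  · exact congrArg y (hG.inj _ _ (h1 p) hk
      (cd_inj (hG.hX _ (h1 p)).1 (hG.hX k hk).1 ((h2 p).symm.trans hp)))

/-- the positions below 4096 with the bits `k` set and `5`, `6`, `k + 7` zero -/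
def trM (k : ℕ) : ℕ :=
  mkM (fun p => an (tb p k) (iz (Nat.land p (Nat.add 96 (Nat.shiftLeft 128 k))))) 12 0

/-- the transposition of the first block: five `swap` layers exchanging the bits `k` and `k + 7`
of positions below 4096 with bits 5, 6 zero -/
def trP : List Lay :=
  (fun m : ℕ → ℕ → ℕ → ℕ => [.swap 127 (krep 256 2863311530 16), .swap 254 (m 3435973836 2 8),
    .swap 508 (m 4042322160 4 4), .swap 1016 (m 4278255360 8 2), .swap 2032 (m 4294901760 16 1)])
  fun a n r => krep (Nat.mul 256 n) (krep 128 a n) r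

theorem trP_eq : trP = [.swap 127 (trM 0), .swap 254 (trM 1), .swap 508 (trM 2),
    .swap 1016 (trM 3), .swap 2032 (trM 4)] := by
  have h : krep 256 2863311530 16 = trM 0 ∧ krep 512 (krep 128 3435973836 2) 8 = trM 1 ∧
      krep 1024 (krep 128 4042322160 4) 4 = trM 2 ∧ krep 2048 (krep 128 4278255360 8) 2 = trM 3 ∧
      krep 4096 (krep 128 4294901760 16) 1 = trM 4 := by decide +kernel
  rw [← h.1, ← h.2.1, ← h.2.2.1, ← h.2.2.2.1, ← h.2.2.2.2]
  rfl

theorem wf_trP : wf trP = true := by decide +kernel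
theorem mono_trP : mono trP = true := by decide +kernel
theorem srun_trP : srun trP = 0 := by decide +kernel
theorem pm_trP (i j : Fin 24) : pm trP (posA i j) = posA j i := by
  have : (kall 24 fun i => kall 24 fun j => Nat.beq (pm trP (posA i j)) (posA j i)) = true := by
    decide +kernel
  exact Nat.eq_of_beq_eq_true (kall_iff.1 (kall_iff.1 this i i.2) j j.2)

theorem exists_co (hG : Good D B) {y : ℕ → ℚ} (h0 : ∀ k, B.M.testBit k = false → y k = 0)
    (hs : sem trP y = y) : ∃ v, co D B v = y := exists_co' hG h0 fun i j => by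
  rw [← congrFun hs (posA i j), sem_mono wf_trP mono_trP, srun_trP, pm_trP]
  simp

/-- restriction to a symmetric set of positions -/
theorem exists_co_restrict (hG : Good D B) {m : ℕ} (hm : prun trP m = m) (v : D.V) :
    ∃ u, co D B u = fun k => if m.testBit k then co D B v k else 0 :=
  exists_co' hG (fun k hk => by simp [co_out v hk]) fun i j => by
    rw [← pm_trP i j, ← testBit_prun wf_trP mono_trP, hm, pm_trP, co_A hG, co_A hG,
      show v.1.1 j i = v.1.1 i j from congrFun (congrFun v.1.2 i) j]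

/-- the basis vector with a given label -/
def bv (D : Dat) (l : ℕ) : D.V :=
  if l < 2 ^ 24 then (0, fun p => if D.cls p = cd l then 1 else 0, 0)
  else if l < 2 ^ 25 then
    (⟨Matrix.of fun i j => if labA i j = l then 1 else 0,
      Matrix.ext fun i j => by rw [transpose_apply, of_apply, of_apply, labA_comm]⟩, 0, 0)
  else (0, 0, Matrix.of fun x i => if x = ce (l % 4096) ∧ labW i (l % 4096) = l then 1 else 0)

theorem co_bv' (hG : Good D B) (l : ℕ) :
    co D B (bv D l) = fun k => if B.M.testBit k = true ∧ lab B.L k = l then 1 else 0 := by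
  refine co_eq hG (fun i j => ?_) (fun i x hx => ?_) (fun k p hk hp => ?_) fun k hk => by simp [hk]
  · have := labA_bd i.2 j.2
    simp only [M_of_A (mA_pos i.2 j.2), hG.hA i i.2 j j.2, true_and, bv]
    split_ifs <;> first | rfl | omega | simp [*]
  · have : 2 ^ 25 ≤ labW i x ∧ labW i x % 4096 = x := by unfold labW; omega
    simp only [M_of_W (mW_pos i.2 hx), hG.hW i i.2 x hx, true_and, bv]
    split_ifs with h1 h2 h3 h4 h5 <;> try first | rfl | omega
    · subst h5
      simp [this.2]
    · exact if_neg fun h => h5 (by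
        rw [ce_inj hx (Nat.mod_lt _ (by norm_num)) h.1]
        exact h.2)
  · have := (hG.hX k hk).1
    simp only [M_of_X hk, true_and, bv]
    split_ifs with h1 h2 <;> try first | rfl | omega
    · exact if_pos (h2 ▸ hp)
    · exact if_neg fun h => h2 (cd_inj this h1 (hp.symm.trans h))

theorem co_bv (hG : Good D B) {l : ℕ} (hl : l < 2 ^ 26) (k : ℕ) :
    co D B (bv D l) k = if (look B.L B.M l).testBit k then 1 else 0 := by
  rw [co_bv' hG]
  exact if_congr (testBit_look _ _ (hG.len ▸ hl) k).symm rfl rfl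

theorem eq_smul_bv (hG : Good D B) {l : ℕ} (hl : l < 2 ^ 26) {v : D.V}
    (h : ∀ k, (look B.L B.M l).testBit k = false → co D B v k = 0) : ∃ c : ℚ, v = c • bv D l := by
  refine ⟨valL D v l, co_inj hG (funext fun k => ?_)⟩
  rw [co_smul, Pi.smul_apply, co_bv hG hl]
  split_ifs with hk
  · rw [testBit_look _ _ (hG.len ▸ hl)] at hk
    rw [co_of v hk.1, hk.2, smul_eq_mul, mul_one]
  · rw [h k (Bool.eq_false_iff.2 hk), smul_zero]

/-- the program `P` computes `g` -/
def Sem (D : Dat) (B : Lb) (P : List Lay) (g : Module.End ℚ D.V) : Prop :=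
  wf P = true ∧ ∀ v, co D B (g v) = sem P (co D B v)

theorem Sem.one : Sem D B [] 1 := ⟨rfl, fun _ => rfl⟩

theorem Sem.mul {P Q : List Lay} {g h : Module.End ℚ D.V} (hg : Sem D B P g) (hh : Sem D B Q h) :
    Sem D B (P ++ Q) (h * g) :=
  ⟨wf_append hg.1 hh.1, fun v => by rw [Module.End.mul_apply, hh.2, hg.2, sem_append]⟩

theorem Sem.inv {P : List Lay} {g : D.Γ} (hg : Sem D B P g.1) : Sem D B P.reverse (g⁻¹).1 :=
  ⟨wf_reverse hg.1, fun v => by
    rw [← sem_reverse hg.1 (co D B ((g⁻¹).1 v)), ← hg.2]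
    exact congrArg (fun u => sem P.reverse (co D B u)) (LinearMap.congr_fun g.mul_inv v)⟩

theorem exists_unit' (hG : Good D B) {P : List Lay} (hP : wf P = true)
    (h : ∀ v, ∃ u, co D B u = sem P (co D B v)) : ∃ g : D.Γ, Sem D B P g.1 := by
  choose f hf using h
  let g : Module.End ℚ D.V :=
    { toFun := f
      map_add' := fun u v => co_inj hG (by rw [co_add, hf, hf, hf, co_add, sem_add])
      map_smul' := fun c v => co_inj hG (by rw [co_smul, hf, hf, co_smul, sem_smul]; rfl) }
  have : Function.Injective g := fun u v e => co_inj hG (by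
    rw [← sem_reverse hP (co D B u), ← sem_reverse hP (co D B v), ← hf, ← hf]
    exact congrArg (fun u => sem P.reverse (co D B u)) e)
  obtain ⟨g', hg⟩ := (LinearMap.isUnit_iff_ker_eq_bot g).2 (LinearMap.ker_eq_bot.2 this)
  exact ⟨g', hP, fun v => hg ▸ hf v⟩

theorem iz_of_bits {m : ℕ} (h : ∀ k, m.testBit k = true → False) : iz m = true :=
  iz_iff.2 (Nat.zero_of_testBit_eq_false fun k => Bool.eq_false_iff.2 (h k))

theorem iz_shr {m : ℕ} (h : ∀ k, m.testBit k = true → k < NB) :
    iz (Nat.shiftRight m 262144) = true := iz_of_bits fun k hk => by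
  rw [tb_shr] at hk
  exact absurd (h _ hk) (by unfold NB; omega)

theorem wf_swap_of {δ m : ℕ} (h1 : ∀ j, m.testBit j = true → m.testBit (j + δ) = true → False)
    (h2 : ∀ j, m.testBit j = true → j + δ < NB) : (Lay.swap δ m).wf = true := by
  refine (an_eq (iz (Nat.land m (m <<< δ))) (iz (Nat.shiftRight (m <<< δ) 262144))).trans ?_
  rw [Bool.and_eq_true]
  refine ⟨iz_of_bits fun j hj => ?_, iz_shr fun j hj => ?_⟩
  · rw [tb_land, Bool.and_eq_true, tb_shl_iff] at hj
    obtain ⟨hj, j', hj', rfl⟩ := hj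
    exact h1 _ hj' hj
  · obtain ⟨j', hj', rfl⟩ := tb_shl_iff.1 hj
    exact h2 _ hj'

theorem sem_z (hG : Good D B) : Sem D B [Lay.sign mW] D.z.1 := by
  refine ⟨wf_cons.2 ⟨iz_shr fun k hk => hG.lt_NB (M_of_W hk), rfl⟩, fun v => ?_⟩
  rw [Dat.z_apply, sem_cons, sem_nil]
  refine co_eq hG (fun i j => ?_) (fun i x hx => ?_) (fun k p hk hp => ?_) fun k hk => ?_
  · simp [Lay.sem, mW_posA i.2 j.2, co_A hG]
  · simp [Lay.sem, mW_pos i.2 hx, co_W hG v i hx]
  · simp [Lay.sem, (hG.X_out hk).2, co_X hG v hk hp]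
  · simp [Lay.sem, co_out v hk]

/-- the program of `xq (cd (2 ^ k))`, computed from the labels: a `swap` on the last block for
`k < 12`, one `sign` layer -/
def qP (B : Lb) (k : ℕ) : List Lay :=
  Bool.rec [.sign (Nat.land (Nat.lor mW B.X) (kgd B.L (Nat.sub k 12)))]
    [.swap (Nat.shiftLeft 1 k) (Nat.xor mW (Nat.land mW (kgd B.L k))),
      .sign (Nat.land B.X (kgd B.L (Nat.add 12 k)))] (Nat.blt k 12)

theorem cd_pow {k : ℕ} (t : Fin 24) : cd (2 ^ k) t = if k = t then 1 else 0 := by
  simp [cd, Nat.testBit_two_pow]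

theorem lt_add_pow {x k : ℕ} (hx : x < 4096) (hk : k < 12) (h : x.testBit k = false) :
    x + 2 ^ k < 4096 := Nat.lt_pow_two_of_testBit (n := 12) _ fun t ht => by
  rw [testBit_add_pow h, Nat.testBit_lt_two_pow
    (lt_of_lt_of_le hx (Nat.pow_le_pow_right (n := 2) (by norm_num) ht))]
  simp
  omega

theorem exists_sub_pow {x k : ℕ} (h : x.testBit k = true) :
    ∃ y, y.testBit k = false ∧ x = y + 2 ^ k := by
  have h1 : (x ^^^ 2 ^ k).testBit k = false := by simp [h]
  refine ⟨_, h1, Nat.eq_of_testBit_eq fun t => ?_⟩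
  rw [testBit_add_pow h1, Nat.testBit_xor, Nat.testBit_two_pow]
  by_cases e : t = k
  · simp [e, h]
  · simp [e, Ne.symm e]

theorem sem_qP (hG : Good D B) {k : ℕ} (hk : k < 24) :
    mono (qP B k) = true ∧ Sem D B (qP B k) (D.xq (cd (2 ^ k))).1 := by
  have hX : ∀ v p, ((D.xq (cd (2 ^ k))).1 v).2.1 p =
      sg (Bf (cd (2 ^ k)) (D.cls p) + Bf (D.cls p) (cd (2 ^ k))) * v.2.1 p := fun v p => by
    rw [Dat.xq_val]
    exact Dat.actL_X (Dat.isN_q _) (q_comm _ _) v
  have hA : ∀ v, ((D.xq (cd (2 ^ k))).1 v).1.1 = v.1.1 := fun v => by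
    simp [Dat.xq_val, Dat.actL]
  have hW : ∀ v, ((D.xq (cd (2 ^ k))).1 v).2.2 = q (cd (2 ^ k)) * v.2.2 := fun v => by
    simp [Dat.xq_val, Dat.actL]
  have hL : ∀ (i : Fin 24) x t, x < 4096 → t < 12 →
      (B.L.getD t 0).testBit (posW i x) = x.testBit t := fun i x t hx ht => by
    rw [← testBit_lab, hG.hW i i.2 x hx, labW_bit hx, if_pos ht]
  by_cases h : k < 12
  · have h1 : lo (cd (2 ^ k)) = Pi.single ⟨k, h⟩ 1 := funext fun t => by
      simp [lo, cd_pow, Pi.single_apply, Fin.ext_iff, eq_comm]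
    have h2 : hi (cd (2 ^ k)) = 0 := funext fun t => by
      simp only [hi, cd_pow, Fin.val_natAdd]
      exact if_neg (by omega)
    have hm : ∀ j, (Nat.xor mW (Nat.land mW (B.L.getD k 0))).testBit j = true ↔
        ∃ (i : Fin 24) (x : ℕ), x < 4096 ∧ x.testBit k = false ∧ j = posW i x := fun j => by
      rw [tb_xor, tb_land]
      constructor
      · intro hj
        have h3 : mW.testBit j = true := by
          revert hj
          cases mW.testBit j <;> simp
        rw [h3] at hj
        obtain ⟨i, hi, x, hx, e⟩ := (testBit_mW _).1 h3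
        refine ⟨⟨i, hi⟩, x, hx, ?_, e⟩
        rw [e, hL ⟨i, hi⟩ x k hx h] at hj
        simpa using hj
      · rintro ⟨i, x, hx, h3, e⟩
        rw [e, hL i x k hx h, mW_pos i.2 hx, h3]
        rfl
    have hw : (Lay.swap (2 ^ k) (Nat.xor mW (Nat.land mW (B.L.getD k 0)))).wf = true := by
      refine wf_swap_of (fun j' hj' hj => ?_) fun j' hj' => ?_
      · obtain ⟨i, x, hx, h3, e1⟩ := (hm _).1 hj
        obtain ⟨i', x', hx', h4, e2⟩ := (hm _).1 hj'
        have := lt_add_pow hx' h h4
        have := Nat.two_pow_pos k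
        rw [show x = x' + 2 ^ k by unfold posW at e1 e2; omega, testBit_add_pow h4] at h3
        simp at h3
      · obtain ⟨i', x', hx', h4, e2⟩ := (hm _).1 hj'
        have := lt_add_pow hx' h h4
        have := i'.2
        unfold posW at e2
        unfold NB
        omega
    have h0 : ∀ j, mW.testBit j = false →
        (Lay.swap (2 ^ k) (Nat.xor mW (Nat.land mW (B.L.getD k 0)))).pm j = j := fun j hj => by
      rw [pm_swap, if_neg, if_neg]
      · rw [tb_shl_iff]
        rintro ⟨j', hj', e⟩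
        obtain ⟨i, x, hx, h4, e2⟩ := (hm _).1 hj'
        rw [e, e2, posW, add_assoc, ← posW, mW_pos i.2 (lt_add_pow hx h h4)] at hj
        exact absurd hj (by simp)
      · simp [tb_xor, tb_land, hj]
    rw [qP, Nat.blt_eq.mpr h, kgd_eq, kgd_eq, kgd_eq,
      show Nat.shiftLeft 1 k = 2 ^ k from Nat.one_shiftLeft k]
    refine ⟨rfl, wf_cons.2 ⟨hw, wf_cons.2 ⟨iz_shr fun j hj => hG.lt_NB (M_of_X ?_), rfl⟩⟩,
      fun v => ?_⟩
    · rw [tb_land, Bool.and_eq_true] at hj
      exact hj.1
    rw [sem_cons, sem_cons, sem_nil]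
    refine co_eq hG (fun i j => ?_) (fun i x hx => ?_) (fun j p hj hp => ?_) fun j hj => ?_ <;>
      rw [Lay.sem, sem_swap, tb_land]
    · rw [hA, hG.X_A (mA_pos i.2 j.2), h0 _ (mW_posA i.2 j.2), co_A hG]
      rfl
    · rw [hW, hG.X_W (mW_pos i.2 hx), q_mul_apply, h1, h2, zero_dotProduct, sg_zero, one_mul]
      change _ = co D B v _
      cases h3 : x.testBit k
      · rw [pm_swap, if_pos ((hm _).2 ⟨i, x, hx, h3, rfl⟩), posW, add_assoc, ← posW,
          co_W hG v i (lt_add_pow hx h h3), ce_add_pow (a := ⟨k, h⟩) h3]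
      · obtain ⟨y, h4, rfl⟩ := exists_sub_pow h3
        have hy : y < 4096 := lt_of_le_of_lt (Nat.le_add_right _ _) hx
        have h5 := (hm _).2 ⟨i, y, hy, h4, rfl⟩
        rw [posW, ← add_assoc, ← posW, pm_swap, (wfs_of hw).d _ h5, tb_shl_add, h5,
          Nat.add_sub_cancel, ce_add_pow (a := ⟨k, h⟩) h4, add_assoc, add_self, add_zero,
          ← co_W hG v i hy]
        rfl
    · rw [hX, hj, h0 _ (hG.X_out hj).2, co_X hG v hj hp, Bool.true_and, sg_bt, Bf, Bf, h1, h2, hp,
        cd_lab, hi_vc, zero_dotProduct, zero_add, dotProduct_single_one]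
      rfl
    · rw [Lb.M_bit, Bool.or_eq_false_iff, Bool.or_eq_false_iff] at hj
      rw [h0 _ hj.1.2, co_out v (by simp [Lb.M_bit, hj])]
      simp
  · have h' : k - 12 < 12 := by omega
    have h1 : lo (cd (2 ^ k)) = 0 := funext fun t => by
      simp only [lo, cd_pow, Fin.val_castAdd]
      exact if_neg (by omega)
    have h2 : hi (cd (2 ^ k)) = Pi.single ⟨k - 12, h'⟩ 1 := funext fun t => by
      simp only [hi, cd_pow, Fin.val_natAdd, Pi.single_apply, Fin.ext_iff]
      exact if_congr (by omega) rfl rfl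
    rw [qP, Bool.eq_false_iff.2 (mt Nat.blt_eq.mp h), kgd_eq]
    refine ⟨rfl, wf_cons.2 ⟨iz_shr fun j hj => hG.lt_NB ?_, rfl⟩, fun v => ?_⟩
    · rw [tb_land, tb_lor, Bool.and_eq_true, Bool.or_eq_true] at hj
      exact hj.1.elim M_of_W M_of_X
    rw [sem_cons, sem_nil]
    refine co_eq hG (fun i j => ?_) (fun i x hx => ?_) (fun j p hj hp => ?_) fun j hj => ?_ <;>
      rw [Lay.sem, tb_land, tb_lor]
    · rw [hA, hG.X_A (mA_pos i.2 j.2), mW_posA i.2 j.2, co_A hG]
      rfl
    · rw [hW, mW_pos i.2 hx, q_mul_apply, h1, h2, add_zero, single_one_dotProduct, co_W hG v i hx,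
        Bool.true_or, Bool.true_and, sg_bt]
      exact congrArg (sg · * _) (bt_congr (hL i x _ hx h').symm)
    · rw [hX, hj, co_X hG v hj hp, Bool.or_true, Bool.true_and, sg_bt, Bf, Bf, h1, h2, hp,
        cd_lab, lo_vc, dotProduct_zero, add_zero, single_one_dotProduct, vc, zero_add]
      rfl
    · simp [co_out v hj]

end

end CfsgMO
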