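/-
Coordinates of the Griess algebra (WP K1, part c): numeric vectors, comparison of programs.
-/
import Cfsg.Agent.MO.K1b
import Cfsg.Agent.MO.E

set_option autoImplicit false

namespace CfsgMO

open Matrix

noncomputable section

variable {D : Dat} {B : Lb}

theorem val_congr {u : List ℕ} {i j : ℕ} (h : ∀ p ∈ u, p.testBit i = p.testBit j) :
    val u i = val u j := by
  induction u with
  | nil => rfl
  | cons p u ih =>
    cases u with
    | nil => rw [val, val, h p (by simp)]
    | cons r u => rw [val, val, h p (by simp), ih fun s hs => h s (List.mem_cons_of_mem _ hs)]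

open Classical in
/-- the vector given by bit planes and a scale -/
def vec (D : Dat) (B : Lb) (c : ℚ) (u : List ℕ) : D.V :=
  if h : ∃ v, co D B v = c • valQ u then h.choose else 0

/-- the planes are supported in `M` and symmetric on the first block -/
def okV (B : Lb) (u : List ℕ) : Bool :=
  an (Nat.beq (Nat.lor (orP u) B.M) B.M)
    (List.rec true (fun p _ ih => an ((fun a => Nat.beq (prun trP a) a) (Nat.land p mA)) ih) u)

theorem co_vec (hG : Good D B) (c : ℚ) {u : List ℕ} (h : okV B u = true) :
    co D B (vec D B c u) = c • valQ u := by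
  rw [okV, an_eq, Bool.and_eq_true] at h
  have h1 : ∀ p ∈ u, prun trP (Nat.land p mA) = Nat.land p mA := by
    have h2 := h.2
    clear h
    induction u with
    | nil => simp
    | cons p u ih =>
      replace h2 := (Bool.and_eq_true _ _).mp ((an_eq _ _).symm.trans h2)
      exact List.forall_mem_cons.2 ⟨Nat.eq_of_beq_eq_true h2.1, ih h2.2⟩
  have : ∃ v, co D B v = c • valQ u := exists_co' hG (fun k hk => by
    have := congrArg (·.testBit k) (Nat.eq_of_beq_eq_true h.1)
    simp only [tb_lor, hk, Bool.or_false] at this
    simp [valQ, val_eq_zero this]) fun i j => by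
      refine congrArg (fun z : ℤ => c * (z : ℚ)) (val_congr fun p hp => ?_)
      have := testBit_prun wf_trP mono_trP (Nat.land p mA) (posA i j)
      simpa only [h1 p hp, pm_trP, tb_land, mA_pos i.2 j.2, mA_pos j.2 i.2, Bool.and_true,
        eq_comm] using this
  rw [vec, dif_pos this]
  exact this.choose_spec

theorem Sem.eq (hG : Good D B) {P Q : List Lay} {g h : Module.End ℚ D.V} (hg : Sem D B P g)
    (hh : Sem D B Q h) (e : symEq B.M B.L P Q = true) : g = h :=
  LinearMap.ext fun v => co_inj hG (by
    rw [hg.2, hh.2]
    exact symEq_sound hg.1 hh.1 e _)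

/-- a program which keeps the space defines an invertible map -/
theorem exists_unit (hG : Good D B) {P : List Lay} (hP : wf P = true)
    (h0 : Nat.lor (supp P B.M) B.M = B.M) (hs : symEq B.M B.L P (P ++ trP) = true) :
    ∃ g : D.Γ, Sem D B P g.1 := exists_unit' hG hP fun v => exists_co hG
  (fun k hk => supp_sound hP (fun _ => co_out v) k (by
    have := congrArg (·.testBit k) h0
    simpa only [tb_lor, hk, Bool.or_false] using this))
  (by rw [← sem_append]; exact (symEq_sound hP (wf_append hP wf_trP) hs _).symm)

end

end CfsgMO
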