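/-
Checks for the axes: kernel functions.
-/
import Cfsg.Agent.MO.K1c

set_option autoImplicit false

namespace CfsgMO

noncomputable section

/-- sign extension by `d` planes -/
def sx (d : ℕ) (u : List ℕ) : List ℕ :=
  List.rec [] (fun p r ih => List.casesOn (motive := fun _ => List ℕ) r
    (Nat.rec [p] (fun _ l => p :: l) d) fun _ _ => p :: ih) u

theorem val_rep (p d i : ℕ) : (Nat.rec [p] (fun _ l => p :: l) d : List ℕ) ≠ [] ∧
    val (Nat.rec [p] (fun _ l => p :: l) d : List ℕ) i = val [p] i := by
  induction d with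
  | zero => exact ⟨by simp, rfl⟩
  | succ d ih =>
    refine ⟨by simp, ?_⟩
    change val (p :: _) i = _
    rw [val_cons _ ih.1, ih.2, val_one]
    split_ifs <;> rfl

theorem val_sx (d : ℕ) (u : List ℕ) (i : ℕ) : (u ≠ [] → sx d u ≠ []) ∧ val (sx d u) i = val u i := by
  induction u with
  | nil => exact ⟨fun h => absurd rfl h, rfl⟩
  | cons p r ih =>
    cases r with
    | nil => exact ⟨fun _ => (val_rep p d i).1, (val_rep p d i).2⟩
    | cons s r =>
      refine ⟨fun _ => List.cons_ne_nil _ _, ?_⟩
      change val (p :: sx d (s :: r)) i = _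
      rw [val_cons _ (ih.1 (by simp)), ih.2, val]

theorem valQ_sx (d : ℕ) (u : List ℕ) : valQ (sx d u) = valQ u :=
  funext fun i => congrArg (fun z : ℤ => (z : ℚ)) (val_sx d u i).2

/-- all entries satisfy `f` -/
def allL (f : ℕ → Bool) (w : List ℕ) : Bool := List.rec true (fun a _ ih => an (f a) ih) w

theorem allL_cons {f : ℕ → Bool} {a : ℕ} {w : List ℕ} :
    allL f (a :: w) = true ↔ f a = true ∧ allL f w = true := by
  change an _ _ = true ↔ _
  rw [an_eq, Bool.and_eq_true]
  rfl

/-- letters of `N` -/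
def okN (w : List ℕ) : Bool := allL (fun a => Nat.blt a 54) w
/-- letters of `N ∩ N ^ t` -/
def okT (w : List ℕ) : Bool := allL (fun a => an (Nat.blt a 52) (Bool.rec true false (Nat.beq a 11))) w
/-- letters -/
def okW (w : List ℕ) : Bool := allL (fun a => Nat.blt a 55) w

variable (tab : ℕ → List Lay) (av : ℕ → List ℕ) (amat : ℕ → List ℕ)

/-- the word `w` maps the vector `k` to the vector `l` -/
def chkW (k l d1 d2 : ℕ) (w : List ℕ) : Bool :=
  runW tab w (sx d1 (av k)) fun u => eqP u (sx d2 (av l))

/-- `m t w1` and `w2` map the vectors `k` and `l` to the same vector -/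
def chkR (k l d1 d2 : ℕ) (w1 m w2 : List ℕ) : Bool :=
  an (okN w1) <| an (okN w2) <| an (okT m) <|
    runW tab w1 (sx d1 (av k)) fun a => runK (tab 54) a fun b => runW tab m b fun c =>
      runW tab w2 (sx d2 (av l)) fun d => eqP c d

/-- equality of integers -/
def eqZ (a b : ℤ) : Bool := decide (a = b)

/-- the two inner products with the standard axes -/
def okI (u : List ℕ) (i0 i1 : ℤ) : Bool :=
  (fun a b => an (eqZ (Int.sub a b) i0) (eqZ (Int.add a b) i1))
    (Int.sub (Int.add (valN u 0) (valN u 129)) (Int.add (valN u 1) (valN u 128)))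
    (Int.mul 2 (valN u 192))

def chkS (k d : ℕ) (h : List ℕ) (i0 i1 : ℤ) : Bool :=
  runW tab h (sx d (av k)) fun u => okI u i0 i1

/-- the class matrix of a word applied to bit planes -/
def wmK (w : List ℕ) (L : List ℕ) (k : List ℕ → Bool) : Bool :=
  List.rec (motive := fun _ => List ℕ → Bool) k
    (fun a _ ih L => ktab 24 (fun r => kxs 24 0 L (kgd (amat a) r)) ih) w L

def bitf (x t : ℕ) : ℕ := Nat.land (Nat.shiftRight x t) 1

/-- the word `w` of `N` maps the class `x` to the class `y` -/
def chkF (w : List ℕ) (x y : ℕ) : Bool :=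
  an (okN w) <| ktab 24 (bitf x) fun L => wmK amat w L fun L' => ktab 24 (bitf y) fun L'' => eqP L' L''

/-- the word `w` of `N` has the class matrix `g` -/
def chkM (w g : List ℕ) : Bool :=
  an (okN w) <| ktab 24 (fun t => Nat.shiftLeft 1 t) fun L => wmK amat w L fun L' => eqP L' g

/-- the trace of the square of the first block -/
def tr2 (u : List ℕ) : ℤ :=
  Nat.rec 0 (fun i s => Int.add s (Nat.rec 0 (fun j s => Int.add s
    (Int.mul (valN u (Nat.add (Nat.mul 128 i) j)) (valN u (Nat.add (Nat.mul 128 j) i)))) 24)) 24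

def chkT (k : ℕ) (c : ℤ) : Bool :=
  mapK (fun p => Nat.land p (ones 3072)) (av k) fun u => eqZ (tr2 u) c

/-- the standard axes -/
def okAx (u : List ℕ) (c : ℤ) : Bool :=
  an (iz (Nat.xor (Nat.lor (orP u) 0x1000000000000000300000000000000000000000000000003)
      0x1000000000000000300000000000000000000000000000003)) <|
    an (eqZ (valN u 0) 512) <| an (eqZ (valN u 129) 512) <| an (eqZ (valN u 1) (-512)) <|
    an (eqZ (valN u 128) (-512)) (eqZ (valN u 192) c)

end

end CfsgMO
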