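/-
Checks for the products of the involutions of two axes: kernel functions.
-/
import Cfsg.Agent.MO.AxK

set_option autoImplicit false

namespace CfsgMO

noncomputable section

variable (tab : ℕ → List Lay) (av : ℕ → List ℕ)

/-- the word for the involution of the standard axis -/
def dW : List ℕ := [14, 16, 17, 19, 21, 22]
/-- the words for the involutions of the two standard axes -/
def eW (e : Bool) : List ℕ := Bool.rec dW (24 :: dW) e
/-- the numbers of the two standard axes -/
def eN (e : Bool) : ℕ := Bool.rec 0 12 e

/-- the inverse of a word -/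
def runI (w u : List ℕ) (k : List ℕ → Bool) : Bool := runW (fun a => (tab a).reverse) w.reverse u k

/-- the conjugate of the involution of the standard axis -/
def runT (g u : List ℕ) (k : List ℕ → Bool) : Bool :=
  runI tab g u fun a => runW tab dW a fun b => runW tab g b k

def chk2 (k d : ℕ) (h : List ℕ) (e : Bool) : Bool :=
  runW tab h (sx d (av k)) fun b => runW tab (eW e) b fun c => eqP b c

def chk4 (k d : ℕ) (g h : List ℕ) (e : Bool) : Bool :=
  runW tab h (sx d (av k)) fun b => runW tab (eW e) b fun c => runI tab (g ++ h) c fun x =>
    runW tab dW x fun y => eqP x y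

def chk6 (k d : ℕ) (g h : List ℕ) (e : Bool) : Bool :=
  runW tab h (sx d (av k)) fun b => runW tab (eW e) b fun c => runT tab (g ++ h) c fun x =>
    runW tab (eW e) x fun y => eqP x y

def chk5 (k d d1 : ℕ) (g h : List ℕ) (e : Bool) : Bool :=
  runW tab h (sx d (av k)) fun b => runW tab (eW e) b fun c => runT tab (g ++ h) c fun x =>
    runT tab (g ++ h) (av (eN e)) fun y => runW tab (eW e) y fun y' => eqP (sx d1 x) y'

def chkJ (g h : List ℕ) (c : ℤ) : Bool :=
  runT tab (g ++ h) (av 0) fun x => eqZ (valN x 192) c

end

end CfsgMO
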