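/-
The Griess algebra: the two forms and the multiplication (WP A2, part a).
-/
import Cfsg.Agent.MO.A1

set_option autoImplicit false

namespace CfsgMO

open Matrix

noncomputable section

theorem Sy_tr (A : Sy) : A.1ᵀ = A.1 := A.2

theorem trace_tr_mul {m n : Type} [Fintype m] [Fintype n] (v w : Matrix m n ℚ) :
    trace (vᵀ * w) = ∑ i, ∑ j, v i j * w i j := by
  simp only [trace, diag_apply, mul_apply, transpose_apply]
  exact Finset.sum_comm

theorem eq_zero_of_trace {m n : Type} [Fintype m] [Fintype n] {v : Matrix m n ℚ}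
    (h : trace (vᵀ * v) = 0) : v = 0 := by
  rw [trace_tr_mul] at h
  ext i j
  have h1 := (Finset.sum_eq_zero_iff_of_nonneg (fun i _ => Finset.sum_nonneg
    (fun j _ => mul_self_nonneg (v i j)))).1 h i (Finset.mem_univ _)
  have h2 := (Finset.sum_eq_zero_iff_of_nonneg (fun j _ => mul_self_nonneg (v i j))).1 h1 j
    (Finset.mem_univ _)
  simpa using h2

theorem trace_self_nonneg {m n : Type} [Fintype m] [Fintype n] (v : Matrix m n ℚ) :
    0 ≤ trace (vᵀ * v) := by
  rw [trace_tr_mul]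
  exact Finset.sum_nonneg fun i _ => Finset.sum_nonneg fun j _ => mul_self_nonneg _

theorem trace3_tr {l m n : Type} [Fintype l] [Fintype m] [Fintype n] (a : Matrix l m ℚ)
    (b : Matrix m n ℚ) (c : Matrix n l ℚ) : trace (a * b * c) = trace (cᵀ * bᵀ * aᵀ) := by
  rw [← trace_transpose, transpose_mul, transpose_mul, Matrix.mul_assoc]

theorem F2_aa (a : F2) : a + a = 0 := by revert a; decide

theorem Cl_aa (c : Cl) : c + c = 0 := funext fun i => F2_aa (c i)

namespace Dat

variable (D : Dat)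

theorem qc_tr (p : D.I) : (q (D.cls p))ᵀ = q (D.cls p) := by
  rw [q_transpose, D.cls_sing, sg_zero, one_smul]

theorem qc_sq (p : D.I) : q (D.cls p) * q (D.cls p) = 1 := by
  rw [q_mul, D.cls_sing, sg_zero, one_smul, Cl_aa, q_zero]

theorem trace_qc (p : D.I) : trace (q (D.cls p)) = 0 := by
  rw [trace_q, if_neg (D.cls_ne p)]

theorem trace_qq (p s : D.I) :
    trace (q (D.cls p) * q (D.cls s)) = if p = s then 4096 else 0 := by
  by_cases h : p = s
  · subst h; rw [qc_sq, ← q_zero, trace_q]; simp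
  · rw [q_mul, trace_smul, trace_q, if_neg h, if_neg, smul_zero]
    intro e
    apply h
    apply D.cls_inj
    have : D.cls p + D.cls s + D.cls s = 0 + D.cls s := by rw [e]
    rwa [add_assoc, Cl_aa, add_zero, zero_add] at this

theorem rho_tr (x : D.I → ℚ) : (D.rho x)ᵀ = D.rho x := by
  simp only [rho, transpose_sum, transpose_smul, qc_tr]

theorem rho_add (x y : D.I → ℚ) : D.rho (x + y) = D.rho x + D.rho y := by
  simp only [rho, Pi.add_apply, add_smul, Finset.sum_add_distrib]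

theorem rho_smul (c : ℚ) (x : D.I → ℚ) : D.rho (c • x) = c • D.rho x := by
  simp only [rho, Pi.smul_apply, smul_eq_mul, mul_smul, Finset.smul_sum]

theorem rho_zero : D.rho 0 = 0 := by simp [rho]

theorem rho_single (p : D.I) (a : ℚ) : D.rho (Pi.single p a) = a • q (D.cls p) := by
  unfold rho
  rw [Finset.sum_eq_single p]
  · simp
  · intro b _ hb; simp [hb]
  · simp

theorem ip_comm (u v : D.V) : D.ip u v = D.ip v u := by
  unfold ip
  rw [trace_mul_comm u.1.1, dotProduct_comm, trace_tr_mul, trace_tr_mul]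
  simp only [mul_comm]

theorem ip_add (u u' v : D.V) : D.ip (u + u') v = D.ip u v + D.ip u' v := by
  simp only [ip, Prod.fst_add, Prod.snd_add, Submodule.coe_add, Matrix.add_mul, trace_add,
    add_dotProduct, transpose_add]
  ring

theorem ip_smul (c : ℚ) (u v : D.V) : D.ip (c • u) v = c * D.ip u v := by
  simp only [ip, Prod.smul_fst, Prod.smul_snd, Submodule.coe_smul, Matrix.smul_mul, trace_smul,
    smul_dotProduct, transpose_smul, smul_eq_mul]
  ring

theorem eq_zero_of_ip {u : D.V} (h : D.ip u u = 0) : u = 0 := by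
  unfold ip at h
  have h1 := trace_self_nonneg u.1.1
  rw [Sy_tr] at h1
  have h2 : 0 ≤ u.2.1 ⬝ᵥ u.2.1 := Finset.sum_nonneg fun i _ => mul_self_nonneg _
  have h3 := trace_self_nonneg u.2.2
  refine Prod.ext (Subtype.ext ?_) (Prod.ext ?_ ?_)
  · apply eq_zero_of_trace; rw [Sy_tr]; linarith
  · exact dotProduct_self_eq_zero.1 (by linarith)
  · exact eq_zero_of_trace (by linarith)

theorem eq_of_ip {u v : D.V} (h : ∀ w, D.ip u w = D.ip v w) : u = v := by
  have : D.ip (u - v) (u - v) = 0 := by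
    have e : u - v = u + (-1 : ℚ) • v := by module
    have : D.ip (u + (-1 : ℚ) • v) (u - v) = 0 := by rw [ip_add, ip_smul, h]; ring
    rwa [← e] at this
  exact sub_eq_zero.1 (D.eq_zero_of_ip this)

theorem f1_symm (u v w : D.V) : D.f1 u v w = D.f1 u w v := by
  unfold f1
  congr 1
  · congr 1
    · exact Finset.sum_congr rfl fun p _ => by ring
    · rw [trace3_tr v.2.2, transpose_transpose, Sy_tr, ← trace_transpose (v.2.2 * _), transpose_mul,
        transpose_transpose]
  · refine Finset.sum_congr rfl fun p _ => ?_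
    rw [trace3_tr v.2.2ᵀ, transpose_transpose, qc_tr, dotProduct_mulVec (v.2.2 *ᵥ D.lam p),
      ← mulVec_transpose, qc_tr, dotProduct_comm]

theorem f_12 (u v w : D.V) : D.f u v w = D.f v u w := by
  unfold f
  rw [D.f1_symm w u v, trace3_tr (D.rho u.2.1), rho_tr, rho_tr, rho_tr, trace_mul_cycle (D.rho w.2.1),
    trace_mul_cycle (D.rho u.2.1)]
  ring

theorem f_23 (u v w : D.V) : D.f u v w = D.f u w v := by
  unfold f
  rw [D.f1_symm u v w, trace3_tr (D.rho u.2.1), rho_tr, rho_tr, rho_tr, trace_mul_cycle (D.rho w.2.1),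
    trace_mul_cycle u.1.1 v.1.1, trace_mul_cycle u.1.1 w.1.1]
  ring

theorem f1_add (u u' v w : D.V) : D.f1 (u + u') v w = D.f1 u v w + D.f1 u' v w := by
  simp only [f1, Prod.fst_add, Prod.snd_add, Submodule.coe_add, Matrix.add_mul, Matrix.mul_add,
    trace_add, add_mulVec, dotProduct_add, Pi.add_apply, add_div, add_mul, Finset.sum_add_distrib]
  ring

theorem f1_add' (u v v' w : D.V) : D.f1 u (v + v') w = D.f1 u v w + D.f1 u v' w := by
  simp only [f1, Prod.fst_add, Prod.snd_add, Matrix.add_mul, transpose_add,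
    trace_add, add_mulVec, add_dotProduct, Pi.add_apply, add_div, add_mul, mul_add, mul_sub,
    Finset.sum_add_distrib, Finset.sum_sub_distrib]
  ring

theorem f1_smul (c : ℚ) (u v w : D.V) : D.f1 (c • u) v w = c * D.f1 u v w := by
  simp only [f1, Prod.smul_fst, Prod.smul_snd, Submodule.coe_smul, Matrix.smul_mul, Matrix.mul_smul,
    trace_smul, smul_mulVec, dotProduct_smul, Pi.smul_apply, smul_eq_mul, mul_add, Finset.mul_sum]
  congr 1
  · congr 1
    · exact Finset.sum_congr rfl fun p _ => by ring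
    · ring
  · exact Finset.sum_congr rfl fun p _ => by ring

theorem f1_smul' (c : ℚ) (u v w : D.V) : D.f1 u (c • v) w = c * D.f1 u v w := by
  simp only [f1, Prod.smul_fst, Prod.smul_snd, Matrix.smul_mul, transpose_smul,
    trace_smul, smul_mulVec, smul_dotProduct, Pi.smul_apply, smul_eq_mul, mul_add, Finset.mul_sum]
  congr 1
  · congr 1
    · exact Finset.sum_congr rfl fun p _ => by ring
    · ring
  · exact Finset.sum_congr rfl fun p _ => by ring

theorem f_add (u u' v w : D.V) : D.f (u + u') v w = D.f u v w + D.f u' v w := by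
  simp only [f, f1_add, f1_add', Prod.fst_add, Prod.snd_add, Submodule.coe_add, Matrix.add_mul,
    Matrix.mul_add, trace_add, rho_add]
  ring

theorem f_smul (c : ℚ) (u v w : D.V) : D.f (c • u) v w = c * D.f u v w := by
  simp only [f, f1_smul, f1_smul', Prod.smul_fst, Prod.smul_snd, Submodule.coe_smul,
    Matrix.smul_mul, Matrix.mul_smul, trace_smul, rho_smul, smul_eq_mul]
  ring

/-- the invariant form as a bilinear form -/
def ipB : LinearMap.BilinForm ℚ D.V :=
  LinearMap.mk₂ ℚ D.ip D.ip_add (fun c u v => D.ip_smul c u v)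
    (fun u v v' => by rw [ip_comm, ip_add, D.ip_comm v, D.ip_comm v'])
    (fun c u v => by rw [ip_comm, ip_smul, D.ip_comm v, smul_eq_mul])

theorem ipB_apply (u v : D.V) : D.ipB u v = D.ip u v := rfl

theorem exists_rep (φ : D.V →ₗ[ℚ] ℚ) : ∃ u, ∀ v, D.ip u v = φ v := by
  have inj : Function.Injective (D.ipB : D.V →ₗ[ℚ] Module.Dual ℚ D.V) := fun u v h =>
    D.eq_of_ip fun w => LinearMap.congr_fun h w
  have sur := (LinearMap.injective_iff_surjective_of_finrank_eq_finrank
    (Subspace.dual_finrank_eq (K := ℚ) (V := D.V)).symm).1 inj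
  obtain ⟨u, hu⟩ := sur φ
  exact ⟨u, fun v => LinearMap.congr_fun hu v⟩

theorem exists_ad : ∃ ad : D.V →ₗ[ℚ] Module.End ℚ D.V, ∀ a b c, D.ip (ad a b) c = D.f a b c := by
  have h : ∀ a b, ∃ u, ∀ c, D.ip u c = D.f a b c := fun a b =>
    D.exists_rep
      { toFun := fun c => D.f a b c
        map_add' := fun c c' => by
          rw [f_23, f_12, f_add, D.f_12 c, D.f_12 c', D.f_23 a c, D.f_23 a c']
        map_smul' := fun r c => by
          rw [f_23, f_12, f_smul, D.f_12 c, D.f_23 a c]; rfl }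
  choose m hm using h
  refine ⟨LinearMap.mk₂ ℚ m ?_ ?_ ?_ ?_, hm⟩
  · intro a a' b
    exact D.eq_of_ip fun c => by rw [ip_add, hm, hm, hm, f_add]
  · intro r a b
    exact D.eq_of_ip fun c => by rw [ip_smul, hm, hm, f_smul]
  · intro a b b'
    exact D.eq_of_ip fun c => by rw [ip_add, hm, hm, hm, f_12, f_add, D.f_12 b, D.f_12 b']
  · intro r a b
    exact D.eq_of_ip fun c => by rw [ip_smul, hm, hm, f_12, f_smul, D.f_12 b]

/-- multiplication in the algebra -/
def ad : D.V →ₗ[ℚ] Module.End ℚ D.V := D.exists_ad.choose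

theorem ad_spec (a b c : D.V) : D.ip (D.ad a b) c = D.f a b c := D.exists_ad.choose_spec a b c

/-- the involution of an axis -/
def tt (a : D.V) : Module.End ℚ D.V :=
  1 - (16 / 217 : ℚ) • (D.ad a * (D.ad a - (16 : ℚ) • 1) * (D.ad a - (4 : ℚ) • 1))

variable {D}

theorem unit_surj (g : D.Γ) (v : D.V) : g.1 ((g⁻¹).1 v) = v := LinearMap.congr_fun g.mul_inv v
theorem unit_inj (g : D.Γ) (v : D.V) : (g⁻¹).1 (g.1 v) = v := LinearMap.congr_fun g.inv_mul v

theorem ad_conj {g : D.Γ} (hg : g ∈ D.Au) (a b : D.V) :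
    g.1 (D.ad a b) = D.ad (g.1 a) (g.1 b) :=
  D.eq_of_ip fun c => by
    rw [← unit_surj g c, hg.1, ad_spec, ad_spec, hg.2]

theorem tt_conj {g : D.Γ} (hg : g ∈ D.Au) (a : D.V) : g.1 * D.tt a = D.tt (g.1 a) * g.1 := by
  refine LinearMap.ext fun v => ?_
  simp only [tt, Module.End.mul_apply, LinearMap.sub_apply, LinearMap.smul_apply,
    Module.End.one_apply, map_sub, map_smul, ad_conj hg]

theorem N_le_Au : D.N ≤ D.Au := by
  intro g hg
  obtain ⟨U, σ, h, e⟩ := of_mem_N hg
  obtain ⟨π, ε, hπ⟩ := h.perm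
  have hU := h.1
  have hσ := h.2.1
  have hU' : U * Uᵀ = 1 := mul_eq_one_comm.1 hU
  have hσ' : σ * σᵀ = 1 := mul_eq_one_comm.1 hσ
  have eA : ∀ v : D.V, (g.1 v).1.1 = σ * v.1.1 * σᵀ := fun v => by rw [e]; rfl
  have eW : ∀ v : D.V, (g.1 v).2.2 = U * v.2.2 * σᵀ := fun v => by rw [e]; rfl
  have eX : ∀ (v : D.V) p, (g.1 v).2.1 (π p) = sg (ε p) * v.2.1 p := fun v p => by
    rw [e]; exact actL_X h (hπ p).1 v
  have cσ : ∀ {n : Type} [Fintype n] (X : Matrix (Fin 24) n ℚ), σᵀ * (σ * X) = X := fun X => by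
    rw [← Matrix.mul_assoc, hσ, Matrix.one_mul]
  have cU : ∀ {n : Type} [Fintype n] (X : Matrix E n ℚ), Uᵀ * (U * X) = X := fun X => by
    rw [← Matrix.mul_assoc, hU, Matrix.one_mul]
  have tσ : ∀ X : M24, trace (σ * (X * σᵀ)) = trace X := fun X => by
    rw [trace_mul_comm, Matrix.mul_assoc, hσ, Matrix.mul_one]
  have tU : ∀ X : ME, trace (U * (X * Uᵀ)) = trace X := fun X => by
    rw [trace_mul_comm, Matrix.mul_assoc, hU, Matrix.mul_one]
  have hq : ∀ p, q (D.cls (π p)) * U = sg (ε p) • (U * q (D.cls p)) := fun p => by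
    rw [(hπ p).1, smul_smul, sg_mul_self, one_smul]
  have eR : ∀ v : D.V, D.rho (g.1 v).2.1 = U * D.rho v.2.1 * Uᵀ := fun v => by
    unfold rho
    rw [← π.sum_comp, Matrix.mul_sum, Matrix.sum_mul]
    refine Finset.sum_congr rfl fun p _ => ?_
    rw [eX, Matrix.mul_smul, Matrix.smul_mul, (hπ p).1, Matrix.smul_mul, Matrix.mul_assoc, hU',
      Matrix.mul_one, smul_smul, mul_comm]
  have hl : ∀ p, ∃ t : ℚ, t * t = 1 ∧ σᵀ *ᵥ D.lam (π p) = t • D.lam p := fun p => by
    have k : σᵀ *ᵥ (σ *ᵥ D.lam p) = D.lam p := by rw [mulVec_mulVec, hσ, one_mulVec]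
    rcases (hπ p).2 with h1 | h1
    · exact ⟨1, by norm_num, by rw [← h1, k, one_smul]⟩
    · exact ⟨-1, by norm_num, by rw [h1, mulVec_neg] at k; rw [neg_one_smul, ← k, neg_neg]⟩
  have h1 : ∀ u v w : D.V, D.f1 (g.1 u) (g.1 v) (g.1 w) = D.f1 u v w := by
    intro u v w
    unfold f1
    congr 1
    · congr 1
      · rw [← π.sum_comp]
        refine Finset.sum_congr rfl fun p _ => ?_
        obtain ⟨t, ht, hl⟩ := hl p
        rw [eX, eX, eA, ← mulVec_mulVec, ← mulVec_mulVec, dotProduct_mulVec, ← mulVec_transpose, hl,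
          mulVec_smul, smul_dotProduct, dotProduct_smul, smul_eq_mul, smul_eq_mul]
        have := sg_mul_self (ε p)
        linear_combination (D.lam p ⬝ᵥ u.1.1 *ᵥ D.lam p / 8 * v.2.1 p * w.2.1 p) * (t * t) * this +
          (D.lam p ⬝ᵥ u.1.1 *ᵥ D.lam p / 8 * v.2.1 p * w.2.1 p) * ht
      · rw [eA, eW, eW]
        simp only [transpose_mul, transpose_transpose, Matrix.mul_assoc, cσ]
        rw [tσ, ← Matrix.mul_assoc u.1.1, ← Matrix.mul_assoc v.2.2 (_ * _), tU,
          ← Matrix.mul_assoc v.2.2 _ Uᵀ, tU]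
    · rw [← π.sum_comp]
      refine Finset.sum_congr rfl fun p _ => ?_
      obtain ⟨t, ht, hl⟩ := hl p
      have k1 : trace ((U * v.2.2 * σᵀ)ᵀ * q (D.cls (π p)) * (U * w.2.2 * σᵀ)) =
          sg (ε p) * trace (v.2.2ᵀ * q (D.cls p) * w.2.2) := by
        simp only [transpose_mul, transpose_transpose, Matrix.mul_assoc]
        rw [← Matrix.mul_assoc (q _) U, hq, Matrix.smul_mul, Matrix.mul_smul, Matrix.mul_smul,
          Matrix.mul_smul, trace_smul, Matrix.mul_assoc U, cU, ← Matrix.mul_assoc (q _),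
          ← Matrix.mul_assoc v.2.2ᵀ, tσ, smul_eq_mul]
      have k2 : ∀ x : MW, (U * x * σᵀ) *ᵥ D.lam (π p) = t • (U *ᵥ (x *ᵥ D.lam p)) := fun x => by
        rw [← mulVec_mulVec, ← mulVec_mulVec, hl, mulVec_smul, mulVec_smul]
      have k3 : ∀ x y : E → ℚ, (U *ᵥ x) ⬝ᵥ q (D.cls (π p)) *ᵥ (U *ᵥ y) =
          sg (ε p) * (x ⬝ᵥ q (D.cls p) *ᵥ y) := fun x y => by
        rw [mulVec_mulVec, hq, smul_mulVec, dotProduct_smul, ← mulVec_mulVec, dotProduct_mulVec,
          ← mulVec_transpose, mulVec_mulVec, hU, one_mulVec, smul_eq_mul]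
      rw [eX, eW, eW, k1, k2, k2, mulVec_smul, smul_dotProduct, dotProduct_smul, k3, smul_eq_mul,
        smul_eq_mul]
      have := sg_mul_self (ε p)
      linear_combination (u.2.1 p / 8 * (trace (v.2.2ᵀ * q (D.cls p) * w.2.2) -
          t * t * (v.2.2 *ᵥ D.lam p) ⬝ᵥ q (D.cls p) *ᵥ (w.2.2 *ᵥ D.lam p) / 4)) * this -
        (u.2.1 p / 8 * ((v.2.2 *ᵥ D.lam p) ⬝ᵥ q (D.cls p) *ᵥ (w.2.2 *ᵥ D.lam p) / 4)) * ht
  refine ⟨fun a b => ?_, fun a b c => ?_⟩
  · unfold ip
    congr 1
    · congr 1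
      · rw [eA, eA]
        simp only [Matrix.mul_assoc, cσ]
        rw [← Matrix.mul_assoc a.1.1, tσ]
      · unfold dotProduct
        rw [← π.sum_comp]
        refine Finset.sum_congr rfl fun p _ => ?_
        rw [eX, eX]
        linear_combination (a.2.1 p * b.2.1 p) * sg_mul_self (ε p)
    · rw [eW, eW]
      simp only [transpose_mul, transpose_transpose, Matrix.mul_assoc, cU]
      rw [← Matrix.mul_assoc a.2.2ᵀ, tσ]
  · unfold f
    rw [h1, h1, h1, eA, eA, eA, eR, eR, eR]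
    simp only [Matrix.mul_assoc, cσ, cU]
    simp only [← Matrix.mul_assoc _ _ σᵀ, ← Matrix.mul_assoc _ _ Uᵀ]
    simp only [Matrix.mul_assoc σ, Matrix.mul_assoc U, tσ, tU]

end Dat

end

end CfsgMO
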