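/-
The Griess algebra: the explicit multiplication, the identity, invariants (WP A2, part b).
-/
import Cfsg.Agent.MO.A2a
import Cfsg.Agent.H6.Char2

set_option autoImplicit false

namespace CfsgMO

open Matrix

noncomputable section

theorem vv_mulVec {m n : Type} [Fintype n] (u : m → ℚ) (v w : n → ℚ) :
    vecMulVec u v *ᵥ w = (v ⬝ᵥ w) • u := by
  rw [vecMulVec_mulVec]; ext i; simp [mul_comm]

theorem trace_vv_mul {n : Type} [Fintype n] (u v : n → ℚ) (C : Matrix n n ℚ) :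
    trace (vecMulVec u v * C) = v ⬝ᵥ C *ᵥ u := by
  rw [vecMulVec_mul, trace_vecMulVec, dotProduct_mulVec, dotProduct_comm]

theorem trace_lr {m n : Type} [Fintype m] [Fintype n] [DecidableEq m] [DecidableEq n]
    (M : Matrix m m ℚ) (N : Matrix n n ℚ) (φ : Module.End ℚ (Matrix m n ℚ))
    (h : ∀ v, φ v = M * v * N) : LinearMap.trace ℚ _ φ = trace M * trace N := by
  rw [LinearMap.trace_eq_matrix_trace ℚ (Matrix.stdBasis ℚ m n), trace, Fintype.sum_prod_type,
    trace, trace, Finset.sum_mul_sum]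
  refine Finset.sum_congr rfl fun i _ => Finset.sum_congr rfl fun j _ => ?_
  rw [diag_apply, LinearMap.toMatrix_apply, h, Matrix.stdBasis_eq_single]
  have : ∀ X : Matrix m n ℚ, (Matrix.stdBasis ℚ m n).repr X (i, j) = X i j := fun X => by
    simp [Matrix.stdBasis]
  rw [this, single_eq_single_vecMulVec_single, mul_vecMulVec, vecMulVec_mul, vecMulVec_apply]
  simp

theorem trace_tr_swap {m n : Type} [Fintype m] [Fintype n] (v w : Matrix m n ℚ) :
    trace (vᵀ * w) = trace (v * wᵀ) := by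
  rw [← trace_transpose (v * _), transpose_mul, transpose_transpose, trace_mul_comm]

theorem trace_W3 {m n : Type} [Fintype m] [Fintype n] [DecidableEq n] (Q : Matrix m m ℚ)
    (hQ : Qᵀ = Q) (v w : Matrix m n ℚ) (l : n → ℚ) :
    trace ((Q * v * (1 - (1 / 4 : ℚ) • vecMulVec l l))ᵀ * w) =
      trace (vᵀ * Q * w) - (v *ᵥ l) ⬝ᵥ Q *ᵥ (w *ᵥ l) / 4 := by
  simp only [transpose_mul, transpose_sub, transpose_one, transpose_smul, transpose_vecMulVec, hQ,
    Matrix.sub_mul, Matrix.one_mul, Matrix.smul_mul, trace_sub, trace_smul, smul_eq_mul]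
  rw [Matrix.mul_assoc (vecMulVec l l), trace_vv_mul, ← mulVec_mulVec, ← mulVec_mulVec,
    dotProduct_mulVec l, vecMul_transpose]
  ring

theorem GL_map_inj (n : ℕ) : Function.Injective
    (Matrix.GeneralLinearGroup.map (n := Fin n) (algebraMap ℚ ℝ)) := by
  intro A B h
  ext i j
  have := congrArg (fun X : GL (Fin n) ℝ => X.1 i j) h
  exact (algebraMap ℚ ℝ).injective this

namespace Dat

variable (D : Dat)

/-- the projector on a short vector, times 32 -/
def PL (p : D.I) : M24 := vecMulVec (D.lam p) (D.lam p)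

theorem PL_tr (p : D.I) : (D.PL p)ᵀ = D.PL p := transpose_vecMulVec _ _

theorem PL_mul_PL (p : D.I) (B : M24) :
    D.PL p * B * D.PL p = (D.lam p ⬝ᵥ B *ᵥ D.lam p) • D.PL p := by
  unfold PL
  rw [vecMulVec_mul, vecMulVec_mul_vecMulVec, vecMulVec_smul, dotProduct_mulVec]

theorem PL_sq (p : D.I) : D.PL p * D.PL p = (32 : ℚ) • D.PL p := by
  have := D.PL_mul_PL p 1
  rwa [Matrix.mul_one, one_mulVec, D.lam_norm] at this

theorem trace_PL (p : D.I) : trace (D.PL p) = 32 := by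
  rw [PL, trace_vecMulVec, D.lam_norm]

theorem PL_mulVec (p : D.I) (v : Fin 24 → ℚ) : D.PL p *ᵥ v = (D.lam p ⬝ᵥ v) • D.lam p :=
  vv_mulVec _ _ _

def mA (A : M24) (x : D.I → ℚ) (B : M24) (y : D.I → ℚ) : M24 :=
  (2 : ℚ) • (A * B + B * A) + ∑ p, (x p * y p / 8) • D.PL p

def mX (A : M24) (x : D.I → ℚ) (B : M24) (y : D.I → ℚ) : D.I → ℚ := fun s =>
  D.c2 * trace (D.rho x * D.rho y * q (D.cls s)) / 4096 +
    (D.lam s ⬝ᵥ A *ᵥ D.lam s) / 8 * y s + (D.lam s ⬝ᵥ B *ᵥ D.lam s) / 8 * x s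

def mW (A : M24) (x : D.I → ℚ) (v : MW) : MW :=
  v * A + (trace A / 8) • v +
    ∑ p, (x p / 8) • (q (D.cls p) * v * (1 - (1 / 4 : ℚ) • D.PL p))

theorem mA_sy (A B : Sy) (x y : D.I → ℚ) : D.mA A.1 x B.1 y ∈ Sy := by
  show _ = _
  simp only [mA, transpose_add, transpose_smul, transpose_mul, Sy_tr, transpose_sum, PL_tr]
  rw [add_comm (B.1 * A.1)]

theorem ad_eq {a : D.V} (ha : a.2.2 = 0) (b : D.V) :
    D.ad a b = (⟨D.mA a.1.1 a.2.1 b.1.1 b.2.1, D.mA_sy _ _ _ _⟩, D.mX a.1.1 a.2.1 b.1.1 b.2.1,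
      D.mW a.1.1 a.2.1 b.2.2) := by
  refine D.eq_of_ip fun c => ?_
  rw [ad_spec]
  have k1 : trace (D.mA a.1.1 a.2.1 b.1.1 b.2.1 * c.1.1) =
      2 * (trace (a.1.1 * b.1.1 * c.1.1) + trace (b.1.1 * a.1.1 * c.1.1)) +
      ∑ p, (D.lam p ⬝ᵥ c.1.1 *ᵥ D.lam p) / 8 * a.2.1 p * b.2.1 p := by
    simp only [mA, Matrix.add_mul, Matrix.smul_mul, Matrix.sum_mul, trace_add, trace_smul,
      trace_sum, PL, trace_vv_mul, smul_eq_mul]
    congr 1
    exact Finset.sum_congr rfl fun p _ => by ring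
  have k2 : D.mX a.1.1 a.2.1 b.1.1 b.2.1 ⬝ᵥ c.2.1 =
      D.c2 * trace (D.rho a.2.1 * D.rho b.2.1 * D.rho c.2.1) / 4096 +
      (∑ p, (D.lam p ⬝ᵥ a.1.1 *ᵥ D.lam p) / 8 * b.2.1 p * c.2.1 p) +
      ∑ p, (D.lam p ⬝ᵥ b.1.1 *ᵥ D.lam p) / 8 * a.2.1 p * c.2.1 p := by
    have : D.rho c.2.1 = ∑ p, c.2.1 p • q (D.cls p) := rfl
    rw [this, Matrix.mul_sum, trace_sum, Finset.mul_sum, Finset.sum_div, ← Finset.sum_add_distrib,
      ← Finset.sum_add_distrib]
    refine Finset.sum_congr rfl fun p _ => ?_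
    rw [Matrix.mul_smul, trace_smul, smul_eq_mul, mX]
    ring
  have k3 : trace ((D.mW a.1.1 a.2.1 b.2.2)ᵀ * c.2.2) =
      (trace (b.2.2 * a.1.1 * c.2.2ᵀ) + trace a.1.1 / 8 * trace (b.2.2 * c.2.2ᵀ)) +
      ∑ p, a.2.1 p / 8 * (trace (b.2.2ᵀ * q (D.cls p) * c.2.2) -
        (b.2.2 *ᵥ D.lam p) ⬝ᵥ q (D.cls p) *ᵥ (c.2.2 *ᵥ D.lam p) / 4) := by
    have j1 : trace ((b.2.2 * a.1.1)ᵀ * c.2.2) = trace (b.2.2 * a.1.1 * c.2.2ᵀ) := trace_tr_swap _ _
    have j2 : trace (b.2.2ᵀ * c.2.2) = trace (b.2.2 * c.2.2ᵀ) := trace_tr_swap _ _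
    have j3 : ∀ p, trace ((q (D.cls p) * b.2.2 * (1 - (1 / 4 : ℚ) • D.PL p))ᵀ * c.2.2) =
        trace (b.2.2ᵀ * q (D.cls p) * c.2.2) -
          (b.2.2 *ᵥ D.lam p) ⬝ᵥ q (D.cls p) *ᵥ (c.2.2 *ᵥ D.lam p) / 4 := fun p =>
      trace_W3 _ (D.qc_tr p) _ _ _
    rw [mW, transpose_add, transpose_add, transpose_smul, transpose_sum, Matrix.add_mul,
      Matrix.add_mul, Matrix.smul_mul, Matrix.sum_mul, trace_add, trace_add, trace_smul, trace_sum,
      j1, j2, smul_eq_mul]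
    refine congrArg _ (Finset.sum_congr rfl fun p _ => ?_)
    rw [transpose_smul, Matrix.smul_mul, trace_smul, j3, smul_eq_mul]
  unfold ip
  rw [k1, k2, k3]
  simp only [f, f1, ha, Matrix.zero_mul, trace_zero, transpose_zero, zero_mulVec,
    zero_dotProduct, mul_zero, zero_div, sub_zero, add_zero,
    Finset.sum_const_zero]
  ring

/-- four times the identity of the algebra -/
def eI : D.V := (⟨1, transpose_one⟩, 0, 0)

theorem ad_eI (b : D.V) : D.ad D.eI b = (4 : ℚ) • b := by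
  rw [D.ad_eq rfl]
  refine Prod.ext (Subtype.ext ?_) (Prod.ext (funext fun s => ?_) ?_)
  · show D.mA 1 0 b.1.1 b.2.1 = (4 : ℚ) • b.1.1
    simp only [mA, Matrix.one_mul, Matrix.mul_one, Pi.zero_apply, zero_mul, zero_div, zero_smul,
      Finset.sum_const_zero, add_zero]
    module
  · show D.mX 1 0 b.1.1 b.2.1 s = 4 * b.2.1 s
    simp only [mX, rho_zero, Matrix.zero_mul, trace_zero, one_mulVec, D.lam_norm, Pi.zero_apply]
    ring
  · show D.mW 1 0 b.2.2 = (4 : ℚ) • b.2.2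
    simp only [mW, Matrix.mul_one, Pi.zero_apply, zero_div, zero_smul,
      Finset.sum_const_zero, add_zero, trace_one, Fintype.card_fin]
    module

theorem f_one (u v : D.V) : D.f D.eI u v = 4 * D.ip u v := by
  rw [← ad_spec, ad_eI, ip_smul]

theorem ip_eI (a : D.V) : D.ip D.eI a = trace a.1.1 := by
  simp [ip, eI]

variable {D}

theorem eI_fix {g : D.Γ} (hg : g ∈ D.Au) : g.1 D.eI = D.eI := by
  refine D.eq_of_ip fun c => ?_
  have h1 : D.f (g.1 D.eI) D.eI c = 4 * D.ip D.eI c := by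
    have h := hg.2 D.eI ((g⁻¹).1 D.eI) ((g⁻¹).1 c)
    have h' := hg.1 ((g⁻¹).1 D.eI) ((g⁻¹).1 c)
    rw [unit_surj, unit_surj] at h h'
    rw [h, h', ← ad_spec, ad_eI, ip_smul]
  rw [f_12, ← ad_spec, ad_eI, ip_smul] at h1
  linarith

theorem trace_inv {g : D.Γ} (hg : g ∈ D.Au) (a : D.V) : trace (g.1 a).1.1 = trace a.1.1 := by
  rw [← ip_eI, ← ip_eI, ← hg.1 D.eI a, eI_fix hg]

theorem finrank_Sy : Module.finrank ℚ Sy ≤ 300 := by
  let φ : Sy →ₗ[ℚ] ({x : Fin 24 × Fin 24 // x.1 ≤ x.2} → ℚ) :=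
    { toFun := fun A x => A.1 x.1.1 x.1.2
      map_add' := fun _ _ => rfl
      map_smul' := fun _ _ => rfl }
  have inj : Function.Injective φ := by
    intro A B h
    ext i j
    rcases le_total i j with hij | hij
    · exact congrFun h ⟨(i, j), hij⟩
    · have := congrFun h ⟨(j, i), hij⟩
      have hA := congrFun (congrFun (Sy_tr A) i) j
      have hB := congrFun (congrFun (Sy_tr B) i) j
      rw [transpose_apply] at hA hB
      rw [← hA, ← hB]
      exact this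
  have := LinearMap.finrank_le_finrank_of_injective inj
  rw [Module.finrank_fintype_fun_eq_card] at this
  have c : Fintype.card {x : Fin 24 × Fin 24 // x.1 ≤ x.2} = 300 := by decide +kernel
  omega

/-- the real representation of degree 196883 -/
theorem exists_real (hI : Fintype.card D.I = 98280) {G : Subgroup D.Γ} (hG : G ≤ D.Au)
    [IsSimpleGroup G] (hz : D.z ∈ G) :
    ∃ H : Subgroup (GL (Fin 196883) ℝ), Nonempty (G ≃* H) := by
  let ρ : G →* Module.End ℚ D.V := (Units.coeHom _).comp G.subtype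
  let U : Submodule ℚ D.V := LinearMap.ker (D.ipB D.eI)
  have hU : ∀ g, ∀ v ∈ U, ρ g v ∈ U := fun g v hv => by
    have h : D.ip D.eI v = 0 := hv
    show D.ip D.eI (g.1.1 v) = 0
    rw [ip_eI, trace_inv (hG g.2), ← ip_eI, h]
  have hV : Module.finrank ℚ D.V ≤ 196884 := by
    have h1 : Module.finrank ℚ D.V = Module.finrank ℚ Sy + Module.finrank ℚ ((D.I → ℚ) × MW) :=
      Module.finrank_prod
    have h2 : Module.finrank ℚ ((D.I → ℚ) × MW) =
      Module.finrank ℚ (D.I → ℚ) + Module.finrank ℚ MW := Module.finrank_prod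
    have h3 : Module.finrank ℚ (D.I → ℚ) = Fintype.card D.I := Module.finrank_fintype_fun_eq_card ℚ
    have h4 : Module.finrank ℚ MW =
      Fintype.card E * Fintype.card (Fin 24) * Module.finrank ℚ ℚ := Module.finrank_matrix ℚ ℚ _ _
    rw [card_E, Fintype.card_fin, Module.finrank_self] at h4
    have := finrank_Sy
    omega
  have hlt : Module.finrank ℚ U < Module.finrank ℚ D.V := by
    refine Submodule.finrank_lt fun h => ?_
    have : D.eI ∈ U := h ▸ Submodule.mem_top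
    have h2 : D.ip D.eI D.eI = 0 := this
    rw [ip_eI] at h2
    simp [eI] at h2
  obtain ⟨H, ⟨φ⟩⟩ := CfsgH6.exists_GL_of_le (n := 196883) (V := U) (by omega)
    (CfsgH6.subHom ρ U hU) ⟨⟨D.z, hz⟩, fun h => by
      have hw : ((0, 0, Matrix.of fun _ _ => 1) : D.V) ∈ U := by
        show D.ip D.eI _ = 0
        rw [ip_eI]; simp
      have h1 := congrArg Subtype.val (LinearMap.congr_fun h ⟨_, hw⟩)
      have h2 : D.z.1 (0, 0, Matrix.of fun _ _ => 1) = (0, 0, Matrix.of fun _ _ => 1) := h1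
      rw [z_apply] at h2
      have h3 := congrFun (congrFun (congrArg (fun v : D.V => v.2.2) h2) 0) 0
      simp at h3
      norm_num at h3⟩
  exact ⟨H.map _, ⟨φ.trans (H.equivMapOfInjective _ (GL_map_inj 196883))⟩⟩

theorem W_iff (a : D.V) : D.z.1 a = a ↔ a.2.2 = 0 := by
  rw [z_apply]
  constructor
  · intro h
    have h1 : -a.2.2 = a.2.2 := congrArg (fun v : D.V => v.2.2) h
    have h2 : (2 : ℚ) • a.2.2 = 0 := by rw [two_smul]; nth_rewrite 1 [← h1]; exact neg_add_cancel _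
    exact (smul_eq_zero.1 h2).resolve_left two_ne_zero
  · intro h
    refine Prod.ext rfl (Prod.ext rfl ?_)
    show -a.2.2 = a.2.2
    rw [h, neg_zero]

theorem cz_apply {g : D.Γ} (hz : g * D.z = D.z * g) (a : D.V) : g.1 (D.z.1 a) = D.z.1 (g.1 a) :=
  LinearMap.congr_fun (congrArg Units.val hz) a

theorem cz_zero {g : D.Γ} (hz : g * D.z = D.z * g) {a : D.V} (ha : a.2.2 = 0) :
    (g.1 a).2.2 = 0 := by
  rw [← W_iff, ← cz_apply hz, (W_iff a).2 ha]

/-- the action on the third summand -/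
def gW (g : D.Γ) : Module.End ℚ MW where
  toFun w := (g.1 (0, 0, w)).2.2
  map_add' w w' := by
    have : ((0, 0, w + w') : D.V) = (0, 0, w) + (0, 0, w') := by simp
    rw [this, map_add]; rfl
  map_smul' c w := by
    have : ((0, 0, c • w) : D.V) = c • (0, 0, w) := by simp
    rw [this, map_smul]; rfl

theorem gW_spec {g : D.Γ} (hz : g * D.z = D.z * g) (w : MW) :
    g.1 (0, 0, w) = (0, 0, gW g w) := by
  have h := cz_apply hz (0, 0, w)
  have e : D.z.1 (0, 0, w) = -(0, 0, w) := by rw [z_apply]; simp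
  rw [e, map_neg, z_apply] at h
  have k : ∀ {M : Type} [AddCommGroup M] [Module ℚ M] (x : M), -x = x → x = 0 := fun x h1 => by
    have h2 : (2 : ℚ) • x = 0 := by rw [two_smul]; nth_rewrite 1 [← h1]; exact neg_add_cancel _
    exact (smul_eq_zero.1 h2).resolve_left two_ne_zero
  exact Prod.ext (k _ (congrArg (fun v : D.V => v.1) h))
    (Prod.ext (k _ (congrArg (fun v : D.V => v.2.1) h)) rfl)

theorem gW_snd {g : D.Γ} (hz : g * D.z = D.z * g) (a : D.V) : (g.1 a).2.2 = gW g a.2.2 := by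
  have : a = (a.1, a.2.1, 0) + (0, 0, a.2.2) := by simp
  rw [this, map_add, Prod.snd_add, Prod.snd_add, cz_zero hz rfl, gW_spec hz]
  simp

theorem inv_cz {g : D.Γ} (hz : g * D.z = D.z * g) : g⁻¹ * D.z = D.z * g⁻¹ := by
  rw [inv_mul_eq_iff_eq_mul, ← mul_assoc, hz, mul_inv_cancel_right]

theorem gW_inv {g : D.Γ} (hz : g * D.z = D.z * g) (w : MW) : gW g⁻¹ (gW g w) = w := by
  show ((g⁻¹).1 (0, 0, gW g w)).2.2 = w
  rw [← gW_spec hz, unit_inj]

theorem gW_mW {g : D.Γ} (hg : g ∈ D.Au) (hz : g * D.z = D.z * g) {a : D.V} (ha : a.2.2 = 0)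
    (w : MW) : gW g (D.mW a.1.1 a.2.1 w) = D.mW (g.1 a).1.1 (g.1 a).2.1 (gW g w) := by
  have h := congrArg (fun v : D.V => v.2.2) (ad_conj hg a (0, 0, w))
  simp only [gW_snd hz] at h
  rwa [D.ad_eq ha, D.ad_eq (cz_zero hz ha), gW_spec hz] at h

variable (D) in
/-- the multiplication on the third summand -/
def LW (A : M24) (x : D.I → ℚ) : Module.End ℚ MW where
  toFun := D.mW A x
  map_add' v w := by
    simp only [mW, Matrix.add_mul, Matrix.mul_add, smul_add, Finset.sum_add_distrib]; abel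
  map_smul' c v := by
    simp only [mW, Matrix.smul_mul, Matrix.mul_smul, smul_add, Finset.smul_sum, RingHom.id_apply,
      smul_comm c]

/-- left and right multiplication -/
def lr (M : ME) (N : M24) : Module.End ℚ MW where
  toFun v := M * v * N
  map_add' v w := by rw [Matrix.mul_add, Matrix.add_mul]
  map_smul' c v := by rw [Matrix.mul_smul, Matrix.smul_mul]; rfl

theorem trace_lr_mul (M M' : ME) (N N' : M24) :
    LinearMap.trace ℚ _ (lr M N * lr M' N') = trace (M * M') * trace (N' * N) :=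
  trace_lr _ _ _ fun v => by
    show M * (M' * v * N') * N = _
    simp only [Matrix.mul_assoc]

theorem trace_LW_sq (A : M24) (x : D.I → ℚ) :
    LinearMap.trace ℚ _ (D.LW A x * D.LW A x) =
      4096 * (trace (A * A) + 5 / 8 * trace A ^ 2 + 9 / 8 * x ⬝ᵥ x) := by
  have e : D.LW A x = lr 1 (A + (trace A / 8) • 1) +
      ∑ p, (x p / 8) • lr (q (D.cls p)) (1 - (1 / 4 : ℚ) • D.PL p) := by
    refine LinearMap.ext fun v => ?_
    rw [LinearMap.add_apply, LinearMap.sum_apply]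
    show D.mW A x v = (1 : ME) * v * (A + (trace A / 8) • (1 : M24)) +
      ∑ p, (x p / 8) • (q (D.cls p) * v * (1 - (1 / 4 : ℚ) • D.PL p))
    rw [mW, Matrix.one_mul, Matrix.mul_add, Matrix.mul_smul, Matrix.mul_one]
  have k : ∀ p, ∑ s, x s / 8 * (x p / 8 * (trace (q (D.cls p) * q (D.cls s)) *
      trace ((1 - (1 / 4 : ℚ) • D.PL s) * (1 - (1 / 4 : ℚ) • D.PL p)))) =
      4096 * (9 / 8 * (x p * x p)) := fun p => by
    rw [Finset.sum_eq_single p]
    · rw [trace_qq, if_pos rfl]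
      simp only [Matrix.sub_mul, Matrix.mul_sub, Matrix.one_mul, Matrix.mul_one, Matrix.smul_mul,
        Matrix.mul_smul, PL_sq, trace_sub, trace_smul, trace_PL, trace_one, Fintype.card_fin,
        smul_eq_mul]
      push_cast
      ring
    · intro s _ hs
      rw [trace_qq, if_neg (Ne.symm hs)]; ring
    · simp
  have t1 : trace (1 : ME) = 4096 := by rw [← q_zero, trace_q, if_pos rfl]
  rw [e, add_mul, mul_add, mul_add, Finset.sum_mul_sum, Finset.sum_mul, Finset.mul_sum]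
  simp only [smul_mul_assoc, mul_smul_comm,
    map_add, map_sum, map_smul, trace_lr_mul, Matrix.one_mul, Matrix.mul_one, trace_qc, zero_mul,
    mul_zero, Finset.sum_const_zero, add_zero, zero_add, smul_eq_mul, t1]
  simp only [k, Matrix.add_mul, Matrix.mul_add, Matrix.smul_mul, Matrix.mul_smul, Matrix.one_mul,
    Matrix.mul_one, trace_add, trace_smul, trace_one, Fintype.card_fin, smul_eq_mul,
    ← Finset.mul_sum, dotProduct]
  push_cast
  ring

theorem normA {g : D.Γ} (hg : g ∈ D.Au) (hz : g * D.z = D.z * g) {a : D.V} (ha : a.2.2 = 0) :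
    trace ((g.1 a).1.1 * (g.1 a).1.1) = trace (a.1.1 * a.1.1) := by
  have c : gW g * D.LW a.1.1 a.2.1 = D.LW (g.1 a).1.1 (g.1 a).2.1 * gW g :=
    LinearMap.ext fun w => gW_mW hg hz ha w
  have i1 : gW g⁻¹ * gW g = 1 := LinearMap.ext fun w => gW_inv hz w
  have i2 : gW g * gW g⁻¹ = 1 := mul_eq_one_comm.1 i1
  have t : LinearMap.trace ℚ _ (D.LW (g.1 a).1.1 (g.1 a).2.1 * D.LW (g.1 a).1.1 (g.1 a).2.1) =
      LinearMap.trace ℚ _ (D.LW a.1.1 a.2.1 * D.LW a.1.1 a.2.1) := by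
    calc _ = LinearMap.trace ℚ _ (D.LW (g.1 a).1.1 (g.1 a).2.1 * D.LW (g.1 a).1.1 (g.1 a).2.1 *
          gW g * gW g⁻¹) := by rw [mul_assoc _ (gW g), i2, mul_one]
      _ = LinearMap.trace ℚ _ (gW g * (D.LW a.1.1 a.2.1 * D.LW a.1.1 a.2.1) * gW g⁻¹) := by
          rw [mul_assoc _ _ (gW g), ← c, ← mul_assoc, ← c, mul_assoc (gW g)]
      _ = _ := by rw [LinearMap.trace_mul_comm, ← mul_assoc, i1, one_mul]
  rw [trace_LW_sq, trace_LW_sq, trace_inv hg] at t
  have n := hg.1 a a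
  unfold ip at n
  rw [cz_zero hz ha, ha] at n
  linarith

end Dat

end

end CfsgMO
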