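/-
The Griess algebra: the involution of a short axis (WP A2, part c).
-/
import Cfsg.Agent.MO.A2b

set_option autoImplicit false

namespace CfsgMO

open Matrix

noncomputable section

theorem F2_ne {a b : F2} (h : a ≠ b) : a + b = 1 := by revert a b; decide
theorem F2_eq {a b : F2} (h : a + b = 0) : a = b := by revert a b; decide

theorem Cl_eq_add {a b c : Cl} (h : a + b + c = 0) : c = a + b := by
  have : a + b + c + c = 0 + c := by rw [h]
  rwa [add_assoc, Cl_aa, add_zero, zero_add, eq_comm] at this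

namespace Dat

variable (D : Dat)

theorem xq_apply (c : Cl) (v : D.V) : (D.xq c).1 v =
    (v.1, fun s => sg (Bf c (D.cls s) + Bf (D.cls s) c) * v.2.1 s, q c * v.2.2) := by
  rw [xq_val]
  refine Prod.ext (Subtype.ext ?_) (Prod.ext (funext fun s => ?_) ?_)
  · show 1 * v.1.1 * (1 : M24)ᵀ = v.1.1
    rw [transpose_one, Matrix.one_mul, Matrix.mul_one]
  · exact actL_X (isN_q c) (q_comm c (D.cls s)) v
  · show q c * v.2.2 * (1 : M24)ᵀ = q c * v.2.2
    rw [transpose_one, Matrix.mul_one]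

theorem zp_apply (η : F2) (v : D.V) : (D.zp η).1 v = (v.1, v.2.1, sg η • v.2.2) := by
  rcases F2_cases η with rfl | rfl
  · rw [zp, if_pos rfl, sg_zero, one_smul]; rfl
  · rw [zp, if_neg one_ne_zero, z_apply, sg_one, neg_one_smul]

theorem zx_apply (η : F2) (c : Cl) (v : D.V) : (D.zp η * D.xq c).1 v =
    (v.1, fun s => sg (Bf c (D.cls s) + Bf (D.cls s) c) * v.2.1 s, sg η • (q c * v.2.2)) := by
  show (D.zp η).1 ((D.xq c).1 v) = _
  rw [xq_apply, zp_apply]

theorem tt_eig {a v : D.V} {l : ℚ} (h : D.ad a v = l • v) :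
    D.tt a v = (1 - 16 / 217 * (l * (l - 16) * (l - 4))) • v := by
  simp only [tt, Module.End.mul_apply, LinearMap.sub_apply, LinearMap.smul_apply,
    Module.End.one_apply, map_sub, map_smul, h]
  module

theorem comm_of_add {p s r : D.I} (h : D.cls r = D.cls p + D.cls s) :
    Bf (D.cls p) (D.cls s) = Bf (D.cls s) (D.cls p) := by
  have := D.cls_sing r
  rw [h, Bf_add_left, Bf_add_right, Bf_add_right, D.cls_sing, D.cls_sing, zero_add, add_zero] at this
  exact F2_eq this

theorem trace_qqq (p s r : D.I) : trace (q (D.cls p) * q (D.cls s) * q (D.cls r)) =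
    if D.cls r = D.cls p + D.cls s then sg (Bf (D.cls p) (D.cls s)) * 4096 else 0 := by
  rw [q_mul, Matrix.smul_mul, q_mul, trace_smul, trace_smul, trace_q]
  by_cases h : D.cls r = D.cls p + D.cls s
  · rw [if_pos h, ← h, D.cls_sing, sg_zero, if_pos (Cl_aa _), one_smul, smul_eq_mul]
  · rw [if_neg h, if_neg fun e => h (Cl_eq_add e), smul_zero, smul_zero]

theorem sum_single {M : Type} [AddCommGroup M] [Module ℚ M] (p : D.I) (a : ℚ) (φ : ℚ → D.I → M)
    (h : ∀ s, φ 0 s = 0) : ∑ s, φ ((Pi.single p a : D.I → ℚ) s) s = φ a p := by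
  rw [Finset.sum_eq_single p]
  · simp
  · intro b _ hb; simp [hb, h]
  · simp

theorem mW_zero (A : M24) (x : D.I → ℚ) : D.mW A x 0 = 0 := by simp [mW]

theorem ad_ax (p : D.I) (η : F2) (b : D.V) : D.ad (D.ax p η) b =
    (⟨D.mA ((1 / 16 : ℚ) • D.PL p) (Pi.single p (-2 * sg η)) b.1.1 b.2.1,
        D.mA_sy (D.ax p η).1 _ _ _⟩,
      D.mX ((1 / 16 : ℚ) • D.PL p) (Pi.single p (-2 * sg η)) b.1.1 b.2.1,
      D.mW ((1 / 16 : ℚ) • D.PL p) (Pi.single p (-2 * sg η)) b.2.2) :=
  D.ad_eq (a := D.ax p η) rfl b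

theorem ad_ax_W (p : D.I) (η : F2) (w : MW) : D.ad (D.ax p η) (0, 0, w) =
    (0, 0, (1 / 16 : ℚ) • (w * D.PL p) + (1 / 4 : ℚ) • w - (1 / 4 : ℚ) • (sg η • (q (D.cls p) * w)) +
      (1 / 16 : ℚ) • ((sg η • (q (D.cls p) * w)) * D.PL p)) := by
  rw [ad_ax]
  refine Prod.ext (Subtype.ext ?_) (Prod.ext (funext fun s => ?_) ?_)
  · show D.mA _ _ 0 0 = 0
    simp [mA]
  · show D.mX _ _ 0 0 s = 0
    simp [mX, rho_zero]
  · show D.mW _ _ w = _
    rw [mW, D.sum_single p _ (fun t s => (t / 8) • (q (D.cls s) * w * (1 - (1 / 4 : ℚ) • D.PL s)))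
      (fun s => by rw [zero_div, zero_smul]), trace_smul, trace_PL, Matrix.mul_smul, Matrix.mul_sub,
      Matrix.mul_smul, Matrix.mul_one, Matrix.smul_mul, smul_eq_mul]
    show _ = (1 / 16 : ℚ) • (w * D.PL p) + (1 / 4 : ℚ) • w -
      (1 / 4 : ℚ) • (sg η • (q (D.cls p) * w)) + (1 / 16 : ℚ) • (sg η • (q (D.cls p) * w * D.PL p))
    module

theorem ad_ax_A (p : D.I) (η : F2) (B : Sy) (y : ℚ) (B' : Sy) (y' : ℚ)
    (hB : B'.1 = (1 / 8 : ℚ) • (D.PL p * B.1 + B.1 * D.PL p) + (-2 * sg η * y / 8) • D.PL p)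
    (hy : y' = 8 * y + (D.lam p ⬝ᵥ B.1 *ᵥ D.lam p) / 8 * (-2 * sg η)) :
    D.ad (D.ax p η) (B, Pi.single p y, 0) = (B', Pi.single p y', 0) := by
  rw [ad_ax]
  refine Prod.ext (Subtype.ext ?_) (Prod.ext (funext fun s => ?_) (D.mW_zero _ _))
  · show D.mA _ _ B.1 (Pi.single p y) = B'.1
    rw [mA, D.sum_single p _ (fun t s => (t * (Pi.single p y : D.I → ℚ) s / 8) • D.PL s)
      (fun s => by rw [zero_mul, zero_div, zero_smul]), hB, Pi.single_eq_same, Matrix.smul_mul,
      Matrix.mul_smul]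
    module
  · show D.mX _ _ B.1 (Pi.single p y) s = (Pi.single p y' : D.I → ℚ) s
    rw [mX, rho_single, rho_single, Matrix.smul_mul, Matrix.mul_smul, qc_sq, Matrix.smul_mul,
      Matrix.smul_mul, Matrix.one_mul, trace_smul, trace_smul, trace_qc]
    by_cases h : s = p
    · subst h
      rw [Pi.single_eq_same, Pi.single_eq_same, Pi.single_eq_same, hy, smul_mulVec, PL_mulVec,
        dotProduct_smul, dotProduct_smul, D.lam_norm]
      simp only [smul_eq_mul]
      ring
    · simp [h]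

theorem ad_ax_X (p : D.I) (η : F2) {s : D.I} (hs : s ≠ p) :
    D.ad (D.ax p η) (0, Pi.single s 1, 0) =
    (0, fun r => (if D.cls r = D.cls p + D.cls s then
      D.c2 * (-2 * sg η) * sg (Bf (D.cls p) (D.cls s)) else 0) +
      (D.lam p ⬝ᵥ D.lam s) ^ 2 / 128 * (Pi.single s 1 : D.I → ℚ) r, 0) := by
  rw [ad_ax]
  refine Prod.ext (Subtype.ext ?_) (Prod.ext (funext fun r => ?_) (D.mW_zero _ _))
  · show D.mA _ _ 0 (Pi.single s 1) = 0
    rw [mA, D.sum_single p _ (fun t r => (t * (Pi.single s 1 : D.I → ℚ) r / 8) • D.PL r)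
      (fun s => by rw [zero_mul, zero_div, zero_smul]), Pi.single_eq_of_ne (Ne.symm hs)]
    simp
  · show D.mX _ _ 0 (Pi.single s 1) r = _
    rw [mX, rho_single, rho_single, Matrix.smul_mul, Matrix.mul_smul, Matrix.smul_mul,
      Matrix.smul_mul, trace_smul, trace_smul, trace_qqq, zero_mulVec, dotProduct_zero]
    show _ = (if D.cls r = D.cls p + D.cls s then
      D.c2 * (-2 * sg η) * sg (Bf (D.cls p) (D.cls s)) else 0) +
      (D.lam p ⬝ᵥ D.lam s) ^ 2 / 128 * (Pi.single s 1 : D.I → ℚ) r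
    have k : (D.lam r ⬝ᵥ ((1 / 16 : ℚ) • D.PL p) *ᵥ D.lam r) / 8 * (Pi.single s 1 : D.I → ℚ) r =
        (D.lam p ⬝ᵥ D.lam s) ^ 2 / 128 * (Pi.single s 1 : D.I → ℚ) r := by
      by_cases h : r = s
      · subst h
        rw [smul_mulVec, PL_mulVec, dotProduct_smul, dotProduct_smul, dotProduct_comm (D.lam r)]
        simp only [smul_eq_mul]
        ring
      · simp [h]
    rw [k]
    split_ifs <;> simp only [smul_eq_mul] <;> ring

variable {D}

theorem tt_ax {p : D.I} (h : D.Ips p) (η : F2) :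
    D.tt (D.ax p η) = (D.zp η * D.xq (D.cls p)).1 := by
  set T := (D.zp η * D.xq (D.cls p)).1 with hT
  let S : Submodule ℚ D.V := LinearMap.eqLocus (D.tt (D.ax p η)) T
  have s2 := sg_mul_self η
  have gp : ∀ (v : D.V) (l : ℚ), D.ad (D.ax p η) v = l • v → l * (l - 16) * (l - 4) = 0 →
      T v = v → v ∈ S := fun v l h1 h2 h3 => by
    show D.tt _ v = T v
    rw [D.tt_eig h1, h2, h3, mul_zero, sub_zero, one_smul]
  have gm : ∀ v : D.V, D.ad (D.ax p η) v = (1 / 2 : ℚ) • v → T v = -v → v ∈ S := fun v h1 h3 => by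
    show D.tt _ v = T v
    rw [D.tt_eig h1, h3]
    module
  -- the third summand
  have hW : ∀ w : MW, ((0, 0, w) : D.V) ∈ S := by
    have TW : ∀ w : MW, T (0, 0, w) = (0, 0, sg η • (q (D.cls p) * w)) := fun w => by
      rw [hT, zx_apply]
      exact Prod.ext rfl (Prod.ext (funext fun s => mul_zero _) rfl)
    have t2 : ∀ w : MW, sg η • (q (D.cls p) * (sg η • (q (D.cls p) * w))) = w := fun w => by
      rw [Matrix.mul_smul, smul_smul, s2, one_smul, ← Matrix.mul_assoc, qc_sq, Matrix.one_mul]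
    have hm : ∀ w : MW, sg η • (q (D.cls p) * w) = -w → ((0, 0, w) : D.V) ∈ S := fun w hw => by
      refine gm _ ?_ (by rw [TW, hw]; simp)
      rw [ad_ax_W, hw, Matrix.neg_mul]
      refine Prod.ext (by simp) (Prod.ext (by simp) ?_)
      show _ = (1 / 2 : ℚ) • w
      module
    have hp : ∀ (w : MW) (l : ℚ), sg η • (q (D.cls p) * w) = w → w * D.PL p = l • w →
        l / 8 * (l / 8 - 16) * (l / 8 - 4) = 0 → ((0, 0, w) : D.V) ∈ S := fun w l hw hl h0 => by
      refine gp _ (l / 8) ?_ h0 (by rw [TW, hw])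
      rw [ad_ax_W, hw, hl]
      refine Prod.ext (by simp) (Prod.ext (by simp) ?_)
      show _ = (l / 8 : ℚ) • w
      module
    have hp' : ∀ w : MW, sg η • (q (D.cls p) * w) = w → ((0, 0, w) : D.V) ∈ S := fun w hw => by
      have a1 : sg η • (q (D.cls p) * (w * D.PL p)) = w * D.PL p := by
        rw [← Matrix.mul_assoc, ← Matrix.smul_mul, hw]
      have a2 : w * D.PL p * D.PL p = (32 : ℚ) • (w * D.PL p) := by
        rw [Matrix.mul_assoc, PL_sq, Matrix.mul_smul]
      have m1 := hp (w * D.PL p) 32 a1 a2 (by norm_num)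
      have m2 := hp (w - (1 / 32 : ℚ) • (w * D.PL p)) 0
        (by rw [Matrix.mul_sub, Matrix.mul_smul, smul_sub, hw, smul_comm, a1])
        (by rw [Matrix.sub_mul, Matrix.smul_mul, a2]; module) (by norm_num)
      have := S.add_mem m2 (S.smul_mem (1 / 32 : ℚ) m1)
      simpa using this
    intro w
    have m1 := hm (w - sg η • (q (D.cls p) * w))
      (by rw [Matrix.mul_sub, smul_sub, t2, neg_sub])
    have m2 := hp' (w + sg η • (q (D.cls p) * w))
      (by rw [Matrix.mul_add, smul_add, t2, add_comm])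
    have := S.smul_mem (1 / 2 : ℚ) (S.add_mem m1 m2)
    have e : ((0, 0, w) : D.V) = (1 / 2 : ℚ) • (((0, 0, w - sg η • (q (D.cls p) * w)) : D.V) +
        (0, 0, w + sg η • (q (D.cls p) * w))) := by
      refine Prod.ext (by simp) (Prod.ext (by simp) ?_)
      show w = (1 / 2 : ℚ) • (w - sg η • (q (D.cls p) * w) + (w + sg η • (q (D.cls p) * w)))
      module
    rw [e]; exact this
  -- the first summand and the coordinate of `p`
  have TA : ∀ (B : Sy) (y : ℚ), T (B, Pi.single p y, 0) = (B, Pi.single p y, 0) := fun B y => by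
    rw [hT, zx_apply]
    refine Prod.ext rfl (Prod.ext (funext fun s => ?_) (by simp))
    show sg _ * (Pi.single p y : D.I → ℚ) s = (Pi.single p y : D.I → ℚ) s
    by_cases h : s = p
    · subst h; rw [F2_aa, sg_zero, one_mul]
    · simp [h]
  have gA : ∀ (B : Sy) (y l : ℚ), l * (l - 16) * (l - 4) = 0 →
      l • B.1 = (1 / 8 : ℚ) • (D.PL p * B.1 + B.1 * D.PL p) + (-2 * sg η * y / 8) • D.PL p →
      l * y = 8 * y + (D.lam p ⬝ᵥ B.1 *ᵥ D.lam p) / 8 * (-2 * sg η) →
      ((B, Pi.single p y, 0) : D.V) ∈ S := fun B y l h0 h1 h2 => by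
    refine gp _ l ?_ h0 (TA B y)
    rw [D.ad_ax_A p η B y (l • B) (l * y) h1 h2]
    refine Prod.ext rfl (Prod.ext ?_ (by simp))
    show Pi.single p (l * y) = l • (Pi.single p y : D.I → ℚ)
    rw [← Pi.single_smul, smul_eq_mul]
  let L : Sy := ⟨D.PL p, D.PL_tr p⟩
  have lL : D.lam p ⬝ᵥ D.PL p *ᵥ D.lam p = 1024 := by
    rw [PL_mulVec, dotProduct_smul, D.lam_norm]; norm_num
  have v16 := gA L (-32 * sg η) 16 (by norm_num)
    (by show _ • D.PL p = _ • (D.PL p * D.PL p + D.PL p * D.PL p) + _ • D.PL p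
        have : -2 * sg η * (-32 * sg η) / 8 = 8 := by linear_combination 8 * s2
        rw [PL_sq, this]; module)
    (by show _ = _ + (D.lam p ⬝ᵥ D.PL p *ᵥ D.lam p) / 8 * _
        rw [lL]; ring)
  have v0 := gA L (32 * sg η) 0 (by norm_num)
    (by show _ • D.PL p = _ • (D.PL p * D.PL p + D.PL p * D.PL p) + _ • D.PL p
        have : -2 * sg η * (32 * sg η) / 8 = -8 := by linear_combination -8 * s2
        rw [PL_sq, this]; module)
    (by show _ = _ + (D.lam p ⬝ᵥ D.PL p *ᵥ D.lam p) / 8 * _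
        rw [lL]; ring)
  have hL : ((L, 0, 0) : D.V) ∈ S := by
    have := S.smul_mem (1 / 2 : ℚ) (S.add_mem v16 v0)
    have e : ((L, 0, 0) : D.V) = (1 / 2 : ℚ) • (((L, Pi.single p (-32 * sg η), 0) : D.V) +
        (L, Pi.single p (32 * sg η), 0)) := by
      refine Prod.ext ?_ (Prod.ext ?_ (by simp))
      · show L = (1 / 2 : ℚ) • (L + L)
        module
      · show 0 = (1 / 2 : ℚ) • ((Pi.single p (-32 * sg η) : D.I → ℚ) + Pi.single p (32 * sg η))
        rw [← Pi.single_add]; simp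
    rw [e]; exact this
  have hp : ((0, Pi.single p 1, 0) : D.V) ∈ S := by
    have := S.smul_mem (sg η / 32 : ℚ) (S.sub_mem v0 hL)
    have e : ((0, Pi.single p 1, 0) : D.V) = (sg η / 32 : ℚ) •
        (((L, Pi.single p (32 * sg η), 0) : D.V) - (L, 0, 0)) := by
      refine Prod.ext (by simp) (Prod.ext ?_ (by simp))
      show Pi.single p 1 = (sg η / 32 : ℚ) • ((Pi.single p (32 * sg η) : D.I → ℚ) - 0)
      rw [sub_zero, ← Pi.single_smul, smul_eq_mul]
      congr 1
      linear_combination -s2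
    rw [e]; exact this
  have hA : ∀ B : Sy, ((B, 0, 0) : D.V) ∈ S := fun B => by
    set β := D.lam p ⬝ᵥ B.1 *ᵥ D.lam p with hβ
    have b1 : D.PL p * B.1 * D.PL p = β • D.PL p := D.PL_mul_PL p B.1
    have b2 : D.PL p * (B.1 * D.PL p) = β • D.PL p := by rw [← Matrix.mul_assoc, b1]
    have b3 : D.PL p * (D.PL p * B.1) = (32 : ℚ) • (D.PL p * B.1) := by
      rw [← Matrix.mul_assoc, PL_sq, Matrix.smul_mul]
    have b4 : B.1 * D.PL p * D.PL p = (32 : ℚ) • (B.1 * D.PL p) := by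
      rw [Matrix.mul_assoc, PL_sq, Matrix.mul_smul]
    have c1 : D.lam p ⬝ᵥ (D.PL p * B.1) *ᵥ D.lam p = 32 * β := by
      rw [← mulVec_mulVec, PL_mulVec, dotProduct_smul, D.lam_norm, smul_eq_mul, mul_comm]
    have c2 : D.lam p ⬝ᵥ (B.1 * D.PL p) *ᵥ D.lam p = 32 * β := by
      rw [← mulVec_mulVec, PL_mulVec, mulVec_smul, dotProduct_smul, D.lam_norm, smul_eq_mul]
    let C : Sy := ⟨D.PL p * B.1 + B.1 * D.PL p, by
      show _ = _
      rw [transpose_add, transpose_mul, transpose_mul, Sy_tr, PL_tr, add_comm]⟩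
    have m1 := gA (C - (β / 16) • L) 0 4 (by norm_num)
      (by show _ • (D.PL p * B.1 + B.1 * D.PL p - (β / 16) • D.PL p) =
            _ • (D.PL p * (D.PL p * B.1 + B.1 * D.PL p - (β / 16) • D.PL p) +
              (D.PL p * B.1 + B.1 * D.PL p - (β / 16) • D.PL p) * D.PL p) + _ • D.PL p
          simp only [Matrix.mul_sub, Matrix.mul_add, Matrix.sub_mul, Matrix.add_mul,
            Matrix.mul_smul, Matrix.smul_mul, b1, b2, b3, b4, PL_sq]
          module)
      (by show _ = _ + (D.lam p ⬝ᵥ (D.PL p * B.1 + B.1 * D.PL p - (β / 16) • D.PL p) *ᵥ D.lam p) / 8 * _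
          rw [sub_mulVec, add_mulVec, smul_mulVec, dotProduct_sub, dotProduct_add, dotProduct_smul,
            c1, c2, lL, smul_eq_mul]
          ring)
    have m2 := gA (B - (1 / 32 : ℚ) • C + (β / 1024) • L) 0 0 (by norm_num)
      (by show _ • (B.1 - (1 / 32 : ℚ) • (D.PL p * B.1 + B.1 * D.PL p) + (β / 1024) • D.PL p) =
            _ • (D.PL p * (B.1 - (1 / 32 : ℚ) • (D.PL p * B.1 + B.1 * D.PL p) + (β / 1024) • D.PL p) +
              (B.1 - (1 / 32 : ℚ) • (D.PL p * B.1 + B.1 * D.PL p) + (β / 1024) • D.PL p) * D.PL p) +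
              _ • D.PL p
          simp only [Matrix.mul_sub, Matrix.mul_add, Matrix.sub_mul, Matrix.add_mul,
            Matrix.mul_smul, Matrix.smul_mul, b1, b2, b3, b4, PL_sq]
          module)
      (by show _ = _ + (D.lam p ⬝ᵥ (B.1 - (1 / 32 : ℚ) • (D.PL p * B.1 + B.1 * D.PL p) +
              (β / 1024) • D.PL p) *ᵥ D.lam p) / 8 * _
          rw [add_mulVec, sub_mulVec, smul_mulVec, smul_mulVec, add_mulVec, dotProduct_add,
            dotProduct_sub, dotProduct_smul, dotProduct_smul, dotProduct_add,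
            c1, c2, lL, ← hβ, smul_eq_mul, smul_eq_mul]
          ring)
    rw [Pi.single_zero] at m1 m2
    have := S.add_mem (S.add_mem m2 (S.smul_mem (1 / 32 : ℚ) m1)) (S.smul_mem (β / 1024) hL)
    have e : ((B, 0, 0) : D.V) = ((B - (1 / 32 : ℚ) • C + (β / 1024) • L, 0, 0) : D.V) +
        (1 / 32 : ℚ) • ((C - (β / 16) • L, 0, 0) : D.V) + (β / 1024) • ((L, 0, 0) : D.V) := by
      refine Prod.ext ?_ (Prod.ext (by simp) (by simp))
      show B = B - (1 / 32 : ℚ) • C + (β / 1024) • L + (1 / 32 : ℚ) • (C - (β / 16) • L) +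
        (β / 1024) • L
      module
    rw [e]; exact this
  -- the other coordinates
  have TX : ∀ s, T (0, Pi.single s 1, 0) = sg (Bf (D.cls p) (D.cls s) + Bf (D.cls s) (D.cls p)) •
      ((0, Pi.single s 1, 0) : D.V) := fun s => by
    rw [hT, zx_apply]
    refine Prod.ext (by simp) (Prod.ext (funext fun r => ?_) (by simp))
    show sg _ * (Pi.single s 1 : D.I → ℚ) r = sg _ * (Pi.single s 1 : D.I → ℚ) r
    by_cases h : r = s
    · rw [h]
    · simp [h]
  have TX1 : ∀ s, Bf (D.cls p) (D.cls s) = Bf (D.cls s) (D.cls p) →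
      T (0, Pi.single s 1, 0) = (0, Pi.single s 1, 0) := fun s hs => by
    rw [TX, hs, F2_aa, sg_zero, one_smul]
  have aX : ∀ s, s ≠ p → (∀ r, D.cls r ≠ D.cls p + D.cls s) →
      D.ad (D.ax p η) (0, Pi.single s 1, 0) =
        ((D.lam p ⬝ᵥ D.lam s) ^ 2 / 128) • ((0, Pi.single s 1, 0) : D.V) := fun s hs hr => by
    rw [D.ad_ax_X p η hs]
    refine Prod.ext (by simp) (Prod.ext (funext fun r => ?_) (by simp))
    show (if _ then _ else _) + _ = _
    rw [if_neg (hr r), zero_add]; rfl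
  have aX' : ∀ s r, s ≠ p → D.cls r = D.cls p + D.cls s →
      D.ad (D.ax p η) (0, Pi.single s 1, 0) =
        (D.c2 * (-2 * sg η) * sg (Bf (D.cls p) (D.cls s))) • ((0, Pi.single r 1, 0) : D.V) +
          (2 : ℚ) • ((0, Pi.single s 1, 0) : D.V) := fun s r hs hr => by
    have h2 : (D.lam p ⬝ᵥ D.lam s) ^ 2 = 256 := by
      rcases h s hs with h1 | h1 | h1
      · exact absurd hr (h1.2.2 r)
      · exact absurd (D.comm_of_add hr) h1.2
      · exact h1.1
    rw [D.ad_ax_X p η hs, h2]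
    refine Prod.ext (by simp) (Prod.ext (funext fun t => ?_) (by simp))
    show (if _ then _ else _) + _ = _ * (Pi.single r 1 : D.I → ℚ) t + 2 * (Pi.single s 1 : D.I → ℚ) t
    by_cases ht : t = r
    · subst ht; rw [if_pos hr, Pi.single_eq_same]; ring
    · rw [if_neg fun e => ht (D.cls_inj (e.trans hr.symm)), Pi.single_eq_of_ne ht]; ring
  have hX : ∀ s, ((0, Pi.single s 1, 0) : D.V) ∈ S := fun s => by
    by_cases hs : s = p
    · rw [hs]; exact hp
    rcases h s hs with h1 | h1 | ⟨-, r, hr⟩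
    · exact gp _ _ (aX s hs h1.2.2) (by rw [h1.1]; norm_num) (TX1 s h1.2.1)
    · refine gm _ ?_ (by rw [TX, F2_ne h1.2, sg_one]; module)
      rw [aX s hs fun r hr => h1.2 (D.comm_of_add hr), h1.1]
      norm_num
    · have hr' : D.cls s = D.cls p + D.cls r := by
        rw [hr, ← add_assoc, Cl_aa, zero_add]
      have hrp : r ≠ p := fun e => D.cls_ne s (by rw [hr', e, Cl_aa])
      have e1 := aX' s r hs hr
      have e2 := aX' r s hrp hr'
      have hb : Bf (D.cls p) (D.cls r) = Bf (D.cls p) (D.cls s) := by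
        rw [hr, Bf_add_right, D.cls_sing, zero_add]
      rw [hb] at e2
      set κ := D.c2 * (-2 * sg η) * sg (Bf (D.cls p) (D.cls s)) with hκ
      have k4 : κ * κ = 4 := by
        have a1 := D.c2_sq
        have a2 := sg_mul_self (Bf (D.cls p) (D.cls s))
        rw [hκ]
        linear_combination 4 * (sg η * sg η) * (sg (Bf (D.cls p) (D.cls s)) *
          sg (Bf (D.cls p) (D.cls s))) * a1 + 4 * (sg η * sg η) * a2 + 4 * s2
      set es : D.V := (0, Pi.single s 1, 0)
      set er : D.V := (0, Pi.single r 1, 0)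
      have t1 : T es = es := TX1 s (D.comm_of_add hr)
      have t2 : T er = er := TX1 r (D.comm_of_add hr')
      have m1 := gp ((2 : ℚ) • es + κ • er) 4
        (by rw [map_add, map_smul, map_smul, e1, e2, smul_add κ, smul_smul κ κ, k4]; module)
        (by norm_num) (by rw [map_add, map_smul, map_smul, t1, t2])
      have m2 := gp ((2 : ℚ) • es - κ • er) 0
        (by rw [map_sub, map_smul, map_smul, e1, e2, smul_add κ, smul_smul κ κ, k4]; module)
        (by norm_num) (by rw [map_sub, map_smul, map_smul, t1, t2])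
      have := S.smul_mem (1 / 4 : ℚ) (S.add_mem m1 m2)
      have e : es = (1 / 4 : ℚ) • ((2 : ℚ) • es + κ • er + ((2 : ℚ) • es - κ • er)) := by module
      rw [e]; exact this
  refine LinearMap.ext fun v => ?_
  have e : v = (v.1, 0, 0) + ∑ s, v.2.1 s • ((0, Pi.single s 1, 0) : D.V) + (0, 0, v.2.2) := by
    refine Prod.ext (by simp [Prod.fst_sum]) (Prod.ext ?_ (by simp [Prod.snd_sum]))
    simp only [Prod.snd_add, Prod.fst_add, Prod.snd_sum, Prod.fst_sum, Prod.smul_snd,
      Prod.smul_fst, zero_add, add_zero]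
    exact pi_eq_sum_univ' _
  have : v ∈ S := by
    rw [e]
    exact S.add_mem (S.add_mem (hA _) (S.sum_mem fun s _ => S.smul_mem _ (hX s))) (hW _)
  exact this

end Dat

end

end CfsgMO
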