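/-
The Griess algebra, its axes, and the centraliser of `z` (WP A2).
-/
import Cfsg.Agent.MO.A2c

set_option autoImplicit false

namespace CfsgMO

open Matrix

noncomputable section

theorem PM_of_vv {u v : Fin 24 → ℚ} (hv : v ⬝ᵥ v = 32) (h : vecMulVec u u = vecMulVec v v) :
    PM u v := by
  have h1 : (u ⬝ᵥ v) • u = (32 : ℚ) • v := by rw [← vv_mulVec, h, vv_mulVec, hv]
  have h2 : u ⬝ᵥ u = 32 := by rw [← trace_vecMulVec, h, trace_vecMulVec, hv]
  have h3 : (u ⬝ᵥ v) * (u ⬝ᵥ v) = 32 * 32 := by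
    have := congrArg (fun x => x ⬝ᵥ v) h1
    simpa only [smul_dotProduct, smul_eq_mul, hv] using this
  rcases mul_self_eq_mul_self_iff.1 h3 with h4 | h4
  · left
    rw [h4] at h1
    exact smul_right_injective _ (by norm_num) h1
  · right
    rw [h4, neg_smul, ← smul_neg] at h1
    rw [← smul_right_injective _ (by norm_num : (32 : ℚ) ≠ 0) h1, neg_neg]

theorem trace_vv_vv {m n : Type} [Fintype m] [Fintype n] (u v : m → ℚ) (a b : n → ℚ) :
    trace ((vecMulVec u a)ᵀ * vecMulVec v b) = (u ⬝ᵥ v) * (a ⬝ᵥ b) := by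
  rw [transpose_vecMulVec, vecMulVec_mul_vecMulVec, trace_vecMulVec, dotProduct_smul, smul_eq_mul]

theorem eq_sum_cols {m n : Type} [Fintype n] [DecidableEq n] (w : Matrix m n ℚ) :
    w = ∑ j, vecMulVec (fun i => w i j) (Pi.single j 1) := by
  ext i k
  rw [Matrix.sum_apply, Finset.sum_eq_single k]
  · simp [vecMulVec_apply]
  · intro b _ hb; simp [vecMulVec_apply, Ne.symm hb]
  · simp

theorem eq_of_dot {m : Type} [Fintype m] [DecidableEq m] {X Y : Matrix m m ℚ}
    (h : ∀ u v, u ⬝ᵥ X *ᵥ v = u ⬝ᵥ Y *ᵥ v) : X = Y := by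
  ext i j
  simpa using h (Pi.single i 1) (Pi.single j 1)

theorem eq_of_mulVec {m n : Type} [Fintype n] [DecidableEq n] {X Y : Matrix m n ℚ}
    (h : ∀ v, X *ᵥ v = Y *ᵥ v) : X = Y := by
  ext i j
  simpa using congrFun (h (Pi.single j 1)) i

theorem eq_of_W_mul {X Y : M24} (h : ∀ w : MW, w * X = w * Y) : X = Y := by
  ext i j
  have := congrFun (congrFun (h (vecMulVec (fun _ => 1) (Pi.single i 1))) 0) j
  simpa [vecMulVec_mul, vecMulVec_apply] using this

/-- a map which commutes with all Pauli matrices is a right multiplication -/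
theorem comm_W (M : Module.End ℚ MW) (h : ∀ c w, M (q c * w) = q c * M w) :
    ∃ σ : M24, ∀ w, M w = w * σᵀ := by
  let K : Fin 24 → Fin 24 → (E → ℚ) →ₗ[ℚ] (E → ℚ) := fun i j =>
    { toFun := fun u => M (vecMulVec u (Pi.single j 1)) *ᵥ Pi.single i 1
      map_add' := fun u v => by rw [add_vecMulVec, map_add, add_mulVec]
      map_smul' := fun c u => by rw [smul_vecMulVec, map_smul, smul_mulVec]; rfl }
  have hK : ∀ i j, ∃ a : ℚ, LinearMap.toMatrix' (K i j) = a • (1 : ME) := fun i j =>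
    comm_q fun c => eq_of_mulVec fun u => by
      rw [← mulVec_mulVec, ← mulVec_mulVec, LinearMap.toMatrix'_mulVec, LinearMap.toMatrix'_mulVec]
      show M (vecMulVec (q c *ᵥ u) (Pi.single j 1)) *ᵥ Pi.single i 1 =
        q c *ᵥ (M (vecMulVec u (Pi.single j 1)) *ᵥ Pi.single i 1)
      rw [← mul_vecMulVec, h, mulVec_mulVec]
  choose σ hσ using hK
  have k : ∀ u j, M (vecMulVec u (Pi.single j 1)) =
      vecMulVec u (Pi.single j 1) * (Matrix.of σ)ᵀ := fun u j => by
    ext x i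
    have h1 : K i j u = σ i j • u := by
      rw [← LinearMap.toMatrix'_mulVec, hσ, smul_mulVec, one_mulVec]
    have h2 : (M (vecMulVec u (Pi.single j 1)) *ᵥ Pi.single i 1) x = σ i j * u x := congrFun h1 x
    rw [mulVec_single_one] at h2
    rw [vecMulVec_mul, vecMulVec_apply, single_one_vecMul]
    exact h2.trans (mul_comm _ _)
  refine ⟨Matrix.of σ, fun w => ?_⟩
  rw [eq_sum_cols w, map_sum, Matrix.sum_mul]
  exact Finset.sum_congr rfl fun j _ => k _ j

namespace Dat

variable (D : Dat)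

/-- the projectors on the short vectors span the symmetric matrices -/
theorem span_PL (S : Submodule ℚ Sy) (h : ∀ p, (⟨D.PL p, D.PL_tr p⟩ : Sy) ∈ S) : S = ⊤ := by
  let T : Submodule ℚ M24 := S.map Sy.subtype
  have hT : ∀ v, (∃ p, PM (D.lam p) v) → vecMulVec v v ∈ T := by
    rintro v ⟨p, hp⟩
    refine ⟨_, h p, ?_⟩
    show vecMulVec (D.lam p) (D.lam p) = _
    rcases hp with e | e <;> rw [e]
    rw [neg_vecMulVec, vecMulVec_neg, neg_neg]
  let e : Fin 24 → Fin 24 → M24 := fun i j => vecMulVec (ev i 4) (ev j 4)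
  have h1 : ∀ i j, i ≠ j → e i i + e j j ∈ T ∧ e i j + e j i ∈ T := fun i j hij => by
    have a := hT _ (D.duad i j hij).1
    have b := hT _ (D.duad i j hij).2
    rw [add_vecMulVec, vecMulVec_add, vecMulVec_add] at a
    rw [sub_vecMulVec, vecMulVec_sub, vecMulVec_sub] at b
    constructor
    · convert T.smul_mem (1 / 2 : ℚ) (T.add_mem a b) using 1
      simp only [e]; module
    · convert T.smul_mem (1 / 2 : ℚ) (T.sub_mem a b) using 1
      simp only [e]; module
  have h2 : ∀ i j, e i j + e j i ∈ T := fun i j => by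
    by_cases hij : i = j
    · subst hij
      obtain ⟨j, k, hj, hk, hjk⟩ : ∃ j k : Fin 24, i ≠ j ∧ i ≠ k ∧ j ≠ k := by
        revert i; decide
      convert T.sub_mem (T.add_mem (h1 i j hj).1 (h1 i k hk).1) (h1 j k hjk).1 using 1
      abel
    · exact (h1 i j hij).2
  rw [eq_top_iff]
  intro A _
  have h3 : A.1 = ∑ i, ∑ j, (A.1 i j / 16) • e i j := by
    ext a b
    simp only [Matrix.sum_apply, Matrix.smul_apply, e, vecMulVec_apply, ev, Pi.single_apply,
      smul_eq_mul, mul_ite, ite_mul, mul_zero, zero_mul, Finset.sum_ite_eq, Finset.mem_univ, if_true]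
    ring
  have h4 : A.1 = ∑ i, ∑ j, (A.1 i j / 16) • e j i := by
    rw [Finset.sum_comm]
    refine h3.trans (Finset.sum_congr rfl fun i _ => Finset.sum_congr rfl fun j _ => ?_)
    rw [← transpose_apply A.1 i j, Sy_tr]
  have h5 : A.1 ∈ T := by
    have : A.1 = (1 / 2 : ℚ) • ∑ i, ∑ j, (A.1 i j / 16) • (e i j + e j i) := by
      simp only [smul_add, Finset.sum_add_distrib]
      rw [← h3, ← h4]; module
    rw [this]
    exact T.smul_mem _ (T.sum_mem fun i _ => T.sum_mem fun j _ => T.smul_mem _ (h2 i j))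
  obtain ⟨B, hB, e⟩ := h5
  rwa [← Subtype.ext e]

theorem ax_add (p : D.I) (θ : F2) : D.ax p θ + D.ax p (θ + 1) =
    (1 / 8 : ℚ) • ((⟨D.PL p, D.PL_tr p⟩, 0, 0) : D.V) := by
  refine Prod.ext (Subtype.ext ?_) (Prod.ext ?_ (by simp [ax]))
  · show (1 / 16 : ℚ) • D.PL p + (1 / 16 : ℚ) • D.PL p = (1 / 8 : ℚ) • D.PL p
    module
  · show (Pi.single p (-2 * sg θ) : D.I → ℚ) + Pi.single p (-2 * sg (θ + 1)) = (1 / 8 : ℚ) • 0
    rw [← Pi.single_add, sg_add, sg_one]; simp

theorem ax_sub (p : D.I) : D.ax p 1 - D.ax p 0 = (4 : ℚ) • ((0, Pi.single p 1, 0) : D.V) := by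
  refine Prod.ext (Subtype.ext ?_) (Prod.ext ?_ (by simp [ax]))
  · simp [ax]
  · show (Pi.single p (-2 * sg 1) : D.I → ℚ) - Pi.single p (-2 * sg 0) = (4 : ℚ) • Pi.single p 1
    rw [← Pi.single_sub, ← Pi.single_smul, sg_zero, sg_one]; norm_num

/-- two maps which agree on the short axes and on the third summand are equal -/
theorem ext_ax {g h : Module.End ℚ D.V} (h1 : ∀ p η, g (D.ax p η) = h (D.ax p η))
    (h2 : ∀ w : MW, g (0, 0, w) = h (0, 0, w)) : g = h := by
  let S : Submodule ℚ D.V := LinearMap.eqLocus g h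
  have hA : ∀ B : Sy, ((B, 0, 0) : D.V) ∈ S := fun B => by
    have := D.span_PL (S.comap (LinearMap.inl ℚ Sy ((D.I → ℚ) × MW))) fun p => by
      have a := S.smul_mem (8 : ℚ) (S.add_mem (h1 p 0) (h1 p (0 + 1)))
      rw [ax_add, smul_smul] at a
      norm_num at a
      exact a
    exact (this ▸ Submodule.mem_top : B ∈ S.comap (LinearMap.inl ℚ Sy ((D.I → ℚ) × MW)))
  have hX : ∀ s, ((0, Pi.single s 1, 0) : D.V) ∈ S := fun s => by
    have a := S.smul_mem (1 / 4 : ℚ) (S.sub_mem (h1 s 1) (h1 s 0))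
    rw [ax_sub, smul_smul] at a
    norm_num at a
    exact a
  refine LinearMap.ext fun v => ?_
  have e : v = (v.1, 0, 0) + ∑ s, v.2.1 s • ((0, Pi.single s 1, 0) : D.V) + (0, 0, v.2.2) := by
    refine Prod.ext (by simp [Prod.fst_sum]) (Prod.ext ?_ (by simp [Prod.snd_sum]))
    simp only [Prod.snd_add, Prod.fst_add, Prod.snd_sum, Prod.fst_sum, Prod.smul_snd,
      Prod.smul_fst, zero_add, add_zero]
    exact pi_eq_sum_univ' _
  have : v ∈ S := by
    rw [e]
    exact S.add_mem (S.add_mem (hA _) (S.sum_mem fun s _ => S.smul_mem _ (hX s))) (h2 _)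
  exact this

variable {D}

/-- an automorphism which commutes with `z` and permutes the short axes lies in `N` -/
theorem cent_z (hT : ∀ p η, D.tt (D.ax p η) = (D.zp η * D.xq (D.cls p)).1) {g : D.Γ}
    (hg : g ∈ D.Au) (hz : g * D.z = D.z * g) (hO : ∀ a ∈ D.O1, g.1 a ∈ D.O1) : g ∈ D.N := by
  have hc : ∀ p η s θ, g.1 (D.ax p η) = D.ax s θ →
      g * (D.zp η * D.xq (D.cls p)) = D.zp θ * D.xq (D.cls s) * g := fun p η s θ e => by
    apply Units.ext
    have := tt_conj hg (D.ax p η)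
    rw [e, hT, hT] at this
    exact this
  have h0 : ∀ p, ∃ s θ, g.1 (D.ax p 0) = D.ax s θ ∧ g.1 (D.ax p 1) = D.ax s (θ + 1) := fun p => by
    obtain ⟨s, θ, e⟩ := hO _ ⟨p, 0, rfl⟩
    obtain ⟨s', θ', e'⟩ := hO _ ⟨p, 1, rfl⟩
    have c := hc _ _ _ _ e
    have c' := hc _ _ _ _ e'
    rw [zp_zero, one_mul] at c
    rw [zp_one, ← mul_assoc, hz, mul_assoc, c, ← mul_assoc, ← mul_assoc, ← zp_one, ← zp_add] at c'
    obtain ⟨a, b⟩ := D.zp_xq_inj (mul_right_cancel c')
    exact ⟨s, θ, e, by rw [e', ← a, D.cls_inj b, add_comm]⟩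
  choose π θ hπ0 hπ1 using h0
  set M := gW g with hM
  have hq : ∀ p w, M (q (D.cls p) * w) = sg (θ p) • (q (D.cls (π p)) * M w) := fun p w => by
    have c := LinearMap.congr_fun (congrArg Units.val (hc _ _ _ _ (hπ0 p))) (0, 0, w)
    have c2 : g.1 ((D.zp 0 * D.xq (D.cls p)).1 (0, 0, w)) =
      (D.zp (θ p) * D.xq (D.cls (π p))).1 (g.1 (0, 0, w)) := c
    have c3 := congrArg (fun v : D.V => v.2.2) c2
    simp only [gW_snd hz, zx_apply, sg_zero, one_smul] at c3
    exact c3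
  have hP : ∀ p w, M (w * D.PL p) = M w * D.PL (π p) := fun p w => by
    have a : g.1 (⟨D.PL p, D.PL_tr p⟩, 0, 0) = (⟨D.PL (π p), D.PL_tr _⟩, 0, 0) := by
      have b := D.ax_add p 0
      rw [zero_add] at b
      have c := congrArg g.1 b
      rw [map_add, hπ0, hπ1, ax_add, map_smul] at c
      exact (smul_right_injective _ (by norm_num) c).symm
    have b := gW_mW hg hz (a := (⟨D.PL p, D.PL_tr p⟩, 0, 0)) rfl w
    rw [a] at b
    simp only [mW, Pi.zero_apply, zero_div, zero_smul, Finset.sum_const_zero, add_zero, trace_PL,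
      map_add, map_smul] at b
    exact add_right_cancel b
  have hI : ∀ w w', trace ((M w)ᵀ * M w') = trace (wᵀ * w') := fun w w' => by
    have := hg.1 (0, 0, w) (0, 0, w')
    rw [gW_spec hz, gW_spec hz] at this
    simpa [ip] using this
  obtain ⟨p0, -⟩ := (D.duad 0 1 (by decide)).1
  let U0 : (E → ℚ) →ₗ[ℚ] (E → ℚ) :=
    { toFun := fun u => (1 / 32 : ℚ) • (M (vecMulVec u (D.lam p0)) *ᵥ D.lam (π p0))
      map_add' := fun u v => by rw [add_vecMulVec, map_add, add_mulVec, smul_add]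
      map_smul' := fun c u => by rw [smul_vecMulVec, map_smul, smul_mulVec, smul_comm]; rfl }
  obtain ⟨U, hU0⟩ : ∃ U : ME, ∀ u, U *ᵥ u = U0 u :=
    ⟨LinearMap.toMatrix' U0, fun u => LinearMap.toMatrix'_mulVec _ _⟩
  have hU1 : ∀ u, M (vecMulVec u (D.lam p0)) = vecMulVec (U *ᵥ u) (D.lam (π p0)) := fun u => by
    have a := hP p0 (vecMulVec u (D.lam p0))
    rw [PL, vecMulVec_mul_vecMulVec, D.lam_norm, vecMulVec_smul, map_smul, PL, mul_vecMulVec] at a
    rw [hU0]
    show _ = vecMulVec ((1 / 32 : ℚ) • (M (vecMulVec u (D.lam p0)) *ᵥ D.lam (π p0))) _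
    rw [smul_vecMulVec, ← a, smul_smul]
    norm_num
  have hU : Uᵀ * U = 1 := eq_of_dot fun u v => by
    have a := hI (vecMulVec u (D.lam p0)) (vecMulVec v (D.lam p0))
    rw [hU1, hU1, trace_vv_vv, trace_vv_vv, D.lam_norm, D.lam_norm] at a
    rw [← mulVec_mulVec, dotProduct_mulVec, vecMul_transpose, one_mulVec]
    linarith
  have hU' : U * Uᵀ = 1 := mul_eq_one_comm.1 hU
  have hUq : ∀ p, U * q (D.cls p) = sg (θ p) • (q (D.cls (π p)) * U) := fun p =>
    eq_of_mulVec fun u => by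
      have a := hq p (vecMulVec u (D.lam p0))
      rw [mul_vecMulVec, hU1, hU1, mul_vecMulVec, ← smul_vecMulVec] at a
      have b := congrArg (fun X => X *ᵥ D.lam (π p0)) a
      simp only [vv_mulVec, D.lam_norm] at b
      rw [smul_mulVec, ← mulVec_mulVec, ← mulVec_mulVec]
      exact smul_right_injective _ (by norm_num) b
  have hqU : ∀ p, q (D.cls p) * Uᵀ = sg (θ p) • (Uᵀ * q (D.cls (π p))) := fun p => by
    have a := congrArg transpose (hUq p)
    rwa [transpose_mul, transpose_smul, transpose_mul, qc_tr, qc_tr] at a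
  obtain ⟨σ, hσ⟩ := comm_W (lr Uᵀ 1 * M) fun c => by
    have hc : c ∈ Submodule.span F2 (Set.range D.cls) := D.cls_span ▸ Submodule.mem_top
    induction hc using Submodule.span_induction with
    | mem x hx =>
      obtain ⟨p, rfl⟩ := hx
      intro w
      show Uᵀ * M (q (D.cls p) * w) * (1 : M24) = q (D.cls p) * (Uᵀ * M w * (1 : M24))
      rw [hq, Matrix.mul_one, Matrix.mul_one, ← Matrix.mul_assoc, hqU, Matrix.mul_smul,
        Matrix.smul_mul, Matrix.mul_assoc]
    | zero => intro w; rw [q_zero, Matrix.one_mul, Matrix.one_mul]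
    | add x y _ _ hx hy =>
      intro w
      have e : q (x + y) = sg (Bf x y) • (q x * q y) := by
        rw [q_mul, smul_smul, sg_mul_self, one_smul]
      rw [e, Matrix.smul_mul, Matrix.smul_mul, map_smul, Matrix.mul_assoc, hx, hy, Matrix.mul_assoc]
    | smul a x _ hx =>
      rcases F2_cases a with rfl | rfl
      · intro w; rw [zero_smul, q_zero, Matrix.one_mul, Matrix.one_mul]
      · rw [one_smul]; exact hx
  have hMw : ∀ w, M w = U * w * σᵀ := fun w => by
    have a : Uᵀ * M w * (1 : M24) = w * σᵀ := hσ w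
    rw [Matrix.mul_assoc U, ← a, Matrix.mul_one, ← Matrix.mul_assoc, hU', Matrix.one_mul]
  have cU : ∀ X : MW, Uᵀ * (U * X) = X := fun X => by
    rw [← Matrix.mul_assoc, hU, Matrix.one_mul]
  have hσ1 : σᵀ * σ = 1 := eq_of_dot fun a b => by
    have k := hI (vecMulVec (Pi.single 0 1) a) (vecMulVec (Pi.single 0 1) b)
    rw [hMw, hMw, mul_vecMulVec, mul_vecMulVec, vecMulVec_mul, vecMulVec_mul, trace_vv_vv,
      trace_vv_vv, vecMul_transpose, vecMul_transpose, dotProduct_mulVec, ← mulVec_transpose,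
      mulVec_mulVec, hU, one_mulVec] at k
    rw [← mulVec_mulVec, dotProduct_mulVec, vecMul_transpose, one_mulVec]
    simpa using k
  have hσ2 : σ * σᵀ = 1 := mul_eq_one_comm.1 hσ1
  have hl : ∀ p, PM (σ *ᵥ D.lam p) (D.lam (π p)) := fun p => by
    have a : D.PL p * σᵀ = σᵀ * D.PL (π p) := eq_of_W_mul fun w => by
      have b := congrArg (fun X => Uᵀ * X) (hP p w)
      simp only [hMw, Matrix.mul_assoc, cU] at b
      exact b
    refine PM_of_vv (D.lam_norm _) ?_
    have b : σ * (D.PL p * σᵀ) = D.PL (π p) := by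
      rw [a, ← Matrix.mul_assoc, hσ2, Matrix.one_mul]
    rwa [PL, vecMulVec_mul, mul_vecMulVec, vecMul_transpose] at b
  have hN : D.IsN U σ := ⟨hU, hσ1, fun p => ⟨π p, θ p, hUq p, hl p⟩⟩
  obtain ⟨n, hn, e⟩ := exists_N hN
  have : g = n := Units.ext <| D.ext_ax (fun p η => by
      rw [e, actL_ax hN (hUq p) (hl p)]
      rcases F2_cases η with rfl | rfl
      · rw [hπ0, zero_add]
      · rw [hπ1, add_comm])
    (fun w => by
      rw [gW_spec hz, ← hM, hMw, e]
      refine Prod.ext (Subtype.ext ?_) (Prod.ext (funext fun s => ?_) rfl)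
      · show 0 = σ * 0 * σᵀ
        rw [Matrix.mul_zero, Matrix.zero_mul]
      · show 0 = D.kap (U * D.rho 0 * Uᵀ) s
        rw [rho_zero, Matrix.mul_zero, Matrix.zero_mul, kap, Matrix.mul_zero, trace_zero, zero_div])
  rw [this]; exact hn

end Dat

end

end CfsgMO
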