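/-
The group generated by `N` and `t`: order, centraliser of `z`, simplicity (WP Top).
-/
import Cfsg.Agent.MO.A2
import Cfsg.Agent.MO.K0

set_option autoImplicit false

namespace CfsgMO

open Matrix

noncomputable section

/-! ### counting lemmas -/

theorem sum_orbit {G X : Type} [Group G] [Fintype G] [MulAction G X] (x : X) (f : X → ℕ)
    (O : Finset X) (hO : ∀ y, y ∈ O ↔ ∃ g : G, g • x = y) :
    ∑ g : G, f (g • x) = Nat.card (MulAction.stabilizer G x) * ∑ y ∈ O, f y := by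
  classical
  rw [← Finset.sum_fiberwise_of_maps_to (s := Finset.univ) (t := O)
    (g := fun g : G => g • x) (fun g _ => (hO _).2 ⟨g, rfl⟩), Finset.mul_sum]
  refine Finset.sum_congr rfl fun y hy => ?_
  obtain ⟨g0, rfl⟩ := (hO y).1 hy
  rw [Finset.sum_congr rfl (g := fun _ => f (g0 • x)) fun g hg => by rw [(Finset.mem_filter.1 hg).2],
    Finset.sum_const, smul_eq_mul]
  congr 1
  rw [← Nat.card_eq_finsetCard]
  refine Nat.card_congr ⟨fun g => ⟨g0⁻¹ * g.1, ?_⟩, fun s => ⟨g0 * s.1, ?_⟩, fun g => by simp,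
    fun s => by simp⟩
  · rw [MulAction.mem_stabilizer_iff, mul_smul, (Finset.mem_filter.1 g.2).2, inv_smul_smul]
  · rw [Finset.mem_filter, mul_smul, MulAction.mem_stabilizer_iff.1 s.2]
    exact ⟨Finset.mem_univ _, rfl⟩

theorem card_stab_mul {Γ X : Type} [Group Γ] [MulAction Γ X] (H : Subgroup Γ) (x : X) :
    Nat.card (H ⊓ MulAction.stabilizer Γ x : Subgroup Γ) * {y | ∃ h ∈ H, h • x = y}.ncard =
      Nat.card H := by
  have h1 : {y | ∃ h ∈ H, h • x = y} = MulAction.orbit H x := by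
    ext y
    exact ⟨fun ⟨h, hh, e⟩ => ⟨⟨h, hh⟩, e⟩, fun ⟨h, e⟩ => ⟨h.1, h.2, e⟩⟩
  rw [h1, ← MulAction.index_stabilizer, ← (MulAction.stabilizer H x).card_mul_index]
  congr 1
  exact Nat.card_congr ⟨fun g => ⟨⟨g.1, g.2.1⟩, g.2.2⟩, fun g => ⟨g.1.1, g.1.2, g.2⟩, fun _ => rfl,
    fun _ => rfl⟩

theorem cover_of_card {α : Type} [DecidableEq α] {U : Set α} (hU : U.Finite) {ι : Type}
    (J : Finset ι) (S : ι → Finset α) (hd : ∀ j j', j ≠ j' → Disjoint (S j) (S j'))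
    (hS : ∀ j ∈ J, ∀ c ∈ S j, c ∈ U) (hc : ∑ j ∈ J, (S j).card = U.ncard) :
    (↑(J.biUnion S) : Set α) = U := by
  refine Set.eq_of_subset_of_ncard_le (fun c hc => ?_) ?_ hU
  · obtain ⟨j, hj, h⟩ := Finset.mem_biUnion.1 (Finset.mem_coe.1 hc)
    exact hS j hj c h
  · rw [Set.ncard_coe_finset, Finset.card_biUnion fun j _ j' _ h => hd j j' h, hc]

/-- the class of the standard frame -/
def Om : Cl := cd (2 ^ 23)

namespace Dat

variable (D : Dat)

/-- the odd element -/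
def m0 : D.Γ := D.xq (cd (2 ^ 11))
/-- the classes of the frames -/
def Frs : Set Cl := {c | c ≠ 0 ∧ Bf c c = 0 ∧ ∀ p, D.cls p ≠ c}
/-- the orbit of a vector under `N` -/
def Orb (a : D.V) : Set D.V := {b | ∃ n ∈ D.N, n.1 a = b}
/-- the group -/
def GG (t : D.Γ) : Subgroup D.Γ := D.N ⊔ Subgroup.zpowers t

variable {D}

instance actCl : MulAction D.N Cl where
  smul n c := (D.Ah n).1 *ᵥ c
  one_smul c := by
    change (D.Ah 1).1 *ᵥ c = c
    rw [map_one, Units.val_one, one_mulVec]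
  mul_smul a b c := by
    change (D.Ah (a * b)).1 *ᵥ c = (D.Ah a).1 *ᵥ (D.Ah b).1 *ᵥ c
    rw [map_mul, Units.val_mul, mulVec_mulVec]

theorem smul_cl (n : D.N) (c : Cl) : n • c = (D.Ah n).1 *ᵥ c := rfl
theorem smul_cl_add (n : D.N) (c d : Cl) : n • (c + d) = n • c + n • d := mulVec_add _ _ _
theorem smul_cl_zero (n : D.N) : n • (0 : Cl) = 0 := mulVec_zero _
theorem mul_ap (g h : D.Γ) (v : D.V) : (g * h).1 v = g.1 (h.1 v) := rfl

/-- the frame `c` is moved to the standard frame by an element `h` for which the images under `t` are known -/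
def FrL (t : D.Γ) (a : Fin 12 → D.V) (k : Fin 12) (c : Cl) (l l' : Fin 12) : Prop :=
  ∃ h : D.N, (D.Ah h).1 *ᵥ c = Om ∧ t.1 (h.1.1 (a k)) ∈ D.Orb (a l) ∧
    t.1 (D.m0.1 (h.1.1 (a k))) ∈ D.Orb (a l')

open Classical in
/-- `n` of the two axes of the short class `c` are orthogonal to `b`, and each of these forms a standard pair with `b` -/
def ShL (t : D.Γ) (p0 : D.I) (b : D.V) (c : Cl) (n : ℕ) : Prop :=
  ∃ p, D.cls p = c ∧ (Finset.univ.filter fun η : F2 => D.ip b (D.ax p η) = 0).card = n ∧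
    ∀ η, D.ip b (D.ax p η) = 0 → ∃ g ∈ D.GG t, g.1 b = D.ax p0 1 ∧ g.1 (D.ax p η) = D.ax p0 0

theorem FrL.smul {t : D.Γ} {a : Fin 12 → D.V} {k : Fin 12} {c : Cl} {l l' : Fin 12}
    (h : FrL t a k c l l') {u : D.N} (hu : u.1.1 (a k) = a k) :
    FrL t a k ((D.Ah u).1 *ᵥ c) l l' := by
  obtain ⟨h, h1, h2, h3⟩ := h
  have hu' : (u⁻¹).1.1 (a k) = a k := by
    conv_lhs => rw [← hu]
    exact unit_inj _ _
  have e : (h * u⁻¹).1.1 (a k) = h.1.1 (a k) := by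
    change h.1.1 ((u⁻¹).1.1 (a k)) = _
    rw [hu']
  refine ⟨h * u⁻¹, ?_, by rwa [e], by rwa [e]⟩
  change (h * u⁻¹) • u • c = Om
  rw [mul_smul, inv_smul_smul]
  exact h1

theorem N_le_GG (t : D.Γ) : D.N ≤ D.GG t := le_sup_left
theorem t_mem_GG (t : D.Γ) : t ∈ D.GG t := Subgroup.mem_sup_right (Subgroup.mem_zpowers t)

theorem ShL.smul {t : D.Γ} {p0 : D.I} {b : D.V} {c : Cl} {n : ℕ} (h : ShL t p0 b c n)
    {u : D.N} (hu : u.1.1 b = b) : ShL t p0 b ((D.Ah u).1 *ᵥ c) n := by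
  classical
  obtain ⟨p, rfl, h2, h3⟩ := h
  obtain ⟨s, ε, e1, -, e3⟩ := act_ax u p
  have hip : ∀ η, D.ip b (D.ax s (η + ε)) = D.ip b (D.ax p η) := fun η => by
    rw [← e3, ← (D.N_le_Au u.2).1 b (D.ax p η), hu]
  have hη : ∀ η : F2, η + ε + ε = η := fun η => by rw [add_assoc, F2_aa, add_zero]
  refine ⟨s, e1, ?_, fun η h => ?_⟩
  · rw [← h2]
    refine Finset.card_bij (fun η _ => η + ε) (fun η h => ?_) (fun a _ b _ e => add_right_cancel e)
      fun η h => ⟨η + ε, ?_, hη η⟩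
    · rw [Finset.mem_filter] at h ⊢
      exact ⟨Finset.mem_univ _, by rw [← hip, hη]; exact h.2⟩
    · rw [Finset.mem_filter] at h ⊢
      exact ⟨Finset.mem_univ _, by rw [hip]; exact h.2⟩
  · obtain ⟨g, hg, e4, e5⟩ := h3 (η + ε) (by rw [← hip, hη]; exact h)
    refine ⟨g * (u.1)⁻¹, mul_mem hg (inv_mem (N_le_GG t u.2)), ?_, ?_⟩
    · rw [mul_ap, ← e4]
      conv_lhs => rw [← hu]
      rw [unit_inj]
    · rw [mul_ap, ← e5, ← hη η, ← e3, unit_inj, hη]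

/-- the result of the orbit enumeration for the axis number `k`: labels `1 ≤ j ≤ r` are frame labels with targets `lf j`,
labels `r < j ≤ r + 3` are short labels with `j - r - 1` orthogonal axes -/
structure Part (t : D.Γ) (p0 : D.I) (a : Fin 12 → D.V) (k : Fin 12) (w : Fin 12 → ℕ) (s : ℕ) : Prop where
  ex : ∃ (r : ℕ) (lf : ℕ → Fin 12 × Fin 12) (S : ℕ → Finset Cl),
    (∀ j j', j ≠ j' → Disjoint (S j) (S j')) ∧
    (∀ j ∈ Finset.Icc 1 r, ∀ c ∈ S j, FrL t a k c (lf j).1 (lf j).2) ∧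
    (∀ n < 3, ∀ c ∈ S (r + 1 + n), ShL t p0 (a k) c n) ∧
    (∑ j ∈ Finset.Icc 1 r, (S j).card = 8292375) ∧
    ((S (r + 1)).card + (S (r + 2)).card + (S (r + 3)).card = 98280) ∧
    (∀ l, w l = ∑ j ∈ Finset.Icc 1 r, (S j).card * ((if (lf j).1 = l then 1 else 0) + (if (lf j).2 = l then 1 else 0))) ∧
    s = (S (r + 2)).card + 2 * (S (r + 3)).card

/-- the hypotheses on the lattice side -/
structure HypL (D : Dat) : Prop where
  ips : ∀ p, D.Ips p
  card : Fintype.card D.I = 98280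
  co1 : Cfsg.IsCo1 D.Ah.range
  trans : ∀ p s η θ, ∃ n ∈ D.N, n.1 (D.ax p η) = D.ax s θ
  nFr : D.Frs.ncard = 8292375
  om : Om ∈ D.Frs
  tri : ∃ p s r, D.cls r = D.cls p + D.cls s

/-- the hypotheses on `t` -/
structure HypT (t : D.Γ) : Prop where
  au : t ∈ D.Au
  sq : t * t = 1
  tz : ∃ e, t * D.z * t⁻¹ = D.zp e * D.xq Om
  tq : ∀ k < 24, k ≠ 11 → t * D.xq (cd (2 ^ k)) * t⁻¹ ∈ D.N
  gen : ∃ S : Set D.N, (∀ s ∈ S, (D.Ah s).1 *ᵥ Om = Om ∧ t * s.1 * t⁻¹ ∈ D.N) ∧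
    ∀ H : Subgroup D.Γ, D.z ∈ H → (∀ c, D.xq c ∈ H) → (∀ s ∈ S, s.1 ∈ H) →
      ∀ n : D.N, (D.Ah n).1 *ᵥ Om = Om → n.1 ∈ H
  out : ∃ f ∈ D.Frs, ∃ n : D.N, t * D.xq f * t⁻¹ = n.1 ∧ D.Ah n ≠ 1

/-- the invariants of an axis -/
def inv2 (a : D.V) : ℚ := trace (a.1.1 * a.1.1)
def inv3 (a : D.V) : ℚ := trace (a.1.1 * a.1.1 * a.1.1)

/-- the hypotheses on the twelve axes; `o k` are the claimed orbit lengths; every `k ≠ 0` has a parent `par k < k` -/
structure HypA (t : D.Γ) (p0 : D.I) (a : Fin 12 → D.V) (w : Fin 12 → Fin 12 → ℕ) (s o : Fin 12 → ℕ)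
    (par : Fin 12 → Fin 12) : Prop where
  a0 : a 0 = D.ax p0 0
  mem : ∀ k, ∃ g ∈ D.GG t, g.1 (a 0) = a k
  sep : ∀ k l, inv2 (a k) = inv2 (a l) → inv3 (a k) = inv3 (a l) → k = l
  sep0 : ∀ k, inv2 (a k) = 4 → k = 0
  part : ∀ k, Part t p0 a k (w k) (s k)
  o0 : o 0 = 196560
  edge : ∀ k, k ≠ 0 → par k < k ∧ w k (par k) ≠ 0 ∧ o (par k) * w (par k) k = o k * w k (par k)
  tot : ∑ k, o k = 97239461142009186000
  totF : ∑ k, o k * s k = 196560 * 11707448673375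

variable {t : D.Γ} {p0 : D.I} {a : Fin 12 → D.V} {w : Fin 12 → Fin 12 → ℕ} {s o : Fin 12 → ℕ}
  {par : Fin 12 → Fin 12}

theorem GG_le_Au (hT : HypT t) : D.GG t ≤ D.Au :=
  sup_le D.N_le_Au (Subgroup.zpowers_le.2 hT.au)

theorem HypT.inv (hT : HypT t) : t⁻¹ = t := inv_eq_of_mul_eq_one_right hT.sq

theorem HypT.ap (hT : HypT t) (v : D.V) : t.1 (t.1 v) = v := by
  rw [← mul_ap, hT.sq]; rfl

/-! ### the stabiliser of the standard frame -/

theorem cd_pow (k : Fin 24) : cd (2 ^ (k : ℕ)) = Pi.single k 1 := by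
  funext i
  simp only [cd, Nat.testBit_two_pow, Pi.single_apply, decide_eq_true_eq, Fin.ext_iff]
  split_ifs <;> first | rfl | omega

theorem Bf_Om (c : Cl) : Bf Om c + Bf c Om = c 11 := by
  have h1 : hi Om = Pi.single 11 1 := by decide
  have h2 : lo Om = 0 := by decide
  rw [Bf, Bf, h1, h2, dotProduct_zero, add_zero, single_dotProduct, one_mul]
  rfl

theorem smul_Bf (n : D.N) (c : Cl) : Bf (n • c) (n • c) = Bf c c := Ah_Bf n c

theorem smul_polar (n : D.N) (c d : Cl) :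
    Bf (n • c) (n • d) + Bf (n • d) (n • c) = Bf c d + Bf d c := by
  have h := smul_Bf n (c + d)
  simp only [smul_cl_add, Bf_add_left, Bf_add_right, smul_Bf] at h
  linear_combination h

theorem bit_smul {n : D.N} (h : n • Om = Om) (c : Cl) : (n • c) 11 = c 11 := by
  rw [← Bf_Om c, ← Bf_Om (n • c), ← smul_polar n Om c, h]

theorem zx_inv (a : F2) (c : Cl) : (D.zp a * D.xq c)⁻¹ = D.zp (a + Bf c c) * D.xq c := by
  refine inv_eq_of_mul_eq_one_right ?_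
  rw [zx_mul, Cl_aa, xq_zero, mul_one, ← add_assoc, F2_aa, zero_add, F2_aa, zp_zero]

theorem zx_smul {n : D.N} {e : F2} {c : Cl} (h : n.1 = D.zp e * D.xq c) (d : Cl) : n • d = d := by
  rw [smul_cl, MonoidHom.mem_ker.1 (mem_ker.2 ⟨e, c, h⟩), Units.val_one, one_mulVec]

theorem HypT.zp_mem (hT : HypT t) (e : F2) : t * D.zp e * t⁻¹ ∈ D.N := by
  rcases F2_cases e with rfl | rfl
  · rw [zp_zero, mul_one, mul_inv_cancel]; exact one_mem _
  · obtain ⟨e, h⟩ := hT.tz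
    rw [zp_one, h]; exact mul_mem (D.zp_mem _) (D.xq_mem _)

theorem HypT.even (hT : HypT t) (e : F2) {c : Cl} (hc : c 11 = 0) :
    t * (D.zp e * D.xq c) * t⁻¹ ∈ D.N := by
  have h1 : t * D.xq c * t⁻¹ ∈ D.N := by
    rw [← Finset.univ_sum_single c]
    refine Finset.sum_induction _ (fun c => t * D.xq c * t⁻¹ ∈ D.N) (fun c d h1 h2 => ?_) ?_
      fun k _ => ?_
    · have : D.xq (c + d) = D.zp (Bf c d) * (D.xq c * D.xq d) := by
        rw [xq_mul, ← mul_assoc, ← zp_add, F2_aa, zp_zero, one_mul]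
      rw [this]
      have := mul_mem (hT.zp_mem (Bf c d)) (mul_mem h1 h2)
      simpa [mul_assoc] using this
    · rw [xq_zero, mul_one, mul_inv_cancel]; exact one_mem _
    · rcases F2_cases (c k) with h | h
      · rw [h, Pi.single_zero, xq_zero, mul_one, mul_inv_cancel]; exact one_mem _
      · rw [h, ← cd_pow]
        refine hT.tq k k.2 fun e => ?_
        rw [show k = 11 from Fin.ext e, hc] at h
        exact zero_ne_one h
  have := mul_mem (hT.zp_mem e) h1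
  simpa [mul_assoc] using this

/-- the elements of the stabiliser which `t` conjugates into `N` -/
def TT (t : D.Γ) : Subgroup D.N where
  carrier := {n | n • Om = Om ∧ t * n.1 * t⁻¹ ∈ D.N}
  one_mem' := ⟨one_smul _ _, by simp⟩
  mul_mem' := fun {a b} ha hb => ⟨by rw [mul_smul, hb.1, ha.1], by
    have := mul_mem ha.2 hb.2
    simpa [mul_assoc] using this⟩
  inv_mem' := fun {a} ha => ⟨by rw [inv_smul_eq_iff, ha.1], by
    have := inv_mem ha.2
    simpa [mul_assoc] using this⟩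

/-- the odd element in `N` -/
def m1 (D : Dat) : D.N := ⟨D.m0, D.xq_mem _⟩

theorem HypT.even_TT (hT : HypT t) {n : D.N} {e : F2} {c : Cl} (h : n.1 = D.zp e * D.xq c)
    (hc : c 11 = 0) : n ∈ TT t := ⟨zx_smul h _, by rw [h]; exact hT.even e hc⟩

theorem m0_eq : D.m0 = D.zp 0 * D.xq (cd (2 ^ 11)) := by rw [zp_zero, one_mul, m0]

theorem HypT.m1_conj (hT : HypT t) {n : D.N} (hn : n ∈ TT t) : D.m1 * n * D.m1⁻¹ ∈ TT t := by
  obtain ⟨ε, h⟩ := Ah_spec n (cd (2 ^ 11))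
  have h1 : D.m1 * n * D.m1⁻¹ * n⁻¹ ∈ TT t := by
    refine hT.even_TT (c := cd (2 ^ 11) + n • cd (2 ^ 11)) (e := _) (by
      have : (D.m1 * n * D.m1⁻¹ * n⁻¹).1 = D.m0 * (n.1 * D.m0 * n.1⁻¹)⁻¹ := by
        change D.m0 * n.1 * D.m0⁻¹ * n.1⁻¹ = _
        group
      rw [this, m0, h, zx_inv, ← m0, m0_eq, zx_mul]
      rfl) ?_
    rw [Pi.add_apply, bit_smul hn.1, F2_aa]
  simpa using mul_mem h1 hn

theorem HypT.m1_sq (hT : HypT t) : D.m1 * D.m1 ∈ TT t :=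
  hT.even_TT (c := cd (2 ^ 11) + cd (2 ^ 11)) (D.xq_mul _ _) (by rw [Pi.add_apply, F2_aa])

theorem HypT.stab (hT : HypT t) {n : D.N} (hn : n • Om = Om) : n ∈ TT t ∨ n * D.m1⁻¹ ∈ TT t := by
  let H : Subgroup D.N :=
    { carrier := {n | n ∈ TT t ∨ n * D.m1⁻¹ ∈ TT t}
      one_mem' := Or.inl (one_mem _)
      mul_mem' := by
        rintro a b (ha | ha) (hb | hb)
        · exact Or.inl (mul_mem ha hb)
        · exact Or.inr (by rw [mul_assoc]; exact mul_mem ha hb)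
        · refine Or.inr ?_
          have := mul_mem ha (hT.m1_conj hb)
          simpa [mul_assoc] using this
        · refine Or.inl ?_
          have := mul_mem (mul_mem ha (hT.m1_conj hb)) hT.m1_sq
          simpa [mul_assoc] using this
      inv_mem' := by
        rintro a (ha | ha)
        · exact Or.inl (inv_mem ha)
        · refine Or.inr ?_
          have := mul_mem (inv_mem hT.m1_sq) (mul_mem (hT.m1_conj (inv_mem ha)) (one_mem _))
          have h2 := mul_mem this hT.m1_sq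
          have h3 := mul_mem h2 (inv_mem hT.m1_sq)
          simpa [mul_assoc] using h3 }
  obtain ⟨S, hS, hg⟩ := hT.gen
  have key : ∀ m : D.N, m ∈ H → m.1 ∈ H.map D.N.subtype := fun m hm => ⟨m, hm, rfl⟩
  obtain ⟨m, hm, e⟩ := hg (H.map D.N.subtype)
    (key ⟨D.z, D.z_mem⟩ (Or.inl (hT.even_TT (e := 1) (c := 0) (by rw [xq_zero, mul_one, zp_one]) rfl)))
    (fun c => key ⟨D.xq c, D.xq_mem c⟩ (by
      rcases F2_cases (c 11) with h | h
      · exact Or.inl (hT.even_TT (e := 0) (by rw [zp_zero, one_mul]) h)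
      · refine Or.inr (hT.even_TT (c := c + cd (2 ^ 11)) (e := _) (by
          change D.xq c * D.m0⁻¹ = _
          rw [m0_eq, zx_inv, ← one_mul (D.xq c), ← zp_zero, zx_mul]) ?_)
        rw [Pi.add_apply, h]; decide))
    (fun s hs => key s (Or.inl (hS s hs))) n hn
  obtain rfl : m = n := Subtype.ext e
  exact hm

/-! ### frames and orbits -/

theorem Frs_smul (n : D.N) {c : Cl} (h : c ∈ D.Frs) : n • c ∈ D.Frs := by
  refine ⟨fun e => h.1 ?_, (smul_Bf n c).trans h.2.1, fun p e => ?_⟩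
  · rw [← inv_smul_smul n c, e, smul_cl_zero]
  · obtain ⟨s, -, e1, -⟩ := act_ax n⁻¹ p
    exact h.2.2 s (by rw [e1, e, ← smul_cl, inv_smul_smul])

theorem FrL.mem (hL : HypL D) {k : Fin 12} {c : Cl} {l l' : Fin 12} (h : FrL t a k c l l') :
    c ∈ D.Frs := by
  obtain ⟨h, h1, -⟩ := h
  rw [← inv_smul_smul h c, smul_cl h, h1]
  exact Frs_smul _ hL.om

theorem Orb_N {b x : D.V} (h : x ∈ D.Orb b) {n : D.Γ} (hn : n ∈ D.N) : n.1 x ∈ D.Orb b := by
  obtain ⟨m, hm, rfl⟩ := h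
  exact ⟨n * m, mul_mem hn hm, rfl⟩

theorem mem_Orb (b : D.V) : b ∈ D.Orb b := ⟨1, one_mem _, rfl⟩

theorem inv23_N {n : D.Γ} (hn : n ∈ D.N) (b : D.V) :
    inv2 (n.1 b) = inv2 b ∧ inv3 (n.1 b) = inv3 b := by
  obtain ⟨U, σ, h, e⟩ := of_mem_N hn
  have e1 : (n.1 b).1.1 = σ * b.1.1 * σᵀ := by rw [e]; rfl
  have h1 : ∀ X : M24, σᵀ * (σ * X) = X := fun X => by rw [← Matrix.mul_assoc, h.2.1, Matrix.one_mul]
  have h2 : ∀ X : M24, trace (σ * (X * σᵀ)) = trace X := fun X => by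
    rw [trace_mul_comm, Matrix.mul_assoc, h.2.1, Matrix.mul_one]
  constructor
  · rw [inv2, inv2, e1, ← h2 (b.1.1 * b.1.1)]
    simp only [Matrix.mul_assoc, h1]
  · rw [inv3, inv3, e1, ← h2 (b.1.1 * b.1.1 * b.1.1)]
    simp only [Matrix.mul_assoc, h1]

theorem HypA.disj (hA : HypA t p0 a w s o par) {x : D.V} {k l : Fin 12} (hk : x ∈ D.Orb (a k))
    (hl : x ∈ D.Orb (a l)) : k = l := by
  obtain ⟨n, hn, e⟩ := hk
  obtain ⟨m, hm, e'⟩ := hl
  exact hA.sep k l (by rw [← (inv23_N hn _).1, e, ← e', (inv23_N hm _).1])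
    (by rw [← (inv23_N hn _).2, e, ← e', (inv23_N hm _).2])

theorem FrL.step (hT : HypT t) {k : Fin 12} {h : D.N} {l l' : Fin 12}
    (hF : FrL t a k (h⁻¹ • Om) l l') :
    (t.1 (h.1.1 (a k)) ∈ D.Orb (a l) ∧ t.1 (D.m0.1 (h.1.1 (a k))) ∈ D.Orb (a l')) ∨
    (t.1 (h.1.1 (a k)) ∈ D.Orb (a l') ∧ t.1 (D.m0.1 (h.1.1 (a k))) ∈ D.Orb (a l)) := by
  obtain ⟨h', h1, h2, h3⟩ := hF
  have hm : (h * h'⁻¹) • Om = Om := by
    rw [mul_smul, inv_smul_eq_iff.2 (show Om = h' • h⁻¹ • Om from h1.symm), smul_inv_smul]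
  have key : ∀ (τ : D.N) (x : D.V) (l : Fin 12), τ ∈ TT t → t.1 x ∈ D.Orb (a l) →
      t.1 (τ.1.1 x) ∈ D.Orb (a l) := fun τ x l hτ hx => by
    have := Orb_N hx hτ.2
    rwa [mul_ap, unit_inj, mul_ap] at this
  rcases hT.stab hm with hτ | hτ
  · refine Or.inl ⟨?_, ?_⟩
    · have := key _ _ _ hτ h2
      rwa [← mul_ap (h * h'⁻¹).1, ← Subgroup.coe_mul, inv_mul_cancel_right] at this
    · have := key _ _ _ (hT.m1_conj hτ) h3
      have e : (D.m1 * (h * h'⁻¹) * D.m1⁻¹) * D.m1 * h' = D.m1 * h := by group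
      change t.1 (((D.m1 * (h * h'⁻¹) * D.m1⁻¹) * D.m1 * h').1.1 (a k)) ∈ _ at this
      rwa [e] at this
  · refine Or.inr ⟨?_, ?_⟩
    · have := key _ _ _ hτ h3
      have e : (h * h'⁻¹ * D.m1⁻¹) * D.m1 * h' = h := by group
      change t.1 (((h * h'⁻¹ * D.m1⁻¹) * D.m1 * h').1.1 (a k)) ∈ _ at this
      rwa [e] at this
    · have := key _ _ _ (mul_mem (hT.m1_conj hτ) hT.m1_sq) h2
      have e : (D.m1 * (h * h'⁻¹ * D.m1⁻¹) * D.m1⁻¹ * (D.m1 * D.m1)) * h' = D.m1 * h := by group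
      change t.1 (((D.m1 * (h * h'⁻¹ * D.m1⁻¹) * D.m1⁻¹ * (D.m1 * D.m1)) * h').1.1 (a k)) ∈ _ at this
      rwa [e] at this

theorem HypA.exists_FrL (hL : HypL D) (hA : HypA t p0 a w s o par) (k : Fin 12) {c : Cl}
    (hc : c ∈ D.Frs) : ∃ l l', FrL t a k c l l' := by
  obtain ⟨r, lf, S, h1, h2, -, h4, -⟩ := (hA.part k).ex
  rw [← cover_of_card (Set.toFinite D.Frs) (Finset.Icc 1 r) S h1
    (fun j hj c hc => (h2 j hj c hc).mem hL) (h4.trans hL.nFr.symm)] at hc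
  obtain ⟨j, hj, h⟩ := Finset.mem_biUnion.1 (Finset.mem_coe.1 hc)
  exact ⟨_, _, h2 j hj c h⟩

/-- the union of the twelve orbits -/
def Dd (a : Fin 12 → D.V) : Set D.V := {x | ∃ k, x ∈ D.Orb (a k)}

theorem Dd_GG (hL : HypL D) (hT : HypT t) (hA : HypA t p0 a w s o par) {g : D.Γ}
    (hg : g ∈ D.GG t) {x : D.V} (hx : x ∈ Dd a) : g.1 x ∈ Dd a := by
  let St : Subgroup D.Γ :=
    { carrier := {g | ∀ x, x ∈ Dd a ↔ g.1 x ∈ Dd a}
      one_mem' := fun _ => Iff.rfl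
      mul_mem' := fun {g h} hg hh x => (hh x).trans (hg _)
      inv_mem' := fun {g} hg x => by rw [hg ((g⁻¹).1 x), unit_surj] }
  have hN : ∀ n ∈ D.N, ∀ x ∈ Dd a, n.1 x ∈ Dd a := fun n hn x ⟨k, hk⟩ => ⟨k, Orb_N hk hn⟩
  have ht : ∀ x ∈ Dd a, t.1 x ∈ Dd a := by
    rintro _ ⟨k, h, hh, rfl⟩
    obtain ⟨l, l', hF⟩ := hA.exists_FrL hL k (Frs_smul (⟨h, hh⟩ : D.N)⁻¹ hL.om)
    rcases hF.step hT with h1 | h1
    · exact ⟨_, h1.1⟩
    · exact ⟨_, h1.1⟩
  have : D.GG t ≤ St := sup_le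
    (fun n hn x => ⟨hN n hn x, fun h => by have := hN _ (inv_mem hn) _ h; rwa [unit_inj] at this⟩)
    (Subgroup.zpowers_le.2 fun x => ⟨ht x, fun h => by have := ht _ h; rwa [hT.ap] at this⟩)
  exact (this hg x).1 hx

/-- the orbit of the axes -/
theorem orbit_eq (hL : HypL D) (hT : HypT t) (hA : HypA t p0 a w s o par) {g : D.Γ}
    (hg : g ∈ D.GG t) : ∃ k, g.1 (D.ax p0 0) ∈ D.Orb (a k) :=
  Dd_GG hL hT hA hg ⟨0, hA.a0 ▸ mem_Orb _⟩

theorem O1_N {n : D.Γ} (hn : n ∈ D.N) {b : D.V} (hb : b ∈ D.O1) : n.1 b ∈ D.O1 := by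
  obtain ⟨p, η, rfl⟩ := hb
  obtain ⟨s, ε, -, -, e⟩ := act_ax ⟨n, hn⟩ p
  exact ⟨s, η + ε, e η⟩

theorem Orb_ax (hL : HypL D) (p : D.I) (η : F2) : D.Orb (D.ax p η) = D.O1 := by
  ext x
  constructor
  · rintro ⟨n, hn, rfl⟩
    exact O1_N hn ⟨p, η, rfl⟩
  · rintro ⟨s, θ, rfl⟩
    exact hL.trans p s η θ

open Classical in
/-- the orbit as a finite set -/
def orbF (b : D.V) : Finset D.V :=
  haveI := Fintype.ofFinite D.N
  Finset.univ.image fun n : D.N => n • b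

theorem mem_orbF {b x : D.V} : x ∈ orbF b ↔ x ∈ D.Orb b := by
  simp only [orbF, Finset.mem_image, Finset.mem_univ, true_and]
  exact ⟨fun ⟨n, e⟩ => ⟨n.1, n.2, e⟩, fun ⟨n, hn, e⟩ => ⟨⟨n, hn⟩, e⟩⟩

theorem mem_orbF' (b x : D.V) : x ∈ orbF b ↔ ∃ n : D.N, n • b = x := by
  simp only [orbF, Finset.mem_image, Finset.mem_univ, true_and]

theorem coe_orbF (b : D.V) : (orbF b : Set D.V) = D.Orb b := Set.ext fun _ => mem_orbF

open Classical in
theorem count_eq (hL : HypL D) (hT : HypT t) (hA : HypA t p0 a w s o par) (k l : Fin 12) :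
    2 * ((orbF (a k)).filter fun x => t.1 x ∈ D.Orb (a l)).card * Nat.card D.N =
      (orbF (a k)).card * Nat.card (MulAction.stabilizer D.N Om) * w k l := by
  letI := Fintype.ofFinite D.N
  obtain ⟨r, lf, S, h1, h2, -, h4, -, h6, -⟩ := (hA.part k).ex
  have hc := cover_of_card (Set.toFinite D.Frs) (Finset.Icc 1 r) S h1
    (fun j hj c hc => (h2 j hj c hc).mem hL) (h4.trans hL.nFr.symm)
  let f : D.V → ℕ := fun x => if t.1 x ∈ D.Orb (a l) then 1 else 0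
  let v : ℕ → ℕ := fun j => (if (lf j).1 = l then 1 else 0) + (if (lf j).2 = l then 1 else 0)
  let wt : Cl → ℕ := fun c => ∑ j ∈ Finset.Icc 1 r, if c ∈ S j then v j else 0
  have hf : ∀ x l', t.1 x ∈ D.Orb (a l') → f x = if l' = l then 1 else 0 := fun x l' hx =>
    if_congr ⟨fun h => hA.disj hx h, fun h => h ▸ hx⟩ rfl rfl
  have hp : ∀ h : D.N, f (h • a k) + f ((D.m1 * h) • a k) = wt (h⁻¹ • Om) := fun h => by
    have := Frs_smul h⁻¹ hL.om
    rw [← hc] at this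
    obtain ⟨j, hj, hS⟩ := Finset.mem_biUnion.1 (Finset.mem_coe.1 this)
    have e : wt (h⁻¹ • Om) = v j := by
      refine (Finset.sum_eq_single_of_mem j hj fun j' _ hne => if_neg fun h' => ?_).trans (if_pos hS)
      exact Finset.disjoint_left.1 (h1 j' j hne) h' hS
    rw [e]
    rcases (h2 j hj _ hS).step hT with h3 | h3
    · exact congrArg₂ (· + ·) (hf _ _ h3.1) (hf _ _ h3.2)
    · exact (congrArg₂ (· + ·) (hf _ _ h3.1) (hf _ _ h3.2)).trans (add_comm _ _)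
  have e1 : ∑ h : D.N, f ((D.m1 * h) • a k) = ∑ h : D.N, f (h • a k) :=
    Equiv.sum_comp (Equiv.mulLeft D.m1) fun h => f (h • a k)
  have e2 : ∑ h : D.N, wt (h⁻¹ • Om) = ∑ h : D.N, wt (h • Om) :=
    Equiv.sum_comp (Equiv.inv D.N) fun h => wt (h • Om)
  have e3 : ∀ c, c ∈ (Finset.Icc 1 r).biUnion S ↔ ∃ h : D.N, h • Om = c := fun c => by
    rw [← Finset.mem_coe, hc]
    refine ⟨fun hc => ?_, fun ⟨h, e⟩ => e ▸ Frs_smul h hL.om⟩
    obtain ⟨_, _, h, e, -⟩ := hA.exists_FrL hL k hc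
    exact ⟨h⁻¹, inv_smul_eq_iff.2 e.symm⟩
  have e4 : ∑ c ∈ (Finset.Icc 1 r).biUnion S, wt c = w k l := by
    rw [h6, Finset.sum_comm]
    refine Finset.sum_congr rfl fun j hj => ?_
    rw [← Finset.sum_filter, Finset.filter_mem_eq_inter,
      Finset.inter_eq_right.2 (Finset.subset_biUnion_of_mem S hj), Finset.sum_const, smul_eq_mul]
  have e5 := Finset.sum_congr rfl fun h (_ : h ∈ Finset.univ) => hp h
  rw [Finset.sum_add_distrib, e1, e2, sum_orbit _ _ _ (mem_orbF' _), sum_orbit _ _ _ e3, e4] at e5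
  have e6 := sum_orbit (G := D.N) (a k) (fun _ => 1) _ (mem_orbF' _)
  rw [Finset.sum_const, Finset.sum_const, smul_eq_mul, smul_eq_mul, mul_one, mul_one,
    Finset.card_univ, ← Nat.card_eq_fintype_card] at e6
  have e7 : ∑ y ∈ orbF (a k), f y = ((orbF (a k)).filter fun x => t.1 x ∈ D.Orb (a l)).card :=
    (Finset.card_filter _ _).symm
  rw [e6, mul_assoc (orbF (a k)).card, ← e5, e7]
  ring

open Classical in
theorem count_symm (hT : HypT t) (k l : Fin 12) :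
    ((orbF (a k)).filter fun x => t.1 x ∈ D.Orb (a l)).card =
      ((orbF (a l)).filter fun x => t.1 x ∈ D.Orb (a k)).card := by
  refine Finset.card_nbij' (fun x => t.1 x) (fun x => t.1 x) (fun x hx => ?_) (fun x hx => ?_)
    (fun x _ => hT.ap x) fun x _ => hT.ap x
  all_goals
    simp only [Finset.coe_filter, mem_orbF, Set.mem_setOf_eq, hT.ap] at hx ⊢
    exact hx.symm

theorem card_orbF (hL : HypL D) (hT : HypT t) (hA : HypA t p0 a w s o par) (k : Fin 12) :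
    (orbF (a k)).card = o k := by
  induction k using WellFoundedLT.induction with
  | ind k ih =>
  by_cases hk : k = 0
  · rw [hk, ← Set.ncard_coe_finset, coe_orbF, hA.a0, Orb_ax hL, ncard_O1, hL.card, hA.o0]
  obtain ⟨h1, h2, h3⟩ := hA.edge k hk
  have h4 := count_eq hL hT hA k (par k)
  rw [count_symm hT, count_eq hL hT hA, ih _ h1, mul_right_comm, h3, mul_right_comm _ _ (w k (par k))]
    at h4
  exact (Nat.eq_of_mul_eq_mul_right (Nat.pos_of_ne_zero h2)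
    (Nat.eq_of_mul_eq_mul_right Nat.card_pos h4)).symm

theorem ncard_Orb (hL : HypL D) (hT : HypT t) (hA : HypA t p0 a w s o par) (k : Fin 12) :
    (D.Orb (a k)).ncard = o k := by
  rw [← coe_orbF, Set.ncard_coe_finset, card_orbF hL hT hA]

theorem inv2_ax (p : D.I) (η : F2) : inv2 (D.ax p η) = 4 := by
  change trace (((1 / 16 : ℚ) • D.PL p) * ((1 / 16 : ℚ) • D.PL p)) = 4
  rw [Matrix.smul_mul, Matrix.mul_smul, PL_sq, trace_smul, trace_smul, trace_smul, trace_PL]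
  norm_num

theorem cent_GG (hL : HypL D) (hT : HypT t) (hA : HypA t p0 a w s o par) {g : D.Γ}
    (hg : g ∈ D.GG t) (hz : g * D.z = D.z * g) : g ∈ D.N := by
  refine cent_z (fun p η => tt_ax (hL.ips p) η) (GG_le_Au hT hg) hz ?_
  rintro _ ⟨p, η, rfl⟩
  obtain ⟨k, hk⟩ := Dd_GG hL hT hA hg
    (⟨0, by rw [hA.a0, Orb_ax hL]; exact ⟨p, η, rfl⟩⟩ : D.ax p η ∈ Dd a)
  have h1 : inv2 (g.1 (D.ax p η)) = 4 := (normA (GG_le_Au hT hg) hz rfl).trans (inv2_ax p η)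
  have h2 : k = 0 := by
    obtain ⟨n, hn, e⟩ := hk
    exact hA.sep0 k (by rw [← (inv23_N hn _).1, e, h1])
  rwa [h2, hA.a0, Orb_ax hL] at hk

end Dat

end

end CfsgMO
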