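/-
The group generated by `N` and `t`: order, simplicity and the final statements (WP Top).
-/
import Cfsg.Agent.MO.Top1

set_option autoImplicit false

namespace CfsgMO

open Matrix

noncomputable section

open Subgroup in
theorem extraspecial_equiv {X Y : Type*} [Group X] [Group Y] [Finite X] [Finite Y]
    (h : Cfsg.IsExtraspecial 2 X) (e : X ≃* Y) : Cfsg.IsExtraspecial 2 Y := by
  have := Fact.mk Nat.prime_two
  obtain ⟨z, hz, hs⟩ := CfsgH2.IsExtraspecial.exists_sympl h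
  refine CfsgH2.isExtraspecial_of_sympl (z := e z) ⟨?_, by simpa using hs.ne_one,
    by rw [← map_pow, hs.pow_eq, map_one], mem_top _, fun x _ y _ => ?_, fun x _ => ?_,
    fun x hx => ?_⟩ fun h1 => CfsgH2.IsExtraspecial.center_ne_top h ?_
  · refine mem_center_iff.2 fun g => ?_
    obtain ⟨g, rfl⟩ := e.surjective g
    rw [← map_mul, ← map_mul, mem_center_iff.1 hs.central g]
  · obtain ⟨x, rfl⟩ := e.surjective x
    obtain ⟨y, rfl⟩ := e.surjective y
    obtain ⟨k, hk⟩ := hs.comm x (mem_top _) y (mem_top _)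
    exact ⟨k, by simp only [← map_commutatorElement, ← hk, map_zpow]⟩
  · obtain ⟨x, rfl⟩ := e.surjective x
    obtain ⟨k, hk⟩ := hs.pow x (mem_top _)
    exact ⟨k, by simp only [← map_pow, ← hk, map_zpow]⟩
  · obtain ⟨x, rfl⟩ := e.surjective x
    obtain ⟨k, hk⟩ := hs.nondeg (x := x) ⟨mem_top _, fun y _ => e.injective (by
      simpa using hx.2 (e y) (mem_top _))⟩
    exact ⟨k, by simp only [← hk, map_zpow]⟩
  · rw [← hz]
    refine eq_top_of_card_eq _ ?_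
    rw [Nat.card_congr e.toEquiv, ← card_top (G := Y), ← h1, Nat.card_zpowers, Nat.card_zpowers,
      MulEquiv.orderOf_eq]

/-- an involution without fixed points inverts -/
theorem inverts_of_fpf {Γ : Type} [Group Γ] {K : Subgroup Γ} [Finite K] {y : Γ} (hy : y * y = 1)
    (hn : ∀ k ∈ K, y * k * y⁻¹ ∈ K) (hf : ∀ k ∈ K, k * y = y * k → k = 1) {x : Γ} (hx : x ∈ K) :
    y * x * y⁻¹ = x⁻¹ := by
  let f : K → K := fun k => ⟨k.1⁻¹ * (y * k.1 * y⁻¹), mul_mem (inv_mem k.2) (hn _ k.2)⟩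
  have hi : Function.Injective f := fun a b e => by
    have e' : a.1⁻¹ * (y * a.1 * y⁻¹) = b.1⁻¹ * (y * b.1 * y⁻¹) := congrArg Subtype.val e
    have := hf (b.1 * a.1⁻¹) (mul_mem b.2 (inv_mem a.2)) (by
      calc b.1 * a.1⁻¹ * y = b.1 * (a.1⁻¹ * (y * a.1 * y⁻¹)) * (y * a.1⁻¹) := by group
        _ = _ := by rw [e']; group)
    exact Subtype.ext (mul_inv_eq_one.1 this).symm
  obtain ⟨k, e⟩ := Finite.surjective_of_injective hi ⟨x, hx⟩
  have e' : k.1⁻¹ * (y * k.1 * y⁻¹) = x := congrArg Subtype.val e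
  have hy' : y⁻¹ = y := inv_eq_of_mul_eq_one_right hy
  rw [← e']
  calc y * (k.1⁻¹ * (y * k.1 * y⁻¹)) * y⁻¹ = y * k.1⁻¹ * (y * k.1) * (y * y)⁻¹ := by group
    _ = y * k.1⁻¹ * (y⁻¹ * k.1) := by rw [hy, hy']; simp
    _ = _ := by group

namespace Dat

variable {D : Dat} {t : D.Γ} {p0 : D.I} {a : Fin 12 → D.V} {w : Fin 12 → Fin 12 → ℕ}
  {s o : Fin 12 → ℕ} {par : Fin 12 → Fin 12}

/-! ### the order -/

theorem orbit_GG (hL : HypL D) (hT : HypT t) (hA : HypA t p0 a w s o par) :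
    {y | ∃ h ∈ D.GG t, h • D.ax p0 0 = y} = Dd a := by
  ext y
  constructor
  · rintro ⟨h, hh, rfl⟩
    exact orbit_eq hL hT hA hh
  · rintro ⟨k, n, hn, rfl⟩
    obtain ⟨g, hg, e⟩ := hA.mem k
    exact ⟨n * g, mul_mem (N_le_GG t hn) hg, by rw [← e, hA.a0]; rfl⟩

open Classical in
def DdF (a : Fin 12 → D.V) : Finset D.V := Finset.univ.biUnion fun k => orbF (a k)

theorem mem_DdF {x : D.V} : x ∈ DdF a ↔ x ∈ Dd a := by
  simp only [DdF, Finset.mem_biUnion, Finset.mem_univ, true_and, mem_orbF]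
  rfl

theorem sum_DdF (hA : HypA t p0 a w s o par) (f : D.V → ℕ) :
    ∑ x ∈ DdF a, f x = ∑ k, ∑ x ∈ orbF (a k), f x := by
  classical
  refine Finset.sum_biUnion fun k _ l _ h => Finset.disjoint_left.2 fun x h1 h2 => h ?_
  exact hA.disj (mem_orbF.1 h1) (mem_orbF.1 h2)

theorem ncard_Dd (hL : HypL D) (hT : HypT t) (hA : HypA t p0 a w s o par) :
    (Dd a).ncard = 97239461142009186000 := by
  rw [show Dd a = ↑(DdF a) from Set.ext fun _ => mem_DdF.symm, Set.ncard_coe_finset,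
    Finset.card_eq_sum_ones, sum_DdF hA, ← hA.tot]
  exact Finset.sum_congr rfl fun k _ => by rw [← Finset.card_eq_sum_ones, card_orbF hL hT hA]

open Classical in
/-- the number of short axes orthogonal to `b` -/
def nO (b : D.V) : ℕ := (Finset.univ.filter fun x : D.I × F2 => D.ip b (D.ax x.1 x.2) = 0).card

theorem nO_le {n : D.Γ} (hn : n ∈ D.N) (b : D.V) : nO b ≤ nO (n.1 b) := by
  classical
  have h : ∀ x : D.I × F2, ∃ y : D.I × F2, n.1 (D.ax x.1 x.2) = D.ax y.1 y.2 := fun x => by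
    obtain ⟨p, η, e⟩ := O1_N hn ⟨x.1, x.2, rfl⟩
    exact ⟨(p, η), e⟩
  choose π hπ using h
  refine Finset.card_le_card_of_injOn π (fun x hx => ?_) fun x _ y _ e => ?_
  · simp only [Finset.coe_filter, Finset.mem_univ, true_and, Set.mem_setOf_eq] at hx ⊢
    rw [← hπ, (D.N_le_Au hn).1, hx]
  · have : D.ax x.1 x.2 = D.ax y.1 y.2 := by
      rw [← unit_inj n (D.ax x.1 x.2), hπ, e, ← hπ, unit_inj]
    exact Prod.ext (ax_inj this).1 (ax_inj this).2

theorem nO_N {n : D.Γ} (hn : n ∈ D.N) (b : D.V) : nO (n.1 b) = nO b := by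
  refine le_antisymm ?_ (nO_le hn b)
  have := nO_le (inv_mem hn) (n.1 b)
  rwa [unit_inj] at this

theorem HypA.short (hL : HypL D) (hA : HypA t p0 a w s o par) (k : Fin 12) :
    nO (a k) = s k ∧ ∀ p η, D.ip (a k) (D.ax p η) = 0 →
      ∃ g ∈ D.GG t, g.1 (a k) = D.ax p0 1 ∧ g.1 (D.ax p η) = D.ax p0 0 := by
  classical
  obtain ⟨r, -, S, h1, -, h3, -, h5, -, h7⟩ := (hA.part k).ex
  have hd : ∀ j j' : ℕ, j ≠ j' → Disjoint (S (r + 1 + j)) (S (r + 1 + j')) :=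
    fun j j' h => h1 _ _ (by omega)
  have hc := cover_of_card (Set.toFinite (Set.range D.cls)) (Finset.range 3) (fun j => S (r + 1 + j))
    hd (fun j hj c hc => by
      obtain ⟨p, e, -⟩ := h3 j (Finset.mem_range.1 hj) c hc
      exact ⟨p, e⟩) (by
      rw [← Set.image_univ, Set.ncard_image_of_injective _ D.cls_inj, Set.ncard_univ,
        Nat.card_eq_fintype_card, hL.card, ← h5]
      simp [Finset.sum_range_succ, add_assoc])
  have hm : ∀ p, ∃ n < 3, D.cls p ∈ S (r + 1 + n) := fun p => by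
    have : D.cls p ∈ Set.range D.cls := ⟨p, rfl⟩
    rw [← hc] at this
    obtain ⟨j, hj, h⟩ := Finset.mem_biUnion.1 (Finset.mem_coe.1 this)
    exact ⟨j, Finset.mem_range.1 hj, h⟩
  refine ⟨?_, fun p η h => ?_⟩
  · let φ : Cl → ℕ := fun c => ∑ n ∈ Finset.range 3, if c ∈ S (r + 1 + n) then n else 0
    have e1 : ∀ p, (Finset.univ.filter fun η : F2 => D.ip (a k) (D.ax p η) = 0).card = φ (D.cls p) :=
      fun p => by
        obtain ⟨n, hn, h⟩ := hm p
        obtain ⟨p', e, h', -⟩ := h3 n hn _ h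
        obtain rfl := D.cls_inj e
        refine Eq.trans ?_ ((Finset.sum_eq_single_of_mem n (Finset.mem_range.2 hn)
          fun j _ hne => if_neg fun h2 => Finset.disjoint_left.1 (hd j n hne) h2 h).trans
          (if_pos h)).symm
        convert h'
    have e2 : nO (a k) = ∑ p, φ (D.cls p) := by
      rw [nO, Finset.card_filter, Fintype.sum_prod_type]
      exact Finset.sum_congr rfl fun p _ => by rw [← e1, Finset.card_filter]
    have e3 : ∀ n ∈ Finset.range 3, ∑ p, (if D.cls p ∈ S (r + 1 + n) then n else 0) =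
        (S (r + 1 + n)).card * n := fun n hn => by
      rw [← Finset.sum_filter, Finset.sum_const, smul_eq_mul]
      congr 1
      refine Finset.card_bij (fun p _ => D.cls p) (fun p hp => (Finset.mem_filter.1 hp).2)
        (fun _ _ _ _ e => D.cls_inj e) fun c hc => ?_
      obtain ⟨p, rfl, -⟩ := h3 n (Finset.mem_range.1 hn) c hc
      exact ⟨p, Finset.mem_filter.2 ⟨Finset.mem_univ _, hc⟩, rfl⟩
    rw [e2, Finset.sum_comm, Finset.sum_congr rfl e3, h7]
    simp [Finset.sum_range_succ, add_assoc, mul_comm]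
  · obtain ⟨n, hn, h2⟩ := hm p
    obtain ⟨p', e, -, h'⟩ := h3 n hn _ h2
    obtain rfl := D.cls_inj e
    exact h' η h

theorem ip_ax (p : D.I) : D.ip (D.ax p 1) (D.ax p 0) = 0 := by
  have := inv2_ax p 0
  change trace (((1 / 16 : ℚ) • D.PL p) * ((1 / 16 : ℚ) • D.PL p)) = 4 at this
  change trace (((1 / 16 : ℚ) • D.PL p) * ((1 / 16 : ℚ) • D.PL p)) +
    (Pi.single p (-2 * sg 1) : D.I → ℚ) ⬝ᵥ Pi.single p (-2 * sg 0) + trace ((0 : MW)ᵀ * (0 : MW)) = 0
  rw [this, single_dotProduct, Pi.single_eq_same, sg_one, sg_zero]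
  norm_num

open Classical in
/-- the axes orthogonal to `v` -/
def FF (a : Fin 12 → D.V) (v : D.V) : Finset D.V := (DdF a).filter fun b => D.ip b v = 0

theorem mem_FF {v b : D.V} : b ∈ FF a v ↔ b ∈ Dd a ∧ D.ip b v = 0 := by
  rw [FF, Finset.mem_filter, mem_DdF]

theorem card_FF_N {n : D.Γ} (hn : n ∈ D.N) (v : D.V) : (FF a (n.1 v)).card = (FF a v).card := by
  symm
  refine Finset.card_nbij' (fun x => n.1 x) (fun x => (n⁻¹).1 x) (fun x hx => ?_) (fun x hx => ?_)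
    (fun x _ => unit_inj n x) fun x _ => unit_surj n x
  · obtain ⟨⟨k, hk⟩, h⟩ := mem_FF.1 (Finset.mem_coe.1 hx)
    exact Finset.mem_coe.2 (mem_FF.2 ⟨⟨k, Orb_N hk hn⟩, by rw [(D.N_le_Au hn).1, h]⟩)
  · obtain ⟨⟨k, hk⟩, h⟩ := mem_FF.1 (Finset.mem_coe.1 hx)
    exact Finset.mem_coe.2 (mem_FF.2 ⟨⟨k, Orb_N hk (inv_mem hn)⟩, by
      rw [← (D.N_le_Au hn).1, unit_surj, h]⟩)

theorem card_FF (hL : HypL D) (hT : HypT t) (hA : HypA t p0 a w s o par) :
    (FF a (D.ax p0 0)).card = 11707448673375 := by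
  classical
  have e1 : ∑ x : D.I × F2, (FF a (D.ax x.1 x.2)).card = 196560 * (FF a (D.ax p0 0)).card := by
    rw [Finset.sum_congr rfl (g := fun _ => (FF a (D.ax p0 0)).card) fun x _ => by
      obtain ⟨n, hn, e⟩ := hL.trans p0 x.1 0 x.2
      rw [← e, card_FF_N hn], Finset.sum_const, Finset.card_univ, Fintype.card_prod, hL.card]
    rfl
  have e2 : ∑ x : D.I × F2, (FF a (D.ax x.1 x.2)).card = ∑ b ∈ DdF a, nO b := by
    simp only [FF, nO, Finset.card_filter]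
    exact Finset.sum_comm
  have e3 : ∑ b ∈ DdF a, nO b = ∑ k, o k * s k := by
    rw [sum_DdF hA]
    refine Finset.sum_congr rfl fun k _ => ?_
    rw [Finset.sum_congr rfl (g := fun _ => s k) fun b hb => by
      obtain ⟨n, hn, rfl⟩ := mem_orbF.1 hb
      rw [nO_N hn, (hA.short hL k).1], Finset.sum_const, card_orbF hL hT hA, smul_eq_mul]
  rw [e2, e3, hA.totF] at e1
  omega

theorem orbit_stab (hL : HypL D) (hT : HypT t) (hA : HypA t p0 a w s o par) :
    {y | ∃ h ∈ D.GG t ⊓ MulAction.stabilizer D.Γ (D.ax p0 0), h • D.ax p0 1 = y} =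
      ↑(FF a (D.ax p0 0)) := by
  ext y
  rw [Finset.mem_coe, mem_FF]
  constructor
  · rintro ⟨h, ⟨hh, e⟩, rfl⟩
    refine ⟨Dd_GG hL hT hA hh ⟨0, by rw [hA.a0, Orb_ax hL]; exact ⟨p0, 1, rfl⟩⟩, ?_⟩
    have := (GG_le_Au hT hh).1 (D.ax p0 1) (D.ax p0 0)
    rw [ip_ax, show h.1 (D.ax p0 0) = D.ax p0 0 from e] at this
    exact this
  · rintro ⟨⟨k, n, hn, rfl⟩, h⟩
    obtain ⟨p, η, e⟩ := O1_N (inv_mem hn) ⟨p0, 0, rfl⟩
    obtain ⟨g, hg, e1, e2⟩ := (hA.short hL k).2 p η (by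
      rw [← (D.N_le_Au hn).1, ← e, unit_surj, h])
    refine ⟨n * g⁻¹, Subgroup.mem_inf.2 ⟨mul_mem (N_le_GG t hn) (inv_mem hg), ?_⟩, ?_⟩
    · change n.1 ((g⁻¹).1 (D.ax p0 0)) = D.ax p0 0
      conv_lhs => rw [← e2]
      rw [unit_inj, ← e, unit_surj]
    · change n.1 ((g⁻¹).1 (D.ax p0 1)) = _
      rw [← e1, unit_inj]

theorem stab_two (hL : HypL D) (hT : HypT t) (hA : HypA t p0 a w s o par) :
    D.GG t ⊓ MulAction.stabilizer D.Γ (D.ax p0 0) ⊓ MulAction.stabilizer D.Γ (D.ax p0 1) =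
      D.N ⊓ MulAction.stabilizer D.Γ (D.ax p0 0) := by
  ext g
  constructor
  · rintro ⟨⟨hg, e0⟩, e1⟩
    refine ⟨cent_GG hL hT hA hg ?_, e0⟩
    have key : ∀ η, g.1 (D.ax p0 η) = D.ax p0 η →
        g * (D.zp η * D.xq (D.cls p0)) = D.zp η * D.xq (D.cls p0) * g := fun η e => by
      have := tt_conj (GG_le_Au hT hg) (D.ax p0 η)
      rw [e, tt_ax (hL.ips p0)] at this
      exact Units.ext this
    have h0 := key 0 e0
    have h1 := key 1 e1
    rw [zp_zero, one_mul] at h0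
    rw [zp_one, mul_assoc, ← h0, ← mul_assoc, ← mul_assoc] at h1
    exact mul_right_cancel h1
  · rintro ⟨hg, e0⟩
    refine ⟨⟨N_le_GG t hg, e0⟩, ?_⟩
    obtain ⟨s, ε, -, -, e⟩ := act_ax ⟨g, hg⟩ p0
    obtain ⟨rfl, h⟩ := ax_inj ((e 0).symm.trans e0)
    rw [zero_add] at h
    have := e 1
    rwa [h, add_zero] at this

theorem card_N' (hL : HypL D) : Nat.card D.N = 2 ^ 25 * 4157776806543360000 := by
  rw [← D.Ah.ker.card_mul_index, card_ker, Subgroup.index_ker, hL.co1.2]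

theorem card_GG (hL : HypL D) (hT : HypT t) (hA : HypA t p0 a w s o par) :
    Nat.card (D.GG t) = 808017424794512875886459904961710757005754368000000000 := by
  have h1 := card_stab_mul (D.GG t) (D.ax p0 0)
  have h2 := card_stab_mul (D.GG t ⊓ MulAction.stabilizer D.Γ (D.ax p0 0)) (D.ax p0 1)
  have h3 := card_stab_mul D.N (D.ax p0 0)
  rw [orbit_GG hL hT hA, ncard_Dd hL hT hA] at h1
  rw [orbit_stab hL hT hA, Set.ncard_coe_finset, card_FF hL hT hA, stab_two hL hT hA] at h2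
  have h4 : {y | ∃ h ∈ D.N, h • D.ax p0 0 = y} = D.O1 := Orb_ax hL p0 0
  rw [h4, ncard_O1, hL.card, card_N' hL] at h3
  omega

theorem finite_GG (hL : HypL D) (hT : HypT t) (hA : HypA t p0 a w s o par) : Finite (D.GG t) :=
  Nat.finite_of_card_ne_zero (by rw [card_GG hL hT hA]; norm_num)

/-! ### simplicity -/

theorem m0_conj (e : F2) :
    D.m0 * (D.zp e * D.xq Om) * D.m0⁻¹ = D.z * (D.zp e * D.xq Om) := by
  rw [mul_inv_eq_iff_eq_mul, m0_eq, zx_comm, mul_assoc D.z]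
  congr 1

theorem normal_GG (hL : HypL D) (hT : HypT t) (hA : HypA t p0 a w s o par) {K : Subgroup D.Γ}
    (hK : K ≤ D.GG t) (hn : ∀ g ∈ D.GG t, ∀ k ∈ K, g * k * g⁻¹ ∈ K) (hb : K ≠ ⊥) : D.GG t ≤ K := by
  have := finite_GG hL hT hA
  have : Finite K := Finite.of_injective _ (Subgroup.inclusion_injective hK)
  have hNG := N_le_GG t
  have htG := t_mem_GG t
  have hzG := hNG D.z_mem
  have hm : D.m0 ∈ D.N := D.xq_mem _
  obtain ⟨e, he⟩ := hT.tz
  have hmz := m0_conj (D := D) e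
  rw [← he] at hmz
  have hz' : t * D.z * t⁻¹ ∈ D.N := he ▸ mul_mem (D.zp_mem _) (D.xq_mem _)
  have hzz : t * D.z * t⁻¹ * (t * D.z * t⁻¹) = 1 := by
    calc _ = t * (D.z * D.z) * t⁻¹ := by group
      _ = 1 := by rw [z_mul_z, mul_one, mul_inv_cancel]
  have hzK : D.z ∈ K := by
    refine (z_mem_normal (L := K ⊓ D.N) inf_le_right (fun g hg l hl =>
      Subgroup.mem_inf.2 ⟨hn g (hNG hg) l hl.1, mul_mem (mul_mem hg hl.2) (inv_mem hg)⟩)
      fun h0 => hb ?_).1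
    have f : ∀ u ∈ D.GG t, ∀ k ∈ K, k * (u * D.z * u⁻¹) = u * D.z * u⁻¹ * k → k = 1 := by
      intro u hu k hk h
      have h1 : u⁻¹ * k * u⁻¹⁻¹ ∈ K := hn _ (inv_mem hu) k hk
      have h2 : u⁻¹ * k * u⁻¹⁻¹ ∈ K ⊓ D.N := ⟨h1, cent_GG hL hT hA (hK h1) (by
        calc u⁻¹ * k * u⁻¹⁻¹ * D.z = u⁻¹ * (k * (u * D.z * u⁻¹)) * u := by group
          _ = _ := by rw [h]; group)⟩
      rw [h0, Subgroup.mem_bot] at h2
      calc k = u * (u⁻¹ * k * u⁻¹⁻¹) * u⁻¹ := by group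
        _ = 1 := by rw [h2]; group
    refine (Subgroup.eq_bot_iff_forall _).2 fun k hk => ?_
    have i1 := inverts_of_fpf D.z_mul_z (hn _ hzG) (by simpa using f 1 (one_mem _)) (inv_mem hk)
    have i2 := inverts_of_fpf hzz (hn _ (hNG hz')) (f t htG) hk
    refine f (D.m0 * t) (mul_mem (hNG hm) htG) k hk ?_
    have : D.m0 * t * D.z * (D.m0 * t)⁻¹ = D.z * (t * D.z * t⁻¹) := by rw [← hmz]; group
    rw [this]
    calc k * (D.z * (t * D.z * t⁻¹)) = (D.z * k⁻¹ * D.z⁻¹) * (D.z * (t * D.z * t⁻¹)) := by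
          rw [i1, inv_inv]
      _ = _ := by rw [← i2]; group
  have hzp : ∀ a, D.zp a ∈ K := fun a => by
    rcases F2_cases a with rfl | rfl
    exacts [one_mem _, hzK]
  have hx : ∀ {a c}, D.zp a * D.xq c ∈ K → D.xq c ∈ K := fun {a c} h =>
    (Subgroup.mul_mem_cancel_left _ (hzp a)).1 h
  have hcj : ∀ (n : D.N) (c : Cl), D.xq c ∈ K → D.xq (n • c) ∈ K := fun n c h => by
    obtain ⟨ε, e⟩ := Ah_spec n c
    exact hx (e ▸ hn _ (hNG n.2) _ h)
  have hOm : D.xq Om ∈ K := hx (he ▸ hn t htG _ hzK)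
  obtain ⟨f, hf, n, e1, e2⟩ := hT.out
  have hnK : n.1 ∈ K := by
    obtain ⟨_, _, h, e, -⟩ := hA.exists_FrL hL 0 hf
    have := hcj h⁻¹ _ hOm
    rw [← e, ← smul_cl, inv_smul_smul] at this
    exact e1 ▸ hn t htG _ this
  have hsurj : ∀ m : D.N, ∃ k : D.N, k.1 ∈ K ∧ D.Ah k = D.Ah m := by
    have := hL.co1.1
    have hN : (K.subgroupOf D.N).Normal := ⟨fun k hk g => hn g.1 (hNG g.2) k.1 hk⟩
    rcases (hN.map _ D.Ah.rangeRestrict_surjective).eq_bot_or_eq_top with h | h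
    · have : D.Ah.rangeRestrict n ∈ (K.subgroupOf D.N).map D.Ah.rangeRestrict := ⟨n, hnK, rfl⟩
      rw [h, Subgroup.mem_bot] at this
      exact absurd (congrArg Subtype.val this) e2
    · intro m
      have : D.Ah.rangeRestrict m ∈ (K.subgroupOf D.N).map D.Ah.rangeRestrict := h ▸ trivial
      obtain ⟨k, hk, e⟩ := this
      exact ⟨k, hk, congrArg Subtype.val e⟩
  have hadd : ∀ c d, D.xq c ∈ K → D.xq d ∈ K → D.xq (c + d) ∈ K := fun c d h1 h2 =>
    hx (D.xq_mul c d ▸ mul_mem h1 h2)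
  have hmv : ∀ (m : D.N) (c : Cl), D.xq (m • c + c) ∈ K := fun m c => by
    obtain ⟨k, hk, e⟩ := hsurj m
    obtain ⟨ε, e'⟩ := Ah_spec k c
    have h1 : k.1 * D.xq c * k.1⁻¹ * (D.zp 0 * D.xq c)⁻¹ ∈ K := by
      have := mul_mem hk (hn _ (hNG (D.xq_mem c)) _ (inv_mem hk))
      simpa [mul_assoc, zp_zero] using this
    rw [e', e, zx_inv, zx_mul] at h1
    exact hx h1
  have hps : ∀ p s, D.xq (D.cls s + D.cls p) ∈ K := fun p s => by
    obtain ⟨m, hm, e⟩ := hL.trans p s 0 0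
    obtain ⟨s', ε, e1, -, e3⟩ := act_ax ⟨m, hm⟩ p
    obtain ⟨rfl, -⟩ := ax_inj ((e3 0).symm.trans e)
    rw [e1]
    exact hmv _ _
  have hQ : ∀ c, D.xq c ∈ K := fun c => by
    obtain ⟨p, s, r, e⟩ := hL.tri
    have hr : D.xq (D.cls r) ∈ K := e ▸ hps s p
    have hc : c ∈ Submodule.span F2 (Set.range D.cls) := D.cls_span ▸ trivial
    induction hc using Submodule.span_induction with
    | mem x hx =>
      obtain ⟨x, rfl⟩ := hx
      have := hadd _ _ (hps r x) hr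
      rwa [add_assoc, Cl_aa, add_zero] at this
    | zero => rw [xq_zero]; exact one_mem _
    | add x y _ _ h1 h2 => exact hadd _ _ h1 h2
    | smul b x _ h =>
      rcases F2_cases b with rfl | rfl
      · rw [zero_smul, xq_zero]; exact one_mem _
      · rwa [one_smul]
  have hNK : D.N ≤ K := fun m hm => by
    obtain ⟨k, hk, e⟩ := hsurj ⟨m, hm⟩
    obtain ⟨ε, c, e'⟩ := mem_ker.1 (show (⟨m, hm⟩ : D.N) * k⁻¹ ∈ D.Ah.ker by
      rw [MonoidHom.mem_ker, map_mul, map_inv, e, mul_inv_cancel])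
    have : m * k.1⁻¹ ∈ K := (show m * k.1⁻¹ = _ from e') ▸ mul_mem (hzp ε) (hQ c)
    exact (Subgroup.mul_mem_cancel_right _ (inv_mem hk)).1 this
  refine sup_le hNK (Subgroup.zpowers_le.2 ?_)
  have c1 : D.m0 * D.z * D.m0⁻¹ = D.z := by rw [D.z_comm hm, mul_inv_cancel_right]
  have c2 : t * (t * D.z * t⁻¹) * t⁻¹ = D.z := by
    calc _ = (t * t) * D.z * (t * t)⁻¹ := by group
      _ = _ := by rw [hT.sq]; simp
  have u1 : (t * D.m0) * D.z * (t * D.m0)⁻¹ = t * D.z * t⁻¹ := by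
    calc _ = t * (D.m0 * D.z * D.m0⁻¹) * t⁻¹ := by group
      _ = _ := by rw [c1]
  have u2 : (t * D.m0) * (t * D.z * t⁻¹) * (t * D.m0)⁻¹ = t * D.z * t⁻¹ * D.z := by
    calc _ = t * (D.m0 * (t * D.z * t⁻¹) * D.m0⁻¹) * t⁻¹ := by group
      _ = (t * D.z * t⁻¹) * (t * (t * D.z * t⁻¹) * t⁻¹) := by rw [hmz]; group
      _ = _ := by rw [c2]
  have u3 : (t * D.m0) * (t * D.m0) * (t * D.m0) ∈ D.N := by
    have hu := mul_mem htG (hNG hm)
    refine cent_GG hL hT hA (mul_mem (mul_mem hu hu) hu) (mul_inv_eq_iff_eq_mul.1 ?_)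
    generalize t * D.m0 = u at u1 u2 ⊢
    calc u * u * u * D.z * (u * u * u)⁻¹ = u * (u * (u * D.z * u⁻¹) * u⁻¹) * u⁻¹ := by group
      _ = u * (t * D.z * t⁻¹ * D.z) * u⁻¹ := by rw [u1, u2]
      _ = (u * (t * D.z * t⁻¹) * u⁻¹) * (u * D.z * u⁻¹) := by group
      _ = D.z * (t * D.z * t⁻¹ * (t * D.z * t⁻¹)) := by
          rw [u2, u1, D.z_comm hz', mul_assoc D.z]
      _ = _ := by rw [hzz, mul_one]
  have h1 := hn t htG _ (hNK hm)
  have h2 : (t * D.m0) * (t * D.m0) * (t * D.m0) = (t * D.m0 * t⁻¹) * D.m0 * (t * D.m0 * t⁻¹) * t := by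
    rw [hT.inv]
    calc _ = t * D.m0 * t * D.m0 * (t * D.m0) * 1 := by group
      _ = _ := by rw [← hT.sq]; group
  exact (Subgroup.mul_mem_cancel_left _ (mul_mem (mul_mem h1 (hNK hm)) h1)).1 (h2 ▸ hNK u3)

theorem simple_GG (hL : HypL D) (hT : HypT t) (hA : HypA t p0 a w s o par) :
    IsSimpleGroup (D.GG t) := by
  have : Nontrivial (D.GG t) := ⟨⟨⟨D.z, N_le_GG t D.z_mem⟩, 1, fun h =>
    D.z_ne_one (congrArg Subtype.val h)⟩⟩
  refine ⟨fun K hK => or_iff_not_imp_left.2 fun hb => ?_⟩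
  have := normal_GG hL hT hA (K := K.map (D.GG t).subtype) (Subgroup.map_subtype_le K)
    (by
      rintro g hg _ ⟨k, hk, rfl⟩
      exact ⟨_, hK.conj_mem k hk ⟨g, hg⟩, rfl⟩)
    (by rwa [Ne, Subgroup.map_eq_bot_iff_of_injective _ (D.GG t).subtype_injective])
  refine eq_top_iff.2 fun g _ => ?_
  obtain ⟨k, hk, e⟩ := this g.2
  exact (Subtype.ext e : k = g) ▸ hk

theorem isM_GG (hL : HypL D) (hT : HypT t) (hA : HypA t p0 a w s o par) : Cfsg.IsM (D.GG t) :=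
  ⟨simple_GG hL hT hA, card_GG hL hT hA⟩

theorem isM_equiv {X Y : Type} [Group X] [Group Y] (h : Cfsg.IsM X) (e : X ≃* Y) : Cfsg.IsM Y :=
  ⟨e.isSimpleGroup_congr.1 h.1, (Nat.card_congr e.toEquiv).symm.trans h.2⟩

theorem s0467_of (hL : HypL D) (hT : HypT t) (hA : HypA t p0 a w s o par) :
    ∃ H : Subgroup (GL (Fin 196883) ℝ), Cfsg.IsM H := by
  have := simple_GG hL hT hA
  obtain ⟨H, ⟨e⟩⟩ := exists_real hL.card (GG_le_Au hT) (N_le_GG t D.z_mem)
  exact ⟨H, isM_equiv (isM_GG hL hT hA) e⟩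

theorem cent_form {G N R : Type} [Group G] [Finite G] [Group N] [Finite N] [Group R] {z : G}
    (e : Subgroup.centralizer ({z} : Set G) ≃* N) (A : N →* R) (h1 : Nat.card A.ker = 2 ^ 25)
    (h2 : Cfsg.IsExtraspecial 2 A.ker) (h3 : Cfsg.IsCo1 A.range) :
    ∃ (Q : Subgroup (Subgroup.centralizer ({z} : Set G))) (_ : Q.Normal), Nat.card Q = 2 ^ 25 ∧
      Cfsg.IsExtraspecial 2 Q ∧ Cfsg.IsCo1 ((Subgroup.centralizer ({z} : Set G)) ⧸ Q) := by
  let e' : A.ker ≃* (A.comp e.toMonoidHom).ker :=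
    { toFun := fun x => ⟨e.symm x.1, by
        change A (e (e.symm x.1)) = 1
        rw [e.apply_symm_apply]
        exact x.2⟩
      invFun := fun x => ⟨e x.1, x.2⟩
      left_inv := fun _ => by simp
      right_inv := fun _ => Subtype.ext (e.symm_apply_apply _)
      map_mul' := fun _ _ => Subtype.ext (map_mul e.symm _ _) }
  have hr : (A.comp e.toMonoidHom).range = A.range := by
    ext x
    exact ⟨fun ⟨c, h⟩ => ⟨e c, h⟩, fun ⟨n, h⟩ => ⟨e.symm n, by simpa using h⟩⟩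
  let e2 := (QuotientGroup.quotientKerEquivRange (A.comp e.toMonoidHom)).trans
    (MulEquiv.subgroupCongr hr)
  exact ⟨(A.comp e.toMonoidHom).ker, MonoidHom.normal_ker _,
    (Nat.card_congr e'.toEquiv).symm.trans h1, extraspecial_equiv h2 e',
    e2.isSimpleGroup_congr.2 h3.1, (Nat.card_congr e2.toEquiv).trans h3.2⟩

theorem s0469_of (hL : HypL D) (hT : HypT t) (hA : HypA t p0 a w s o par) :
    ∃ (G : Type) (_ : Group G) (_ : Finite G), Cfsg.IsM G ∧ ∃ z : G, orderOf z = 2 ∧ ∃ (Q : Subgroup (Subgroup.centralizer ({z} : Set G))) (_ : Q.Normal), Nat.card Q = 2 ^ 25 ∧ Cfsg.IsExtraspecial 2 Q ∧ Cfsg.IsCo1 ((Subgroup.centralizer ({z} : Set G)) ⧸ Q) := by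
  have := finite_GG hL hT hA
  let z0 : D.GG t := ⟨D.z, N_le_GG t D.z_mem⟩
  let e : Subgroup.centralizer ({z0} : Set (D.GG t)) ≃* D.N :=
    { toFun := fun c => ⟨c.1.1, cent_GG hL hT hA c.1.2
        (congrArg Subtype.val (Subgroup.mem_centralizer_singleton_iff.1 c.2))⟩
      invFun := fun n => ⟨⟨n.1, N_le_GG t n.2⟩,
        Subgroup.mem_centralizer_singleton_iff.2 (Subtype.ext (D.z_comm n.2))⟩
      left_inv := fun _ => rfl
      right_inv := fun _ => rfl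
      map_mul' := fun _ _ => rfl }
  refine ⟨D.GG t, inferInstance, this, isM_GG hL hT hA, z0, ?_,
    cent_form e D.Ah card_ker extraspecial_ker hL.co1⟩
  exact orderOf_eq_prime (Subtype.ext ((sq _).trans D.z_mul_z))
    fun h => D.z_ne_one (congrArg Subtype.val h)

end Dat

end

end CfsgMO
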