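/-
Checks for the axes: soundness.
-/
import Cfsg.Agent.MO.AxK
import Cfsg.Agent.MO.Top

set_option autoImplicit false

namespace CfsgMO

open Matrix Dat

noncomputable section

/-- the letters -/
structure Alph (D : Dat) (B : Lb) (tab : ℕ → List Lay) (amat : ℕ → List ℕ) (gel : ℕ → D.Γ) :
    Prop where
  good : Good D B
  sem : ∀ a, Sem D B (tab a) (gel a).1
  inN : ∀ a < 54, ∃ h : gel a ∈ D.N, (D.Ah ⟨gel a, h⟩).1 = mat2 24 (amat a)
  m0 : gel 11 = D.m0
  inT : ∀ a < 52, a ≠ 11 → gel 54 * gel a * (gel 54)⁻¹ ∈ D.N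
  sq : gel 54 * gel 54 = 1

variable {D : Dat} {B : Lb} {tab : ℕ → List Lay} {amat : ℕ → List ℕ} {gel : ℕ → D.Γ}
  {av : ℕ → List ℕ}

/-- the value of a word; the first letter acts first -/
def wd (gel : ℕ → D.Γ) (w : List ℕ) : D.Γ := w.foldr (fun a g => g * gel a) 1

theorem wd_cons (a : ℕ) (w : List ℕ) : wd gel (a :: w) = wd gel w * gel a := rfl

theorem wd_append (v w : List ℕ) : wd gel (v ++ w) = wd gel w * wd gel v := by
  induction v with
  | nil => exact (mul_one _).symm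
  | cons a v ih => rw [List.cons_append, wd_cons, wd_cons, ih, mul_assoc]

theorem Alph.sem_wd (hA : Alph D B tab amat gel) (w : List ℕ) :
    Sem D B (w.flatMap tab) (wd gel w).1 := by
  induction w with
  | nil => exact Sem.one
  | cons a w ih => exact (hA.sem a).mul ih

theorem Alph.wd_N (hA : Alph D B tab amat gel) {w : List ℕ} (h : okN w = true) : wd gel w ∈ D.N := by
  induction w with
  | nil => exact one_mem _
  | cons a w ih =>
    obtain ⟨h1, h2⟩ := allL_cons.1 h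
    exact mul_mem (ih h2) (hA.inN a (by simpa using h1)).1

theorem Alph.wd_T (hA : Alph D B tab amat gel) {w : List ℕ} (h : okT w = true) :
    wd gel w ∈ D.N ∧ gel 54 * wd gel w * (gel 54)⁻¹ ∈ D.N := by
  induction w with
  | nil => exact ⟨one_mem _, by simp [wd]⟩
  | cons a w ih =>
    obtain ⟨h1, h2⟩ := allL_cons.1 h
    rw [an_eq, Bool.and_eq_true] at h1
    have h3 : a < 52 := by simpa using h1.1
    have h4 : a ≠ 11 := by
      rintro rfl
      exact absurd h1.2 (by decide)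
    refine ⟨mul_mem (ih h2).1 (hA.inN a (by omega)).1, ?_⟩
    have := mul_mem (ih h2).2 (hA.inT a h3 h4)
    simpa [wd_cons, mul_assoc] using this

theorem Alph.wd_G (hA : Alph D B tab amat gel) {w : List ℕ} (h : okW w = true) :
    wd gel w ∈ D.GG (gel 54) := by
  induction w with
  | nil => exact one_mem _
  | cons a w ih =>
    obtain ⟨h1, h2⟩ := allL_cons.1 h
    have h3 : a < 55 := by simpa using h1
    refine mul_mem (ih h2) ?_
    by_cases h4 : a = 54
    · rw [h4]; exact t_mem_GG _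
    · exact N_le_GG _ (hA.inN a (by omega)).1

theorem Alph.wmK_sound (hA : Alph D B tab amat gel) {w : List ℕ} (h : okN w = true) {L : List ℕ}
    {k : List ℕ → Bool} (e : wmK amat w L k = true) : ∃ L', k L' = true ∧
      ∀ c, vc 24 0 L' c = (D.Ah ⟨wd gel w, hA.wd_N h⟩).1 *ᵥ vc 24 0 L c := by
  induction w generalizing L with
  | nil =>
    refine ⟨L, e, fun c => ?_⟩
    have : (⟨wd gel [], hA.wd_N h⟩ : D.N) = 1 := rfl
    rw [this, map_one, Units.val_one, one_mulVec]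
  | cons a w ih =>
    obtain ⟨h1, h2⟩ := allL_cons.1 h
    obtain ⟨h3, h4⟩ := hA.inN a (by simpa using h1)
    change ktab 24 (fun r => kxs 24 0 L (kgd (amat a) r)) (fun L => wmK amat w L k) = true at e
    rw [ktab_eq] at e
    obtain ⟨L', e1, e2⟩ := ih h2 e
    refine ⟨L', e1, fun c => ?_⟩
    have : (⟨wd gel (a :: w), hA.wd_N h⟩ : D.N) = ⟨wd gel w, hA.wd_N h2⟩ * ⟨gel a, h3⟩ := rfl
    rw [this, map_mul, Units.val_mul, ← mulVec_mulVec, h4, e2]
    refine congrArg _ (funext fun r => ?_)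
    rw [← bt_kxs', vc, zero_add, getD_tab _ r.2, kgd_eq]

theorem vc_bitf (x : ℕ) : vc 24 0 ((List.range 24).map (bitf x)) 0 = cd x := by
  funext r
  rw [vc, zero_add, getD_tab _ r.2, bt, cd, bitf, tb_land, tb_shr, zero_add]
  simp

theorem Alph.chkF_sound (hA : Alph D B tab amat gel) {w : List ℕ} {x y : ℕ}
    (e : chkF amat w x y = true) : ∃ h : okN w = true,
      (D.Ah ⟨wd gel w, hA.wd_N h⟩).1 *ᵥ cd x = cd y := by
  rw [chkF, an_eq, Bool.and_eq_true, ktab_eq] at e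
  obtain ⟨L, e1, e2⟩ := hA.wmK_sound e.1 e.2
  rw [ktab_eq] at e1
  exact ⟨e.1, by rw [← vc_bitf x, ← e2, eqP_sound e1, vc_bitf]⟩

theorem Alph.chkM_sound (hA : Alph D B tab amat gel) {w g : List ℕ}
    (e : chkM amat w g = true) : ∃ h : okN w = true,
      (D.Ah ⟨wd gel w, hA.wd_N h⟩).1 = mat2 24 g := by
  rw [chkM, an_eq, Bool.and_eq_true, ktab_eq] at e
  obtain ⟨L, e1, e2⟩ := hA.wmK_sound e.1 e.2
  refine ⟨e.1, Matrix.ext fun i j => ?_⟩
  have h1 : vc 24 0 ((List.range 24).map fun t => Nat.shiftLeft 1 t) j = Pi.single j 1 := by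
    funext r
    rw [vc, zero_add, getD_tab _ r.2, bt, tb_shl, Nat.one_shiftLeft, Nat.testBit_two_pow,
      Pi.single_apply]
    simp [Fin.ext_iff]
  have h2 := congrFun (e2 j) i
  rw [h1, eqP_sound e1, mulVec_single_one, vc, zero_add] at h2
  exact h2.symm

/-- the vectors -/
def VV (D : Dat) (B : Lb) (av : ℕ → List ℕ) (k : ℕ) : D.V := vec D B (1 / 512) (av k)

/-- the planes are those of vectors -/
def OkAv (B : Lb) (av : ℕ → List ℕ) : Prop := ∀ k, okV B (av k) = true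

theorem Alph.co_run (hA : Alph D B tab amat gel) (hV : OkAv B av) (k d : ℕ) {P : List Lay}
    {g : Module.End ℚ D.V} (h : Sem D B P g) {u : List ℕ}
    (e : CfsgMO.sem P (valQ (sx d (av k))) = valQ u) :
    co D B (g (VV D B av k)) = (1 / 512 : ℚ) • valQ u := by
  rw [h.2, VV, co_vec hA.good _ (hV k), sem_smul, ← valQ_sx d, e]

theorem Alph.wf (hA : Alph D B tab amat gel) (a : ℕ) : wf (tab a) = true := (hA.sem a).1

theorem Alph.chkW_sound (hA : Alph D B tab amat gel) (hV : OkAv B av) {k l d1 d2 : ℕ} {w : List ℕ}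
    (e : chkW tab av k l d1 d2 w = true) : (wd gel w).1 (VV D B av k) = VV D B av l := by
  obtain ⟨u, e1, e2⟩ := runW_sound hA.wf e
  refine co_inj hA.good ?_
  rw [hA.co_run hV k d1 (hA.sem_wd w) e1, eqP_sound e2, valQ_sx, VV, co_vec hA.good _ (hV l)]

/-- the image under `t` of a translate of the axis `k` lies in the orbit of the axis `l` -/
def Nd (D : Dat) (B : Lb) (av : ℕ → List ℕ) (gel : ℕ → D.Γ) (k : ℕ) (w : List ℕ) (l : ℕ) : Prop :=
  (gel 54).1 ((wd gel w).1 (VV D B av k)) ∈ D.Orb (VV D B av l)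

theorem Alph.chkR_sound (hA : Alph D B tab amat gel) (hV : OkAv B av) {k l d1 d2 : ℕ}
    {w1 m w2 : List ℕ} (e : chkR tab av k l d1 d2 w1 m w2 = true) :
    Nd D B av gel k w1 l ∧ Nd D B av gel l w2 k := by
  simp only [chkR, an_eq, Bool.and_eq_true] at e
  obtain ⟨h1, h2, h3, e⟩ := e
  obtain ⟨a, ea, e⟩ := runW_sound hA.wf e
  obtain ⟨b, eb, e⟩ := runK_sound (hA.wf 54) e
  obtain ⟨c, ec, e⟩ := runW_sound hA.wf e
  obtain ⟨d, ed, e⟩ := runW_sound hA.wf e
  have key : (wd gel m).1 ((gel 54).1 ((wd gel w1).1 (VV D B av k))) =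
      (wd gel w2).1 (VV D B av l) := by
    refine co_inj hA.good ?_
    rw [(hA.sem_wd m).2, (hA.sem 54).2, hA.co_run hV k d1 (hA.sem_wd w1) ea,
      hA.co_run hV l d2 (hA.sem_wd w2) ed, sem_smul, sem_smul, eb, ec, eqP_sound e]
  obtain ⟨h4, h5⟩ := hA.wd_T h3
  constructor
  · refine ⟨(wd gel m)⁻¹ * wd gel w2, mul_mem (inv_mem h4) (hA.wd_N h2), ?_⟩
    rw [mul_ap, ← key, unit_inj]
  · refine ⟨gel 54 * wd gel m * (gel 54)⁻¹ * wd gel w1, mul_mem h5 (hA.wd_N h1), ?_⟩
    rw [← key, inv_eq_of_mul_eq_one_right hA.sq]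
    rfl

/-- the twelve axes -/
def aa (D : Dat) (B : Lb) (av : ℕ → List ℕ) (k : Fin 12) : D.V := VV D B av k.1

theorem Alph.frl (hA : Alph D B tab amat gel) (k l l' : Fin 12) {h : List ℕ} {c : ℕ}
    (e : chkF amat h c 8388608 = true) (h1 : Nd D B av gel k.1 h l.1)
    (h2 : Nd D B av gel k.1 (h ++ [11]) l'.1) : FrL (gel 54) (aa D B av) k (cd c) l l' := by
  obtain ⟨h3, h4⟩ := hA.chkF_sound e
  refine ⟨⟨wd gel h, hA.wd_N h3⟩, h4, h1, ?_⟩
  rw [Nd, wd_append, wd_cons, hA.m0] at h2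
  exact h2

theorem m0_sq : D.m0 * D.m0 = 1 := by
  have : Bf (cd (2 ^ 11)) (cd (2 ^ 11)) = 0 := by decide +kernel
  rw [m0, xq_mul, this, add_self, xq_zero, zp_zero, one_mul]

theorem Dat.FrL.symm {t : D.Γ} {a : Fin 12 → D.V} {k : Fin 12} {c : Cl} {l l' : Fin 12}
    (h : FrL t a k c l l') : FrL t a k c l' l := by
  obtain ⟨h, h1, h2, h3⟩ := h
  refine ⟨D.m1 * h, ?_, h3, ?_⟩
  · change (D.m1 * h) • c = Om
    rw [mul_smul, smul_cl h, h1]
    exact zx_smul m0_eq _
  · change t.1 ((D.m0 * D.m0 * h.1).1 (a k)) ∈ _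
    rwa [m0_sq, one_mul]

theorem Dat.ShL.move {t : D.Γ} {p0 : D.I} {b : D.V} {c : Cl} {n : ℕ} (h : ShL t p0 b c n)
    (u : D.N) : ShL t p0 (u.1.1 b) ((D.Ah u).1 *ᵥ c) n := by
  classical
  obtain ⟨p, rfl, h2, h3⟩ := h
  obtain ⟨s, ε, e1, -, e3⟩ := act_ax u p
  have hip : ∀ η, D.ip (u.1.1 b) (D.ax s (η + ε)) = D.ip b (D.ax p η) := fun η => by
    rw [← e3, (D.N_le_Au u.2).1 b (D.ax p η)]
  have hη : ∀ η : F2, η + ε + ε = η := fun η => by rw [add_assoc, F2_aa, add_zero]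
  refine ⟨s, e1, ?_, fun η h => ?_⟩
  · rw [← h2]
    refine Finset.card_bij (fun η _ => η + ε) (fun η h => ?_) (fun a _ b _ e => add_right_cancel e)
      fun η h => ⟨η + ε, ?_, hη η⟩
    · rw [Finset.mem_filter] at h ⊢
      exact ⟨Finset.mem_univ _, by rw [← hip, hη]; exact h.2⟩
    · rw [Finset.mem_filter] at h ⊢
      exact ⟨Finset.mem_univ _, by rw [hip]; exact h.2⟩
  · obtain ⟨g, hg, e4, e5⟩ := h3 (η + ε) (by rw [← hip, hη]; exact h)
    refine ⟨g * (u.1)⁻¹, mul_mem hg (inv_mem (N_le_GG t u.2)), ?_, ?_⟩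
    · rw [mul_ap, unit_inj, e4]
    · rw [mul_ap, ← e5, ← hη η, ← e3, unit_inj, hη]

/-- the standard short vector -/
structure Std (D : Dat) (B : Lb) (p0 : D.I) : Prop where
  pos : B.X.testBit 192 = true
  cls : D.cls p0 = cd (lab B.L 192)
  lam : PM (D.lam p0) (ev 0 4 - ev 1 4)

variable {p0 : D.I}

theorem Std.vv (h : Std D B p0) : vecMulVec (D.lam p0) (D.lam p0) =
    vecMulVec (ev 0 4 - ev 1 4) (ev 0 4 - ev 1 4) := by
  rcases h.lam with e | e <;> rw [e]
  ext i j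
  simp only [vecMulVec_apply, Pi.neg_apply]
  ring

theorem Std.ip (h : Std D B p0) (hG : Good D B) (b : D.V) (η : F2) : D.ip b (D.ax p0 η) =
    co D B b 0 + co D B b 129 - (co D B b 1 + co D B b 128) - 2 * sg η * co D B b 192 := by
  have e0 := co_A hG b 0 0
  have e1 := co_A hG b 1 1
  have e2 := co_A hG b 0 1
  have e3 := co_A hG b 1 0
  change co D B b 0 = _ at e0
  change co D B b 129 = _ at e1
  change co D B b 1 = _ at e2
  change co D B b 128 = _ at e3
  rw [e0, e1, e2, e3, co_X hG b h.pos h.cls]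
  change trace (b.1.1 * ((1 / 16 : ℚ) • vecMulVec (D.lam p0) (D.lam p0))) +
    b.2.1 ⬝ᵥ Pi.single p0 (-2 * sg η) + trace (b.2.2ᵀ * (0 : MW)) = _
  rw [h.vv, Matrix.mul_smul, mul_vecMulVec, trace_smul, trace_vecMulVec]
  simp [ev, mulVec_sub, dotProduct_sub, mulVec_single]
  ring

theorem eqZ_iff {a b : ℤ} : eqZ a b = true ↔ a = b := decide_eq_true_iff

theorem Std.ax (h : Std D B p0) (hG : Good D B) {u : List ℕ} {η : F2} {c : ℤ}
    (e : okAx u c = true) (hc : (c : ℚ) = -1024 * sg η) :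
    co D B (D.ax p0 η) = (1 / 512 : ℚ) • valQ u := by
  simp only [okAx, an_eq, Bool.and_eq_true, eqZ_iff, valN_eq] at e
  obtain ⟨e, e0, e1, e2, e3, e4⟩ := e
  have hz : ∀ k, k ≠ 0 → k ≠ 1 → k ≠ 128 → k ≠ 129 → k ≠ 192 → val u k = 0 := fun k a b c d f => by
    refine val_eq_zero ?_
    have h1 := iz_bit e k
    have h2 : (0x1000000000000000300000000000000000000000000000003 : ℕ).testBit k = false := by
      rw [show (0x1000000000000000300000000000000000000000000000003 : ℕ) =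
        2 ^ 0 ||| 2 ^ 1 ||| 2 ^ 128 ||| 2 ^ 129 ||| 2 ^ 192 by decide +kernel]
      simp only [Nat.testBit_or, Nat.testBit_two_pow, Bool.or_eq_false_iff, decide_eq_false_iff_not]
      omega
    simpa [tb_xor, tb_lor, h2] using h1
  have hA : ∀ i j : Fin 24, mA.testBit (posA i j) = true := fun i j => mA_pos i.2 j.2
  refine co_eq hG (fun i j => ?_) (fun i x hx => ?_) (fun k p hk hp => ?_) fun k hk => ?_
  · change (1 / 16 : ℚ) * vecMulVec (D.lam p0) (D.lam p0) i j = 1 / 512 * (val u (posA i j) : ℚ)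
    rw [h.vv, vecMulVec_apply]
    have hi := i.2
    have hj := j.2
    have h0 : (ev 0 4 - ev 1 4) 0 = 4 := by simp [ev]
    have h1 : (ev 0 4 - ev 1 4) 1 = -4 := by simp [ev]
    have h2 : ∀ i : Fin 24, 2 ≤ i.1 → (ev 0 4 - ev 1 4) i = 0 := fun i hi => by
      rw [Pi.sub_apply, ev, ev, Pi.single_eq_of_ne, Pi.single_eq_of_ne, sub_zero] <;>
        rintro rfl <;> exact absurd hi (by decide)
    have hc : ∀ i : Fin 24, i = 0 ∨ i = 1 ∨ 2 ≤ i.1 := by decide
    have h3 : 2 ≤ i.1 ∨ 2 ≤ j.1 → val u (posA i j) = 0 := fun h => by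
      refine hz _ ?_ ?_ ?_ ?_ ?_ <;> unfold posA <;> omega
    rcases hc i with rfl | rfl | i2
    · rcases hc j with rfl | rfl | j2
      · change _ = 1 / 512 * (val u 0 : ℚ)
        rw [e0, h0]; norm_num
      · change _ = 1 / 512 * (val u 1 : ℚ)
        rw [e2, h0, h1]; norm_num
      · rw [h3 (Or.inr j2), h2 j j2]; simp
    · rcases hc j with rfl | rfl | j2
      · change _ = 1 / 512 * (val u 128 : ℚ)
        rw [e3, h0, h1]; norm_num
      · change _ = 1 / 512 * (val u 129 : ℚ)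
        rw [e1, h1]; norm_num
      · rw [h3 (Or.inr j2), h2 j j2]; simp
    · rw [h3 (Or.inl i2), h2 i i2]; simp
  · change (0 : ℚ) = 1 / 512 * (val u (posW i x) : ℚ)
    rw [hz] <;> simp [posW] <;> omega
  · change (Pi.single p0 (-2 * sg η) : D.I → ℚ) p = 1 / 512 * (val u k : ℚ)
    by_cases hk2 : k = 192
    · subst hk2
      rw [D.cls_inj (hp.trans h.cls.symm), Pi.single_eq_same, e4, hc]
      ring
    · have h0 : ∀ i j : Fin 24, k ≠ posA i j := fun i j e => by
        have := hG.X_A (hA i j)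
        rw [← e, hk] at this
        exact absurd this (by simp)
      rw [hz k (h0 0 0) (h0 0 1) (h0 1 0) (h0 1 1) hk2, Pi.single_eq_of_ne]
      · simp
      · rintro rfl
        exact hk2 (hG.inj _ _ hk h.pos (cd_inj (hG.hX _ hk).1 (hG.hX _ h.pos).1 (hp.symm.trans h.cls)))
  · have h0 : ∀ i j : Fin 24, k ≠ posA i j := fun i j e => by
      have := M_of_A (B := B) (hA i j)
      rw [← e, hk] at this
      exact absurd this (by simp)
    have h1 : k ≠ 192 := fun e => by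
      have := M_of_X h.pos
      rw [← e, hk] at this
      exact absurd this (by simp)
    change 1 / 512 * (val u k : ℚ) = 0
    rw [hz k (h0 0 0) (h0 0 1) (h0 1 0) (h0 1 1) h1]
    simp

end

end CfsgMO
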