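/-
Orbit enumeration on `F2 ^ 24` with bit maps (WP BF).
-/
import Cfsg.Agent.MO.K1b

set_option autoImplicit false

namespace CfsgMO

open Matrix

noncomputable section

/-! ### matrices given by rows -/

/-- the list of the values `f 0, …, f (n - 1)` -/
def ltab (n : ℕ) (f : ℕ → ℕ) : List ℕ :=
  Nat.rec (motive := fun _ => List ℕ → List ℕ) (fun r => r) (fun i ih r => ih (f i :: r)) n []

theorem ltab_eq (n : ℕ) (f : ℕ → ℕ) : ltab n f = (List.range n).map f := by
  have : ∀ r, Nat.rec (motive := fun _ => List ℕ → List ℕ) (fun r => r)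
      (fun i ih r => ih (f i :: r)) n r = (List.range n).map f ++ r := by
    induction n with
    | zero => intro r; rfl
    | succ n ih =>
      intro r
      rw [List.range_succ, List.map_append, List.append_assoc]
      exact ih _
  rw [ltab, this, List.append_nil]

theorem vc_ltab (f : ℕ → ℕ) (k : ℕ) (t : Fin 24) : vc 24 0 (ltab 24 f) k t = bt (f t) k := by
  rw [vc, zero_add, ltab_eq, getD_tab _ t.2]

/-- a map on lists -/
def lmap (f : ℕ → ℕ) (L : List ℕ) : List ℕ := List.rec [] (fun p _ ih => f p :: ih) L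

theorem lmap_eq (f : ℕ → ℕ) (L : List ℕ) : lmap f L = L.map f := by
  induction L with
  | nil => rfl
  | cons p L ih => exact congrArg _ ih

theorem lab_lmap {f : ℕ → ℕ} {x y : ℕ} (h : ∀ p, (f p).testBit x = p.testBit y) (L : List ℕ) :
    lab (lmap f L) x = lab L y := by
  induction L with
  | nil => rfl
  | cons p L ih => exact congrArg₂ (· + ·) (by rw [h]) (congrArg _ ih)

theorem vc_lmap {f : ℕ → ℕ} {x y : ℕ} (h : ∀ p, (f p).testBit x = p.testBit y) (L : List ℕ) :
    vc 24 0 (lmap f L) x = vc 24 0 L y := by rw [← cd_lab, lab_lmap h, cd_lab]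

/-- evaluate all entries of a list, then continue -/
def frc {α : Type} (L : List ℕ) (k : α) : α :=
  Bool.rec k k (List.rec true (fun p _ ih => fb p ih) L)

@[simp] theorem frc_eq {α : Type} (L : List ℕ) (k : α) : frc L k = k := by
  unfold frc
  cases (List.rec true (fun p _ ih => fb p ih) L : Bool) <;> rfl

/-- the identity matrix, product of matrices given by rows (bit `j` of entry `i`), matrix times
vector -/
def idm : List ℕ := [1, 2, 4, 8, 16, 32, 64, 128, 256, 512, 1024, 2048, 4096, 8192, 16384, 32768,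
  65536, 131072, 262144, 524288, 1048576, 2097152, 4194304, 8388608]
def mm (a b : List ℕ) : List ℕ := ltab 24 fun i => kxs 24 0 b (kgd a i)
def mv (a : List ℕ) (x : ℕ) : ℕ := lab0 (mm a (ltab 24 (Nat.shiftRight x)))
/-- 24 rows below `2 ^ 24` -/
def okM (a : List ℕ) : Bool :=
  an (Nat.beq a.length 24) (kall 24 fun i => iz (Nat.shiftRight (kgd a i) 24))

theorem mat2_idm : mat2 24 idm = 1 := by decide +kernel
theorem okM_idm : okM idm = true := by decide +kernel

theorem vc_mm (a b : List ℕ) (k : ℕ) : vc 24 0 (mm a b) k = mat2 24 a *ᵥ vc 24 0 b k :=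
  funext fun t => by rw [mm, vc_ltab, kgd_eq, bt_kxs']

theorem mat2_vc (a : List ℕ) (i j : Fin 24) : mat2 24 a i j = vc 24 0 a j i := by
  rw [vc, zero_add]
  rfl

theorem mat2_mm' (a b : List ℕ) : mat2 24 (mm a b) = mat2 24 a * mat2 24 b := by
  ext i j
  simp only [mat2_vc (mm a b), vc_mm, mul_apply, mulVec, dotProduct, mat2_vc b]

theorem mat2_mm {a b : List ℕ} (_ : okM a = true) (hb : okM b = true) :
    okM (mm a b) = true ∧ mat2 24 (mm a b) = mat2 24 a * mat2 24 b := by
  refine ⟨?_, mat2_mm' a b⟩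
  simp only [okM, an_eq, Bool.and_eq_true, kall_iff, kgd_eq] at hb ⊢
  refine ⟨by simp [mm, ltab_eq], fun i hi => iz_of_bits fun k hk => ?_⟩
  have h := congrFun (vc_mm a b (k + 24)) ⟨i, hi⟩
  rw [show vc 24 0 b (k + 24) = 0 from funext fun t => by
    rw [vc, zero_add, bt_of' ((tb_shr _ _ _).symm.trans (iz_bit (hb.2 t t.2) k))]
    rfl, mulVec_zero, vc, zero_add, bt_of ((tb_shr _ _ _).symm.trans hk)] at h
  exact one_ne_zero h

theorem cd_mv' (a : List ℕ) (x : ℕ) : mv a x < 2 ^ 24 ∧ cd (mv a x) = mat2 24 a *ᵥ cd x := by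
  rw [mv, lab0_eq, cd_lab, vc_mm]
  refine ⟨(lab_lt_len _ _).trans_eq (by simp [mm, ltab_eq]), congrArg _ (funext fun t => ?_)⟩
  rw [vc_ltab, bt_congr (tb_shr _ _ _), zero_add]
  rfl

theorem cd_mv {a : List ℕ} (_ : okM a = true) (x : ℕ) :
    mv a x < 2 ^ 24 ∧ cd (mv a x) = mat2 24 a *ᵥ cd x := cd_mv' a x

theorem cd_surj (c : Cl) : ∃ x < 2 ^ 24, cd x = c := by
  let L := ltab 24 fun t => if c (f24 t) = 0 then 0 else 1
  refine ⟨lab L 0, (lab_lt_len _ _).trans_eq (by simp [L, ltab_eq]), funext fun t => ?_⟩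
  rw [cd_lab, vc_ltab, f24_val]
  rcases F2_cases (c t) with h | h <;> rw [h] <;> rfl

/-- list access with the identity matrix as default -/
def ggd (gens : List (List ℕ)) : ℕ → List ℕ :=
  List.rec (motive := fun _ => ℕ → List ℕ) (fun _ => idm)
    (fun p _ ih t => Nat.rec (motive := fun _ => List ℕ) p (fun t' _ => ih t') t) gens

theorem ggd_eq (gens : List (List ℕ)) (t : ℕ) : ggd gens t = gens.getD t idm := by
  induction gens generalizing t with
  | nil => rfl
  | cons p L ih => cases t with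
    | zero => rfl
    | succ t => exact ih t

/-- apply the letters of a word to bit planes -/
def wapp (gens : List (List ℕ)) (w : List ℕ) : List ℕ → List ℕ :=
  List.rec (motive := fun _ => List ℕ → List ℕ) (fun P => P)
    (fun a _ ih P => (fun Q => frc Q (ih Q)) (mm (ggd gens a) P)) w

theorem wapp_cons (gens : List (List ℕ)) (a : ℕ) (w P : List ℕ) :
    wapp gens (a :: w) P = wapp gens w (mm (ggd gens a) P) := frc_eq (mm (ggd gens a) P) _

/-- the product of the matrices of the letters, the first letter acts first; entries forced -/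
def wm (gens : List (List ℕ)) (w : List ℕ) : List ℕ := wapp gens w idm

theorem mat2_wapp (gens : List (List ℕ)) (w P : List ℕ) : mat2 24 (wapp gens w P) =
    (w.reverse.map fun a => mat2 24 (gens.getD a idm)).prod * mat2 24 P := by
  induction w generalizing P with
  | nil => simp [wapp]
  | cons a w ih => simp [wapp_cons, ih, mat2_mm', ggd_eq, Matrix.mul_assoc]

theorem mat2_wm (gens : List (List ℕ)) (w : List ℕ) :
    mat2 24 (wm gens w) = (w.reverse.map fun a => mat2 24 (gens.getD a idm)).prod := by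
  rw [wm, mat2_wapp, mat2_idm, Matrix.mul_one]

/-- the property `Gd` of labelled classes is kept by the generators -/
def Cls (Gd : Cl → ℕ → Prop) (gens : List (List ℕ)) : Prop :=
  ∀ a ∈ gens, okM a = true ∧ ∀ c l, Gd c l → Gd (mat2 24 a *ᵥ c) l

/-- every point with nonzero label has the property -/
def Inv (Gd : Cl → ℕ → Prop) (st : List ℕ) : Prop :=
  ∀ x < 2 ^ 24, lab st x ≠ 0 → Gd (cd x) (lab st x)

variable {Gd : Cl → ℕ → Prop} {gens : List (List ℕ)}

theorem Cls.ggd (hg : Cls Gd gens) (a : ℕ) {c : Cl} {l : ℕ} (h : Gd c l) :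
    Gd (mat2 24 (ggd gens a) *ᵥ c) l := by
  rw [ggd_eq, List.getD_eq_getElem?_getD]
  cases e : gens[a]? with
  | none => simpa [mat2_idm] using h
  | some g => exact (hg g (List.mem_of_getElem? e)).2 c l h

theorem Cls.vc (hg : Cls Gd gens) (w : List ℕ) {P : List ℕ} {k l : ℕ} (h : Gd (vc 24 0 P k) l) :
    Gd (vc 24 0 (wapp gens w P) k) l := by
  induction w generalizing P with
  | nil => exact h
  | cons a w ih => exact wapp_cons gens a w P ▸ ih (vc_mm _ _ _ ▸ hg.ggd a h)

theorem Cls.wapp (hg : Cls Gd gens) (w : List ℕ) {P : List ℕ} {c : Cl} {l : ℕ}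
    (h : Gd (mat2 24 P *ᵥ c) l) : Gd (mat2 24 (wapp gens w P) *ᵥ c) l := by
  induction w generalizing P with
  | nil => exact h
  | cons a w ih =>
    rw [wapp_cons]
    exact ih (by rw [mat2_mm', ← mulVec_mulVec]; exact hg.ggd a h)

theorem Cls.wm (hg : Cls Gd gens) (w : List ℕ) {c : Cl} {l : ℕ} (h : Gd c l) :
    Gd (mat2 24 (wm gens w) *ᵥ c) l := hg.wapp w (by rwa [mat2_idm, one_mulVec])

/-! ### masks and exchanges -/

/-- the masks of the numbers below `2 ^ n` without the bit `t`, by the parity of `x &&& m` -/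
def mkA (m t n : ℕ) : (ℕ → ℕ → ℕ) → ℕ :=
  Nat.rec (motive := fun _ => (ℕ → ℕ → ℕ) → ℕ) (fun k => k 1 0)
    (fun b ih k => ih fun M0 M1 => (fun w => Bool.rec (Bool.rec
      (k (Nat.lor M0 (Nat.shiftLeft M0 w)) (Nat.lor M1 (Nat.shiftLeft M1 w)))
      (k (Nat.lor M0 (Nat.shiftLeft M1 w)) (Nat.lor M1 (Nat.shiftLeft M0 w))) (tb m b))
      (k M0 M1) (Nat.beq b t)) (Nat.shiftLeft 1 b)) n

/-- the specification of the masks -/
def IsMk (m t n : ℕ) (e : F2) (M : ℕ) : Prop := ∀ x, M.testBit x = true ↔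
  x < 2 ^ n ∧ x.testBit t = false ∧ ∑ j ∈ Finset.range n, bt m j * bt x j = e

theorem bt_pow_add {n x j : ℕ} (hj : j < n) : bt (x + 2 ^ n) j = bt x j :=
  bt_congr (by rw [add_comm, Nat.testBit_two_pow_add_gt hj])

theorem IsMk.cat {m t n : ℕ} (h : n ≠ t) {e : F2} {M M' : ℕ} (h1 : IsMk m t n e M)
    (h2 : IsMk m t n (e + bt m n) M') :
    IsMk m t (n + 1) e (Nat.lor M (Nat.shiftLeft M' (Nat.shiftLeft 1 n))) := fun x => by
  rw [tb_lor, tb_shl, Bool.or_eq_true, tb_shl_iff, show Nat.shiftLeft 1 n = 2 ^ n from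
    Nat.one_shiftLeft n, h1, Finset.sum_range_succ, pow_succ]
  have key : ∀ y < 2 ^ n, (y + 2 ^ n).testBit t = y.testBit t ∧
      ∑ j ∈ Finset.range n, bt m j * bt (y + 2 ^ n) j + bt m n * bt (y + 2 ^ n) n =
        ∑ j ∈ Finset.range n, bt m j * bt y j + bt m n := fun y hy => by
    have := testBit_add_pow (Nat.testBit_lt_two_pow hy)
    exact ⟨by simp [this, h.symm], by rw [bt_of (m := y + _) (by simp [this]), mul_one,
      Finset.sum_congr rfl fun j hj => by rw [bt_pow_add (Finset.mem_range.1 hj)]]⟩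
  constructor
  · rintro (⟨a, b, c⟩ | ⟨y, hy, rfl⟩)
    · exact ⟨by omega, b, by rw [c, bt_of' (Nat.testBit_lt_two_pow a), mul_zero, add_zero]⟩
    · obtain ⟨a, b, c⟩ := (h2 y).1 hy
      exact ⟨by omega, (key y a).1.trans b, by
        rw [(key y a).2, c, add_assoc, CharTwo.add_self_eq_zero, add_zero]⟩
  · rintro ⟨a, b, c⟩
    by_cases hx : x < 2 ^ n
    · exact Or.inl ⟨hx, b, by rwa [bt_of' (Nat.testBit_lt_two_pow hx), mul_zero, add_zero] at c⟩
    · obtain ⟨y, rfl⟩ := Nat.exists_eq_add_of_le' (not_lt.1 hx)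
      have hy : y < 2 ^ n := by omega
      exact Or.inr ⟨y, (h2 y).2 ⟨hy, (key y hy).1.symm.trans b, by
        rw [← c, (key y hy).2, add_assoc, CharTwo.add_self_eq_zero, add_zero]⟩, rfl⟩

theorem IsMk.keep {m n : ℕ} {e : F2} {M : ℕ} (h1 : IsMk m n n e M) : IsMk m n (n + 1) e M :=
  fun x => by
    rw [h1, Finset.sum_range_succ]
    refine ⟨fun ⟨a, b, c⟩ => ⟨by omega, b, by rw [c, bt_of' b, mul_zero, add_zero]⟩,
      fun ⟨a, b, c⟩ => ⟨Nat.lt_pow_two_of_testBit _ fun i hi => ?_, b, by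
        rwa [bt_of' b, mul_zero, add_zero] at c⟩⟩
    rcases hi.eq_or_lt with rfl | hi
    exacts [b, Nat.testBit_lt_two_pow (a.trans_le (Nat.pow_le_pow_right (by norm_num) hi))]

theorem beq_false {a b : ℕ} (h : a ≠ b) : Nat.beq a b = false :=
  Bool.eq_false_iff.2 fun e => h (Nat.eq_of_beq_eq_true e)

theorem mkA_spec (m t n : ℕ) :
    ∃ M0 M1, IsMk m t n 0 M0 ∧ IsMk m t n 1 M1 ∧ ∀ k, mkA m t n k = k M0 M1 := by
  induction n with
  | zero =>
    refine ⟨1, 0, fun x => ?_, fun x => by simp, fun _ => rfl⟩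
    rcases x with _ | x <;> simp [Nat.testBit_succ]
  | succ n ih =>
    obtain ⟨M0, M1, h0, h1, h⟩ := ih
    have e : ∀ k, mkA m t (n + 1) k = Bool.rec (Bool.rec
        (k (Nat.lor M0 (Nat.shiftLeft M0 (Nat.shiftLeft 1 n)))
          (Nat.lor M1 (Nat.shiftLeft M1 (Nat.shiftLeft 1 n))))
        (k (Nat.lor M0 (Nat.shiftLeft M1 (Nat.shiftLeft 1 n)))
          (Nat.lor M1 (Nat.shiftLeft M0 (Nat.shiftLeft 1 n)))) (tb m n))
        (k M0 M1) (Nat.beq n t) := fun k => h _
    by_cases ht : n = t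
    · subst ht
      exact ⟨M0, M1, h0.keep, h1.keep, fun k => by rw [e, Nat.beq_refl]⟩
    · rw [beq_false ht, tb_eq] at e
      cases hm : m.testBit n <;> rw [hm] at e
      · exact ⟨_, _, h0.cat ht (by rwa [bt_of' hm]), h1.cat ht (by rwa [bt_of' hm]), e⟩
      · exact ⟨_, _, h0.cat ht (by rwa [bt_of hm]), h1.cat ht (by rwa [bt_of hm]), e⟩

/-- the numbers below `2 ^ 24` without the bit `t` for which `x &&& m` has odd parity -/
def msk (m t : ℕ) : ℕ := mkA m t 24 fun _ M => M
/-- the numbers below `2 ^ 24` without the bit `t` -/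
def zsk (t : ℕ) : ℕ := mkA 0 t 24 fun M _ => M

theorem msk_bit (m t x : ℕ) : (msk m t).testBit x = true ↔
    x < 2 ^ 24 ∧ x.testBit t = false ∧ cd m ⬝ᵥ cd x = 1 := by
  obtain ⟨M0, M1, -, h1, h⟩ := mkA_spec m t 24
  rw [msk, h, h1, ← Fin.sum_univ_eq_sum_range fun j => bt m j * bt x j]
  rfl

theorem zsk_bit (t x : ℕ) : (zsk t).testBit x = true ↔ x < 2 ^ 24 ∧ x.testBit t = false := by
  obtain ⟨M0, M1, h0, -, h⟩ := mkA_spec 0 t 24
  rw [zsk, h, h0]
  simp [bt_zero]

theorem swp_src {b m : ℕ} (hb : b < 24)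
    (hm : ∀ j, m.testBit j = true → j < 2 ^ 24 ∧ j.testBit b = false) {x : ℕ} (hx : x < 2 ^ 24) :
    ∃ y < 2 ^ 24, (∀ p, (swp (Nat.shiftLeft 1 b) m p).testBit x = p.testBit y) ∧
      ((m.testBit x = true ∧ y = x + 2 ^ b) ∨ (m.testBit y = true ∧ x = y + 2 ^ b) ∨
        (y = x ∧ m.testBit x = false ∧ ∀ j, m.testBit j = true → x ≠ j + 2 ^ b)) := by
  rw [show Nat.shiftLeft 1 b = 2 ^ b from Nat.one_shiftLeft b]
  have hd : ∀ j, m.testBit j = true → m.testBit (j + 2 ^ b) = false := fun j hj =>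
    Bool.eq_false_iff.2 fun h => by simpa [testBit_add_pow (hm j hj).2] using (hm _ h).2
  simp only [swp, tb_xor, tb_shl, tb_shl_land, tb_land, tb_shr]
  rcases swap_cases (2 ^ b) m x with hi | ⟨j, hj, rfl⟩ | ⟨h1, h2⟩
  · refine ⟨x + 2 ^ b, Nat.lt_pow_two_of_testBit _ fun t ht => ?_, fun p => ?_, Or.inl ⟨hi, rfl⟩⟩
    · rw [testBit_add_pow (hm x hi).2, Nat.testBit_lt_two_pow
        (hx.trans_le (Nat.pow_le_pow_right (by norm_num) ht))]
      simp
      omega
    · have : (m <<< 2 ^ b).testBit x = false := Bool.eq_false_iff.2 fun h => by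
        obtain ⟨k, hk, rfl⟩ := tb_shl_iff.1 h
        simp [hd k hk] at hi
      rw [hi, this]
      cases p.testBit x <;> cases p.testBit (x + 2 ^ b) <;> simp
  · refine ⟨j, (hm j hj).1, fun p => ?_, Or.inr (Or.inl ⟨hj, rfl⟩)⟩
    rw [hd j hj, tb_shl_add, hj, Nat.add_sub_cancel]
    cases p.testBit j <;> cases p.testBit (j + 2 ^ b) <;> simp
  · refine ⟨x, hx, fun p => by simp [h1, h2], Or.inr (Or.inr ⟨rfl, h1, fun j hj e => ?_⟩)⟩
    rw [tb_shl_iff.2 ⟨j, hj, e⟩] at h2
    exact absurd h2 (by simp)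

/-! ### the sparse phase -/

/-- concatenation of bit strings -/
def cat (N a b : ℕ) : ℕ := Nat.lor (Nat.land a (ones N)) (Nat.shiftLeft b N)

theorem cat_bit (N a b p : ℕ) :
    (cat N a b).testBit p = if p < N then a.testBit p else b.testBit (p - N) := by
  rw [cat, tb_lor, tb_land, ones_bit, tb_shl, Nat.testBit_shiftLeft]
  by_cases h : p < N
  · simp [h, not_le.2 h]
  · simp [h, not_lt.1 h]

/-- the valid positions `v` carry codes `P` and labels `L` with the property; the bits in `F` of the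
position agree with the code -/
def Sp (Gd : Cl → ℕ → Prop) (F : ℕ → Prop) (P L : List ℕ) (v : ℕ) : Prop :=
  ∀ p < 2 ^ 24, v.testBit p = true → Gd (vc 24 0 P p) (lab L p) ∧
    ∀ b : Fin 24, F b → bt p b = vc 24 0 P p b

/-- the plane of the bit `t` of the entries of a list -/
def lpl (f : ℕ × ℕ → ℕ) (r : List (ℕ × ℕ)) (t : ℕ) : ℕ :=
  List.rec 0 (fun a _ ih => Nat.add (Nat.land (Nat.shiftRight (f a) t) 1) (Nat.mul 2 ih)) r

theorem lpl_bit (f : ℕ × ℕ → ℕ) (r : List (ℕ × ℕ)) (t : ℕ) {p : ℕ} (hp : p < r.length) :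
    (lpl f r t).testBit p = (f r[p]).testBit t := by
  have : lpl f r t = klab (r.map f) t := by
    clear hp
    induction r with
    | nil => rfl
    | cons a r ih => exact congrArg (fun x => Nat.add _ (Nat.mul 2 x)) ih
  rw [this, klab_eq, testBit_lab]
  simp [List.getD_eq_getElem?_getD, hp]

theorem sp_reps {n : ℕ} {reps : List (ℕ × ℕ)}
    (hr : ∀ r ∈ reps, r.1 < 2 ^ 24 ∧ r.2 < 2 ^ n ∧ Gd (cd r.1) r.2) :
    Sp Gd (fun _ => False) (ltab 24 (lpl Prod.fst reps)) (ltab n (lpl Prod.snd reps))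
      (ones reps.length) := fun p _ hp => by
  rw [ones_bit, decide_eq_true_eq] at hp
  obtain ⟨-, h1, h2⟩ := hr _ (List.getElem_mem hp)
  refine ⟨?_, fun _ => False.elim⟩
  convert h2 using 1
  · exact funext fun t => (vc_ltab _ _ _).trans (bt_congr (lpl_bit _ _ _ hp))
  · refine bits_inj ((lab_lt_len _ _).trans_eq (by simp [ltab_eq])) h1 fun t ht => bt_congr ?_
    rw [testBit_lab, ltab_eq, getD_tab _ ht, lpl_bit _ _ _ hp]

/-- the doubling phase -/
def dbl (gens : List (List ℕ)) (ws : List (List ℕ)) (k : ℕ → List ℕ → List ℕ → ℕ → List ℕ) :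
    ℕ → List ℕ → List ℕ → ℕ → List ℕ :=
  List.rec (motive := fun _ => ℕ → List ℕ → List ℕ → ℕ → List ℕ) k
    (fun w _ ih N P L v => (fun Q => frc Q ((fun N' P' L' v' =>
      fb N' (frc P' (frc L' (fb v' (ih N' P' L' v'))))) (Nat.mul 2 N)
      (ltab 24 fun t => cat N (kgd P t) (kgd Q t)) (lmap (fun p => cat N p p) L) (cat N v v)))
      (wapp gens w P)) ws

theorem inv_dbl (hg : Cls Gd gens) (ws : List (List ℕ)) {k : ℕ → List ℕ → List ℕ → ℕ → List ℕ}
    (hk : ∀ N P L v, Sp Gd (fun _ => False) P L v → Inv Gd (k N P L v)) {N : ℕ} {P L : List ℕ}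
    {v : ℕ} (h : Sp Gd (fun _ => False) P L v) : Inv Gd (dbl gens ws k N P L v) := by
  induction ws generalizing N P L v with
  | nil => exact hk _ _ _ _ h
  | cons w ws ih =>
    change Inv Gd (frc _ (fb _ (frc _ (frc _ (fb _ (dbl gens ws k _ _ _ _))))))
    simp only [frc_eq, fb_eq]
    refine ih fun p hp hv => ⟨?_, fun _ => False.elim⟩
    rw [cat_bit] at hv
    split_ifs at hv with h1
    · rw [lab_lmap (y := p) fun _ => by rw [cat_bit, if_pos h1]]
      convert (h p hp hv).1 using 1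
      exact funext fun t => (vc_ltab _ _ _).trans (bt_congr (by
        rw [cat_bit, if_pos h1, kgd_eq, zero_add]))
    · rw [lab_lmap (y := p - N) fun _ => by rw [cat_bit, if_neg h1]]
      convert hg.vc w (h _ (by omega) hv).1 using 1
      exact funext fun t => (vc_ltab _ _ _).trans (bt_congr (by
        rw [cat_bit, if_neg h1, kgd_eq, zero_add]))

/-- move every valid entry to the position given by its code, bit by bit; one of two colliding
entries is dropped -/
def route (bs : List ℕ) : List ℕ → List ℕ → ℕ → List ℕ :=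
  List.rec (motive := fun _ => List ℕ → List ℕ → ℕ → List ℕ) (fun _ L v => lmap (Nat.land v) L)
    (fun b _ ih P L v => (fun C w Z => (fun a => (fun m => (fun u => (fun v' =>
      fb v' (ih (lmap (swp w m) P) (lmap (swp w m) L) v'))
      (Nat.xor (Nat.land u Z) (Nat.land u (swp w m C)))) (swp w m v))
      (Nat.land (Nat.lor a (Nat.shiftRight (Nat.xor v a) w)) Z)) (Nat.land v C))
      (kgd P b) (Nat.shiftLeft 1 b) (zsk b)) bs

theorem Sp.route {F : ℕ → Prop} {P L : List ℕ} {v : ℕ} (h : Sp Gd F P L v) {b : ℕ} (hb : b < 24)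
    (w : ℕ) : Sp Gd (fun c => F c ∨ c = b) (lmap (swp (Nat.shiftLeft 1 b) (Nat.land w (zsk b))) P)
      (lmap (swp (Nat.shiftLeft 1 b) (Nat.land w (zsk b))) L)
      (Nat.xor (Nat.land (swp (Nat.shiftLeft 1 b) (Nat.land w (zsk b)) v) (zsk b))
        (Nat.land (swp (Nat.shiftLeft 1 b) (Nat.land w (zsk b)) v)
          (swp (Nat.shiftLeft 1 b) (Nat.land w (zsk b)) (kgd P b)))) := fun x hx hv => by
  have hm : ∀ j, (Nat.land w (zsk b)).testBit j = true → j < 2 ^ 24 ∧ j.testBit b = false :=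
    fun j hj => (zsk_bit _ _).1 (by rw [tb_land, Bool.and_eq_true] at hj; exact hj.2)
  obtain ⟨y, hy, h1, h2⟩ := swp_src hb hm hx
  rw [tb_xor, tb_land, tb_land, h1, h1, kgd_eq] at hv
  have h3 : v.testBit y = true := by
    revert hv
    cases v.testBit y <;> simp
  rw [lab_lmap h1, vc_lmap h1]
  refine ⟨(h y hy h3).1, fun c hc => ?_⟩
  by_cases e : c.1 = b
  · rw [vc, zero_add, e]
    refine bt_congr ?_
    have := zsk_bit b x
    rw [h3] at hv
    rw [and_iff_right hx] at this
    revert hv this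
    cases (zsk b).testBit x <;> cases x.testBit b <;> cases (P.getD b 0).testBit y <;> simp
  · rw [← (h y hy h3).2 c (hc.resolve_right e)]
    rcases h2 with ⟨h2, rfl⟩ | ⟨h2, rfl⟩ | ⟨rfl, -⟩
    exacts [bt_congr (by simp [testBit_add_pow (hm _ h2).2, e]),
      bt_congr (by simp [testBit_add_pow (hm _ h2).2, e]), rfl]

theorem lab_land (v : ℕ) (L : List ℕ) (x : ℕ) :
    lab (lmap (Nat.land v) L) x = if v.testBit x then lab L x else 0 := by
  induction L with
  | nil => simp [lmap, lab]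
  | cons p L ih =>
    change lab (Nat.land v p :: lmap _ L) x = _
    rw [lab, lab, ih, tb_land]
    cases v.testBit x <;> simp

theorem inv_route {bs : List ℕ} (hb : ∀ b ∈ bs, b < 24) {F : ℕ → Prop} (hF : ∀ b < 24, F b ∨ b ∈ bs)
    {P L : List ℕ} {v : ℕ} (h : Sp Gd F P L v) : Inv Gd (route bs P L v) := by
  induction bs generalizing F P L v with
  | nil =>
    intro x hx h0
    change lab (lmap _ L) x ≠ 0 at h0
    change Gd _ (lab (lmap _ L) x)
    rw [lab_land] at h0 ⊢
    split_ifs at h0 ⊢ with hv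
    · rw [show cd x = vc 24 0 P x from funext fun t =>
        (h x hx hv).2 t ((hF t t.2).resolve_right (by simp))]
      exact (h x hx hv).1
    · exact absurd rfl h0
  | cons b bs ih =>
    change Inv Gd (fb _ (route bs _ _ _))
    rw [fb_eq]
    exact ih (fun c hc => hb c (List.mem_cons_of_mem _ hc)) (fun c hc => by
      simpa [or_assoc] using hF c hc) (h.route (hb b (by simp)) _)

/-- the number of bits of a position -/
def lg2 (N : ℕ) : ℕ :=
  Nat.rec 0 (fun b ih => Bool.rec ih (Nat.succ b) (Nat.blt (Nat.shiftLeft 1 b) N)) 24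

theorem lg2_le (N : ℕ) : lg2 N ≤ 24 := by
  have : ∀ n : ℕ, (Nat.rec 0 (fun b ih => Bool.rec ih (Nat.succ b) (Nat.blt (Nat.shiftLeft 1 b) N))
      n : ℕ) ≤ n := fun n => by
    induction n with
    | zero => rfl
    | succ n ih =>
      change (Bool.rec _ _ (Nat.blt (Nat.shiftLeft 1 n) N) : ℕ) ≤ _
      cases Nat.blt (Nat.shiftLeft 1 n) N
      exacts [ih.trans n.le_succ, le_rfl]
  exact this 24

/-- the order of the bits: `h, …, 23, h - 1, …, 0` -/
def bord (h : ℕ) : List ℕ :=
  ltab 24 fun i => Bool.rec (Nat.sub 23 i) (Nat.add h i) (Nat.blt (Nat.add h i) 24)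

theorem bord_spec : ∀ h ≤ 24, (∀ b ∈ bord h, b < 24) ∧ ∀ b < 24, b ∈ bord h := by decide +kernel

/-- sparse phase: start with the pairs (code, label), for each word of `ws` replace the list `l` by
`l ++ w • l`, then write `n` label planes -/
def bfInit (n : ℕ) (gens : List (List ℕ)) (reps : List (ℕ × ℕ)) (ws : List (List ℕ)) : List ℕ :=
  dbl gens ws (fun N => route (bord (lg2 N))) reps.length (ltab 24 (lpl Prod.fst reps))
    (ltab n (lpl Prod.snd reps)) (ones reps.length)

theorem inv_init (hg : Cls Gd gens) (n : ℕ) {reps : List (ℕ × ℕ)}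
    (hr : ∀ r ∈ reps, r.1 < 2 ^ 24 ∧ r.2 < 2 ^ n ∧ Gd (cd r.1) r.2) (ws : List (List ℕ)) :
    Inv Gd (bfInit n gens reps ws) :=
  inv_dbl hg ws (fun N _ _ _ h => inv_route (bord_spec _ (lg2_le N)).1
    (fun b hb => Or.inr ((bord_spec _ (lg2_le N)).2 b hb)) h) (sp_reps hr)

/-! ### the dense phase -/

/-- the rows after an elementary operation -/
def opP (o : ℕ × ℕ) (P : List ℕ) : List ℕ :=
  ltab 24 fun i => Bool.rec (kgd P i) (Nat.xor (kgd P i) (kxs 24 0 P o.2)) (Nat.beq i o.1)

/-- the rows after the elementary operations -/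
def oprod (ops : List (ℕ × ℕ)) : List ℕ → List ℕ :=
  List.rec (motive := fun _ => List ℕ → List ℕ) (fun P => P)
    (fun o _ ih P => (fun Q => frc Q (ih Q)) (opP o P)) ops

/-- the elementary operations `(t, m)`: add the parity of `x &&& m` to the bit `t` of `x` (bit `t`
of `m` is zero); their product, first operation first, is the matrix of the word -/
def okStep (gens : List (List ℕ)) (s : List ℕ × List (ℕ × ℕ)) : Bool :=
  an (List.rec true (fun o _ ih => an (Nat.blt o.1 24) (an (Bool.not (tb o.2 o.1)) ih)) s.2)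
    ((fun a b => kall 24 fun i => Nat.beq (kgd a i) (kgd b i)) (oprod s.2 idm) (wm gens s.1))

/-- move one plane -/
def oapp (ops : List (ℕ × ℕ)) : ℕ → ℕ :=
  List.rec (motive := fun _ => ℕ → ℕ) (fun x => x)
    (fun o _ ih x => (fun y => fb y (ih y)) (swp (Nat.shiftLeft 1 o.1) (msk o.2 o.1) x)) ops

/-- an elementary operation on vectors -/
def opV (o : ℕ × ℕ) (c : Cl) : Cl := c + Pi.single (f24 o.1) (cd o.2 ⬝ᵥ c)

theorem cd_add_pow {x t : ℕ} (ht : t < 24) (h : x.testBit t = false) :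
    cd (x + 2 ^ t) = cd x + Pi.single (f24 t) 1 := funext fun i => by
  rw [Pi.add_apply, cd, cd, testBit_add_pow h, Pi.single_apply]
  have : i = f24 t ↔ i.1 = t := by
    rw [Fin.ext_iff, show (f24 t).1 = t from Nat.mod_eq_of_lt ht]
  by_cases e : i.1 = t
  · simp [this, e, h]
  · simp [this, e]

theorem op_src {o : ℕ × ℕ} (ht : o.1 < 24) (hm : o.2.testBit o.1 = false) {x : ℕ}
    (hx : x < 2 ^ 24) : ∃ y < 2 ^ 24, cd x = opV o (cd y) ∧
      ∀ p, (swp (Nat.shiftLeft 1 o.1) (msk o.2 o.1) p).testBit x = p.testBit y := by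
  have h0 : ∀ y, y.testBit o.1 = false → cd o.2 ⬝ᵥ cd (y + 2 ^ o.1) = cd o.2 ⬝ᵥ cd y := fun y h => by
    rw [cd_add_pow ht h, dotProduct_add, dotProduct_single_one, cd, f24, Fin.val_mk,
      Nat.mod_eq_of_lt ht, hm]
    simp
  obtain ⟨y, hy, h1, h2⟩ := swp_src ht (m := msk o.2 o.1)
    (fun j hj => ⟨((msk_bit _ _ _).1 hj).1, ((msk_bit _ _ _).1 hj).2.1⟩) hx
  refine ⟨y, hy, ?_, h1⟩
  rcases h2 with ⟨h2, rfl⟩ | ⟨h2, rfl⟩ | ⟨rfl, h2, h3⟩
  · obtain ⟨-, a, b⟩ := (msk_bit _ _ _).1 h2
    rw [opV, h0 x a, b, cd_add_pow ht a, add_assoc, add_self, add_zero]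
  · obtain ⟨-, a, b⟩ := (msk_bit _ _ _).1 h2
    rw [opV, b, cd_add_pow ht a]
  · rw [opV, (F2_cases (cd o.2 ⬝ᵥ cd y)).resolve_right fun h => ?_, Pi.single_zero, add_zero]
    cases hb : y.testBit o.1
    · rw [(msk_bit _ _ _).2 ⟨hy, hb, h⟩] at h2
      exact absurd h2 (by simp)
    · obtain ⟨z, hz, rfl⟩ := exists_sub_pow hb
      exact h3 z ((msk_bit _ _ _).2 ⟨(Nat.le_add_right _ _).trans_lt hy, hz, h0 z hz ▸ h⟩) rfl

theorem oprod_cons (o : ℕ × ℕ) (ops : List (ℕ × ℕ)) (P : List ℕ) :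
    oprod (o :: ops) P = oprod ops (opP o P) := frc_eq (opP o P) _

theorem oapp_cons (o : ℕ × ℕ) (ops : List (ℕ × ℕ)) (x : ℕ) : oapp (o :: ops) x =
    oapp ops (swp (Nat.shiftLeft 1 o.1) (msk o.2 o.1) x) := fb_eq (swp _ _ _) _

theorem oapp_src {ops : List (ℕ × ℕ)} (h : ∀ o ∈ ops, o.1 < 24 ∧ o.2.testBit o.1 = false) {x : ℕ}
    (hx : x < 2 ^ 24) : ∃ y < 2 ^ 24, (∀ p, (oapp ops p).testBit x = p.testBit y) ∧
      ∀ P c, mat2 24 P *ᵥ c = cd y → mat2 24 (oprod ops P) *ᵥ c = cd x := by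
  induction ops with
  | nil => exact ⟨x, hx, fun _ => rfl, fun _ _ h => h⟩
  | cons o ops ih =>
    obtain ⟨y, hy, h1, h2⟩ := ih fun o ho => h o (List.mem_cons_of_mem _ ho)
    obtain ⟨ht, hm⟩ := h o (by simp)
    obtain ⟨z, hz, h3, h4⟩ := op_src ht hm hy
    refine ⟨z, hz, fun p => by rw [oapp_cons, h1, h4], fun P c hc => ?_⟩
    rw [oprod_cons]
    refine h2 _ c ?_
    have e : mat2 24 (opP o P) =
        mat2 24 P + of (Pi.single (f24 o.1) (cd o.2 ᵥ* mat2 24 P)) := by
      ext i j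
      rw [mat2_vc, opP, vc_ltab, Matrix.add_apply, of_apply, kgd_eq]
      by_cases e : i.1 = o.1
      · obtain rfl : i = f24 o.1 := Fin.ext (e.trans (Nat.mod_eq_of_lt ht).symm)
        rw [Nat.beq_eq.mpr e, Pi.single_eq_same]
        simp only [bt_xor, bt_kxs, vecMul, dotProduct, mat2_vc P _ j]
        rw [vc, zero_add]
        rfl
      · rw [beq_false e, Pi.single_eq_of_ne fun h =>
          e (by rw [h]; exact Nat.mod_eq_of_lt ht)]
        exact (add_zero _).symm
    rw [e, add_mulVec, h3, opV, ← hc, dotProduct_mulVec]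
    refine congrArg _ (funext fun i => ?_)
    by_cases e : i = f24 o.1
    · simp [e, mulVec]
    · simp [e, mulVec]

theorem okStep_src {s : List ℕ × List (ℕ × ℕ)} (h : okStep gens s = true) {x : ℕ}
    (hx : x < 2 ^ 24) : ∃ y < 2 ^ 24, (∀ p, (oapp s.2 p).testBit x = p.testBit y) ∧
      cd x = mat2 24 (wm gens s.1) *ᵥ cd y := by
  obtain ⟨w, ops⟩ := s
  simp only [okStep, an_eq, Bool.and_eq_true, kall_iff, kgd_eq] at h
  obtain ⟨y, hy, h1, h2⟩ := oapp_src (ops := ops) (by
    replace h := h.1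
    induction ops with
    | nil => simp
    | cons o ops ih =>
      simp only [Bool.and_eq_true, Nat.blt_eq, tb_eq, Bool.not_eq_true'] at h ih
      exact List.forall_mem_cons.2 ⟨⟨h.1, h.2.1⟩, ih h.2.2⟩) hx
  refine ⟨y, hy, h1, ?_⟩
  rw [← h2 idm (cd y) (by rw [mat2_idm, one_mulVec])]
  refine congrArg (· *ᵥ cd y) (Matrix.ext fun i j => ?_)
  rw [mat2, mat2, of_apply, of_apply, Nat.eq_of_beq_eq_true (h.2 i i.2)]

/-- the union of the planes -/
def lor (L : List ℕ) : ℕ := List.rec 0 (fun p _ ih => Nat.lor p ih) L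

theorem lor_bit (L : List ℕ) (x : ℕ) : (lor L).testBit x = false ↔ lab L x = 0 := by
  induction L with
  | nil => simp [lor, lab]
  | cons p L ih =>
    change (Nat.lor p (lor L)).testBit x = false ↔ _
    rw [tb_lor, Bool.or_eq_false_iff, ih, lab]
    cases p.testBit x <;> simp

/-- move all planes, then label the points which had no label -/
def bfStep (ops : List (ℕ × ℕ)) (st : List ℕ) : List ℕ :=
  (fun u => lmap (fun p => Nat.lor p (Nat.land (oapp ops p) u)) st)
    (Nat.xor (lor st) (ones 16777216))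

def bfSteps (ss : List (List ℕ × List (ℕ × ℕ))) : List ℕ → List ℕ :=
  List.rec (motive := fun _ => List ℕ → List ℕ) (fun st => st)
    (fun s _ ih st => (fun Q => frc Q (ih Q)) (bfStep s.2 st)) ss

theorem bfSteps_cons (s : List ℕ × List (ℕ × ℕ)) (ss : List (List ℕ × List (ℕ × ℕ)))
    (st : List ℕ) : bfSteps (s :: ss) st = bfSteps ss (bfStep s.2 st) := frc_eq (bfStep _ _) _

theorem inv_step (hg : Cls Gd gens) {s : List ℕ × List (ℕ × ℕ)} (hs : okStep gens s = true)
    {st : List ℕ} (h : Inv Gd st) : Inv Gd (bfStep s.2 st) := fun x hx => by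
  obtain ⟨y, hy, h1, h2⟩ := okStep_src hs hx
  have h3 : (ones 16777216).testBit x = true := (ones_bit _ _).trans (decide_eq_true hx)
  cases hv : (lor st).testBit x
  · have : ∀ L : List ℕ, lab L x = 0 → lab (lmap (fun p => Nat.lor p (Nat.land (oapp s.2 p)
        (Nat.xor (lor st) (ones 16777216)))) L) x = lab L y := fun L => by
      induction L with
      | nil => exact fun _ => rfl
      | cons p L ih =>
        intro h0
        rw [lab] at h0
        refine congrArg₂ (· + ·) ?_ (congrArg _ (ih (by omega)))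
        rw [tb_lor, tb_land, tb_xor, hv, h3, h1]
        revert h0
        cases p.testBit x <;> simp
    rw [bfStep, this st ((lor_bit _ _).1 hv), h2]
    exact fun h0 => hg.wm _ (h y hy h0)
  · rw [bfStep, lab_lmap (y := x) fun p => by simp [hv, h3]]
    exact h x hx

theorem inv_steps (hg : Cls Gd gens) {ss : List (List ℕ × List (ℕ × ℕ))}
    (hs : ss.all (okStep gens) = true) {st : List ℕ} (h : Inv Gd st) : Inv Gd (bfSteps ss st) := by
  induction ss generalizing st with
  | nil => exact h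
  | cons s ss ih =>
    rw [List.all_cons, Bool.and_eq_true] at hs
    exact bfSteps_cons s ss st ▸ ih hs.2 (inv_step hg hs.1 h)

/-- number of points with label `l` -/
def cnt (st : List ℕ) (l : ℕ) : ℕ := popc 24 (look st (ones 16777216) l)

theorem exists_part {st : List ℕ} (h : Inv Gd st) : ∃ S : ℕ → Finset Cl,
    (∀ l, l ≠ 0 → l < 2 ^ st.length → (S l).card = cnt st l ∧ ∀ c ∈ S l, Gd c l) ∧
      ∀ l l', l ≠ l' → Disjoint (S l) (S l') := by
  generalize hR : Finset.range (2 ^ 24) = R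
  have hm : ∀ x, x ∈ R ↔ x < 2 ^ 24 := fun x => hR ▸ Finset.mem_range
  refine ⟨fun l => (R.filter fun x => lab st x = l).image cd, fun l h0 hl => ⟨?_, fun c hc => ?_⟩,
    fun l l' hl => Finset.disjoint_left.2 fun c hc hc' => ?_⟩
  · rw [Finset.card_image_of_injOn fun x hx y hy => cd_inj ((hm x).1 (Finset.mem_filter.1 hx).1)
      ((hm y).1 (Finset.mem_filter.1 hy).1), cnt, popc_eq', hR]
    refine congrArg _ (Finset.filter_congr fun x hx => ?_)
    rw [testBit_look _ _ hl, ones_bit, decide_eq_true (show x < 16777216 from (hm x).1 hx)]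
    simp
  · obtain ⟨x, hx, rfl⟩ := Finset.mem_image.1 hc
    obtain ⟨hx', rfl⟩ := Finset.mem_filter.1 hx
    exact h x ((hm x).1 hx') h0
  · obtain ⟨x, hx, rfl⟩ := Finset.mem_image.1 hc
    obtain ⟨y, hy, e⟩ := Finset.mem_image.1 hc'
    rw [Finset.mem_filter] at hx hy
    exact hl (hx.2.symm.trans (cd_inj ((hm y).1 hy.1) ((hm x).1 hx.1) e ▸ hy.2))

/-! ### packed states -/

/-- the planes concatenated -/
def pack (st : List ℕ) : ℕ := List.rec 0 (fun p _ ih => cat 16777216 p ih) st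
/-- the `n` planes of a packed state -/
def unpack (n : ℕ) : ℕ → List ℕ :=
  Nat.rec (motive := fun _ => ℕ → List ℕ) (fun _ => [])
    (fun _ ih v => Nat.land v (ones 16777216) :: ih (Nat.shiftRight v 16777216)) n

theorem length_unpack (n v : ℕ) : (unpack n v).length = n := by
  induction n generalizing v with
  | zero => rfl
  | succ n ih => exact congrArg (· + 1) (ih _)

theorem lab_unpack (st : List ℕ) {x : ℕ} (hx : x < 2 ^ 24) :
    lab (unpack st.length (pack st)) x = lab st x := by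
  induction st with
  | nil => rfl
  | cons p L ih =>
    have hx' : x < 16777216 := hx
    have e : Nat.shiftRight (cat 16777216 p (pack L)) 16777216 = pack L :=
      Nat.eq_of_testBit_eq fun i => by
        rw [tb_shr, cat_bit, if_neg (by omega), Nat.add_sub_cancel]
    refine congrArg₂ (· + ·) ?_ (congrArg _ ((congrArg (fun v => lab (unpack L.length v) x) e).trans ih))
    rw [tb_land, ones_bit, show pack (p :: L) = cat 16777216 p (pack L) from rfl, cat_bit,
      if_pos hx', decide_eq_true hx', Bool.and_true]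

/-- the invariant of a packed state with `n` planes -/
def InvN (Gd : Cl → ℕ → Prop) (n v : ℕ) : Prop := Inv Gd (unpack n v)

theorem invN_pack {n : ℕ} {st : List ℕ} (hn : st.length = n) (h : Inv Gd st) :
    InvN Gd n (pack st) := fun x hx => by
  rw [← hn, lab_unpack st hx]
  exact h x hx

def bfInitN (n : ℕ) (gens : List (List ℕ)) (reps : List (ℕ × ℕ)) (ws : List (List ℕ)) : ℕ :=
  pack (bfInit n gens reps ws)
def bfStepsN (n : ℕ) (ss : List (List ℕ × List (ℕ × ℕ))) (v : ℕ) : ℕ :=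
  pack (bfSteps ss (unpack n v))
def cntN (n v l : ℕ) : ℕ := cnt (unpack n v) l

theorem length_route (bs P L : List ℕ) (v : ℕ) : (route bs P L v).length = L.length := by
  induction bs generalizing P L v with
  | nil => exact (congrArg _ (lmap_eq _ _)).trans (List.length_map _)
  | cons b bs ih =>
    change (fb _ (route bs _ _ _) : List ℕ).length = _
    rw [fb_eq, ih, lmap_eq, List.length_map]

theorem length_bfInit (n : ℕ) (gens : List (List ℕ)) (reps : List (ℕ × ℕ)) (ws : List (List ℕ)) :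
    (bfInit n gens reps ws).length = n := by
  have : ∀ N P L v, (dbl gens ws (fun N => route (bord (lg2 N))) N P L v).length = L.length := by
    induction ws with
    | nil => exact fun N P L v => length_route (bord (lg2 N)) P L v
    | cons w ws ih =>
      intro N P L v
      change (frc _ (fb _ (frc _ (frc _ (fb _ (dbl gens ws _ _ _ _ _))))) : List ℕ).length = _
      simp only [frc_eq, fb_eq, ih, lmap_eq, List.length_map]
  rw [bfInit, this, ltab_eq, List.length_map, List.length_range]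

theorem length_bfSteps (ss : List (List ℕ × List (ℕ × ℕ))) (st : List ℕ) :
    (bfSteps ss st).length = st.length := by
  induction ss generalizing st with
  | nil => rfl
  | cons s ss ih =>
    rw [bfSteps_cons, ih]
    exact (congrArg _ (lmap_eq _ _)).trans (List.length_map _)

theorem invN_init (hg : Cls Gd gens) (n : ℕ) {reps : List (ℕ × ℕ)}
    (hr : ∀ r ∈ reps, r.1 < 2 ^ 24 ∧ r.2 < 2 ^ n ∧ Gd (cd r.1) r.2) (ws : List (List ℕ)) :
    InvN Gd n (bfInitN n gens reps ws) := invN_pack (length_bfInit _ _ _ _) (inv_init hg n hr ws)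

theorem invN_steps (hg : Cls Gd gens) {ss : List (List ℕ × List (ℕ × ℕ))}
    (hs : ss.all (okStep gens) = true) {n v : ℕ} (h : InvN Gd n v) :
    InvN Gd n (bfStepsN n ss v) :=
  invN_pack ((length_bfSteps _ _).trans (length_unpack n v)) (inv_steps hg hs h)

theorem exists_partN {n v : ℕ} (h : InvN Gd n v) : ∃ S : ℕ → Finset Cl,
    (∀ l, l ≠ 0 → l < 2 ^ n → (S l).card = cntN n v l ∧ ∀ c ∈ S l, Gd c l) ∧
      ∀ l l', l ≠ l' → Disjoint (S l) (S l') := by
  simpa only [length_unpack, cntN] using exists_part h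

end

end CfsgMO
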