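/-
Checks for the axes: short classes, invariants, orbit enumeration.
-/
import Cfsg.Agent.MO.Ax
import Cfsg.Agent.MO.BF

set_option autoImplicit false

namespace CfsgMO

open Matrix Dat

noncomputable section

variable {D : Dat} {B : Lb} {tab : ℕ → List Lay} {amat : ℕ → List ℕ} {gel : ℕ → D.Γ}
  {av : ℕ → List ℕ} {p0 : D.I}

/-- everything that is known about letters and vectors -/
structure Ctx (D : Dat) (B : Lb) (tab : ℕ → List Lay) (amat : ℕ → List ℕ) (gel : ℕ → D.Γ)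
    (av : ℕ → List ℕ) (p0 : D.I) : Prop where
  al : Alph D B tab amat gel
  ok : OkAv B av
  st : Std D B p0
  v0 : okAx (av 0) (-1024) = true
  v1 : okAx (av 12) 1024 = true
  c0 : klab B.L 192 = 7028736

theorem Ctx.e0 (h : Ctx D B tab amat gel av p0) : VV D B av 0 = D.ax p0 0 := by
  refine co_inj h.al.good ?_
  rw [VV, co_vec h.al.good _ (h.ok 0), h.st.ax h.al.good h.v0 (by simp [sg_zero])]

theorem Ctx.e1 (h : Ctx D B tab amat gel av p0) : VV D B av 12 = D.ax p0 1 := by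
  refine co_inj h.al.good ?_
  rw [VV, co_vec h.al.good _ (h.ok 12), h.st.ax h.al.good h.v1 (by simp [sg_one])]

theorem Ctx.chkS_sound (h : Ctx D B tab amat gel av p0) {k d : ℕ} {w : List ℕ} {i0 i1 : ℤ}
    (e : chkS tab av k d w i0 i1 = true) :
    D.ip ((wd gel w).1 (VV D B av k)) (D.ax p0 0) = i0 / 512 ∧
      D.ip ((wd gel w).1 (VV D B av k)) (D.ax p0 1) = i1 / 512 := by
  obtain ⟨u, e1, e2⟩ := runW_sound h.al.wf e
  have e3 := h.al.co_run h.ok k d (h.al.sem_wd w) e1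
  simp only [okI, an_eq, Bool.and_eq_true, eqZ_iff, valN_eq] at e2
  obtain ⟨rfl, rfl⟩ := e2
  rw [h.st.ip h.al.good, h.st.ip h.al.good, e3, sg_zero, sg_one]
  simp only [Pi.smul_apply, valQ, smul_eq_mul]
  constructor
  · change _ = ((val u 0 + val u 129 - (val u 1 + val u 128) - 2 * val u 192 : ℤ) : ℚ) / 512
    push_cast
    ring
  · change _ = ((val u 0 + val u 129 - (val u 1 + val u 128) + 2 * val u 192 : ℤ) : ℚ) / 512
    push_cast
    ring

/-- what is needed for an orthogonal pair -/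
def Zr (D : Dat) (B : Lb) (av : ℕ → List ℕ) (gel : ℕ → D.Γ) (k : ℕ) (w : List ℕ) (i : ℤ) (l : ℕ) :
    Prop := i = 0 → ∃ g ∈ D.GG (gel 54), g.1 ((wd gel w).1 (VV D B av k)) = VV D B av 12 ∧
      g.1 (VV D B av l) = VV D B av 0

theorem zr_ne {k l : ℕ} {w : List ℕ} {i : ℤ} (h : i ≠ 0) : Zr D B av gel k w i l :=
  fun e => absurd e h

theorem Ctx.zr (h : Ctx D B tab amat gel av p0) {k l d1 d2 d3 d4 : ℕ} {w g : List ℕ}
    (e1 : chkW tab av k 12 d1 d2 (w ++ g) = true) (e2 : chkW tab av l 0 d3 d4 g = true)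
    (e3 : okW g = true) : Zr D B av gel k w 0 l := fun _ =>
  ⟨wd gel g, h.al.wd_G e3, by rw [← h.al.chkW_sound h.ok e1, wd_append]; rfl,
    h.al.chkW_sound h.ok e2⟩

theorem sum_F2 (f : F2 → ℕ) : ∑ η, f η = f 0 + f 1 := Fin.sum_univ_two f

theorem Ctx.shl (h : Ctx D B tab amat gel av p0) (k : Fin 12) {d c n : ℕ} {w : List ℕ} {i0 i1 : ℤ}
    (e1 : chkF amat w c 7028736 = true) (e2 : chkS tab av k.1 d w i0 i1 = true)
    (z0 : Zr D B av gel k.1 w i0 0) (z1 : Zr D B av gel k.1 w i1 12)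
    (hn : ((if i0 = 0 then 1 else 0) + if i1 = 0 then 1 else 0) = n) :
    ShL (gel 54) p0 (aa D B av k) (cd c) n := by
  classical
  obtain ⟨h1, h2⟩ := h.al.chkF_sound e1
  obtain ⟨h3, h4⟩ := h.chkS_sound e2
  have h5 : ShL (gel 54) p0 ((wd gel w).1 (VV D B av k.1)) (D.cls p0) n := by
    refine ⟨p0, rfl, ?_, fun η e => ?_⟩
    · rw [Finset.card_filter, ← hn]
      rw [sum_F2]
      congr 1
      · exact if_congr (by rw [h3]; simp) rfl rfl
      · exact if_congr (by rw [h4]; simp) rfl rfl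
    · rcases F2_cases η with rfl | rfl
      · rw [← h.e0, ← h.e1]
        exact z0 (by simpa [h3] using e)
      · obtain ⟨g, hg, e3, e4⟩ := z1 (by simpa [h4] using e)
        exact ⟨g, hg, by rw [e3, h.e1], by rw [← h.e1, e4, h.e0]⟩
  have h6 := h5.move (⟨wd gel w, h.al.wd_N h1⟩ : D.N)⁻¹
  rw [h.st.cls, ← klab_eq, h.c0, ← h2, ← smul_cl, ← smul_cl, inv_smul_smul] at h6
  rwa [show ((⟨wd gel w, h.al.wd_N h1⟩ : D.N)⁻¹).1.1 ((wd gel w).1 (VV D B av k.1)) = aa D B av k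
    from unit_inj _ _] at h6

theorem sum_rec (n : ℕ) (f : ℕ → ℤ) :
    (Nat.rec 0 (fun i s => Int.add s (f i)) n : ℤ) = ∑ i : Fin n, f i := by
  induction n with
  | zero => rfl
  | succ n ih =>
    rw [Fin.sum_univ_castSucc]
    exact congrArg (· + f n) ih

theorem Ctx.inv2_eq (h : Ctx D B tab amat gel av p0) {k : ℕ} {c : ℤ} (e : chkT av k c = true) :
    inv2 (VV D B av k) = c / 262144 := by
  rw [chkT, mapK_eq, eqZ_iff, tr2, sum_rec] at e
  have h1 : ∀ i j : Fin 24, (VV D B av k).1.1 i j = (1 / 512 : ℚ) *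
      valN ((av k).map fun p => Nat.land p (ones 3072)) (Nat.add (Nat.mul 128 i) j) := fun i j => by
    have : posA i j < 3072 := by unfold posA; omega
    rw [← co_A h.al.good, VV, co_vec h.al.good _ (h.ok k), valN_eq,
      val_map (j := posA i j) (fun p => by
        change (Nat.land p _).testBit (posA i j) = _
        simp [ones_bit, this])]
    rfl
  rw [← e, inv2, trace]
  simp only [diag_apply, mul_apply, sum_rec, h1]
  push_cast
  rw [Finset.sum_div]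
  refine Finset.sum_congr rfl fun i _ => ?_
  rw [Finset.sum_div]
  refine Finset.sum_congr rfl fun j _ => ?_
  change _ = ((_ * _ : ℤ) : ℚ) / _
  push_cast
  ring

/-- a generator of the stabiliser of the axis `k` -/
def Gn (D : Dat) (b : D.V) (g : List ℕ) : Prop :=
  okM g = true ∧ ∃ u : D.N, u.1.1 b = b ∧ (D.Ah u).1 = mat2 24 g

theorem Ctx.gn (h : Ctx D B tab amat gel av p0) (k : Fin 12) {d1 d2 : ℕ} {w g : List ℕ}
    (e1 : chkW tab av k.1 k.1 d1 d2 w = true) (e2 : an (okM g) (chkM amat w g) = true) :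
    Gn D (aa D B av k) g := by
  rw [an_eq, Bool.and_eq_true] at e2
  obtain ⟨h1, h2⟩ := h.al.chkM_sound e2.2
  exact ⟨e2.1, ⟨wd gel w, h.al.wd_N h1⟩, h.al.chkW_sound h.ok e1, h2⟩

/-- the meaning of the labels -/
def Lab (t : D.Γ) (p0 : D.I) (a : Fin 12 → D.V) (k : Fin 12) (r : ℕ) (lf : ℕ → Fin 12 × Fin 12)
    (c : Cl) (j : ℕ) : Prop :=
  (j ≤ r → FrL t a k c (lf j).1 (lf j).2) ∧ (r < j → ShL t p0 (a k) c (j - r - 1))

theorem cls_lab {t : D.Γ} {a : Fin 12 → D.V} {k : Fin 12} (r : ℕ) (lf : ℕ → Fin 12 × Fin 12)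
    {gens : List (List ℕ)} (h : ∀ g ∈ gens, Gn D (a k) g) : Cls (Lab t p0 a k r lf) gens :=
  fun g hg => by
    obtain ⟨h1, u, h2, h3⟩ := h g hg
    refine ⟨h1, fun c l hc => ?_⟩
    rw [← h3]
    exact ⟨fun e => (hc.1 e).smul h2, fun e => (hc.2 e).smul h2⟩

theorem lab_fr {t : D.Γ} {a : Fin 12 → D.V} {k : Fin 12} {r : ℕ} {lf : ℕ → Fin 12 × Fin 12}
    {c : Cl} {j : ℕ} {l l' : Fin 12} (h : FrL t a k c l l') (e : j ≤ r ∧ lf j = (l, l')) :
    Lab t p0 a k r lf c j := ⟨fun _ => by rw [e.2]; exact h, fun h => by omega⟩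

theorem lab_sh {t : D.Γ} {a : Fin 12 → D.V} {k : Fin 12} {r : ℕ} {lf : ℕ → Fin 12 × Fin 12}
    {c : Cl} {j n : ℕ} (h : ShL t p0 (a k) c n) (e : j = r + 1 + n) :
    Lab t p0 a k r lf c j := ⟨fun h => by omega, fun _ => by
      rw [show j - r - 1 = n by omega]; exact h⟩

/-- the edge counts -/
def wOf (r : ℕ) (lf : ℕ → Fin 12 × Fin 12) (cn : ℕ → ℕ) (l : Fin 12) : ℕ :=
  ∑ j ∈ Finset.Icc 1 r, cn j * ((if (lf j).1 = l then 1 else 0) + (if (lf j).2 = l then 1 else 0))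

theorem part_of {t : D.Γ} {a : Fin 12 → D.V} {k : Fin 12} {r : ℕ} {lf : ℕ → Fin 12 × Fin 12}
    {cn : ℕ → ℕ} {S : ℕ → Finset Cl}
    (h1 : ∀ l, l ≠ 0 → l ≤ r + 3 → (S l).card = cn l ∧ ∀ c ∈ S l, Lab t p0 a k r lf c l)
    (h2 : ∀ l l', l ≠ l' → Disjoint (S l) (S l')) {w : Fin 12 → ℕ} {s : ℕ}
    (h3 : ∑ j ∈ Finset.Icc 1 r, cn j = 8292375 ∧ cn (r + 1) + cn (r + 2) + cn (r + 3) = 98280 ∧
      (∀ l, w l = wOf r lf cn l) ∧ s = cn (r + 2) + 2 * cn (r + 3)) : Part t p0 a k w s := by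
  have h4 : ∀ j ∈ Finset.Icc 1 r, j ≠ 0 ∧ j ≤ r + 3 ∧ j ≤ r := fun j hj => by
    rw [Finset.mem_Icc] at hj; omega
  have h5 : ∀ j ∈ Finset.Icc 1 r, (S j).card = cn j := fun j hj =>
    (h1 j (h4 j hj).1 (h4 j hj).2.1).1
  have h6 : ∀ n, 0 < n → n ≤ 3 → (S (r + n)).card = cn (r + n) := fun n a b =>
    (h1 _ (by omega) (by omega)).1
  refine ⟨r, lf, S, h2, fun j hj c hc => ((h1 j (h4 j hj).1 (h4 j hj).2.1).2 c hc).1 (h4 j hj).2.2,
    fun n hn c hc => ?_, ?_, ?_, fun l => ?_, ?_⟩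
  · have := ((h1 (r + 1 + n) (by omega) (by omega)).2 c hc).2 (by omega)
    rwa [show r + 1 + n - r - 1 = n by omega] at this
  · rw [Finset.sum_congr rfl h5, h3.1]
  · rw [h6 1 (by omega) (by omega), h6 2 (by omega) (by omega), h6 3 (by omega) (by omega), h3.2.1]
  · rw [h3.2.2.1, wOf]
    exact Finset.sum_congr rfl fun j hj => by rw [h5 j hj]
  · rw [h6 2 (by omega) (by omega), h6 3 (by omega) (by omega), h3.2.2.2]

theorem part_bf {Gd : Cl → ℕ → Prop} {n v mx : ℕ} {N : List ℕ} (h : InvN Gd n v)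
    (hc : (List.range mx).map (fun l => cntN n v (l + 1)) = N) (hm : mx < 2 ^ n) :
    ∃ S : ℕ → Finset Cl, (∀ l, l ≠ 0 → (S l).card = kgd N (l - 1) ∧ ∀ c ∈ S l, Gd c l) ∧
      ∀ l l', l ≠ l' → Disjoint (S l) (S l') := by
  obtain ⟨S, h1, h2⟩ := exists_partN h
  refine ⟨fun l => if l ≤ mx then S l else ∅, fun l hl => ?_, fun l l' e => ?_⟩
  · rw [kgd_eq, ← hc]
    by_cases h3 : l ≤ mx
    · rw [getD_tab _ (by omega), show l - 1 + 1 = l by omega]
      simpa only [if_pos h3] using h1 l hl (by omega)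
    · rw [List.getD_eq_default _ _ (by simp; omega)]
      simp [h3]
  · dsimp only
    split_ifs
    exacts [h2 l l' e, Finset.disjoint_empty_right _, Finset.disjoint_empty_left _,
      Finset.disjoint_empty_left _]

theorem part_run {t : D.Γ} {a : Fin 12 → D.V} {k : Fin 12} {r : ℕ} {lf : ℕ → Fin 12 × Fin 12}
    {n v mx : ℕ} {N : List ℕ} (h : InvN (Lab t p0 a k r lf) n v)
    (hc : (List.range mx).map (fun l => cntN n v (l + 1)) = N) {w : Fin 12 → ℕ} {s : ℕ}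
    (h3 : mx < 2 ^ n ∧ ∑ j ∈ Finset.Icc 1 r, kgd N (j - 1) = 8292375 ∧
      kgd N (r + 1 - 1) + kgd N (r + 2 - 1) + kgd N (r + 3 - 1) = 98280 ∧
      (∀ l, w l = wOf r lf (fun j => kgd N (j - 1)) l) ∧
      s = kgd N (r + 2 - 1) + 2 * kgd N (r + 3 - 1)) : Part t p0 a k w s := by
  obtain ⟨S, h1, h2⟩ := part_bf h hc h3.1
  exact part_of (fun l hl _ => h1 l hl) h2 h3.2

end

end CfsgMO
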