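/-
Products of the involutions of two axes: soundness of the checks.
-/
import Cfsg.Agent.MO.Ax2
import Cfsg.Agent.MO.AxS

set_option autoImplicit false

namespace CfsgMO

open Matrix Dat

noncomputable section

variable {D : Dat} {B : Lb} {tab : ℕ → List Lay} {amat : ℕ → List ℕ} {gel : ℕ → D.Γ}
  {av : ℕ → List ℕ} {p0 : D.I}

/-- the product of the two involutions has order at most six -/
def Od (D : Dat) (b c : D.V) : Prop := ∃ n, 0 < n ∧ n ≤ 6 ∧ (D.tt b * D.tt c) ^ n = 1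

theorem tt_unit {g x : D.Γ} (hg : g ∈ D.Au) {b : D.V} (h : D.tt b = x.1) :
    D.tt (g.1 b) = (g * x * g⁻¹).1 := by
  have := tt_conj hg b
  rw [Units.val_mul, Units.val_mul, ← h, this, mul_assoc, Units.mul_inv, mul_one]

theorem Od.move {b c : D.V} (h : Od D b c) {g : D.Γ} (hg : g ∈ D.Au) : Od D (g.1 b) (g.1 c) := by
  obtain ⟨n, h1, h2, h3⟩ := h
  refine ⟨n, h1, h2, ?_⟩
  have e : ∀ a, D.tt (g.1 a) = g.1 * D.tt a * (g⁻¹).1 := fun a => by
    rw [tt_conj hg a, mul_assoc, Units.mul_inv, mul_one]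
  have e2 : D.tt (g.1 b) * D.tt (g.1 c) = g.1 * (D.tt b * D.tt c) * (g⁻¹).1 := by
    rw [e, e]
    simp only [mul_assoc]
    rw [← mul_assoc (g⁻¹).1, Units.inv_mul, one_mul]
  rw [e2, Units.conj_pow, h3, mul_one, Units.mul_inv]

section dihedral

variable {b c : D.V} {x y : D.Γ} (hx : x ∈ D.Au) (hy : y ∈ D.Au) (xx : x * x = 1) (yy : y * y = 1)
  (hb : D.tt b = x.1) (hc : D.tt c = y.1)
include hb hc

theorem od_of {n : ℕ} (h1 : 0 < n) (h2 : n ≤ 6) (h : (x * y) ^ n = 1) : Od D b c :=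
  ⟨n, h1, h2, by rw [hb, hc, ← Units.val_mul, ← Units.val_pow_eq_pow_val, h, Units.val_one]⟩

include hy xx yy

theorem od2 (e : y.1 b = b) : Od D b c := by
  have h := tt_unit hy hb
  rw [e, hb, inv_eq_of_mul_eq_one_right yy] at h
  have h := Units.ext h
  refine od_of hb hc (n := 2) (by norm_num) (by norm_num) ?_
  rw [pow_two, show x * y * (x * y) = x * (y * x * y) by group, ← h, xx]

include hx

theorem od4 (e : x.1 (y.1 b) = y.1 b) : Od D b c := by
  have h1 := tt_unit hy hb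
  have h := tt_unit hx h1
  rw [e, h1, inv_eq_of_mul_eq_one_right yy, inv_eq_of_mul_eq_one_right xx] at h
  have h := Units.ext h
  refine od_of hb hc (n := 4) (by norm_num) (by norm_num) ?_
  rw [show (x * y) ^ 4 = x * (y * x * y) * x * (y * x * y) by simp only [pow_succ]; group, ← h,
    show y * x * y * (y * x * y) = y * x * (y * y) * x * y by group, yy, mul_one, mul_assoc y, xx,
    mul_one, yy]

theorem od6 (e : y.1 (x.1 (y.1 b)) = x.1 (y.1 b)) : Od D b c := by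
  have h1 := tt_unit hx (tt_unit hy hb)
  have h := tt_unit hy h1
  rw [e, h1, inv_eq_of_mul_eq_one_right yy, inv_eq_of_mul_eq_one_right xx] at h
  have h := Units.ext h
  refine od_of hb hc (n := 6) (by norm_num) (by norm_num) ?_
  rw [show (x * y) ^ 6 = x * (y * x * y) * x * (y * (x * (y * x * y) * x) * y) by
      simp only [pow_succ]; group, ← h,
    show x * (y * x * y) * x * (x * (y * x * y) * x) = x * y * x * y * (x * x) * y * x * y * x by group,
    xx, mul_one, mul_assoc _ y y, yy, mul_one, mul_assoc _ x x, xx, mul_one, mul_assoc _ y y, yy,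
    mul_one, xx]

theorem od5 (e : x.1 (y.1 b) = y.1 (x.1 c)) : Od D b c := by
  have h1 := tt_unit hx (tt_unit hy hb)
  have h := tt_unit hy (tt_unit hx hc)
  rw [← e, h1, inv_eq_of_mul_eq_one_right yy, inv_eq_of_mul_eq_one_right xx] at h
  have h := Units.ext h
  refine od_of hb hc (n := 5) (by norm_num) (by norm_num) ?_
  rw [show (x * y) ^ 5 = x * (y * x * y) * x * (y * (x * y * x) * y) by
      simp only [pow_succ]; group, ← h,
    show x * (y * x * y) * x * (x * (y * x * y) * x) = x * y * x * y * (x * x) * y * x * y * x by group,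
    xx, mul_one, mul_assoc _ y y, yy, mul_one, mul_assoc _ x x, xx, mul_one, mul_assoc _ y y, yy,
    mul_one, xx]

end dihedral

/-- the planes `u` describe the vector `x` -/
def Rp (D : Dat) (B : Lb) (x : D.V) (u : List ℕ) : Prop := co D B x = (1 / 512 : ℚ) • valQ u

theorem Rp.sx {x : D.V} {u : List ℕ} (h : Rp D B x u) (d : ℕ) : Rp D B x (sx d u) := by
  rwa [Rp, valQ_sx]

theorem Rp.eq {x y : D.V} {u v : List ℕ} (hG : Good D B) (h : Rp D B x u) (h' : Rp D B y v)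
    (e : eqP u v = true) : x = y := co_inj hG (by rw [h, h', eqP_sound e])

theorem Alph.rp (hA : Alph D B tab amat gel) (hV : OkAv B av) (k : ℕ) :
    Rp D B (VV D B av k) (av k) := co_vec hA.good _ (hV k)

theorem Alph.runW (hA : Alph D B tab amat gel) {x : D.V} {w u : List ℕ} {k : List ℕ → Bool}
    (h : Rp D B x u) (e : runW tab w u k = true) :
    ∃ u', Rp D B ((wd gel w).1 x) u' ∧ k u' = true := by
  obtain ⟨u', e1, e2⟩ := runW_sound hA.wf e
  exact ⟨u', by rw [Rp, (hA.sem_wd w).2, h, sem_smul, e1], e2⟩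

theorem Alph.runI (hA : Alph D B tab amat gel) {x : D.V} {w u : List ℕ} {k : List ℕ → Bool}
    (h : Rp D B x u) (e : runI tab w u k = true) :
    ∃ u', Rp D B (((wd gel w)⁻¹).1 x) u' ∧ k u' = true := by
  obtain ⟨u', e1, e2⟩ := runW_sound (fun a => wf_reverse (hA.wf a)) e
  refine ⟨u', ?_, e2⟩
  rw [Rp, (hA.sem_wd w).inv.2, h, sem_smul, List.reverse_flatMap, ← e1]
  rfl

theorem Alph.runT (hA : Alph D B tab amat gel) {x : D.V} {w u : List ℕ} {k : List ℕ → Bool}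
    (h : Rp D B x u) (e : runT tab w u k = true) :
    ∃ u', Rp D B ((wd gel w * wd gel dW * (wd gel w)⁻¹).1 x) u' ∧ k u' = true := by
  obtain ⟨a, h1, e⟩ := hA.runI h e
  obtain ⟨b, h2, e⟩ := hA.runW h1 e
  exact hA.runW h2 e

/-- the sign of a standard axis -/
def eF (e : Bool) : F2 := Bool.rec 0 1 e

structure Ctx2 (D : Dat) (B : Lb) (tab : ℕ → List Lay) (amat : ℕ → List ℕ) (gel : ℕ → D.Γ)
    (av : ℕ → List ℕ) (p0 : D.I) : Prop extends Ctx D B tab amat gel av p0 where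
  q : ∀ a < 24, gel a = D.xq (cd (2 ^ a))
  z : gel 24 = D.z
  ips : ∀ p, D.Ips p
  au : gel 54 ∈ D.Au

theorem Ctx.cls0 (h : Ctx D B tab amat gel av p0) : D.cls p0 = cd 7028736 := by
  rw [h.st.cls, ← klab_eq, h.c0]

theorem xq_mul0 {a b c : ℕ} (h : Bf (cd a) (cd b) = 0 ∧ cd a + cd b = cd c) :
    D.xq (cd a) * D.xq (cd b) = D.xq (cd c) := by
  rw [xq_mul, h.1, h.2, zp_zero, one_mul]

namespace Ctx2

variable (h : Ctx2 D B tab amat gel av p0)
include h

theorem wd_dW : wd gel dW = D.xq (D.cls p0) := by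
  change 1 * gel 22 * gel 21 * gel 19 * gel 17 * gel 16 * gel 14 = _
  rw [one_mul, h.q 22 (by norm_num), h.q 21 (by norm_num), h.q 19 (by norm_num),
    h.q 17 (by norm_num), h.q 16 (by norm_num), h.q 14 (by norm_num),
    xq_mul0 (c := 6291456) (by decide +kernel), xq_mul0 (c := 6815744) (by decide +kernel),
    xq_mul0 (c := 6946816) (by decide +kernel), xq_mul0 (c := 7012352) (by decide +kernel),
    xq_mul0 (c := 7028736) (by decide +kernel), h.cls0]

theorem wd_eW (e : Bool) : wd gel (eW e) = D.zp (eF e) * D.xq (D.cls p0) := by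
  cases e
  · exact h.wd_dW.trans (one_mul _).symm
  · change wd gel dW * gel 24 = D.z * _
    rw [h.wd_dW, h.z, D.z_comm (D.xq_mem _)]

theorem VV_eN (e : Bool) : VV D B av (eN e) = D.ax p0 (eF e) := by
  cases e
  exacts [h.e0, h.e1]

theorem tt_e (e : Bool) : D.tt (D.ax p0 (eF e)) = (wd gel (eW e)).1 := by
  rw [h.wd_eW, tt_ax (h.ips p0)]

theorem eW_au (e : Bool) : wd gel (eW e) ∈ D.Au := by
  rw [h.wd_eW]
  exact D.N_le_Au (mul_mem (D.zp_mem _) (D.xq_mem _))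

theorem eW_sq (e : Bool) : wd gel (eW e) * wd gel (eW e) = 1 := by
  rw [h.wd_eW, zx_mul, F2_aa, D.cls_sing, add_zero, add_self, xq_zero, zp_zero, one_mul]

theorem wd_au {w : List ℕ} (e : okW w = true) : wd gel w ∈ D.Au :=
  (sup_le D.N_le_Au (Subgroup.zpowers_le.2 h.au) : D.GG (gel 54) ≤ D.Au) (h.al.wd_G e)

end Ctx2

/-- the word `g` maps the standard axis to the axis `k` -/
def Ch (D : Dat) (B : Lb) (av : ℕ → List ℕ) (gel : ℕ → D.Γ) (k : ℕ) (g : List ℕ) : Prop :=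
  (wd gel g).1 (VV D B av 0) = VV D B av k

theorem ch_nil : Ch D B av gel 0 [] := rfl

theorem Ctx.ch (h : Ctx D B tab amat gel av p0) {k l d1 d2 : ℕ} {g w : List ℕ}
    (h1 : Ch D B av gel k g) (e : chkW tab av k l d1 d2 w = true) : Ch D B av gel l (g ++ w) := by
  rw [Ch, wd_append, mul_ap, h1, h.al.chkW_sound h.ok e]

namespace Ctx2

variable (h : Ctx2 D B tab amat gel av p0) {k : ℕ} {g w : List ℕ} (hg : Ch D B av gel k g)
  (ho : okW (g ++ w) = true)
include h hg ho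

theorem tt_b : D.tt ((wd gel w).1 (VV D B av k)) =
    (wd gel (g ++ w) * wd gel dW * (wd gel (g ++ w))⁻¹).1 := by
  rw [← hg, ← mul_ap, ← wd_append, h.e0]
  exact tt_unit (h.wd_au ho) (h.tt_e false)

omit hg in
theorem x_au : wd gel (g ++ w) * wd gel dW * (wd gel (g ++ w))⁻¹ ∈ D.Au :=
  mul_mem (mul_mem (h.wd_au ho) (h.eW_au false)) (inv_mem (h.wd_au ho))

omit hg ho in
theorem x_sq (x : D.Γ) : x * wd gel dW * x⁻¹ * (x * wd gel dW * x⁻¹) = 1 := by
  rw [conj_mul, show wd gel dW * wd gel dW = 1 from h.eW_sq false, mul_one, mul_inv_cancel]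

theorem od2 {d : ℕ} {e : Bool} (c : chk2 tab av k d w e = true) :
    Od D ((wd gel w).1 (VV D B av k)) (D.ax p0 (eF e)) := by
  obtain ⟨u1, r1, c⟩ := h.al.runW ((h.al.rp h.ok k).sx d) c
  obtain ⟨u2, r2, c⟩ := h.al.runW r1 c
  exact CfsgMO.od2 (h.eW_au e) (h.x_sq _) (h.eW_sq e) (h.tt_b hg ho) (h.tt_e e)
    (r1.eq h.al.good r2 c).symm

theorem od4 {d : ℕ} {e : Bool} (c : chk4 tab av k d g w e = true) :
    Od D ((wd gel w).1 (VV D B av k)) (D.ax p0 (eF e)) := by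
  obtain ⟨u1, r1, c⟩ := h.al.runW ((h.al.rp h.ok k).sx d) c
  obtain ⟨u2, r2, c⟩ := h.al.runW r1 c
  obtain ⟨u3, r3, c⟩ := h.al.runI r2 c
  obtain ⟨u4, r4, c⟩ := h.al.runW r3 c
  refine CfsgMO.od4 (h.x_au ho) (h.eW_au e) (h.x_sq _) (h.eW_sq e) (h.tt_b hg ho) (h.tt_e e) ?_
  rw [mul_ap, mul_ap, ← r3.eq h.al.good r4 c, unit_surj]

theorem od6 {d : ℕ} {e : Bool} (c : chk6 tab av k d g w e = true) :
    Od D ((wd gel w).1 (VV D B av k)) (D.ax p0 (eF e)) := by
  obtain ⟨u1, r1, c⟩ := h.al.runW ((h.al.rp h.ok k).sx d) c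
  obtain ⟨u2, r2, c⟩ := h.al.runW r1 c
  obtain ⟨u3, r3, c⟩ := h.al.runT r2 c
  obtain ⟨u4, r4, c⟩ := h.al.runW r3 c
  exact CfsgMO.od6 (h.x_au ho) (h.eW_au e) (h.x_sq _) (h.eW_sq e) (h.tt_b hg ho) (h.tt_e e)
    (r3.eq h.al.good r4 c).symm

theorem od5 {d d1 : ℕ} {e : Bool} (c : chk5 tab av k d d1 g w e = true) :
    Od D ((wd gel w).1 (VV D B av k)) (D.ax p0 (eF e)) := by
  obtain ⟨u1, r1, c⟩ := h.al.runW ((h.al.rp h.ok k).sx d) c
  obtain ⟨u2, r2, c⟩ := h.al.runW r1 c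
  obtain ⟨u3, r3, c⟩ := h.al.runT r2 c
  obtain ⟨u4, r4, c⟩ := h.al.runT (h.al.rp h.ok (eN e)) c
  obtain ⟨u5, r5, c⟩ := h.al.runW r4 c
  rw [h.VV_eN] at r5
  exact CfsgMO.od5 (h.x_au ho) (h.eW_au e) (h.x_sq _) (h.eW_sq e) (h.tt_b hg ho) (h.tt_e e)
    ((r3.sx d1).eq h.al.good r5 c)

theorem inj {c : ℤ} (e : chkJ tab av g w c = true) (hw : okN w = true ∧ c ≠ 1024 ∧ c ≠ -1024)
    (p : D.I) (η : F2) : D.tt (VV D B av k) ≠ D.tt (D.ax p η) := fun e0 => by
  obtain ⟨u, r, e⟩ := h.al.runT (h.al.rp h.ok 0) e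
  obtain ⟨s, ε, -, -, e3⟩ := act_ax ⟨wd gel w, h.al.wd_N hw.1⟩ p
  have h1 := tt_conj (D.N_le_Au (h.al.wd_N hw.1)) (VV D B av k)
  rw [e0, tt_conj (D.N_le_Au (h.al.wd_N hw.1)), Units.mul_left_inj] at h1
  rw [← h.tt_b hg ho, ← h1, e3, tt_ax (h.ips s), h.e0, mul_ap, xq_ax, zp_apply] at r
  have h2 := congrFun r 192
  rw [co_X h.al.good _ h.st.pos h.st.cls, eqZ_iff, valN_eq] at *
  simp only [ax, Pi.single_eq_same, Pi.smul_apply, valQ, e, smul_eq_mul] at h2
  rcases F2_cases (0 + (Bf (D.cls s) (D.cls p0) + Bf (D.cls p0) (D.cls s))) with e4 | e4 <;>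
    rw [e4] at h2
  · rw [sg_zero] at h2
    exact hw.2.2 (by exact_mod_cast (by linarith : (c : ℚ) = -1024))
  · rw [sg_one] at h2
    exact hw.2.1 (by exact_mod_cast (by linarith : (c : ℚ) = 1024))

end Ctx2

/-- the products for the two axes of a short class -/
def OdC (D : Dat) (b : D.V) (c : Cl) : Prop := ∃ p, D.cls p = c ∧ ∀ η, Od D b (D.ax p η)

theorem OdC.move {b : D.V} {c : Cl} (h : OdC D b c) (u : D.N) :
    OdC D (u.1.1 b) ((D.Ah u).1 *ᵥ c) := by
  obtain ⟨p, rfl, h⟩ := h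
  obtain ⟨s, ε, e1, -, e3⟩ := act_ax u p
  refine ⟨s, e1, fun η => ?_⟩
  have := (h (η + ε)).move (D.N_le_Au u.2)
  rwa [e3, add_assoc, F2_aa, add_zero] at this

/-- the second meaning of the labels -/
def Lab2 (D : Dat) (b : D.V) (r : ℕ) (c : Cl) (j : ℕ) : Prop := r < j → OdC D b c

theorem cls_lab2 {b : D.V} (r : ℕ) {gens : List (List ℕ)} (h : ∀ g ∈ gens, Gn D b g) :
    Cls (Lab2 D b r) gens := fun g hg => by
  obtain ⟨h1, u, h2, h3⟩ := h g hg
  refine ⟨h1, fun c l hc e => ?_⟩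
  have := (hc e).move u
  rwa [h2, h3] at this

theorem lab2_fr {b : D.V} {r j : ℕ} {c : Cl} (h : j ≤ r) : Lab2 D b r c j := fun e => by omega

theorem Ctx.lab2_sh (h : Ctx D B tab amat gel av p0) (k : Fin 12) {c r j : ℕ} {w : List ℕ}
    (e1 : chkF amat w c 7028736 = true)
    (h0 : Od D ((wd gel w).1 (VV D B av k.1)) (D.ax p0 (eF false)))
    (h1 : Od D ((wd gel w).1 (VV D B av k.1)) (D.ax p0 (eF true))) :
    Lab2 D (aa D B av k) r (cd c) j := fun _ => by
  obtain ⟨h2, h3⟩ := h.al.chkF_sound e1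
  have h5 : OdC D ((wd gel w).1 (VV D B av k.1)) (D.cls p0) :=
    ⟨p0, rfl, fun η => by rcases F2_cases η with rfl | rfl; exacts [h0, h1]⟩
  have h6 := h5.move (⟨wd gel w, h.al.wd_N h2⟩ : D.N)⁻¹
  rw [h.cls0, ← h3, ← smul_cl, ← smul_cl, inv_smul_smul] at h6
  rwa [show ((⟨wd gel w, h.al.wd_N h2⟩ : D.N)⁻¹).1.1 ((wd gel w).1 (VV D B av k.1)) = aa D B av k
    from unit_inj _ _] at h6

theorem od_run (hI : Fintype.card D.I = 98280) {b : D.V} {r n v mx : ℕ} {N : List ℕ}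
    (h : InvN (Lab2 D b r) n v) (hc : (List.range mx).map (fun l => cntN n v (l + 1)) = N)
    (h3 : mx < 2 ^ n ∧ kgd N (r + 1 - 1) + kgd N (r + 2 - 1) + kgd N (r + 3 - 1) = 98280)
    (p : D.I) (η : F2) : Od D b (D.ax p η) := by
  classical
  obtain ⟨S, h1, h2⟩ := part_bf h hc h3.1
  have h4 := cover_of_card (U := Set.range D.cls) (Set.finite_range _) {r + 1, r + 2, r + 3} S h2
    (fun j hj c hc => by
      have : r < j := by simp only [Finset.mem_insert, Finset.mem_singleton] at hj; omega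
      obtain ⟨p, e, -⟩ := (h1 j (by omega)).2 c hc this
      exact ⟨p, e⟩)
    (by
      rw [Set.ncard_range_of_injective D.cls_inj, Nat.card_eq_fintype_card, hI,
        Finset.sum_insert (by simp), Finset.sum_pair (by simp), (h1 _ (by omega)).1,
        (h1 _ (by omega)).1, (h1 _ (by omega)).1, ← h3.2, add_assoc])
  have h5 : D.cls p ∈ (↑(({r + 1, r + 2, r + 3} : Finset ℕ).biUnion S) : Set Cl) := h4 ▸ ⟨p, rfl⟩
  obtain ⟨j, hj, hc⟩ := Finset.mem_biUnion.1 (Finset.mem_coe.1 h5)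
  have : r < j := by simp only [Finset.mem_insert, Finset.mem_singleton] at hj; omega
  obtain ⟨s, e, h6⟩ := (h1 j (by omega)).2 _ hc this
  rw [← D.cls_inj e]
  exact h6 η

end

end CfsgMO
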