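/-
Double covers: abstract group theory (WP Six).
-/
import Cfsg.Agent.MO.Top
import Cfsg.Prelude.Def_SporadicB

set_option autoImplicit false

namespace CfsgMO

open Subgroup

theorem conj_into {G : Type} [Group G] [Finite G] {Q H : Subgroup G} (hQ : IsPGroup 2 Q)
    (hH : ¬ 2 ∣ H.index) : ∃ k : G, ∀ x ∈ Q, k⁻¹ * x * k ∈ H := by
  have := Fact.mk Nat.prime_two
  obtain ⟨y, hy⟩ := hQ.nonempty_fixed_point_of_prime_not_dvd_card (G ⧸ H) hH
  obtain ⟨k, rfl⟩ := QuotientGroup.mk_surjective y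
  refine ⟨k, fun x hx => ?_⟩
  have h1 : ((x * k : G) : G ⧸ H) = k := hy ⟨x, hx⟩
  have := QuotientGroup.eq.1 h1.symm
  rwa [← mul_assoc] at this

theorem cover_core {C : Type} [Group C] [Finite C] {d z u v x y : C} (hd : ∀ g, g * d = d * g)
    (hdd : d * d = 1) (hd1 : d ≠ 1) (hzz : z * z = 1) (hz1 : z ≠ 1)
    (hxy : x * y * x⁻¹ * y⁻¹ = z) (hv : v * z * v⁻¹ = z * (u * z * u⁻¹))
    (h1 : ∀ K : Subgroup C, K.Normal → z ∈ K → K = ⊤)
    (h2 : ∀ K : Subgroup C, K.Normal → d ∈ K → ∀ l ∈ K, l * z = z * l → l = 1 ∨ l = d ∨ z ∈ K)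
    (h3 : ∀ g, g * z * g⁻¹ ≠ d * z) :
    Nat.card (center C) = 2 ∧ IsSimpleGroup (C ⧸ center C) ∧ ∀ L, ¬ (center C).IsComplement' L := by
  have hdc : d ∈ center C := mem_center_iff.2 hd
  have hnt : center C ≠ ⊤ := fun h => hz1 (by
    rw [← hxy, mem_center_iff.1 (h ▸ mem_top y : y ∈ center C) x]; group)
  have hc : ∀ l ∈ center C, l = 1 ∨ l = d := fun l hl => by
    rcases h2 _ inferInstance hdc l hl (mem_center_iff.1 hl z).symm with h | h | h
    exacts [Or.inl h, Or.inr h, absurd (h1 _ inferInstance h) hnt]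
  have hcard : Nat.card (center C) = 2 := by
    have : (center C : Set C) = {1, d} := Set.ext fun l =>
      ⟨hc l, fun h => h.elim (fun e => e ▸ one_mem _) fun e => e ▸ hdc⟩
    rw [← SetLike.coe_sort_coe, this, Nat.card_coe_set_eq, Set.ncard_pair hd1.symm]
  refine ⟨hcard, ?_, fun L hL => ?_⟩
  · have : Nontrivial (C ⧸ center C) := QuotientGroup.nontrivial_iff.2 hnt
    refine ⟨fun K hK => or_iff_not_imp_right.2 fun hb => ?_⟩
    let π := QuotientGroup.mk' (center C)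
    have hz : z ∉ K.comap π := fun h => hb (by
      have := h1 _ (hK.comap π) h
      refine eq_top_iff.2 fun q _ => ?_
      obtain ⟨q, rfl⟩ := QuotientGroup.mk'_surjective _ q
      exact (this ▸ mem_top q : q ∈ K.comap π))
    have hπd : π d = 1 := (QuotientGroup.eq_one_iff d).2 hdc
    have f : ∀ g : C, ∀ k ∈ K, k * π (g * z * g⁻¹) = π (g * z * g⁻¹) * k → k = 1 := by
      intro g k hk h
      obtain ⟨k, rfl⟩ := QuotientGroup.mk'_surjective _ k
      have hk' : g⁻¹ * k * g⁻¹⁻¹ ∈ K.comap π := (hK.comap π).conj_mem _ hk _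
      have h4 : (g⁻¹ * k * g⁻¹⁻¹) * z * (g⁻¹ * k * g⁻¹⁻¹)⁻¹ * z⁻¹ ∈ center C := by
        rw [← QuotientGroup.eq_one_iff]
        change π _ = 1
        change π k * _ = _ * π k at h
        simp only [map_mul, map_inv] at h ⊢
        calc _ = (π g)⁻¹ * (π k * (π g * π z * (π g)⁻¹)) * (π k)⁻¹ * π g * (π z)⁻¹ := by group
          _ = 1 := by rw [h]; group
      have h5 : g⁻¹ * k * g⁻¹⁻¹ ∈ center C := by
        rcases hc _ h4 with e | e
        · rcases h2 _ (hK.comap π) (by rw [mem_comap, hπd]; exact one_mem _) _ hk'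
            (by rwa [mul_inv_eq_one, mul_inv_eq_iff_eq_mul] at e) with e | e | e
          exacts [e ▸ one_mem _, e ▸ hdc, absurd e hz]
        · exact absurd (mul_inv_eq_iff_eq_mul.1 e) (h3 _)
      have := (inferInstance : (center C).Normal).conj_mem _ h5 g
      rw [show g * (g⁻¹ * k * g⁻¹⁻¹) * g⁻¹ = k by group] at this
      exact (QuotientGroup.eq_one_iff k).2 this
    have sq : ∀ g : C, π (g * z * g⁻¹) * π (g * z * g⁻¹) = 1 := fun g => by
      rw [← map_mul, show g * z * g⁻¹ * (g * z * g⁻¹) = g * (z * z) * g⁻¹ by group, hzz]; simp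
    refine (eq_bot_iff_forall _).2 fun k hk => ?_
    have i1 := inverts_of_fpf (sq 1) (fun k hk => hK.conj_mem k hk _) (f 1) (inv_mem hk)
    have i2 := inverts_of_fpf (sq u) (fun k hk => hK.conj_mem k hk _) (f u) hk
    refine f v k hk ?_
    rw [one_mul, inv_one, mul_one] at i1
    rw [hv, map_mul]
    calc k * (π z * π (u * z * u⁻¹)) = (π z * k⁻¹ * (π z)⁻¹) * (π z * π (u * z * u⁻¹)) := by
          rw [i1, inv_inv]
      _ = _ := by rw [← i2]; group
  · have hi : L.index = 2 := by rw [hL.index_eq_card, hcard]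
    have hn : L.Normal := normal_of_index_eq_two hi
    have hz : z ∈ L := by
      rw [← hxy, mul_mem_iff_of_index_two hi, mul_mem_iff_of_index_two hi,
        mul_mem_iff_of_index_two hi, inv_mem_iff, inv_mem_iff]
      tauto
    rw [h1 L hn hz, index_top] at hi
    omega

theorem cover_of {Γ C : Type} [Group Γ] [Group C] [Finite C] (f : C →* Γ)
    (hf : Function.Injective f) {S : Subgroup Γ} (hS : f.range = S) {d z u v x y : Γ}
    (md : d ∈ S) (mu : u ∈ S) (mv : v ∈ S) (mx : x ∈ S) (my : y ∈ S)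
    (hd : ∀ g ∈ S, g * d = d * g) (hdd : d * d = 1) (hd1 : d ≠ 1) (hzz : z * z = 1) (hz1 : z ≠ 1)
    (hxy : x * y * x⁻¹ * y⁻¹ = z) (hv : v * z * v⁻¹ = z * (u * z * u⁻¹))
    (h1 : ∀ K ≤ S, (∀ g ∈ S, ∀ k ∈ K, g * k * g⁻¹ ∈ K) → z ∈ K → S ≤ K)
    (h2 : ∀ K ≤ S, (∀ g ∈ S, ∀ k ∈ K, g * k * g⁻¹ ∈ K) → d ∈ K → ∀ l ∈ K, l * z = z * l →
      l = 1 ∨ l = d ∨ z ∈ K)
    (h3 : ∀ g ∈ S, g * z * g⁻¹ ≠ d * z)
    (hc : Nat.card S = 2 * 4154781481226426191177580544000000) :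
    ∃ (K : Type) (_ : Group K), Cfsg.IsB K ∧ Cfsg.IsNonsplitDoubleCover C K := by
  subst hS
  subst hxy
  obtain ⟨d, rfl⟩ := md
  obtain ⟨u, rfl⟩ := mu
  obtain ⟨v, rfl⟩ := mv
  obtain ⟨x, rfl⟩ := mx
  obtain ⟨y, rfl⟩ := my
  have e : f x * f y * (f x)⁻¹ * (f y)⁻¹ = f (x * y * x⁻¹ * y⁻¹) := by simp
  rw [e] at hzz hz1 hv h1 h2 h3
  have hn : ∀ K : Subgroup C, K.Normal → ∀ g ∈ f.range, ∀ k ∈ K.map f, g * k * g⁻¹ ∈ K.map f := by
    rintro K hK _ ⟨g, rfl⟩ _ ⟨k, hk, rfl⟩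
    exact ⟨_, hK.conj_mem k hk g, by simp⟩
  obtain ⟨c1, c2, c3⟩ := cover_core (d := d) (z := x * y * x⁻¹ * y⁻¹) (u := u) (v := v)
    (fun g => hf (by simpa using hd _ ⟨g, rfl⟩)) (hf (by simpa using hdd))
    (fun h => hd1 (by rw [h, map_one])) (hf (by rw [map_mul, hzz, map_one]))
    (fun h => hz1 (by rw [h, map_one])) rfl
    (hf (by rw [map_mul, map_mul, map_inv, hv]; simp))
    (fun K hK hz => eq_top_iff.2 fun g _ => (mem_map_iff_mem hf).1
      (h1 _ (map_le_range f K) (hn K hK) ⟨_, hz, rfl⟩ ⟨g, rfl⟩))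
    (fun K hK hd l hl h => (h2 _ (map_le_range f K) (hn K hK) ⟨_, hd, rfl⟩ _ ⟨l, hl, rfl⟩
      (by rw [← map_mul, h, map_mul])).imp (fun h => hf (by rw [h, map_one]))
      (Or.imp (fun h => hf h) (mem_map_iff_mem hf).1))
    (fun g h => h3 _ ⟨g, rfl⟩ (by rw [← map_inv, ← map_mul, ← map_mul, h, map_mul]))
  refine ⟨C ⧸ center C, inferInstance, ⟨c2, ?_⟩, c1, ⟨MulEquiv.refl _⟩, c3⟩
  have := card_eq_card_quotient_mul_card_subgroup (center C)
  rw [c1, Nat.card_congr (f.ofInjective hf).toEquiv, hc] at this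
  omega

end CfsgMO
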