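/-
The class of the short involutions and their centraliser (WP Six).
-/
import Cfsg.Agent.MO.Six1

set_option autoImplicit false

namespace CfsgMO

open Matrix

noncomputable section

/-- the polar form -/
def pol (c d : Cl) : F2 := Bf c d + Bf d c

theorem pol_comm (c d : Cl) : pol c d = pol d c := add_comm _ _
theorem pol_add (c d e : Cl) : pol (c + d) e = pol c e + pol d e := by
  simp only [pol, Bf_add_left, Bf_add_right]; ring
theorem pol_add' (c d e : Cl) : pol c (d + e) = pol c d + pol c e := by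
  simp only [pol, Bf_add_left, Bf_add_right]; ring
theorem pol_zero (c : Cl) : pol 0 c = 0 := by simp [pol, Bf_zero_left, Bf_zero_right]
theorem pol_self (c : Cl) : pol c c = 0 := F2_aa _
theorem F2_one {a : F2} (h : a ≠ 0) : a = 1 := (F2_cases a).resolve_left h

theorem exists_pol {c : Cl} (h : c ≠ 0) : ∃ u, pol u c = 1 := by
  by_contra hn
  exact h (eq_zero_of_Bf fun d => by_contra fun e => hn ⟨d, (pol_comm d c).trans (F2_one e)⟩)

theorem perp_perp {x c : Cl} (hc : c ≠ 0) (h0 : x ≠ 0) (h1 : x ≠ c) :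
    ∃ e, pol e c = 0 ∧ pol x e = 1 := by
  by_contra hn
  have h : ∀ e, pol e c = 0 → pol x e = 0 := fun e he => by_contra fun k => hn ⟨e, he, F2_one k⟩
  obtain ⟨u, hu⟩ := exists_pol hc
  have k : ∀ e, pol e c = 1 → pol x e = pol x u := fun e he => by
    have := h (e + u) (by rw [pol_add, he, hu]; rfl)
    rw [pol_add'] at this
    exact F2_eq this
  rcases F2_cases (pol x u) with e1 | e1
  · refine h0 (eq_zero_of_Bf fun e => ?_)
    rcases F2_cases (pol e c) with e2 | e2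
    exacts [h e e2, (k e e2).trans e1]
  · refine h1 (eq_of_add (eq_zero_of_Bf fun e => ?_))
    change pol (x + c) e = 0
    rw [pol_add, pol_comm c]
    rcases F2_cases (pol e c) with e2 | e2
    · rw [h e e2, e2]; rfl
    · rw [k e e2, e1, e2]; rfl

namespace Dat

variable {D : Dat}

/-- the numerical hypotheses on the axes -/
structure HypS (t : D.Γ) (p0 : D.I) (a : Fin 12 → D.V) : Prop where
  tv : t.1 (D.ax p0 0) = D.ax p0 0
  ord : ∀ k p η, ∃ n, 0 < n ∧ n ≤ 6 ∧ (D.tt (a k) * D.tt (D.ax p η)) ^ n = 1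
  inj : ∀ k p η, D.tt (a k) = D.tt (D.ax p η) → a k = D.ax p η

/-- the hypotheses on the stabiliser of a short class -/
structure HypC (t : D.Γ) (p0 : D.I) : Prop where
  span : ∀ W : AddSubgroup Cl, Om ∈ W →
    (∀ m : D.N, m • D.cls p0 = D.cls p0 → ∀ c ∈ W, m • c ∈ W) → ∀ c, pol c (D.cls p0) = 0 → c ∈ W
  sh : ∃ s, D.cls s = D.cls p0 + Om
  top : ∃ f, pol f (D.cls p0) = 0 ∧ ∃ n : D.N, t * D.xq f * t⁻¹ = n.1 ∧
    ∀ L : Subgroup D.N, n ∈ L → D.Ah.ker ≤ L →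
      (∀ m : D.N, m • D.cls p0 = D.cls p0 → ∀ l ∈ L, m * l * m⁻¹ ∈ L) →
      ∀ m : D.N, m • D.cls p0 = D.cls p0 → m ∈ L

variable {t : D.Γ} {p0 : D.I} {a : Fin 12 → D.V} {w : Fin 12 → Fin 12 → ℕ}
  {s o : Fin 12 → ℕ} {par : Fin 12 → Fin 12}

/-- the stabiliser of the axis -/
def SS (t : D.Γ) (p0 : D.I) : Subgroup D.Γ := D.GG t ⊓ MulAction.stabilizer D.Γ (D.ax p0 0)

theorem mem_SS {g : D.Γ} : g ∈ SS t p0 ↔ g ∈ D.GG t ∧ g.1 (D.ax p0 0) = D.ax p0 0 := Iff.rfl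

theorem smul_pol (n : D.N) (c d : Cl) : pol (n • c) (n • d) = pol c d := smul_polar n c d

theorem zp_ax (e : F2) (p : D.I) (η : F2) : (D.zp e).1 (D.ax p η) = D.ax p η := by
  rw [zp_apply]
  exact Prod.ext rfl (Prod.ext rfl (smul_zero _))

theorem zx_ax (e : F2) (c : Cl) (p : D.I) (η : F2) :
    (D.zp e * D.xq c).1 (D.ax p η) = D.ax p (η + pol c (D.cls p)) := by
  rw [mul_ap, xq_ax, zp_ax]; rfl

theorem zx_SS (e : F2) {c : Cl} (h : pol c (D.cls p0) = 0) : D.zp e * D.xq c ∈ SS t p0 :=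
  ⟨N_le_GG t (mul_mem (D.zp_mem _) (D.xq_mem _)), (zx_ax e c p0 0).trans (by rw [h, add_zero])⟩

theorem xq_SS {c : Cl} (h : pol c (D.cls p0) = 0) : D.xq c ∈ SS t p0 := by
  simpa [zp_zero] using zx_SS (t := t) 0 h

theorem z_SS : D.z ∈ SS t p0 := by
  simpa [zp_one, xq_zero] using zx_SS (t := t) (p0 := p0) 1 (pol_zero _)

theorem pol_of_SS {e : F2} {c : Cl} (h : D.zp e * D.xq c ∈ SS t p0) : pol c (D.cls p0) = 0 := by
  have := (ax_inj ((zx_ax e c p0 0).symm.trans h.2)).2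
  rwa [zero_add] at this

theorem fix_cls {n : D.N} (h : n.1 ∈ SS t p0) : n • D.cls p0 = D.cls p0 := by
  obtain ⟨s, ε, e1, -, e3⟩ := act_ax n p0
  obtain ⟨rfl, -⟩ := ax_inj ((e3 0).symm.trans h.2)
  exact e1.symm

theorem lift_SS {m : D.N} (h : m • D.cls p0 = D.cls p0) :
    ∃ n : D.N, n.1 ∈ SS t p0 ∧ D.Ah n = D.Ah m := by
  obtain ⟨s, ε, e1, -, e3⟩ := act_ax m p0
  obtain rfl : s = p0 := D.cls_inj (e1.trans h)
  rcases F2_cases ε with rfl | rfl
  · exact ⟨m, ⟨N_le_GG t m.2, e3 0⟩, rfl⟩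
  · obtain ⟨u, hu⟩ := exists_pol (D.cls_ne s)
    have hk : (⟨D.xq u, D.xq_mem u⟩ : D.N) ∈ D.Ah.ker := mem_ker.2 ⟨0, u, by rw [zp_zero, one_mul]⟩
    refine ⟨m * ⟨D.xq u, D.xq_mem u⟩, ⟨N_le_GG t (mul_mem m.2 (D.xq_mem u)), ?_⟩, by
      rw [map_mul, MonoidHom.mem_ker.1 hk, mul_one]⟩
    change m.1.1 ((D.xq u).1 _) = _
    rw [xq_ax, show Bf u (D.cls s) + Bf (D.cls s) u = 1 from hu, e3]
    rfl

theorem conj_tt (hT : HypT t) {g x : D.Γ} (hg : g ∈ D.GG t) {b : D.V} (h : x.1 = D.tt b) :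
    (g * x * g⁻¹).1 = D.tt (g.1 b) := by
  rw [Units.val_mul, Units.val_mul, h, tt_conj (GG_le_Au hT hg), mul_assoc, ← Units.val_mul,
    mul_inv_cancel, Units.val_one, mul_one]

theorem d_val (hL : HypL D) : (D.xq (D.cls p0)).1 = D.tt (D.ax p0 0) := by
  rw [tt_ax (hL.ips p0), zp_zero, one_mul]

theorem pair_std (hL : HypL D) (hT : HypT t) (hA : HypA t p0 a w s o par) {g h : D.Γ}
    (hg : g ∈ D.GG t) (hh : h ∈ D.GG t) : ∃ u ∈ D.GG t, ∃ k p η,
      u.1 (g.1 (D.ax p0 0)) = a k ∧ u.1 (h.1 (D.ax p0 0)) = D.ax p η := by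
  obtain ⟨k, n, hn, e⟩ := orbit_eq hL hT hA (mul_mem (inv_mem hh) hg)
  obtain ⟨p, η, e'⟩ := O1_N (inv_mem hn) ⟨p0, 0, rfl⟩
  refine ⟨n⁻¹ * h⁻¹, mul_mem (N_le_GG t (inv_mem hn)) (inv_mem hh), k, p, η, ?_, ?_⟩
  · rw [mul_ap, ← mul_ap h⁻¹, ← e, unit_inj]
  · rw [mul_ap, unit_inj, e']

theorem cent_d (hL : HypL D) (hT : HypT t) (hA : HypA t p0 a w s o par) (hS : HypS t p0 a)
    {g : D.Γ} (hg : g ∈ D.GG t) :
    g * D.xq (D.cls p0) * g⁻¹ = D.xq (D.cls p0) ↔ g ∈ SS t p0 := by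
  refine ⟨fun h => ⟨hg, ?_⟩, fun h => Units.ext ?_⟩
  · obtain ⟨u, hu, k, p, η, e1, e2⟩ := pair_std hL hT hA hg (one_mem _)
    have h1 := conj_tt hT hu (conj_tt hT hg (d_val (p0 := p0) hL))
    have h2 := conj_tt hT hu (d_val (p0 := p0) hL)
    rw [h, h2, e1] at h1
    change u.1 (D.ax p0 0) = _ at e2
    rw [e2] at h1
    have := hS.inj k p η h1.symm
    rw [← e1, ← e2] at this
    change g.1 _ = _
    rw [← unit_inj u (g.1 _), this, unit_inj]
  · rw [conj_tt hT hg (d_val hL), (mem_SS.1 h).2, d_val hL]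

theorem card_SS (hL : HypL D) (hT : HypT t) (hA : HypA t p0 a w s o par) :
    Nat.card (SS t p0) = 2 * 4154781481226426191177580544000000 := by
  have h1 := card_stab_mul (D.GG t) (D.ax p0 0)
  rw [orbit_GG hL hT hA, ncard_Dd hL hT hA, card_GG hL hT hA] at h1
  change Nat.card (SS t p0) * _ = _ at h1
  omega

theorem card_MM (hL : HypL D) (hT : HypT t) (hA : HypA t p0 a w s o par) :
    Nat.card (D.N ⊓ SS t p0 : Subgroup D.Γ) * 11707448673375 = Nat.card (SS t p0) := by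
  have h2 := card_stab_mul (D.GG t ⊓ MulAction.stabilizer D.Γ (D.ax p0 0)) (D.ax p0 1)
  rw [orbit_stab hL hT hA, Set.ncard_coe_finset, card_FF hL hT hA, stab_two hL hT hA] at h2
  rw [SS, ← inf_assoc, inf_eq_left.2 (N_le_GG t)]
  exact h2

theorem not_conj (hL : HypL D) (hT : HypT t) (hA : HypA t p0 a w s o par) {g : D.Γ}
    (hg : g ∈ D.GG t) (e : F2) : g * D.z * g⁻¹ ≠ D.zp e * D.xq (D.cls p0) := by
  have key : ∀ g ∈ D.GG t, g * D.z * g⁻¹ ≠ D.xq (D.cls p0) := fun g hg h => by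
    have f : ∀ x ∈ SS t p0, g⁻¹ * x * g ∈ D.N := fun x hx =>
      cent_GG hL hT hA (mul_mem (mul_mem (inv_mem hg) hx.1) hg) (by
        have h1 : x * D.xq (D.cls p0) * x⁻¹ = D.xq (D.cls p0) :=
          Units.ext (by rw [conj_tt hT hx.1 (d_val hL), (mem_SS.1 hx).2, d_val hL])
        rw [← h] at h1
        calc g⁻¹ * x * g * D.z = g⁻¹ * (x * (g * D.z * g⁻¹) * x⁻¹) * x * g := by group
          _ = _ := by rw [h1]; group)
    have := Nat.card_le_card_of_injective (fun x : SS t p0 => (⟨_, f x.1 x.2⟩ : D.N))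
      fun x y e => Subtype.ext (by simpa using congrArg Subtype.val e)
    rw [card_SS hL hT hA, card_N' hL] at this
    omega
  rcases F2_cases e with rfl | rfl
  · rw [zp_zero, one_mul]; exact key g hg
  · intro h
    obtain ⟨u, hu⟩ := exists_pol (D.cls_ne p0)
    refine key (D.xq u * g) (mul_mem (N_le_GG t (D.xq_mem u)) hg) ?_
    have h1 := zx_comm (D := D) 0 1 u (D.cls p0)
    rw [show Bf u (D.cls p0) + Bf (D.cls p0) u = 1 from hu, zp_zero, one_mul, zp_one,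
      mul_assoc D.z, ← mul_assoc D.z, z_mul_z, one_mul] at h1
    calc _ = D.xq u * (g * D.z * g⁻¹) * (D.xq u)⁻¹ := by group
      _ = _ := by rw [h, zp_one, h1, mul_inv_cancel_right]

theorem pol_Om (hL : HypL D) (hC : HypC t p0) : pol Om (D.cls p0) = 0 := by
  obtain ⟨s, e⟩ := hC.sh
  have := D.cls_sing s
  rw [e, Bf_add_left, Bf_add_right, Bf_add_right, D.cls_sing, hL.om.2.1, zero_add, add_zero] at this
  rw [pol_comm]; exact this

theorem triv_of (hL : HypL D) (hC : HypC t p0) {l : D.N}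
    (h : ∀ c, pol c (D.cls p0) = 0 → l • c + c = 0 ∨ l • c + c = D.cls p0) : l ∈ D.Ah.ker := by
  let W : AddSubgroup Cl :=
    { carrier := {c | ∀ m : D.N, m • D.cls p0 = D.cls p0 → l • m • c = m • c}
      zero_mem' := fun m _ => by rw [smul_cl_zero, smul_cl_zero]
      add_mem' := fun {x y} hx hy m hm => by rw [smul_cl_add, smul_cl_add, hx m hm, hy m hm]
      neg_mem' := fun {x} hx => by rwa [neg_eq_of_add_eq_zero_right (Cl_aa x)] }
  have h1 : ∀ c, pol c (D.cls p0) = 0 → l • c = c := fun c hc => by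
    have := hC.span W (fun m hm => ?_) (fun n hn c hc m hm => by
      rw [← mul_smul m]; exact hc _ (by rw [mul_smul, hn, hm])) c hc 1 (one_smul _ _)
    · rwa [one_smul] at this
    rcases h (m • Om) (by rw [← hm, smul_pol, pol_Om hL hC]) with e | e
    · exact eq_of_add e
    · obtain ⟨s, e1⟩ := hC.sh
      obtain ⟨r, -, e2, -⟩ := act_ax m s
      refine absurd ?_ ((Frs_smul l (Frs_smul m hL.om)).2.2 r)
      rw [e2, ← smul_cl, e1, smul_cl_add, hm, ← e, add_assoc, Cl_aa, add_zero]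
  have h2 : ∀ c, l • c = c := fun c => by
    by_contra hne
    have h3 : l • c + c = D.cls p0 := by
      by_contra h3
      obtain ⟨e, he, k⟩ := perp_perp (D.cls_ne p0) (fun k => hne (eq_of_add k)) h3
      rw [pol_add, ← h1 e he, smul_pol, h1 e he, F2_aa] at k
      exact absurd k (by decide)
    have h4 := smul_Bf l c
    rw [show l • c = D.cls p0 + c by rw [← h3, add_assoc, Cl_aa, add_zero], Bf_add_left,
      Bf_add_right, Bf_add_right, D.cls_sing] at h4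
    exact hne (h1 c (by rw [pol]; linear_combination h4))
  exact Units.ext (ext_of_mulVec_single fun i => (h2 _).trans (one_mulVec _).symm)

theorem comm_zx (e : F2) {c u : Cl} (h : pol c u = 1) :
    D.xq u * (D.zp e * D.xq c) * (D.xq u)⁻¹ * (D.zp e * D.xq c)⁻¹ = D.z := by
  have h1 := zx_comm (D := D) 0 e u c
  rw [show Bf u c + Bf c u = 1 from (pol_comm u c).trans h, zp_zero, one_mul, zp_one] at h1
  rw [h1]; group

theorem z_mem_of (hL : HypL D) (hC : HypC t p0) {K : Subgroup D.Γ}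
    (hn : ∀ c, pol c (D.cls p0) = 0 → ∀ k ∈ K, D.xq c * k * (D.xq c)⁻¹ ∈ K)
    {l : D.Γ} (hl : l ∈ K) (hN : l ∈ D.N) :
    D.z ∈ K ∨ ∃ e, l = D.zp e ∨ l = D.zp e * D.xq (D.cls p0) := by
  have key : ∀ e c, D.zp e * D.xq c ∈ K → c ≠ 0 → c ≠ D.cls p0 → D.z ∈ K := fun e c h h0 h1 => by
    obtain ⟨u, hu, k⟩ := perp_perp (D.cls_ne p0) h0 h1
    rw [← comm_zx e k]
    exact mul_mem (hn u hu _ h) (inv_mem h)
  by_contra hc
  rw [not_or] at hc
  obtain ⟨e, c, h⟩ := mem_ker.1 (triv_of hL hC (l := ⟨l, hN⟩) fun c hp => by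
    obtain ⟨ε, h⟩ := Ah_spec ⟨l, hN⟩ c
    have h1 : l * D.xq c * l⁻¹ * (D.zp 0 * D.xq c)⁻¹ ∈ K := by
      have := mul_mem hl (hn c hp _ (inv_mem hl))
      simpa [mul_assoc, zp_zero] using this
    rw [show l * D.xq c * l⁻¹ = _ from h, zx_inv, zx_mul] at h1
    by_contra h2
    rw [not_or] at h2
    exact hc.1 (key _ _ h1 h2.1 h2.2))
  change l = _ at h
  refine hc.1 (key e c (h ▸ hl) ?_ ?_)
  · rintro rfl
    exact hc.2 ⟨e, Or.inl (by rw [h, xq_zero, mul_one])⟩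
  · rintro rfl
    exact hc.2 ⟨e, Or.inr h⟩

/-- the part of the extraspecial group which fixes the axis -/
def Q0 (D : Dat) (c0 : Cl) : Subgroup D.Γ where
  carrier := {x | ∃ e c, pol c c0 = 0 ∧ x = D.zp e * D.xq c}
  one_mem' := ⟨0, 0, pol_zero _, by rw [zp_zero, xq_zero, mul_one]⟩
  mul_mem' := by
    rintro _ _ ⟨e, c, h, rfl⟩ ⟨e', c', h', rfl⟩
    exact ⟨_, c + c', by rw [pol_add, h, h', add_zero], D.zx_mul _ _ _ _⟩
  inv_mem' := by
    rintro _ ⟨e, c, h, rfl⟩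
    exact ⟨_, _, h, zx_inv _ _⟩

theorem key_SS (hL : HypL D) (hT : HypT t) (hA : HypA t p0 a w s o par) (hS : HypS t p0 a)
    (hC : HypC t p0) (K : Subgroup D.Γ) (hK : K ≤ SS t p0)
    (hn : ∀ g ∈ SS t p0, ∀ k ∈ K, g * k * g⁻¹ ∈ K) (hz : D.z ∈ K) : SS t p0 ≤ K := by
  have htS : t ∈ SS t p0 := ⟨t_mem_GG t, hS.tv⟩
  have hzp : ∀ a, D.zp a ∈ K := fun a => by
    rcases F2_cases a with rfl | rfl
    exacts [one_mem _, hz]
  have hx : ∀ {a c}, D.zp a * D.xq c ∈ K → D.xq c ∈ K := fun {a c} h =>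
    (Subgroup.mul_mem_cancel_left _ (hzp a)).1 h
  let W : AddSubgroup Cl :=
    { carrier := {c | D.xq c ∈ K}
      zero_mem' := by change D.xq 0 ∈ K; rw [xq_zero]; exact one_mem _
      add_mem' := fun {x y} h1 h2 => hx (D.xq_mul x y ▸ mul_mem h1 h2)
      neg_mem' := fun {x} hx => by rwa [neg_eq_of_add_eq_zero_right (Cl_aa x)] }
  have hQ : ∀ c, pol c (D.cls p0) = 0 → D.xq c ∈ K := by
    obtain ⟨e, he⟩ := hT.tz
    refine hC.span W (hx (he ▸ hn t htS _ hz)) fun m hm c hc => ?_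
    obtain ⟨n, h1, h2⟩ := lift_SS (t := t) hm
    obtain ⟨ε, e⟩ := Ah_spec n c
    rw [h2] at e
    exact hx (e ▸ hn _ h1 _ hc)
  have hM : D.N ⊓ SS t p0 ≤ K := by
    rintro m ⟨hm, hm'⟩
    obtain ⟨f, hf, n, e, h⟩ := hC.top
    obtain ⟨k, hk, e1⟩ := h (((K.subgroupOf D.N).map D.Ah).comap D.Ah)
      ⟨n, show n.1 ∈ K from e ▸ hn t htS _ (hQ f hf), rfl⟩
      (fun x hx => ⟨1, one_mem _, (map_one _).trans (MonoidHom.mem_ker.1 hx).symm⟩)
      (by
        rintro m hm l ⟨k, hk, e⟩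
        obtain ⟨n, h1, h2⟩ := lift_SS (t := t) hm
        exact ⟨n * k * n⁻¹, hn _ h1 _ hk, by simp only [map_mul, map_inv, h2, e]⟩)
      ⟨m, hm⟩ (fix_cls hm')
    obtain ⟨ε, c, e'⟩ := mem_ker.1 (show (⟨m, hm⟩ : D.N) * k⁻¹ ∈ D.Ah.ker by
      rw [MonoidHom.mem_ker, map_mul, map_inv, e1, mul_inv_cancel])
    change m * k.1⁻¹ = _ at e'
    have hk' : k.1 ∈ K := hk
    have : m * k.1⁻¹ ∈ K := e' ▸ mul_mem (hzp ε)
      (hQ c (pol_of_SS (t := t) (e' ▸ (SS t p0).mul_mem hm' (inv_mem (hK hk')))))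
    exact (K.mul_mem_cancel_right (inv_mem hk')).1 this
  intro g hg
  have := finite_GG hL hT hA
  have : Finite K := Finite.of_injective _ (Subgroup.inclusion_injective (hK.trans inf_le_left))
  obtain ⟨k, hk⟩ := conj_into (H := (D.N ⊓ SS t p0).subgroupOf K)
    (Q := (Q0 D (D.cls p0)).comap ((MulAut.conj g).toMonoidHom.comp K.subtype))
    (fun x => ⟨2, by
      obtain ⟨e, c, -, h⟩ := x.2
      change g * x.1.1 * g⁻¹ = _ at h
      refine Subtype.ext (Subtype.ext ?_)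
      change x.1.1 ^ 2 ^ 2 = 1
      have h1 : (g * x.1.1 * g⁻¹) ^ (2 * 2) = 1 := by
        rw [h, pow_mul, sq (_ * _), zx_mul, Cl_aa, xq_zero, mul_one, sq, ← zp_add, F2_aa, zp_zero]
      rwa [conj_pow, conj_eq_one_iff] at h1⟩)
    (fun h => by
      have h1 := ((D.N ⊓ SS t p0).subgroupOf K).card_mul_index
      rw [Nat.card_congr (Subgroup.subgroupOfEquivOfLe hM).toEquiv] at h1
      have h2 := Subgroup.card_dvd_of_le hK
      have : Finite (D.N ⊓ SS t p0 : Subgroup D.Γ) :=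
        Finite.of_injective _ (Subgroup.inclusion_injective hM)
      have h3 : 0 < Nat.card (D.N ⊓ SS t p0 : Subgroup D.Γ) := Nat.card_pos
      rw [← card_MM hL hT hA, ← h1] at h2
      have := h.trans (Nat.dvd_of_mul_dvd_mul_left h3 h2)
      omega)
  have hgk : g * k.1 ∈ SS t p0 := mul_mem hg (hK k.2)
  have hc : ∀ x ∈ Q0 D (D.cls p0), x * (g * k.1 * D.z * (g * k.1)⁻¹) =
      g * k.1 * D.z * (g * k.1)⁻¹ * x := by
    rintro _ ⟨e, c, h, rfl⟩
    have h1 := hn _ (inv_mem hg) _ (mul_mem (hzp e) (hQ c h))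
    have h2 := D.z_comm (hk ⟨_, h1⟩ ⟨e, c, h, by
      change g * (g⁻¹ * _ * g⁻¹⁻¹) * g⁻¹ = _
      group⟩).1
    change k.1⁻¹ * (g⁻¹ * _ * g⁻¹⁻¹) * k.1 * D.z = D.z * (k.1⁻¹ * (g⁻¹ * _ * g⁻¹⁻¹) * k.1) at h2
    generalize D.zp e * D.xq c = x at h2 ⊢
    calc _ = g * k.1 * (k.1⁻¹ * (g⁻¹ * x * g⁻¹⁻¹) * k.1 * D.z) * (g * k.1)⁻¹ := by group
      _ = _ := by rw [h2]; group
  have hy : g * k.1 * D.z * (g * k.1)⁻¹ = D.z := by
    have hG := (mul_mem (mul_mem hgk z_SS) (inv_mem hgk)).1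
    have h1 : g * k.1 * D.z * (g * k.1)⁻¹ ≠ 1 := fun h => D.z_ne_one (conj_eq_one_iff.1 h)
    have hyy : g * k.1 * D.z * (g * k.1)⁻¹ * (g * k.1 * D.z * (g * k.1)⁻¹) = 1 := by
      rw [conj_mul, z_mul_z]; simp
    have h2 := not_conj hL hT hA hgk.1
    generalize g * k.1 * D.z * (g * k.1)⁻¹ = y at hc hG h1 hyy h2
    have hN := cent_GG hL hT hA hG
      (hc D.z ⟨1, 0, pol_zero _, by rw [zp_one, xq_zero, mul_one]⟩).symm
    rcases z_mem_of hL hC (K := Subgroup.zpowers y) (fun c h x hx => by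
      obtain ⟨j, rfl⟩ := Subgroup.mem_zpowers_iff.1 hx
      rw [← conj_zpow, hc _ ⟨0, c, h, by rw [zp_zero, one_mul]⟩, mul_inv_cancel_right]
      exact ⟨j, rfl⟩) (Subgroup.mem_zpowers y) hN with h | ⟨e, h | h⟩
    · obtain ⟨j, e⟩ := Subgroup.mem_zpowers_iff.1 h
      obtain ⟨i, rfl | rfl⟩ := Int.even_or_odd' j
      · rw [_root_.zpow_mul, zpow_two, hyy, _root_.one_zpow] at e
        exact absurd e.symm D.z_ne_one
      · rwa [_root_.zpow_add_one, _root_.zpow_mul, zpow_two, hyy, _root_.one_zpow, one_mul] at e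
    · rcases F2_cases e with rfl | rfl
      exacts [absurd h h1, h]
    · exact absurd h (h2 e)
  exact (Subgroup.mul_mem_cancel_right _ k.2).1
    (hM ⟨cent_GG hL hT hA hgk.1 (mul_inv_eq_iff_eq_mul.1 hy), hgk⟩)

theorem card_conj {G : Type} [Group G] (d : G) :
    Nat.card (conjugatesOf d) * Nat.card (Subgroup.centralizer ({d} : Set G)) = Nat.card G := by
  have h : conjugatesOf d = MulAction.orbit (ConjAct G) d := by
    ext x
    rw [ConjAct.mem_orbit_conjAct, isConj_comm]; rfl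
  rw [h, Subgroup.nat_card_centralizer_nat_card_stabilizer, ← Nat.card_prod,
    Nat.card_congr (MulAction.orbitProdStabilizerEquivGroup (ConjAct G) d)]
  rfl

theorem s0468_of (hL : HypL D) (hT : HypT t) (hA : HypA t p0 a w s o par) (hS : HypS t p0 a)
    (hC : HypC t p0) :
    ∃ (G : Type) (_ : Group G) (_ : Finite G), Cfsg.IsM G ∧ ∃ D : Set G, (∃ d ∈ D, D = conjugatesOf d) ∧ Nat.card D = 97239461142009186000 ∧ (∀ d ∈ D, orderOf d = 2) ∧ (∀ d ∈ D, ∀ e ∈ D, orderOf (d * e) ≤ 6) ∧ ∀ d ∈ D, ∃ (K : Type) (_ : Group K), Cfsg.IsB K ∧ Cfsg.IsNonsplitDoubleCover (Subgroup.centralizer ({d} : Set G)) K := by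
  have := finite_GG hL hT hA
  let d0 : D.GG t := ⟨D.xq (D.cls p0), N_le_GG t (D.xq_mem _)⟩
  have hdd : D.xq (D.cls p0) * D.xq (D.cls p0) = 1 := by
    rw [xq_mul, D.cls_sing, Cl_aa, xq_zero, zp_zero, mul_one]
  have hd1 : D.xq (D.cls p0) ≠ 1 := fun h => D.cls_ne p0 (zp_xq_inj (D := D) (a := 0) (b := 0)
    (by rw [h, xq_zero])).2
  have hf : ∀ g : D.GG t, ∃ f : Subgroup.centralizer ({g * d0 * g⁻¹} : Set (D.GG t)) →* D.Γ,
      Function.Injective f ∧ f.range = SS t p0 := fun g => by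
    refine ⟨(D.GG t).subtype.comp ((MulAut.conj g⁻¹).toMonoidHom.comp (Subgroup.subtype _)),
      (D.GG t).subtype_injective.comp ((MulAut.conj g⁻¹).injective.comp Subtype.val_injective), ?_⟩
    ext x
    constructor
    · rintro ⟨⟨c, hc⟩, rfl⟩
      refine (cent_d hL hT hA hS (g⁻¹ * c * g⁻¹⁻¹).2).1 ?_
      have h1 : (g⁻¹ * c * g⁻¹⁻¹) * d0 * (g⁻¹ * c * g⁻¹⁻¹)⁻¹ = d0 := by
        calc _ = g⁻¹ * (c * (g * d0 * g⁻¹)) * c⁻¹ * g := by group
          _ = _ := by rw [Subgroup.mem_centralizer_singleton_iff.1 hc]; group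
      exact congrArg Subtype.val h1
    · intro hx
      have h1 : (⟨x, hx.1⟩ : D.GG t) * d0 * (⟨x, hx.1⟩ : D.GG t)⁻¹ = d0 :=
        Subtype.ext ((cent_d hL hT hA hS hx.1).2 hx)
      refine ⟨⟨g * ⟨x, hx.1⟩ * g⁻¹, Subgroup.mem_centralizer_singleton_iff.2 ?_⟩, ?_⟩
      · generalize (⟨x, hx.1⟩ : D.GG t) = y at h1
        calc _ = g * (y * d0 * y⁻¹) * y * g⁻¹ := by group
          _ = _ := by rw [h1]; group
      · change ((g⁻¹ * (g * ⟨x, hx.1⟩ * g⁻¹) * g⁻¹⁻¹ : D.GG t) : D.Γ) = x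
        rw [show ∀ y : D.GG t, g⁻¹ * (g * y * g⁻¹) * g⁻¹⁻¹ = y from fun y => by group]
  refine ⟨D.GG t, inferInstance, this, isM_GG hL hT hA, conjugatesOf d0,
    ⟨d0, IsConj.refl _, rfl⟩, ?_, fun d hd => ?_, fun d hd e he => ?_, fun d hd => ?_⟩
  · obtain ⟨f, h1, h2⟩ := hf 1
    have h3 := card_conj d0
    have h4 := Nat.card_congr (f.ofInjective h1).toEquiv
    rw [h2, card_SS hL hT hA, one_mul, inv_one, mul_one] at h4
    rw [h4, card_GG hL hT hA] at h3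
    omega
  · obtain ⟨g, rfl⟩ := isConj_iff.1 hd
    refine orderOf_eq_prime ?_ fun h => hd1 (congrArg Subtype.val (conj_eq_one_iff.1 h))
    rw [conj_pow, sq, show d0 * d0 = 1 from Subtype.ext hdd]; simp
  · obtain ⟨g, rfl⟩ := isConj_iff.1 hd
    obtain ⟨h, rfl⟩ := isConj_iff.1 he
    obtain ⟨u, hu, k, p, η, e1, e2⟩ := pair_std hL hT hA g.2 h.2
    obtain ⟨n, h0, h6, h1⟩ := hS.ord k p η
    refine (orderOf_le_of_pow_eq_one h0 (Subtype.ext ?_)).trans h6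
    rw [← e1, ← e2, ← conj_tt hT hu (conj_tt hT g.2 (d_val hL)),
      ← conj_tt hT hu (conj_tt hT h.2 (d_val hL)), ← Units.val_mul, ← Units.val_pow_eq_pow_val,
      conj_mul, conj_pow, Units.val_eq_one, conj_eq_one_iff] at h1
    exact h1
  · obtain ⟨g, rfl⟩ := isConj_iff.1 hd
    obtain ⟨f, h1, h2⟩ := hf g
    obtain ⟨e, he⟩ := hT.tz
    have hO := pol_Om hL hC
    obtain ⟨u, hu, k⟩ := perp_perp (D.cls_ne p0) hL.om.1 (hL.om.2.2 p0).symm
    have htS : t ∈ SS t p0 := ⟨t_mem_GG t, hS.tv⟩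
    have hc := comm_zx (D := D) e k
    refine cover_of f h1 h2 (d := D.xq (D.cls p0)) (z := D.z) (u := t) (v := D.xq u * t)
      (xq_SS (pol_self _)) htS (mul_mem (xq_SS hu) htS) (xq_SS hu) (zx_SS e hO)
      (fun g hg => mul_inv_eq_iff_eq_mul.1 ((cent_d hL hT hA hS hg.1).2 hg)) hdd hd1 D.z_mul_z
      D.z_ne_one hc ?_ (key_SS hL hT hA hS hC) (fun K hK hn hd l hl h => ?_) (fun g hg h => ?_)
      (card_SS hL hT hA)
    · rw [← he] at hc
      rw [← mul_inv_eq_iff_eq_mul, ← hc]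
      conv_lhs => rw [hc]
      group
    · rcases z_mem_of hL hC (fun c hc => hn _ (xq_SS hc)) hl (cent_GG hL hT hA (hK hl).1 h) with
        h | ⟨e, h | h⟩
      · exact Or.inr (Or.inr h)
      · rcases F2_cases e with rfl | rfl
        exacts [Or.inl h, Or.inr (Or.inr (show D.zp 1 ∈ K from h ▸ hl))]
      · rcases F2_cases e with rfl | rfl
        · exact Or.inr (Or.inl (by rwa [zp_zero, one_mul] at h))
        · exact Or.inr (Or.inr ((K.mul_mem_cancel_right hd).1 (show D.zp 1 * _ ∈ K from h ▸ hl)))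
    · exact not_conj hL hT hA hg.1 1 (h.trans (D.z_comm (D.xq_mem _)))

end Dat

end

end CfsgMO
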