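/-
The Monster as a group generated by 6-transpositions.
-/
import Cfsg.Agent.MO.Fin
import Cfsg.Agent.MO.AxM
import Cfsg.Agent.MO.Co2s

set_option autoImplicit false

namespace CfsgMO

open Dat

noncomputable section

theorem ctx2 : Ctx2 DD BB tab amat gel av pp0 where
  toCtx := ctx
  q := fun _ h => gel_q h
  z := gel_z
  ips := hypL.ips
  au := t_Au

theorem hypS : HypS (gel 54) pp0 (aa DD BB av) := Ck.hypS ctx2 hypL.card

end

end CfsgMO
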