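/-
The twelve axes.
-/
import Cfsg.Agent.MO.AxK
import Cfsg.Agent.MO.Tab0
import Cfsg.Agent.MO.DV0
import Cfsg.Agent.MO.DV1
import Cfsg.Agent.MO.DV2

set_option autoImplicit false

namespace CfsgMO

noncomputable section

/-- the bit planes of the twelve axes and of the second standard axis -/
def av : ℕ → List ℕ := gdL [] [Dt.av0, Dt.av1, Dt.av2, Dt.av3, Dt.av4, Dt.av5, Dt.av6, Dt.av7, Dt.av8,
  Dt.av9, Dt.av10, Dt.av11, Dt.av12]

end

end CfsgMO
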