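/-
Checks for the products of involutions, part 0.
-/
import Cfsg.Agent.MO.AxD
import Cfsg.Agent.MO.AxS

set_option autoImplicit false
set_option Elab.async false
set_option maxRecDepth 100000

namespace CfsgMO.Ck

theorem o40_0 : chk5 tab av 5 0 4 [44, 53, 43, 53, 54, 53, 49, 53, 39, 53, 54] [53, 39, 53, 49] false = true := by
  decide +kernel

theorem o44_1 : chk5 tab av 5 1 3 [44, 53, 43, 53, 54, 53, 49, 53, 39, 53, 54] [53, 42] true = true := by
  decide +kernel

theorem o86_0 : chk5 tab av 9 1 3 [44, 53, 54, 44, 53, 43, 53, 54, 43, 53, 49, 53, 54] [45] false = true := by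
  decide +kernel

theorem o77_0 : chk5 tab av 8 1 3 [44, 53, 54, 44, 53, 43, 53, 54, 42, 53, 47, 53, 54] [] false = true := by
  decide +kernel

theorem o62_0 : chk6 tab av 7 3 [44, 53, 43, 53, 54, 53, 42, 53, 38, 53, 54] [47, 46] false = true := by
  decide +kernel

theorem o85_1 : chk6 tab av 8 1 [44, 53, 54, 44, 53, 43, 53, 54, 42, 53, 47, 53, 54] [30, 53, 42] true = true := by
  decide +kernel

theorem o102_0 : chk6 tab av 10 1 [44, 53, 54, 44, 53, 43, 53, 54, 47, 53, 51, 53, 54] [53, 41] false = true := by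
  decide +kernel

theorem o45_0 : chk6 tab av 6 1 [44, 53, 43, 53, 54, 53, 43, 53, 45, 53, 54] [46, 53, 45] false = true := by
  decide +kernel

theorem o100_1 : chk6 tab av 10 0 [44, 53, 54, 44, 53, 43, 53, 54, 47, 53, 51, 53, 54] [40, 53, 51] true = true := by
  decide +kernel

theorem o17_1 : chk6 tab av 3 3 [44, 53, 54, 44, 53, 43, 53, 54] [53, 50] true = true := by
  decide +kernel

theorem o89_1 : chk6 tab av 9 1 [44, 53, 54, 44, 53, 43, 53, 54, 43, 53, 49, 53, 54] [40] true = true := by
  decide +kernel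

theorem o114_1 : chk6 tab av 11 2 [44, 53, 54, 48, 53, 49, 53, 54, 51, 53, 39, 53, 54] [] true = true := by
  decide +kernel

theorem o112_1 : chk4 tab av 11 5 [44, 53, 54, 48, 53, 49, 53, 54, 51, 53, 39, 53, 54] [46, 41] true = true := by
  decide +kernel

theorem o34_1 : chk4 tab av 5 4 [44, 53, 43, 53, 54, 53, 49, 53, 39, 53, 54] [40] true = true := by
  decide +kernel

theorem o63_1 : chk4 tab av 7 3 [44, 53, 43, 53, 54, 53, 42, 53, 38, 53, 54] [] true = true := by
  decide +kernel

theorem o107_0 : chk4 tab av 10 1 [44, 53, 54, 44, 53, 43, 53, 54, 47, 53, 51, 53, 54] [42] false = true := by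
  decide +kernel

theorem o29_1 : chk4 tab av 4 3 [44, 53, 54, 48, 53, 49, 53, 54] [44] true = true := by
  decide +kernel

theorem o4_1 : chk4 tab av 1 3 [44, 53, 54] [46, 53, 45] true = true := by
  decide +kernel

theorem o19_1 : chk2 tab av 3 0 [47, 50] true = true := by
  decide +kernel

theorem o1_0 : chk2 tab av 0 0 [38] false = true := by
  decide +kernel

theorem o2_0 : chk2 tab av 0 0 [] false = true := by
  decide +kernel

end CfsgMO.Ck
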