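/-
Checks for the products of involutions, part 1.
-/
import Cfsg.Agent.MO.AxD
import Cfsg.Agent.MO.AxS

set_option autoImplicit false
set_option Elab.async false
set_option maxRecDepth 100000

namespace CfsgMO.Ck

theorem o37_1 : chk5 tab av 5 0 4 [44, 53, 43, 53, 54, 53, 49, 53, 39, 53, 54] [53, 49, 53, 49] true = true := by
  decide +kernel

theorem o44_0 : chk5 tab av 5 1 3 [44, 53, 43, 53, 54, 53, 49, 53, 39, 53, 54] [53, 42] false = true := by
  decide +kernel

theorem o78_0 : chk5 tab av 8 1 3 [44, 53, 54, 44, 53, 43, 53, 54, 42, 53, 47, 53, 54] [42] false = true := by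
  decide +kernel

theorem o25_1 : chk5 tab av 4 0 3 [44, 53, 54, 48, 53, 49, 53, 54] [45, 53, 36] true = true := by
  decide +kernel

theorem o82_1 : chk6 tab av 8 4 [44, 53, 54, 44, 53, 43, 53, 54, 42, 53, 47, 53, 54] [46, 27] true = true := by
  decide +kernel

theorem o52_1 : chk6 tab av 6 4 [44, 53, 43, 53, 54, 53, 43, 53, 45, 53, 54] [49] true = true := by
  decide +kernel

theorem o83_0 : chk6 tab av 8 1 [44, 53, 54, 44, 53, 43, 53, 54, 42, 53, 47, 53, 54] [53, 42] false = true := by
  decide +kernel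

theorem o51_0 : chk6 tab av 6 1 [44, 53, 43, 53, 54, 53, 43, 53, 45, 53, 54] [43, 53, 43] false = true := by
  decide +kernel

theorem o66_1 : chk6 tab av 8 0 [44, 53, 54, 44, 53, 43, 53, 54, 42, 53, 47, 53, 54] [48, 53, 48] true = true := by
  decide +kernel

theorem o69_1 : chk6 tab av 8 1 [44, 53, 54, 44, 53, 43, 53, 54, 42, 53, 47, 53, 54] [45, 39] true = true := by
  decide +kernel

theorem o92_1 : chk6 tab av 9 1 [44, 53, 54, 44, 53, 43, 53, 54, 43, 53, 49, 53, 54] [50] true = true := by
  decide +kernel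

theorem o101_0 : chk6 tab av 10 1 [44, 53, 54, 44, 53, 43, 53, 54, 47, 53, 51, 53, 54] [38] false = true := by
  decide +kernel

theorem o113_0 : chk4 tab av 11 5 [44, 53, 54, 48, 53, 49, 53, 54, 51, 53, 39, 53, 54] [46, 39] false = true := by
  decide +kernel

theorem o64_1 : chk4 tab av 7 3 [44, 53, 43, 53, 54, 53, 42, 53, 38, 53, 54] [47] true = true := by
  decide +kernel

theorem o60_1 : chk4 tab av 7 0 [44, 53, 43, 53, 54, 53, 42, 53, 38, 53, 54] [51, 53, 36] true = true := by
  decide +kernel

theorem o42_0 : chk4 tab av 5 4 [44, 53, 43, 53, 54, 53, 49, 53, 39, 53, 54] [] false = true := by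
  decide +kernel

theorem o10_1 : chk4 tab av 2 0 [44, 53, 43, 53, 54] [53, 50] true = true := by
  decide +kernel

theorem o22_1 : chk4 tab av 3 3 [44, 53, 54, 44, 53, 43, 53, 54] [] true = true := by
  decide +kernel

theorem o23_1 : chk2 tab av 3 0 [48, 45, 44, 27] true = true := by
  decide +kernel

theorem o6_0 : chk2 tab av 1 0 [40] false = true := by
  decide +kernel

theorem o2_1 : chk2 tab av 0 0 [] true = true := by
  decide +kernel

end CfsgMO.Ck
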