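/-
Checks for the products of involutions, part 10.
-/
import Cfsg.Agent.MO.AxD
import Cfsg.Agent.MO.AxS

set_option autoImplicit false
set_option Elab.async false
set_option maxRecDepth 100000

namespace CfsgMO.Ck

theorem o57_0 : chk5 tab av 7 0 3 [44, 53, 43, 53, 54, 53, 42, 53, 38, 53, 54] [48, 53, 48] false = true := by
  decide +kernel

theorem o46_0 : chk5 tab av 6 1 3 [44, 53, 43, 53, 54, 53, 43, 53, 45, 53, 54] [48, 53, 48] false = true := by
  decide +kernel

theorem o99_1 : chk5 tab av 10 1 3 [44, 53, 54, 44, 53, 43, 53, 54, 47, 53, 51, 53, 54] [45] true = true := by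
  decide +kernel

theorem o43_1 : chk5 tab av 5 0 4 [44, 53, 43, 53, 54, 53, 49, 53, 39, 53, 54] [53, 47] true = true := by
  decide +kernel

theorem o61_1 : chk6 tab av 7 3 [44, 53, 43, 53, 54, 53, 42, 53, 38, 53, 54] [51, 45] true = true := by
  decide +kernel

theorem o85_0 : chk6 tab av 8 1 [44, 53, 54, 44, 53, 43, 53, 54, 42, 53, 47, 53, 54] [30, 53, 42] false = true := by
  decide +kernel

theorem o35_1 : chk6 tab av 5 0 [44, 53, 43, 53, 54, 53, 49, 53, 39, 53, 54] [53, 39, 53, 51] true = true := by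
  decide +kernel

theorem o31_0 : chk6 tab av 5 1 [44, 53, 43, 53, 54, 53, 49, 53, 39, 53, 54] [46, 53, 45] false = true := by
  decide +kernel

theorem o84_1 : chk6 tab av 8 1 [44, 53, 54, 44, 53, 43, 53, 54, 42, 53, 47, 53, 54] [50, 49, 27] true = true := by
  decide +kernel

theorem o43_0 : chk6 tab av 5 1 [44, 53, 43, 53, 54, 53, 49, 53, 39, 53, 54] [53, 47] false = true := by
  decide +kernel

theorem o72_1 : chk6 tab av 8 1 [44, 53, 54, 44, 53, 43, 53, 54, 42, 53, 47, 53, 54] [48] true = true := by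
  decide +kernel

theorem o105_1 : chk6 tab av 10 1 [44, 53, 54, 44, 53, 43, 53, 54, 47, 53, 51, 53, 54] [] true = true := by
  decide +kernel

theorem o75_0 : chk4 tab av 8 1 [44, 53, 54, 44, 53, 43, 53, 54, 42, 53, 47, 53, 54] [43, 41, 53, 36] false = true := by
  decide +kernel

theorem o49_0 : chk4 tab av 6 4 [44, 53, 43, 53, 54, 53, 43, 53, 45, 53, 54] [40] false = true := by
  decide +kernel

theorem o69_0 : chk4 tab av 8 1 [44, 53, 54, 44, 53, 43, 53, 54, 42, 53, 47, 53, 54] [45, 39] false = true := by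
  decide +kernel

theorem o106_1 : chk4 tab av 10 1 [44, 53, 54, 44, 53, 43, 53, 54, 47, 53, 51, 53, 54] [47] true = true := by
  decide +kernel

theorem o10_0 : chk4 tab av 2 0 [44, 53, 43, 53, 54] [53, 50] false = true := by
  decide +kernel

theorem o22_0 : chk4 tab av 3 3 [44, 53, 54, 44, 53, 43, 53, 54] [] false = true := by
  decide +kernel

theorem o26_1 : chk2 tab av 4 0 [40, 44] true = true := by
  decide +kernel

theorem o1_1 : chk2 tab av 0 0 [38] true = true := by
  decide +kernel

theorem o3_0 : chk2 tab av 0 0 [27] false = true := by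
  decide +kernel

end CfsgMO.Ck
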