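/-
Checks for the products of involutions, part 11.
-/
import Cfsg.Agent.MO.AxD
import Cfsg.Agent.MO.AxS

set_option autoImplicit false
set_option Elab.async false
set_option maxRecDepth 100000

namespace CfsgMO.Ck

theorem o47_0 : chk5 tab av 6 1 3 [44, 53, 43, 53, 54, 53, 43, 53, 45, 53, 54] [45, 53, 36] false = true := by
  decide +kernel

theorem o31_1 : chk5 tab av 5 1 3 [44, 53, 43, 53, 54, 53, 49, 53, 39, 53, 54] [46, 53, 45] true = true := by
  decide +kernel

theorem o91_1 : chk5 tab av 9 1 3 [44, 53, 54, 44, 53, 43, 53, 54, 43, 53, 49, 53, 54] [38] true = true := by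
  decide +kernel

theorem o95_1 : chk5 tab av 9 1 3 [44, 53, 54, 44, 53, 43, 53, 54, 43, 53, 49, 53, 54] [] true = true := by
  decide +kernel

theorem j11 : chkJ tab av [44, 53, 54, 48, 53, 49, 53, 54, 51, 53, 39, 53, 54] [45] (-8) = true := by
  decide +kernel

theorem o32_0 : chk6 tab av 5 4 [44, 53, 43, 53, 54, 53, 49, 53, 39, 53, 54] [45] false = true := by
  decide +kernel

theorem o37_0 : chk6 tab av 5 0 [44, 53, 43, 53, 54, 53, 49, 53, 39, 53, 54] [53, 49, 53, 49] false = true := by
  decide +kernel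

theorem o33_0 : chk6 tab av 5 1 [44, 53, 43, 53, 54, 53, 49, 53, 39, 53, 54] [53, 49, 44] false = true := by
  decide +kernel

theorem o100_0 : chk6 tab av 10 0 [44, 53, 54, 44, 53, 43, 53, 54, 47, 53, 51, 53, 54] [40, 53, 51] false = true := by
  decide +kernel

theorem o17_0 : chk6 tab av 3 3 [44, 53, 54, 44, 53, 43, 53, 54] [53, 50] false = true := by
  decide +kernel

theorem o78_1 : chk6 tab av 8 1 [44, 53, 54, 44, 53, 43, 53, 54, 42, 53, 47, 53, 54] [42] true = true := by
  decide +kernel

theorem o114_0 : chk6 tab av 11 2 [44, 53, 54, 48, 53, 49, 53, 54, 51, 53, 39, 53, 54] [] false = true := by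
  decide +kernel

theorem o75_1 : chk4 tab av 8 1 [44, 53, 54, 44, 53, 43, 53, 54, 42, 53, 47, 53, 54] [43, 41, 53, 36] true = true := by
  decide +kernel

theorem o52_0 : chk4 tab av 6 4 [44, 53, 43, 53, 54, 53, 43, 53, 45, 53, 54] [49] false = true := by
  decide +kernel

theorem o88_1 : chk4 tab av 9 1 [44, 53, 54, 44, 53, 43, 53, 54, 43, 53, 49, 53, 54] [40, 39] true = true := by
  decide +kernel

theorem o70_0 : chk4 tab av 8 1 [44, 53, 54, 44, 53, 43, 53, 54, 42, 53, 47, 53, 54] [38] false = true := by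
  decide +kernel

theorem o20_0 : chk4 tab av 3 3 [44, 53, 54, 44, 53, 43, 53, 54] [36, 45] false = true := by
  decide +kernel

theorem o15_1 : chk4 tab av 3 0 [44, 53, 54, 44, 53, 43, 53, 54] [45] true = true := by
  decide +kernel

theorem o62_1 : chk2 tab av 7 0 [47, 46] true = true := by
  decide +kernel

theorem o55_0 : chk2 tab av 6 0 [49, 38, 27] false = true := by
  decide +kernel

theorem o7_1 : chk2 tab av 1 0 [] true = true := by
  decide +kernel

end CfsgMO.Ck
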