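/-
Checks for the products of involutions, part 2.
-/
import Cfsg.Agent.MO.AxD
import Cfsg.Agent.MO.AxS

set_option autoImplicit false
set_option Elab.async false
set_option maxRecDepth 100000

namespace CfsgMO.Ck

theorem o98_1 : chk5 tab av 10 0 4 [44, 53, 54, 44, 53, 43, 53, 54, 47, 53, 51, 53, 54] [48, 53, 48] true = true := by
  decide +kernel

theorem o81_1 : chk5 tab av 8 0 4 [44, 53, 54, 44, 53, 43, 53, 54, 42, 53, 47, 53, 54] [53, 43] true = true := by
  decide +kernel

theorem o67_1 : chk5 tab av 8 1 3 [44, 53, 54, 44, 53, 43, 53, 54, 42, 53, 47, 53, 54] [45] true = true := by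
  decide +kernel

theorem o16_0 : chk5 tab av 3 0 3 [44, 53, 54, 44, 53, 43, 53, 54] [45, 53, 36] false = true := by
  decide +kernel

theorem j9 : chkJ tab av [44, 53, 54, 44, 53, 43, 53, 54, 43, 53, 49, 53, 54] [45] (8) = true := by
  decide +kernel

theorem o32_1 : chk6 tab av 5 4 [44, 53, 43, 53, 54, 53, 49, 53, 39, 53, 54] [45] true = true := by
  decide +kernel

theorem o102_1 : chk6 tab av 10 1 [44, 53, 54, 44, 53, 43, 53, 54, 47, 53, 51, 53, 54] [53, 41] true = true := by
  decide +kernel

theorem o45_1 : chk6 tab av 6 1 [44, 53, 43, 53, 54, 53, 43, 53, 45, 53, 54] [46, 53, 45] true = true := by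
  decide +kernel

theorem o65_0 : chk6 tab av 8 0 [44, 53, 54, 44, 53, 43, 53, 54, 42, 53, 47, 53, 54] [46, 53, 45] false = true := by
  decide +kernel

theorem o27_0 : chk6 tab av 4 3 [44, 53, 54, 48, 53, 49, 53, 54] [53, 50] false = true := by
  decide +kernel

theorem o92_0 : chk6 tab av 9 1 [44, 53, 54, 44, 53, 43, 53, 54, 43, 53, 49, 53, 54] [50] false = true := by
  decide +kernel

theorem o95_0 : chk6 tab av 9 1 [44, 53, 54, 44, 53, 43, 53, 54, 43, 53, 49, 53, 54] [] false = true := by
  decide +kernel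

theorem o48_0 : chk4 tab av 6 4 [44, 53, 43, 53, 54, 53, 43, 53, 45, 53, 54] [40, 53, 51] false = true := by
  decide +kernel

theorem o40_1 : chk4 tab av 5 0 [44, 53, 43, 53, 54, 53, 49, 53, 39, 53, 54] [53, 39, 53, 49] true = true := by
  decide +kernel

theorem o74_0 : chk4 tab av 8 0 [44, 53, 54, 44, 53, 43, 53, 54, 42, 53, 47, 53, 54] [38, 53, 46] false = true := by
  decide +kernel

theorem j1 : chkJ tab av [44, 53, 54] [46, 53, 45] (0) = true := by
  decide +kernel

theorem o12_0 : chk4 tab av 2 0 [44, 53, 43, 53, 54] [53, 41] false = true := by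
  decide +kernel

theorem o30_1 : chk4 tab av 4 3 [44, 53, 54, 48, 53, 49, 53, 54] [] true = true := by
  decide +kernel

theorem o5_1 : chk4 tab av 1 3 [44, 53, 54] [45] true = true := by
  decide +kernel

end CfsgMO.Ck
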