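/-
Checks for the products of involutions, part 3.
-/
import Cfsg.Agent.MO.AxD
import Cfsg.Agent.MO.AxS

set_option autoImplicit false
set_option Elab.async false
set_option maxRecDepth 100000

namespace CfsgMO.Ck

theorem o93_1 : chk5 tab av 9 0 4 [44, 53, 54, 44, 53, 43, 53, 54, 43, 53, 49, 53, 54] [45, 53, 39] true = true := by
  decide +kernel

theorem o81_0 : chk5 tab av 8 0 4 [44, 53, 54, 44, 53, 43, 53, 54, 42, 53, 47, 53, 54] [53, 43] false = true := by
  decide +kernel

theorem o111_0 : chk5 tab av 11 2 3 [44, 53, 54, 48, 53, 49, 53, 54, 51, 53, 39, 53, 54] [38] false = true := by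
  decide +kernel

theorem o80_1 : chk6 tab av 8 4 [44, 53, 54, 44, 53, 43, 53, 54, 42, 53, 47, 53, 54] [32, 53, 42] true = true := by
  decide +kernel

theorem j5 : chkJ tab av [44, 53, 43, 53, 54, 53, 49, 53, 39, 53, 54] [46, 53, 45] (-20) = true := by
  decide +kernel

theorem o64_0 : chk6 tab av 7 3 [44, 53, 43, 53, 54, 53, 42, 53, 38, 53, 54] [47] false = true := by
  decide +kernel

theorem o80_0 : chk6 tab av 8 1 [44, 53, 54, 44, 53, 43, 53, 54, 42, 53, 47, 53, 54] [32, 53, 42] false = true := by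
  decide +kernel

theorem o35_0 : chk6 tab av 5 0 [44, 53, 43, 53, 54, 53, 49, 53, 39, 53, 54] [53, 39, 53, 51] false = true := by
  decide +kernel

theorem o54_0 : chk6 tab av 6 4 [44, 53, 43, 53, 54, 53, 43, 53, 45, 53, 54] [] false = true := by
  decide +kernel

theorem o9_0 : chk6 tab av 2 0 [44, 53, 43, 53, 54] [53, 39, 53, 51] false = true := by
  decide +kernel

theorem o36_1 : chk6 tab av 5 1 [44, 53, 43, 53, 54, 53, 49, 53, 39, 53, 54] [53, 50] true = true := by
  decide +kernel

theorem o70_1 : chk6 tab av 8 1 [44, 53, 54, 44, 53, 43, 53, 54, 42, 53, 47, 53, 54] [38] true = true := by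
  decide +kernel

theorem o14_0 : chk6 tab av 3 0 [44, 53, 54, 44, 53, 43, 53, 54] [48, 53, 48] false = true := by
  decide +kernel

theorem o38_1 : chk4 tab av 5 4 [44, 53, 43, 53, 54, 53, 49, 53, 39, 53, 54] [47, 50] true = true := by
  decide +kernel

theorem o23_0 : chk4 tab av 3 3 [44, 53, 54, 44, 53, 43, 53, 54] [48, 45, 44, 27] false = true := by
  decide +kernel

theorem o89_0 : chk4 tab av 9 1 [44, 53, 54, 44, 53, 43, 53, 54, 43, 53, 49, 53, 54] [40] false = true := by
  decide +kernel

theorem o26_0 : chk4 tab av 4 3 [44, 53, 54, 48, 53, 49, 53, 54] [40, 44] false = true := by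
  decide +kernel

theorem o18_1 : chk4 tab av 3 0 [44, 53, 54, 44, 53, 43, 53, 54] [50] true = true := by
  decide +kernel

theorem o0_0 : chk4 tab av 0 0 [] [46, 53, 45] false = true := by
  decide +kernel

end CfsgMO.Ck
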