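/-
Checks for the products of involutions, part 4.
-/
import Cfsg.Agent.MO.AxD
import Cfsg.Agent.MO.AxS

set_option autoImplicit false
set_option Elab.async false
set_option maxRecDepth 100000

namespace CfsgMO.Ck

theorem o93_0 : chk5 tab av 9 0 4 [44, 53, 54, 44, 53, 43, 53, 54, 43, 53, 49, 53, 54] [45, 53, 39] false = true := by
  decide +kernel

theorem o79_0 : chk5 tab av 8 0 4 [44, 53, 54, 44, 53, 43, 53, 54, 42, 53, 47, 53, 54] [53, 47] false = true := by
  decide +kernel

theorem o110_1 : chk5 tab av 11 2 3 [44, 53, 54, 48, 53, 49, 53, 54, 51, 53, 39, 53, 54] [45] true = true := by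
  decide +kernel

theorem o109_0 : chk6 tab av 10 4 [44, 53, 54, 44, 53, 43, 53, 54, 47, 53, 51, 53, 54] [53, 39] false = true := by
  decide +kernel

theorem j6 : chkJ tab av [44, 53, 43, 53, 54, 53, 43, 53, 45, 53, 54] [46, 53, 45] (-28) = true := by
  decide +kernel

theorem o39_0 : chk6 tab av 5 4 [44, 53, 43, 53, 54, 53, 49, 53, 39, 53, 54] [47, 48] false = true := by
  decide +kernel

theorem o21_0 : chk6 tab av 3 3 [44, 53, 54, 44, 53, 43, 53, 54] [48, 53, 50] false = true := by
  decide +kernel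

theorem o56_0 : chk6 tab av 7 0 [44, 53, 43, 53, 54, 53, 42, 53, 38, 53, 54] [46, 53, 45] false = true := by
  decide +kernel

theorem o90_0 : chk6 tab av 9 0 [44, 53, 54, 44, 53, 43, 53, 54, 43, 53, 49, 53, 54] [41, 53, 38] false = true := by
  decide +kernel

theorem o88_0 : chk6 tab av 9 1 [44, 53, 54, 44, 53, 43, 53, 54, 43, 53, 49, 53, 54] [40, 39] false = true := by
  decide +kernel

theorem o82_0 : chk6 tab av 8 1 [44, 53, 54, 44, 53, 43, 53, 54, 42, 53, 47, 53, 54] [46, 27] false = true := by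
  decide +kernel

theorem o68_0 : chk6 tab av 8 1 [44, 53, 54, 44, 53, 43, 53, 54, 42, 53, 47, 53, 54] [40] false = true := by
  decide +kernel

theorem j4 : chkJ tab av [44, 53, 54, 48, 53, 49, 53, 54] [45] (-128) = true := by
  decide +kernel

theorem o108_1 : chk4 tab av 10 4 [44, 53, 54, 44, 53, 43, 53, 54, 47, 53, 51, 53, 54] [45, 27] true = true := by
  decide +kernel

theorem o60_0 : chk4 tab av 7 0 [44, 53, 43, 53, 54, 53, 42, 53, 38, 53, 54] [51, 53, 36] false = true := by
  decide +kernel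

theorem o91_0 : chk4 tab av 9 1 [44, 53, 54, 44, 53, 43, 53, 54, 43, 53, 49, 53, 54] [38] false = true := by
  decide +kernel

theorem o104_1 : chk4 tab av 10 1 [44, 53, 54, 44, 53, 43, 53, 54, 47, 53, 51, 53, 54] [49] true = true := by
  decide +kernel

theorem o24_0 : chk4 tab av 4 0 [44, 53, 54, 48, 53, 49, 53, 54] [45] false = true := by
  decide +kernel

theorem o0_1 : chk4 tab av 0 0 [] [46, 53, 45] true = true := by
  decide +kernel

end CfsgMO.Ck
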