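/-
Checks for the products of involutions, part 5.
-/
import Cfsg.Agent.MO.AxD
import Cfsg.Agent.MO.AxS

set_option autoImplicit false
set_option Elab.async false
set_option maxRecDepth 100000

namespace CfsgMO.Ck

theorem o73_1 : chk5 tab av 8 0 4 [44, 53, 54, 44, 53, 43, 53, 54, 42, 53, 47, 53, 54] [50, 53, 42] true = true := by
  decide +kernel

theorem o103_1 : chk5 tab av 10 0 4 [44, 53, 54, 44, 53, 43, 53, 54, 47, 53, 51, 53, 54] [53, 48] true = true := by
  decide +kernel

theorem o110_0 : chk5 tab av 11 2 3 [44, 53, 54, 48, 53, 49, 53, 54, 51, 53, 39, 53, 54] [45] false = true := by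
  decide +kernel

theorem j8 : chkJ tab av [44, 53, 54, 44, 53, 43, 53, 54, 42, 53, 47, 53, 54] [46, 53, 45] (-32) = true := by
  decide +kernel

theorem o112_0 : chk6 tab av 11 5 [44, 53, 54, 48, 53, 49, 53, 54, 51, 53, 39, 53, 54] [46, 41] false = true := by
  decide +kernel

theorem o58_0 : chk6 tab av 7 3 [44, 53, 43, 53, 54, 53, 42, 53, 38, 53, 54] [45] false = true := by
  decide +kernel

theorem o28_1 : chk6 tab av 4 3 [44, 53, 54, 48, 53, 49, 53, 54] [45, 53, 39] true = true := by
  decide +kernel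

theorem o59_1 : chk6 tab av 7 0 [44, 53, 43, 53, 54, 53, 42, 53, 38, 53, 54] [45, 53, 36] true = true := by
  decide +kernel

theorem o63_0 : chk6 tab av 7 3 [44, 53, 43, 53, 54, 53, 42, 53, 38, 53, 54] [] false = true := by
  decide +kernel

theorem o9_1 : chk6 tab av 2 0 [44, 53, 43, 53, 54] [53, 39, 53, 51] true = true := by
  decide +kernel

theorem o41_0 : chk6 tab av 5 1 [44, 53, 43, 53, 54, 53, 49, 53, 39, 53, 54] [53, 46] false = true := by
  decide +kernel

theorem o72_0 : chk6 tab av 8 1 [44, 53, 54, 44, 53, 43, 53, 54, 42, 53, 47, 53, 54] [48] false = true := by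
  decide +kernel

theorem o105_0 : chk6 tab av 10 1 [44, 53, 54, 44, 53, 43, 53, 54, 47, 53, 51, 53, 54] [] false = true := by
  decide +kernel

theorem o53_1 : chk4 tab av 6 4 [44, 53, 43, 53, 54, 53, 43, 53, 45, 53, 54] [43] true = true := by
  decide +kernel

theorem o87_1 : chk4 tab av 9 0 [44, 53, 54, 44, 53, 43, 53, 54, 43, 53, 49, 53, 54] [45, 53, 36] true = true := by
  decide +kernel

theorem o54_1 : chk4 tab av 6 4 [44, 53, 43, 53, 54, 53, 43, 53, 45, 53, 54] [] true = true := by
  decide +kernel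

theorem o77_1 : chk4 tab av 8 1 [44, 53, 54, 44, 53, 43, 53, 54, 42, 53, 47, 53, 54] [] true = true := by
  decide +kernel

theorem o24_1 : chk4 tab av 4 0 [44, 53, 54, 48, 53, 49, 53, 54] [45] true = true := by
  decide +kernel

theorem o8_0 : chk4 tab av 2 0 [44, 53, 43, 53, 54] [45] false = true := by
  decide +kernel

end CfsgMO.Ck
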