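/-
Checks for the products of involutions, part 6.
-/
import Cfsg.Agent.MO.AxD
import Cfsg.Agent.MO.AxS

set_option autoImplicit false
set_option Elab.async false
set_option maxRecDepth 100000

namespace CfsgMO.Ck

theorem o73_0 : chk5 tab av 8 0 4 [44, 53, 54, 44, 53, 43, 53, 54, 42, 53, 47, 53, 54] [50, 53, 42] false = true := by
  decide +kernel

theorem o103_0 : chk5 tab av 10 0 4 [44, 53, 54, 44, 53, 43, 53, 54, 47, 53, 51, 53, 54] [53, 48] false = true := by
  decide +kernel

theorem o107_1 : chk5 tab av 10 1 3 [44, 53, 54, 44, 53, 43, 53, 54, 47, 53, 51, 53, 54] [42] true = true := by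
  decide +kernel

theorem j10 : chkJ tab av [44, 53, 54, 44, 53, 43, 53, 54, 47, 53, 51, 53, 54] [48, 53, 48] (-32) = true := by
  decide +kernel

theorem j7 : chkJ tab av [44, 53, 43, 53, 54, 53, 42, 53, 38, 53, 54] [46, 53, 45] (-52) = true := by
  decide +kernel

theorem o39_1 : chk6 tab av 5 4 [44, 53, 43, 53, 54, 53, 49, 53, 39, 53, 54] [47, 48] true = true := by
  decide +kernel

theorem o21_1 : chk6 tab av 3 3 [44, 53, 54, 44, 53, 43, 53, 54] [48, 53, 50] true = true := by
  decide +kernel

theorem o56_1 : chk6 tab av 7 0 [44, 53, 43, 53, 54, 53, 42, 53, 38, 53, 54] [46, 53, 45] true = true := by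
  decide +kernel

theorem o90_1 : chk6 tab av 9 0 [44, 53, 54, 44, 53, 43, 53, 54, 43, 53, 49, 53, 54] [41, 53, 38] true = true := by
  decide +kernel

theorem o11_0 : chk6 tab av 2 0 [44, 53, 43, 53, 54] [53, 41, 53, 45] false = true := by
  decide +kernel

theorem j3 : chkJ tab av [44, 53, 54, 44, 53, 43, 53, 54] [48, 53, 48] (-32) = true := by
  decide +kernel

theorem o71_1 : chk6 tab av 8 1 [44, 53, 54, 44, 53, 43, 53, 54, 42, 53, 47, 53, 54] [46] true = true := by
  decide +kernel

theorem o14_1 : chk6 tab av 3 0 [44, 53, 54, 44, 53, 43, 53, 54] [48, 53, 48] true = true := by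
  decide +kernel

theorem o50_0 : chk4 tab av 6 4 [44, 53, 43, 53, 54, 53, 43, 53, 45, 53, 54] [46, 51] false = true := by
  decide +kernel

theorem o87_0 : chk4 tab av 9 0 [44, 53, 54, 44, 53, 43, 53, 54, 43, 53, 49, 53, 54] [45, 53, 36] false = true := by
  decide +kernel

theorem j2 : chkJ tab av [44, 53, 43, 53, 54] [45] (0) = true := by
  decide +kernel

theorem o12_1 : chk4 tab av 2 0 [44, 53, 43, 53, 54] [53, 41] true = true := by
  decide +kernel

theorem o4_0 : chk4 tab av 1 3 [44, 53, 54] [46, 53, 45] false = true := by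
  decide +kernel

theorem o97_0 : chk2 tab av 9 0 [40, 44, 27] false = true := by
  decide +kernel

theorem o6_1 : chk2 tab av 1 0 [40] true = true := by
  decide +kernel

theorem o7_0 : chk2 tab av 1 0 [] false = true := by
  decide +kernel

end CfsgMO.Ck
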