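/-
Checks for the products of involutions, part 7.
-/
import Cfsg.Agent.MO.AxD
import Cfsg.Agent.MO.AxS

set_option autoImplicit false
set_option Elab.async false
set_option maxRecDepth 100000

namespace CfsgMO.Ck

theorem o65_1 : chk5 tab av 8 0 4 [44, 53, 54, 44, 53, 43, 53, 54, 42, 53, 47, 53, 54] [46, 53, 45] true = true := by
  decide +kernel

theorem o94_1 : chk5 tab av 9 1 3 [44, 53, 54, 44, 53, 43, 53, 54, 43, 53, 49, 53, 54] [46, 45] true = true := by
  decide +kernel

theorem o68_1 : chk5 tab av 8 1 3 [44, 53, 54, 44, 53, 43, 53, 54, 42, 53, 47, 53, 54] [40] true = true := by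
  decide +kernel

theorem o16_1 : chk5 tab av 3 0 3 [44, 53, 54, 44, 53, 43, 53, 54] [45, 53, 36] true = true := by
  decide +kernel

theorem o55_1 : chk6 tab av 6 4 [44, 53, 43, 53, 54, 53, 43, 53, 45, 53, 54] [49, 38, 27] true = true := by
  decide +kernel

theorem o49_1 : chk6 tab av 6 4 [44, 53, 43, 53, 54, 53, 43, 53, 45, 53, 54] [40] true = true := by
  decide +kernel

theorem o79_1 : chk6 tab av 8 1 [44, 53, 54, 44, 53, 43, 53, 54, 42, 53, 47, 53, 54] [53, 47] true = true := by
  decide +kernel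

theorem o47_1 : chk6 tab av 6 1 [44, 53, 43, 53, 54, 53, 43, 53, 45, 53, 54] [45, 53, 36] true = true := by
  decide +kernel

theorem o66_0 : chk6 tab av 8 0 [44, 53, 54, 44, 53, 43, 53, 54, 42, 53, 47, 53, 54] [48, 53, 48] false = true := by
  decide +kernel

theorem o27_1 : chk6 tab av 4 3 [44, 53, 54, 48, 53, 49, 53, 54] [53, 50] true = true := by
  decide +kernel

theorem o96_1 : chk6 tab av 9 1 [44, 53, 54, 44, 53, 43, 53, 54, 43, 53, 49, 53, 54] [39] true = true := by
  decide +kernel

theorem o106_0 : chk6 tab av 10 1 [44, 53, 54, 44, 53, 43, 53, 54, 47, 53, 51, 53, 54] [47] false = true := by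
  decide +kernel

theorem o84_0 : chk4 tab av 8 4 [44, 53, 54, 44, 53, 43, 53, 54, 42, 53, 47, 53, 54] [50, 49, 27] false = true := by
  decide +kernel

theorem o58_1 : chk4 tab av 7 3 [44, 53, 43, 53, 54, 53, 42, 53, 38, 53, 54] [45] true = true := by
  decide +kernel

theorem o33_1 : chk4 tab av 5 1 [44, 53, 43, 53, 54, 53, 49, 53, 39, 53, 54] [53, 49, 44] true = true := by
  decide +kernel

theorem o86_1 : chk4 tab av 9 1 [44, 53, 54, 44, 53, 43, 53, 54, 43, 53, 49, 53, 54] [45] true = true := by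
  decide +kernel

theorem o20_1 : chk4 tab av 3 3 [44, 53, 54, 44, 53, 43, 53, 54] [36, 45] true = true := by
  decide +kernel

theorem o18_0 : chk4 tab av 3 0 [44, 53, 54, 44, 53, 43, 53, 54] [50] false = true := by
  decide +kernel

theorem o13_0 : chk4 tab av 2 0 [44, 53, 43, 53, 54] [] false = true := by
  decide +kernel

end CfsgMO.Ck
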