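/-
Checks for the products of involutions, part 8.
-/
import Cfsg.Agent.MO.AxD
import Cfsg.Agent.MO.AxS

set_option autoImplicit false
set_option Elab.async false
set_option maxRecDepth 100000

namespace CfsgMO.Ck

theorem o109_1 : chk5 tab av 10 1 3 [44, 53, 54, 44, 53, 43, 53, 54, 47, 53, 51, 53, 54] [53, 39] true = true := by
  decide +kernel

theorem o97_1 : chk5 tab av 9 1 3 [44, 53, 54, 44, 53, 43, 53, 54, 43, 53, 49, 53, 54] [40, 44, 27] true = true := by
  decide +kernel

theorem o101_1 : chk5 tab av 10 1 3 [44, 53, 54, 44, 53, 43, 53, 54, 47, 53, 51, 53, 54] [38] true = true := by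
  decide +kernel

theorem o94_0 : chk6 tab av 9 4 [44, 53, 54, 44, 53, 43, 53, 54, 43, 53, 49, 53, 54] [46, 45] false = true := by
  decide +kernel

theorem o113_1 : chk6 tab av 11 5 [44, 53, 54, 48, 53, 49, 53, 54, 51, 53, 39, 53, 54] [46, 39] true = true := by
  decide +kernel

theorem o50_1 : chk6 tab av 6 4 [44, 53, 43, 53, 54, 53, 43, 53, 45, 53, 54] [46, 51] true = true := by
  decide +kernel

theorem o28_0 : chk6 tab av 4 3 [44, 53, 54, 48, 53, 49, 53, 54] [45, 53, 39] false = true := by
  decide +kernel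

theorem o59_0 : chk6 tab av 7 0 [44, 53, 43, 53, 54, 53, 42, 53, 38, 53, 54] [45, 53, 36] false = true := by
  decide +kernel

theorem o98_0 : chk6 tab av 10 0 [44, 53, 54, 44, 53, 43, 53, 54, 47, 53, 51, 53, 54] [48, 53, 48] false = true := by
  decide +kernel

theorem o11_1 : chk6 tab av 2 0 [44, 53, 43, 53, 54] [53, 41, 53, 45] true = true := by
  decide +kernel

theorem o36_0 : chk6 tab av 5 1 [44, 53, 43, 53, 54, 53, 49, 53, 39, 53, 54] [53, 50] false = true := by
  decide +kernel

theorem o111_1 : chk6 tab av 11 2 [44, 53, 54, 48, 53, 49, 53, 54, 51, 53, 39, 53, 54] [38] true = true := by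
  decide +kernel

theorem o48_1 : chk4 tab av 6 4 [44, 53, 43, 53, 54, 53, 43, 53, 45, 53, 54] [40, 53, 51] true = true := by
  decide +kernel

theorem o99_0 : chk4 tab av 10 4 [44, 53, 54, 44, 53, 43, 53, 54, 47, 53, 51, 53, 54] [45] false = true := by
  decide +kernel

theorem o34_0 : chk4 tab av 5 4 [44, 53, 43, 53, 54, 53, 49, 53, 39, 53, 54] [40] false = true := by
  decide +kernel

theorem o42_1 : chk4 tab av 5 4 [44, 53, 43, 53, 54, 53, 49, 53, 39, 53, 54] [] true = true := by
  decide +kernel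

theorem o29_0 : chk4 tab av 4 3 [44, 53, 54, 48, 53, 49, 53, 54] [44] false = true := by
  decide +kernel

theorem o30_0 : chk4 tab av 4 3 [44, 53, 54, 48, 53, 49, 53, 54] [] false = true := by
  decide +kernel

theorem o5_0 : chk4 tab av 1 3 [44, 53, 54] [45] false = true := by
  decide +kernel

end CfsgMO.Ck
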