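/-
Checks for the products of involutions, part 9.
-/
import Cfsg.Agent.MO.AxD
import Cfsg.Agent.MO.AxS

set_option autoImplicit false
set_option Elab.async false
set_option maxRecDepth 100000

namespace CfsgMO.Ck

theorem o57_1 : chk5 tab av 7 0 3 [44, 53, 43, 53, 54, 53, 42, 53, 38, 53, 54] [48, 53, 48] true = true := by
  decide +kernel

theorem o46_1 : chk5 tab av 6 1 3 [44, 53, 43, 53, 54, 53, 43, 53, 45, 53, 54] [48, 53, 48] true = true := by
  decide +kernel

theorem o108_0 : chk5 tab av 10 1 3 [44, 53, 54, 44, 53, 43, 53, 54, 47, 53, 51, 53, 54] [45, 27] false = true := by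
  decide +kernel

theorem o25_0 : chk5 tab av 4 0 3 [44, 53, 54, 48, 53, 49, 53, 54] [45, 53, 36] false = true := by
  decide +kernel

theorem o71_0 : chk6 tab av 8 4 [44, 53, 54, 44, 53, 43, 53, 54, 42, 53, 47, 53, 54] [46] false = true := by
  decide +kernel

theorem o53_0 : chk6 tab av 6 4 [44, 53, 43, 53, 54, 53, 43, 53, 45, 53, 54] [43] false = true := by
  decide +kernel

theorem o83_1 : chk6 tab av 8 1 [44, 53, 54, 44, 53, 43, 53, 54, 42, 53, 47, 53, 54] [53, 42] true = true := by
  decide +kernel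

theorem o51_1 : chk6 tab av 6 1 [44, 53, 43, 53, 54, 53, 43, 53, 45, 53, 54] [43, 53, 43] true = true := by
  decide +kernel

theorem o74_1 : chk6 tab av 8 0 [44, 53, 54, 44, 53, 43, 53, 54, 42, 53, 47, 53, 54] [38, 53, 46] true = true := by
  decide +kernel

theorem o76_0 : chk6 tab av 8 1 [44, 53, 54, 44, 53, 43, 53, 54, 42, 53, 47, 53, 54] [44, 42] false = true := by
  decide +kernel

theorem o96_0 : chk6 tab av 9 1 [44, 53, 54, 44, 53, 43, 53, 54, 43, 53, 49, 53, 54] [39] false = true := by
  decide +kernel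

theorem o104_0 : chk6 tab av 10 1 [44, 53, 54, 44, 53, 43, 53, 54, 47, 53, 51, 53, 54] [49] false = true := by
  decide +kernel

theorem o76_1 : chk4 tab av 8 4 [44, 53, 54, 44, 53, 43, 53, 54, 42, 53, 47, 53, 54] [44, 42] true = true := by
  decide +kernel

theorem o38_0 : chk4 tab av 5 4 [44, 53, 43, 53, 54, 53, 49, 53, 39, 53, 54] [47, 50] false = true := by
  decide +kernel

theorem o41_1 : chk4 tab av 5 1 [44, 53, 43, 53, 54, 53, 49, 53, 39, 53, 54] [53, 46] true = true := by
  decide +kernel

theorem o67_0 : chk4 tab av 8 1 [44, 53, 54, 44, 53, 43, 53, 54, 42, 53, 47, 53, 54] [45] false = true := by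
  decide +kernel

theorem o19_0 : chk4 tab av 3 3 [44, 53, 54, 44, 53, 43, 53, 54] [47, 50] false = true := by
  decide +kernel

theorem o15_0 : chk4 tab av 3 0 [44, 53, 54, 44, 53, 43, 53, 54] [45] false = true := by
  decide +kernel

theorem o61_0 : chk2 tab av 7 0 [51, 45] false = true := by
  decide +kernel

theorem o8_1 : chk2 tab av 2 0 [45] true = true := by
  decide +kernel

theorem o3_1 : chk2 tab av 0 0 [27] true = true := by
  decide +kernel

theorem o13_1 : chk2 tab av 2 0 [] true = true := by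
  decide +kernel

end CfsgMO.Ck
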