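/-
The automorphism group of the rank-24 lattice: order, normal subgroups.
-/
import Cfsg.Agent.H6.Max
import Cfsg.Agent.H5.CoOrd
import Cfsg.Prelude.Def_Sporadic

set_option autoImplicit false
set_option linter.unusedSimpArgs false
set_option linter.unusedVariables false

namespace CfsgMO
namespace Cw

open CfsgH5 CfsgH6 Cfsg Finset
open scoped Pointwise

noncomputable section

/-! ### A normal subgroup of the group of the code containing a certain involution -/

/-- an involution with eight fixed points -/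
def sg0 : ℕ := 0x42b49b1d67c4924292b3986d28457
/-- its conjugate by `g` -/
def cj (g : ℕ) : ℕ := mul24 (mul24 g sg0) (inv24 g)
/-- generators as products of four conjugates -/
def wdM : List (ℕ × ℕ × ℕ × ℕ × ℕ) :=
[(0x8ac337dcd548e003a9a42a2cc70a92, 0x78ae4551900a4f38d646700685b6c5, 0x34e89535c1590e5b3d839222080ab7, 0x83897b3248a094f8aca069d211d666, 0x21d3642e6cab62e15e802bc2654a03),
(0xb9c324bac812c6ca00aa991a68d60f, 0x99208655ab2c9e202ac14ba91198f7, 0xb9e002ae75526369190ea3c44605a3, 0xbc0b3b02811a1b57c88732c4a63931, 0xba02c55a8d94126254409bd6588cee),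
(0xba4d6190b46c18e520e18adf315640, 0xb86706d58fa590031dd22a84924563, 0x4066fb901254683399a58092e5d596, 0x9c9b6505c21c1f42aeb101188324f7, 0x2d66381034731f7058e644a2d4ad42),
(0xba5c3ac22242e93619a5248efb2820, 0x31b344287ba42a712cb1bcd2116b1, 0x3d473325eb636245383490217b08a8, 0x2286e0be16450c912c053d67265e2d, 0x8a1d54be0bb4827112ea63466a4ca0),
(0xbd5915d0861b66f538a992207b0820, 0x89c267ac956b876b81931154982292, 0xba9d16d8c87953324052a01751b027, 0xb94c48c9759b28a80da1009c93bd16, 0xc6d29c127199d56280815c8da3cab),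
(0xbd6cb22627638cfa224a834b318820, 0x2c6764058e01930688973aeaa93c74, 0x93482829c81ccccad136884ef02cb7, 0x9c2c615de1655c96968a5a25119c04, 0xba573056960960f60952734c719228),
(0xbc0ea332364b892451ebaccad18820, 0x3226395ece2423463ce9a80225954d, 0x4ac0385cca8cde16d4e4b08ac72292, 0x2d8c0ac6639216221e977402c535e9, 0xbb42611d8f515752440884869b3a93),
(0xbc12ba18ad946c79b11553dc418820, 0x5a0b335c446bc30182ae54acc49e34, 0x4d40b9c5e80a8d0912e5a0db661dc2, 0xa9614044cf729b74b1029ac643cac1, 0x389147cda6ba58b2006174ad08aaa5)]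

theorem wdM_chk : allL (gens chM) (fun s => anyL wdM fun w =>
    band (Nat.beq s (mul24 (mul24 (cj w.2.1) (cj w.2.2.1)) (mul24 (cj w.2.2.2.1) (cj w.2.2.2.2))))
      (band (band (inM24 w.2.1) (inM24 w.2.2.1)) (band (inM24 w.2.2.2.1) (inM24 w.2.2.2.2)))) = true := by
  decide +kernel

theorem M24_top {S : Subgroup Cfsg.M24} [hS : S.Normal] (h : CM.In S sg0) : S = ⊤ := by
  rw [eq_top_iff, ← grp_chM]
  refine CM.grp_le fun s hs => ?_
  have hc : ∀ g, inM24 g = true → CM.In S (cj g) := fun g hg => by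
    obtain ⟨a, -, rfl⟩ := in_CM hg
    obtain ⟨b, hb, e⟩ := h
    refine ⟨a * b * a⁻¹, hS.conj_mem b hb a, ?_⟩
    rw [CM.code_mul, CM.code_mul, CM.code_inv, e]; rfl
  obtain ⟨w, -, hw⟩ := (anyL_iff _ _).1 ((allL_iff _ _).1 wdM_chk s hs)
  simp only [band_eq, Bool.and_eq_true, beq_true_iff] at hw
  obtain ⟨rfl, ⟨h1, h2⟩, h3, h4⟩ := hw
  exact ((hc _ h1).mul (hc _ h2)).mul ((hc _ h3).mul (hc _ h4))

/-! ### Monomial elements -/

theorem mono_mul {g h : Co0} {σ τ : Equiv.Perm GolayPt} {c d : Finset GolayPt} (hg : Mono g σ c)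
    (hh : Mono h τ d) : Mono (g * h) (σ * τ) (symmDiff c (σ • d)) := fun v => by
  rw [mul_smul, hg, hh]
  funext i
  simp only [signedPerm, mem_symmDiff, mem_smul_iff', Equiv.Perm.mul_def, Equiv.symm_trans_apply]
  by_cases h1 : i ∈ c <;> by_cases h2 : σ.symm i ∈ d <;> simp [h1, h2]

theorem mono_one : Mono 1 1 ∅ := fun v => by
  funext i; simp [signedPerm, Equiv.Perm.one_def]

theorem mono_ext {g h : Co0} {σ : Equiv.Perm GolayPt} {c : Finset GolayPt} (hg : Mono g σ c)
    (hh : Mono h σ c) : g = h := co_ext fun v => Subtype.ext (by rw [hg, hh])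

theorem exists_pr : ∃ π : NN →* Cfsg.M24, (∀ g : NN, ∃ c ∈ Sup, Mono g.1 (π g).1 c) ∧
    ∀ (g : NN) σ c, Mono g.1 σ c → (π g).1 = σ := by
  choose F hF c hc hm using fun g : NN => mono_of_NN g.2
  exact ⟨MonoidHom.mk' (fun g => ⟨F g, hF g⟩) fun a b => Subtype.ext
    ((hm (a * b)).unique (mono_mul (hm a) (hm b))).1, fun g => ⟨c g, hc g, hm g⟩,
    fun g σ d h => ((hm g).unique h).1⟩

/-- `g` is `1` or `-1` -/
def Pm (g : Co0) : Prop := (∀ v : LL, g • v = v) ∨ ∀ v : LL, g • v = -v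

theorem pm_short {g : Co0} {v : LL} (hv : sqNorm (v : V) = 32) {w : LL} (h : g • v = v + w + w) :
    g • v = v ∨ g • v = -v := by
  have h1 := co_norm g v
  rw [h, add_assoc, AddSubgroup.coe_add, sqNorm_add, AddSubgroup.coe_add, sqNorm_add, dot_add_right,
    ← sqNorm_eq_dot] at h1
  have h2 := sqNorm_add (v : V) w
  by_cases hw : w = 0
  · left; rw [h, hw]; simp
  · right
    have h3 := min_norm w.2 fun e => hw (Subtype.ext e)
    have h4 : v + w = 0 := by
      by_contra e
      have := min_norm (v + w).2 fun e' => e (Subtype.ext e')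
      rw [AddSubgroup.coe_add] at this
      omega
    rw [h, h4, zero_add]; exact eq_neg_of_add_eq_zero_right h4

/-- the vector `4 e_i + 4 e_j` -/
def du (i j : GolayPt) : LL := ⟨(4 : ℤ) • (Pi.single i 1 + Pi.single j 1), four_smul_mem (by
  simp only [Pi.add_apply, sum_add_distrib, sum_pi_single', mem_univ, if_true]; rfl)⟩

theorem du_apply (i j k : GolayPt) :
    (du i j : V) k = (if k = i then 4 else 0) + if k = j then 4 else 0 := by
  show (4 : ℤ) * ((Pi.single i 1 : V) k + (Pi.single j 1 : V) k) = _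
  simp only [Pi.single_apply]; split_ifs <;> rfl

theorem du_eq (i j : GolayPt) : (du i j : V) = Pi.single i 4 + Pi.single j 4 := by
  funext k; rw [du_apply]; simp only [Pi.add_apply, Pi.single_apply]

theorem norm_du {i j : GolayPt} (h : i ≠ j) : sqNorm (du i j : V) = 32 := by
  rw [du_eq, sqNorm_add, sqNorm_single, sqNorm_single, dot_single_left, Pi.single_apply, if_neg h]
  rfl

theorem pm_of_short {g : Co0} (h : ∀ v : LL, sqNorm (v : V) = 32 → g • v = v ∨ g • v = -v) : Pm g := by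
  let u : LL := ⟨odd0, odd0_mem⟩
  have hu : sqNorm (u : V) = 32 := by decide +kernel
  have hd : ∀ i j, dotInt (u : V) (du i j) ≠ 0 ∨ i = j := fun i j => by
    rw [du_eq, dot_add_right, dot_single_right, dot_single_right]
    show 4 * odd0 i + 4 * odd0 j ≠ 0 ∨ _
    unfold odd0
    split_ifs <;> simp_all
  have he : ∀ i : GolayPt, ∃ j k, i ≠ j ∧ i ≠ k ∧ j ≠ k := by decide +kernel
  have hs : ∀ i j k, i ≠ j → i ≠ k → j ≠ k → e8 i = du i j + du i k - du j k := fun i j k h1 h2 h3 => by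
    apply Subtype.ext
    rw [AddSubgroup.coe_sub, AddSubgroup.coe_add, du_eq, du_eq, du_eq, coe_e8]
    rw [show (8 : ℤ) = 4 + 4 from rfl, Pi.single_add]; abel
  rcases h u hu with h0 | h0
  · have k : ∀ i j, i ≠ j → g • du i j = du i j := fun i j hij => by
      refine (h _ (norm_du hij)).resolve_right fun e => ?_
      have := co_dot g u (du i j)
      rw [h0, e, AddSubgroup.coe_neg, dot_neg_right] at this
      have := (hd i j).resolve_right hij
      omega
    left
    have : g = 1 := co_ext_e8 fun i => by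
      obtain ⟨j, l, h1, h2, h3⟩ := he i
      rw [one_smul, hs i j l h1 h2 h3, co_sub, co_add, k _ _ h1, k _ _ h2, k _ _ h3]
    intro v; rw [this, one_smul]
  · have k : ∀ i j, i ≠ j → g • du i j = -du i j := fun i j hij => by
      refine (h _ (norm_du hij)).resolve_left fun e => ?_
      have := co_dot g u (du i j)
      rw [h0, e, AddSubgroup.coe_neg, dot_neg_left] at this
      have := (hd i j).resolve_right hij
      omega
    right
    obtain ⟨n, hn⟩ := exists_neg
    have : g = n := co_ext_e8 fun i => by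
      obtain ⟨j, l, h1, h2, h3⟩ := he i
      rw [hn, hs i j l h1 h2 h3, co_sub, co_add, k _ _ h1, k _ _ h2, k _ _ h3]; abel
    intro v; rw [this, hn]

/-- an automorphism which is trivial modulo twice the lattice is `±1` -/
theorem pm_of_mod {g : Co0} (h : ∀ v : LL, ∃ w, g • v = v + w + w) : Pm g :=
  pm_of_short fun v hv => (h v).elim fun w hw => pm_short hv hw

theorem closure_short {T : AddSubgroup LL} (h : ∀ v : LL, sqNorm (v : V) = 32 → v ∈ T) (v : LL) :
    v ∈ T := by
  have : leechLattice ≤ T.map leechLattice.subtype := by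
    conv_lhs => rw [← closure_L2]
    rw [AddSubgroup.closure_le]
    intro x hx
    exact ⟨⟨x, hx.1⟩, h _ hx.2, rfl⟩
  obtain ⟨w, hw, e⟩ := this v.2
  rwa [← show w = v from Subtype.ext e]

theorem pm_of_le {K : Subgroup Co0} [hK : K.Normal] (h : K ≤ NN) {g : Co0} (hg : g ∈ K) : Pm g := by
  let T : AddSubgroup LL :=
    { carrier := {v | ∀ k ∈ K, ∃ w, k • v = v + w + w}
      zero_mem' := fun k _ => ⟨0, by simp [co_zero]⟩
      add_mem' := fun {a b} ha hb k hk => by
        obtain ⟨w, e⟩ := ha k hk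
        obtain ⟨w', e'⟩ := hb k hk
        exact ⟨w + w', by rw [co_add, e, e']; abel⟩
      neg_mem' := fun {a} ha k hk => by
        obtain ⟨w, e⟩ := ha k hk
        exact ⟨-w, by rw [co_neg, e]; abel⟩ }
  have hT : ∀ (x : Co0) v, v ∈ T → x • v ∈ T := fun x v hv k hk => by
    obtain ⟨w, e⟩ := hv (x⁻¹ * k * x) (by simpa using hK.conj_mem k hk x⁻¹)
    refine ⟨x • w, ?_⟩
    rw [← co_add, ← co_add, ← e, mul_smul, mul_smul, smul_inv_smul]
  have h8 : e8 none ∈ T := fun k hk => (cross_iff.1 (NN_cross (h hk) (e8_cross none))).2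
  obtain ⟨ξ, -, hξ⟩ := xi_valid
  have hA : okV xiA = true := by decide +kernel
  have h6 : ξ • vec xiA = e8 none :=
    hξ.smul_eq (okV_norm hA) (bd_of_sqNorm (norm_e8 _).le)
      (by rw [enc_vec (okV_inL hA), enc_e8]; decide +kernel)
  have ha : vec xiA ∈ T := by
    have := hT ξ⁻¹ _ h8
    rwa [← h6, inv_smul_smul] at this
  obtain ⟨a, a1, a2, a3, a4⟩ := trans4 (a := pt 23) (b := pt 0) (c := pt 1) (d := pt 3)
    (by decide) (by decide) (by decide) (by decide) (by decide) (by decide)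
  obtain ⟨m, hm⟩ := exists_mono (σ := (a⁻¹ : Cfsg.M24).1) (a⁻¹).2 empty_mem_Sup
  have hx : (vec xiA : V) = Pi.single (pt 0) 4 + Pi.single (pt 1) 4 + Pi.single (pt 2) 4 -
      Pi.single (pt 23) 4 := by
    rw [coe_vec (okV_inL hA)]; decide +kernel
  have hs : ∀ (i j : GolayPt), a • i = j →
      signedPerm (a⁻¹ : Cfsg.M24).1 ∅ (Pi.single j 4) = Pi.single i 4 := fun i j e => by
    rw [signedPerm_single, if_neg (notMem_empty _), ← e]
    congr 1
    exact inv_smul_smul a i
  have hl : ∀ x y : V, signedPerm (a⁻¹ : Cfsg.M24).1 ∅ (x + y) =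
      signedPerm (a⁻¹ : Cfsg.M24).1 ∅ x + signedPerm (a⁻¹ : Cfsg.M24).1 ∅ y := fun x y => by
    funext i; simp [signedPerm]
  have hl' : ∀ x y : V, signedPerm (a⁻¹ : Cfsg.M24).1 ∅ (x - y) =
      signedPerm (a⁻¹ : Cfsg.M24).1 ∅ x - signedPerm (a⁻¹ : Cfsg.M24).1 ∅ y := fun x y => by
    funext i; simp [signedPerm]
  have hb : sqNorm ((vec xiA - m • vec xiA : LL) : V) = 32 := by
    rw [AddSubgroup.coe_sub, hm, hx, hl', hl, hl, hs _ _ a1, hs _ _ a2, hs _ _ a3, hs _ _ a4]
    decide +kernel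
  obtain ⟨y, hy⟩ := transL2 _ hb
  have h0 : v0 ∈ T := hy ▸ hT y _ (T.sub_mem ha (hT m _ ha))
  refine pm_of_mod fun v => closure_short (T := T) (fun v hv => ?_) v g hg
  obtain ⟨x, e⟩ := transL2 v hv
  have := hT x⁻¹ _ h0
  rwa [← e, inv_smul_smul] at this

theorem not_pm {g : Co0} {c : Finset GolayPt} (h : Mono g 1 c) (hc : c.card = 8) : ¬ Pm g := by
  rintro (e | e)
  · obtain ⟨i, hi⟩ := card_pos.1 (by omega : 0 < c.card)
    exact (Lee.fix_of_mono h (e (e8 i))).2 hi
  · obtain ⟨i, hi⟩ : ∃ i, i ∉ c := by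
      by_contra hn; push Not at hn
      rw [eq_univ_iff_forall.2 hn] at hc
      exact absurd hc (by decide)
    have := congrFun (h (e8 i)) i
    rw [e, coe_e8, signedPerm_single] at this
    simp [hi, coe_e8] at this

/-- a normal subgroup containing all sign changes is everything -/
theorem top_of_signs {K : Subgroup Co0} [hK : K.Normal]
    (h : ∀ g c, c ∈ Sup → Mono g 1 c → g ∈ K) : K = ⊤ := by
  obtain ⟨π, hπ, hπ'⟩ := exists_pr
  have hsurj : Function.Surjective π := fun σ => by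
    obtain ⟨g, hg⟩ := exists_mono σ.2 empty_mem_Sup
    exact ⟨⟨g, hg.mem_NN⟩, Subtype.ext (hπ' _ _ _ hg)⟩
  haveI : ((K.subgroupOf NN).map π).Normal := Subgroup.Normal.map inferInstance _ hsurj
  have hO : ts 0xc75001 ∈ Sup := (mem_Sup _).2 (by rw [mk_ts (by decide)]; decide +kernel)
  have hc : ts 0x293e ∈ Sup := (mem_Sup _).2 (by rw [mk_ts (by decide)]; decide +kernel)
  obtain ⟨e, he⟩ := exists_mono Cfsg.M24.one_mem hO
  obtain ⟨σ, -, hσ⟩ := in_CM (p := sg0) (by decide +kernel)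
  obtain ⟨m, hm⟩ := exists_mono σ.2 hc
  obtain ⟨ξ, -, hξ⟩ := xi_valid
  have col : ∀ i j, ((ξ • e8 i : LL) : V) j = matOf xiC j i := fun i j => by
    have := congrFun (hξ.2 (e8 i)) j
    rw [coe_e8, Matrix.mulVec_single] at this
    simp only [Pi.smul_apply, smul_eq_mul, MulOpposite.smul_eq_mul_unop, MulOpposite.unop_op,
      Matrix.col_apply, Matrix.transpose_apply] at this
    omega
  have key : ξ * e = m * ξ := co_ext_e8 fun i => by
    have h1 : e • e8 i = if i ∈ ts 0xc75001 then -e8 i else e8 i := by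
      apply Subtype.ext
      rw [he, coe_e8, signedPerm_single]
      by_cases hi : i ∈ ts 0xc75001
      · rw [if_pos hi, if_pos (show (1 : Equiv.Perm GolayPt) i ∈ _ from hi), AddSubgroup.coe_neg,
          coe_e8, Pi.single_neg]; rfl
      · rw [if_neg hi, if_neg (show (1 : Equiv.Perm GolayPt) i ∉ _ from hi)]; rfl
    apply Subtype.ext
    funext j
    have h2 : σ.1.symm j = pt (app24 (inv24 sg0) (pn j)) := by
      rw [← hσ, show inv24 (CM.code σ) = CM.code σ⁻¹ from (CM.code_inv σ).symm, ← pn_smulM, pt_pn]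
      rfl
    rw [mul_smul, mul_smul, hm, h1]
    simp only [signedPerm]
    rw [col, h2]
    have h3 : ∀ i j : GolayPt, (if i ∈ ts 0xc75001 then -matOf xiC j i else matOf xiC j i) =
        if j ∈ ts 0x293e then -matOf xiC (pt (app24 (inv24 sg0) (pn j))) i
        else matOf xiC (pt (app24 (inv24 sg0) (pn j))) i := by decide +kernel
    rw [← h3]
    split_ifs
    · rw [co_neg, AddSubgroup.coe_neg, Pi.neg_apply, col]
    · rw [col]
  have hmK : m ∈ K := by
    have := hK.conj_mem e (h _ _ hO he) ξ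
    rwa [key, mul_inv_cancel_right] at this
  have htop : (K.subgroupOf NN).map π = ⊤ :=
    M24_top ⟨σ, ⟨⟨m, hm.mem_NN⟩, hmK, Subtype.ext (hπ' _ _ _ hm)⟩, hσ⟩
  have hN : NN ≤ K := fun g hg => by
    obtain ⟨k, hk, e⟩ : π ⟨g, hg⟩ ∈ (K.subgroupOf NN).map π := htop ▸ Subgroup.mem_top _
    obtain ⟨c, hc, hm⟩ := hπ (k⁻¹ * ⟨g, hg⟩)
    rw [map_mul, map_inv, e, inv_mul_cancel] at hm
    have := K.mul_mem hk (h _ _ hc hm)
    simpa using this
  by_contra hne
  have : K ≤ NN := fun g hg => by_contra fun hn => hne (top_of_gt hN hg hn)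
  exact not_pm he (by rw [card_ts (by decide)]; decide +kernel) (pm_of_le this (h _ _ hO he))

/-- the group of sign changes -/
def EE : Subgroup Co0 where
  carrier := {g | ∃ c ∈ Sup, Mono g 1 c}
  one_mem' := ⟨∅, empty_mem_Sup, mono_one⟩
  mul_mem' := by
    rintro g h ⟨c, hc, hg⟩ ⟨d, hd, hh⟩
    refine ⟨symmDiff c d, symmDiff_mem_Sup hc hd, ?_⟩
    simpa using mono_mul hg hh
  inv_mem' := by
    rintro g ⟨c, hc, hg⟩
    have h1 := mono_mul hg hg
    simp only [mul_one, one_smul, symmDiff_self, bot_eq_empty] at h1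
    rw [inv_eq_of_mul_eq_one_right (mono_ext h1 mono_one)]
    exact ⟨c, hc, hg⟩

theorem EE_comm {g h : Co0} (hg : g ∈ EE) (hh : h ∈ EE) : g * h = h * g := by
  obtain ⟨c, hc, hg⟩ := hg
  obtain ⟨d, hd, hh⟩ := hh
  have h1 := mono_mul hg hh
  have h2 := mono_mul hh hg
  simp only [mul_one, one_smul] at h1 h2
  rw [symmDiff_comm] at h2
  exact mono_ext h1 h2

theorem mono_conj {g e : Co0} {σ : Equiv.Perm GolayPt} {c d : Finset GolayPt} (hd : d ∈ Sup)
    (hσ : σ ∈ Cfsg.M24) (hg : Mono g σ c) (he : Mono e 1 d) : Mono (g * e * g⁻¹) 1 (σ • d) := by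
  obtain ⟨e', he'⟩ := exists_mono Cfsg.M24.one_mem (smul_mem_Sup hσ hd)
  have h1 := mono_mul hg he
  have h2 := mono_mul he' hg
  simp only [mul_one, one_mul, one_smul] at h1 h2
  rw [symmDiff_comm] at h2
  rw [mono_ext h1 h2, mul_inv_cancel_right]
  exact he'

/-- a normal subgroup with abelian quotient is everything -/
theorem top_of_comm {K : Subgroup Co0} [hK : K.Normal] (h : ∀ a b : Co0, a * b * a⁻¹ * b⁻¹ ∈ K) :
    K = ⊤ := by
  have conj : ∀ c d, c ∈ octads → d ∈ octads → (∀ g, Mono g 1 c → g ∈ K) →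
      ∀ g, Mono g 1 d → g ∈ K := fun c d hc hd hK' g hg => by
    obtain ⟨σ, rfl⟩ := trans_octads hc hd
    obtain ⟨m, hm⟩ := exists_mono σ.2 empty_mem_Sup
    obtain ⟨e, he⟩ := exists_mono Cfsg.M24.one_mem ((mem_octads _).1 hc).1
    rw [mono_ext hg (mono_conj ((mem_octads _).1 hc).1 σ.2 hm he)]
    exact hK.conj_mem _ (hK' e he) m
  have o1 : ts 0xc75001 ∈ octads := ts_mem_octads (by decide +kernel)
  have o2 : ts 0x6e3008 ∈ octads := ts_mem_octads (by decide +kernel)
  have o3 : ts 0xa96009 ∈ octads := ts_mem_octads (by decide +kernel)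
  have h3 : ∀ g, Mono g 1 (ts 0xa96009) → g ∈ K := fun g hg => by
    obtain ⟨σ, hσ⟩ := trans_octads o1 o2
    obtain ⟨m, hm⟩ := exists_mono σ.2 empty_mem_Sup
    obtain ⟨e, he⟩ := exists_mono Cfsg.M24.one_mem ((mem_octads _).1 o1).1
    have h1 := mono_conj ((mem_octads _).1 o1).1 σ.2 hm he
    have h2 := mono_mul he he
    simp only [mul_one, one_smul, symmDiff_self, bot_eq_empty] at h2
    have h4 := mono_mul h1 he
    have h5 : σ.1 • ts 0xc75001 = ts 0x6e3008 := hσ
    rw [h5, mul_one, one_smul, show symmDiff (ts 0x6e3008) (ts 0xc75001) = ts 0xa96009 by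
      decide +kernel] at h4
    rw [mono_ext hg h4]
    have := h m e
    rwa [inv_eq_of_mul_eq_one_right (mono_ext h2 mono_one)] at this
  refine top_of_signs fun g c hc hg => ?_
  have := isC_induction (P := fun m => isC m = true ∧ ∀ g, Mono g 1 (ts m) → g ∈ K)
    ⟨isC_zero, fun g hg => ?_⟩ (fun a b ha hb => ⟨isC_xor ha.1 hb.1, fun g hg => ?_⟩)
    (fun b hb => ?_) ((mem_Sup c).1 hc)
  · exact this.2 g (by rwa [ts_mk])
  · rw [show ts 0 = ∅ by decide +kernel] at hg
    rw [mono_ext hg mono_one]; exact K.one_mem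
  · have sa : ts a ∈ Sup := (mem_Sup _).2 (by rw [mk_ts (isC_lt ha.1)]; exact ha.1)
    have sb : ts b ∈ Sup := (mem_Sup _).2 (by rw [mk_ts (isC_lt hb.1)]; exact hb.1)
    obtain ⟨e, he⟩ := exists_mono Cfsg.M24.one_mem sa
    obtain ⟨e', he'⟩ := exists_mono Cfsg.M24.one_mem sb
    have h1 := mono_mul he he'
    have h2 : symmDiff (ts a) (ts b) = ts (a ^^^ b) := mk_inj (by
      rw [mk_ts (isC_lt (isC_xor ha.1 hb.1))]
      refine (E24.mask_symmDiff _ _).trans ?_
      rw [E24.mask_toSet (isC_lt ha.1), E24.mask_toSet (isC_lt hb.1)]; rfl)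
    rw [mul_one, one_smul, h2] at h1
    rw [mono_ext hg h1]
    exact K.mul_mem (ha.2 _ he) (hb.2 _ he')
  · have : ∀ b ∈ basisW, isOct b = true ∧ isC b = true := by decide +kernel
    exact ⟨(this b hb).2, conj _ _ o3 (ts_mem_octads (this b hb).1) h3⟩

/-- a normal subgroup is contained in `±1` or is everything -/
theorem normal_cases (K : Subgroup Co0) [hK : K.Normal] : (∀ g ∈ K, Pm g) ∨ K = ⊤ := by
  by_cases hN : K ≤ NN
  · exact Or.inl fun g hg => pm_of_le hN hg
  right
  obtain ⟨k, hk, hk'⟩ := SetLike.not_le_iff_exists.1 hN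
  have hEn : NN ≤ Subgroup.normalizer (EE : Set Co0) := fun g hg => by
    have key : ∀ g ∈ NN, ∀ e ∈ EE, g * e * g⁻¹ ∈ EE := by
      rintro g hg e ⟨d, hd, he⟩
      obtain ⟨σ, hσ, c, hc, hm⟩ := mono_of_NN hg
      exact ⟨_, smul_mem_Sup hσ hd, mono_conj hd hσ hm he⟩
    refine Subgroup.mem_normalizer_iff.2 fun e => ⟨key g hg e, fun h => ?_⟩
    have := key g⁻¹ (NN.inv_mem hg) _ h
    simpa [mul_assoc] using this
  have hmem : ∀ g, g ∈ K ⊔ EE ↔ ∃ a ∈ K, ∃ e ∈ EE, a * e = g := fun g => by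
    rw [← SetLike.mem_coe, Subgroup.normal_mul]; rfl
  haveI hn : (K ⊔ EE).Normal := by
    rw [← Subgroup.normalizer_eq_top_iff]
    refine top_of_gt (fun g hg => ?_) (Subgroup.le_normalizer (le_sup_left (a := K) (b := EE) hk)) hk'
    have key : ∀ g ∈ NN, ∀ x ∈ K ⊔ EE, g * x * g⁻¹ ∈ K ⊔ EE := fun g hg x hx => by
      obtain ⟨a, ha, e, he, rfl⟩ := (hmem x).1 hx
      exact (hmem _).2 ⟨_, hK.conj_mem a ha g, _, (Subgroup.mem_normalizer_iff.1 (hEn hg) e).1 he,
        by group⟩
    refine Subgroup.mem_normalizer_iff.2 fun e => ⟨key g hg e, fun h => ?_⟩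
    have := key g⁻¹ (NN.inv_mem hg) _ h
    simpa [mul_assoc] using this
  have ht : K ⊔ EE = ⊤ := top_of_signs fun g c hc hg => le_sup_right (a := K) (b := EE) ⟨c, hc, hg⟩
  refine top_of_comm fun a b => ?_
  obtain ⟨x, hx, e, he, rfl⟩ := (hmem a).1 (ht ▸ Subgroup.mem_top a)
  obtain ⟨y, hy, f, hf, rfl⟩ := (hmem b).1 (ht ▸ Subgroup.mem_top b)
  rw [← QuotientGroup.eq_one_iff]
  have h1 := (QuotientGroup.eq_one_iff x).2 hx
  have h2 := (QuotientGroup.eq_one_iff y).2 hy
  have h3 : (e : Co0 ⧸ K) * f = f * e := by rw [← QuotientGroup.mk_mul, EE_comm he hf]; rfl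
  simp only [QuotientGroup.mk_mul, QuotientGroup.mk_inv, h1, h2, one_mul]
  rw [h3]; group

/-- a subgroup containing all squares is everything -/
theorem top_of_sq {K : Subgroup Co0} (h : ∀ g, g * g ∈ K) : K = ⊤ := by
  have hc : ∀ a b : Co0, a * b * a⁻¹ * b⁻¹ ∈ K := fun a b => by
    have := K.mul_mem (K.mul_mem (h a) (h (a⁻¹ * b))) (h b⁻¹)
    convert this using 1; group
  haveI : K.Normal := ⟨fun n hn g => by
    have := K.mul_mem (hc g n) hn
    simpa using this⟩
  exact top_of_comm hc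

/-! ### The order -/

theorem card_le_step {G X : Type*} [Group G] [MulAction G X] (K : Subgroup G) {y : X} {Y : Finset X}
    (h : ∀ g ∈ K, g • y ∈ Y) :
    Nat.card K ≤ Y.card * Nat.card (K ⊓ MulAction.stabilizer G y : Subgroup G) := by
  rw [← card_step K (y := y) (Y := MulAction.orbit K y) (fun x ⟨g, e⟩ => ⟨g⁻¹, K.inv_mem g.2, by
    rw [← e]; exact inv_smul_smul g.1 y⟩) fun g hg => ⟨⟨g, hg⟩, rfl⟩]
  refine Nat.mul_le_mul_right _ ?_
  rw [← Set.ncard_coe_finset]
  refine Set.ncard_le_ncard ?_ Y.finite_toSet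
  rintro _ ⟨g, rfl⟩
  exact h g g.2

theorem cross_cases {v : LL} (h : (v : V) ∈ stdCross) : ∃ i, v = e8 i ∨ v = -e8 i := by
  obtain ⟨i, s, hs, e⟩ := h
  refine ⟨i, ?_⟩
  rcases hs with rfl | rfl
  · exact Or.inl (Subtype.ext e)
  · exact Or.inr (Subtype.ext (by rw [e, AddSubgroup.coe_neg, coe_e8, ← Pi.single_neg]))

theorem card_S0_eq : Nat.card (CfsgH6.Fix [w0c, v0c]) = 454164480 := by
  classical
  refine le_antisymm Lee.card_S0.2 ?_
  let f : GolayPt × Bool → LL := fun p => if p.2 then e8 p.1 else -e8 p.1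
  have h1 := card_le_step NN (y := e8 none) (Y := univ.image f) fun g hg => by
    obtain ⟨i, e | e⟩ := cross_cases (NN_cross hg (e8_cross none))
    · exact mem_image.2 ⟨(i, true), mem_univ _, e.symm⟩
    · exact mem_image.2 ⟨(i, false), mem_univ _, e.symm⟩
  have h2 := card_le_step (NN ⊓ MulAction.stabilizer Co0 (e8 none)) (y := e8 (some 0))
    (Y := ((univ.erase none) ×ˢ univ).image f) fun g hg => by
    have h3 := co_dot_fix (g := g) (v := e8 none) hg.2 (e8 (some 0))
    obtain ⟨i, e | e⟩ := cross_cases (NN_cross hg.1 (e8_cross (some 0)))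
    · refine mem_image.2 ⟨(i, true), ?_, e.symm⟩
      have : i ≠ none := by
        rintro rfl
        rw [e, coe_e8, coe_e8, dot_single_left, dot_single_left] at h3
        simp at h3
      simp [this]
    · refine mem_image.2 ⟨(i, false), ?_, e.symm⟩
      have : i ≠ none := by
        rintro rfl
        rw [e, AddSubgroup.coe_neg, dot_neg_right, coe_e8, coe_e8, dot_single_left,
          dot_single_left] at h3
        simp at h3
      simp [this]
  have c1 : (univ.image f).card ≤ 48 := card_image_le.trans (by decide)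
  have c2 : (((univ.erase none) ×ˢ univ).image f).card ≤ 46 := card_image_le.trans (by decide)
  haveI := Lee.card_S0.1
  have h3 : Nat.card (NN ⊓ MulAction.stabilizer Co0 (e8 none) ⊓ MulAction.stabilizer Co0 (e8 (some 0)) :
      Subgroup Co0) ≤ Nat.card (CfsgH6.Fix [w0c, v0c]) := by
    refine Subgroup.card_le_of_le fun g hg => Lee.mem_Fix2.2 ?_
    have a1 : g • e8 none = e8 none := hg.1.2
    have a2 : g • e8 (some 0) = e8 (some 0) := hg.2
    rw [← v0_add_w0, co_add] at a1
    rw [← Lee.v0_sub_w0, co_sub] at a2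
    have a3 : g • v0 = v0 := by
      apply Subtype.ext; funext i
      have b1 := congrFun (congrArg Subtype.val a1) i
      have b2 := congrFun (congrArg Subtype.val a2) i
      simp only [AddSubgroup.coe_add, AddSubgroup.coe_sub, Pi.add_apply, Pi.sub_apply] at b1 b2
      omega
    rw [a3] at a1
    exact ⟨a3, add_left_cancel a1⟩
  rw [card_NN] at h1
  have h4 := h1.trans (Nat.mul_le_mul c1 (h2.trans (Nat.mul_le_mul c2 h3)))
  omega

theorem card_L2F : L2F.card = 196560 := by
  rw [card_eq_sum_card_fiberwise (f := fun x => kA (enc x)) (t := range 17) fun x hx => ?_]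
  · simp only [passA.2]; decide +kernel
  · have hx := mem_L2F.1 hx
    have h1 := kA_eq hx
    have h2 := sqNorm_nonneg ((v0 : V) - x)
    rw [sqNorm_sub, norm_v0, hx.2] at h2
    simp only [coe_range, Set.mem_Iio]
    omega

theorem ncard_short : {x : LL | sqNorm (x : V) = 32}.ncard = 196560 := by
  rw [← card_L2F]
  exact ncard_LL _ _ fun x => by rw [mem_L2F]; exact ⟨fun h => ⟨h.1, h.2⟩, fun ⟨h, h'⟩ => ⟨h, h'⟩⟩

theorem card_Co0 : Nat.card Co0 = 8315553613086720000 := by
  have h1 := card_step (⊤ : Subgroup Co0) (y := v0) (Y := {x : LL | sqNorm (x : V) = 32})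
    (fun x hx => (transL2 x hx).elim fun g hg => ⟨g, trivial, hg⟩)
    fun g _ => (co_norm g v0).trans norm_v0
  have h2 : ⊤ ⊓ MulAction.stabilizer Co0 v0 = CfsgH6.Fix [v0c] := by
    ext g; rw [Lee.mem_Fix1]; simp
  rw [h2, ← Lee.step0, card_S0_eq, ncard_short, Subgroup.card_top] at h1
  rw [← h1]

instance finite_Co0 : Finite Co0 := Nat.finite_of_card_ne_zero (by rw [card_Co0]; decide)

/-- the image of a homomorphism with kernel `±1` -/
theorem range_isCo1 {H : Type*} [Group H] (ρ : Co0 →* H) (h : ∀ g, ρ g = 1 ↔ Pm g) :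
    Cfsg.IsCo1 ρ.range := by
  obtain ⟨n, hn⟩ := exists_neg
  have hn1 : n ≠ 1 := fun e => by
    have := congrFun (congrArg Subtype.val (hn (e8 none))) none
    rw [e, one_smul] at this
    simp [coe_e8] at this
  have hk : Nat.card ρ.ker = 2 := by
    have : (ρ.ker : Set Co0) = {1, n} := by
      ext g
      simp only [SetLike.mem_coe, MonoidHom.mem_ker, h, Set.mem_insert_iff, Set.mem_singleton_iff]
      exact ⟨fun k => k.imp (fun e => co_ext fun v => by rw [e, one_smul])
        fun e => co_ext fun v => by rw [e, hn], fun k => k.imp (fun e v => by rw [e, one_smul])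
        fun e v => by rw [e, hn]⟩
    rw [← SetLike.coe_sort_coe, this, Nat.card_coe_set_eq, Set.ncard_pair hn1.symm]
  have hc : Nat.card ρ.range = 4157776806543360000 := by
    have := Subgroup.card_mul_index ρ.ker
    rw [hk, Subgroup.index_ker, card_Co0] at this
    omega
  haveI : Finite ρ.range := Nat.finite_of_card_ne_zero (by rw [hc]; decide)
  haveI : Nontrivial ρ.range := Finite.one_lt_card_iff_nontrivial.1 (by rw [hc]; decide)
  refine ⟨⟨fun L hL => ?_⟩, hc⟩
  rcases normal_cases (L.comap ρ.rangeRestrict) with k | k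
  · left
    rw [eq_bot_iff]
    intro x hx
    obtain ⟨g, rfl⟩ := ρ.rangeRestrict_surjective x
    exact Subtype.ext ((h g).2 (k g hx))
  · right
    rw [eq_top_iff]
    intro x _
    obtain ⟨g, rfl⟩ := ρ.rangeRestrict_surjective x
    exact (k ▸ Subgroup.mem_top g : g ∈ L.comap ρ.rangeRestrict)

end

end Cw
end CfsgMO
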