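/-
Bit-sliced evaluation of structured linear maps (WP E), part 2: numeric evaluation.
-/
import Cfsg.Agent.MO.E1

set_option autoImplicit false

namespace CfsgMO

/-! ### numeric evaluation: two's complement bit planes, lowest plane first, last plane = sign -/

def val : List ℕ → ℕ → ℤ
  | [], _ => 0
  | [p], i => if p.testBit i then -1 else 0
  | p :: q :: r, i => (if p.testBit i then 1 else 0) + 2 * val (q :: r) i

def valQ (u : List ℕ) : ℕ → ℚ := fun i => (val u i : ℚ)

theorem val_cons (p : ℕ) {r : List ℕ} (h : r ≠ []) (i : ℕ) :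
    val (p :: r) i = (if p.testBit i then 1 else 0) + 2 * val r i := by
  cases r with
  | nil => exact absurd rfl h
  | cons q r => rfl

theorem val_one (p i : ℕ) : val [p] i = if p.testBit i then -1 else 0 := rfl

theorem val_map {f : ℕ → ℕ} {i j : ℕ} (h : ∀ p, (f p).testBit i = p.testBit j) (u : List ℕ) :
    val (u.map f) i = val u j := by
  induction u with
  | nil => rfl
  | cons p r ih =>
    cases r with
    | nil => simp [val, h]
    | cons q r => rw [List.map_cons, val_cons _ (by simp), ih, h, val]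

theorem val_map_zero {f : ℕ → ℕ} {i : ℕ} (h : ∀ p, (f p).testBit i = false) (u : List ℕ) :
    val (u.map f) i = 0 := by
  induction u with
  | nil => rfl
  | cons p r ih =>
    cases r with
    | nil => simp [val, h]
    | cons q r => rw [List.map_cons, val_cons _ (by simp), ih, h]; simp

theorem val_map_xor (H i : ℕ) {u : List ℕ} (hu : u ≠ []) :
    val (u.map fun p => Nat.xor p H) i = if H.testBit i then -val u i - 1 else val u i := by
  induction u with
  | nil => exact absurd rfl hu
  | cons p r ih =>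
    cases r with
    | nil =>
      simp only [List.map_cons, List.map_nil, val, tb_xor]
      cases p.testBit i <;> cases H.testBit i <;> simp
    | cons q r =>
      rw [List.map_cons, val_cons _ (by simp), ih (by simp), val, tb_xor]
      cases p.testBit i <;> cases H.testBit i <;> simp <;> ring

/-- apply `f` to all planes -/
def mapK (f : ℕ → ℕ) (u : List ℕ) (k : List ℕ → Bool) : Bool :=
  List.rec (motive := fun _ => (List ℕ → Bool) → Bool) (fun k => k [])
    (fun p _ ih k => (fun y => fb y (ih fun r => k (y :: r))) (f p)) u k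

theorem mapK_eq (f : ℕ → ℕ) (u : List ℕ) (k : List ℕ → Bool) : mapK f u k = k (u.map f) := by
  induction u generalizing k with
  | nil => rfl
  | cons p r ih => exact (fb_eq _ _).trans (ih _)

/-- negate under the mask `m` -/
def negA (m : ℕ) (u : List ℕ) (c ov : ℕ) (k : List ℕ → Bool) : Bool :=
  List.rec (motive := fun _ => ℕ → ℕ → (List ℕ → Bool) → Bool) (fun _ ov k => an (iz ov) (k []))
    (fun p _ ih c _ k => (fun s => (fun o c' => fb o (fb c' (ih c' (Nat.land c o) fun r => k (o :: r))))
      (Nat.xor s c) (Nat.land s c)) (Nat.xor p m)) u c ov k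

theorem negA_cons (m p : ℕ) (u : List ℕ) (c ov : ℕ) (k : List ℕ → Bool) :
    negA m (p :: u) c ov k = negA m u (Nat.land (Nat.xor p m) c)
      (Nat.land c (Nat.xor (Nat.xor p m) c)) fun r => k (Nat.xor (Nat.xor p m) c :: r) :=
  (fb_eq _ _).trans (fb_eq _ _)

theorem negA_sound {m : ℕ} {u : List ℕ} (hu : u ≠ []) {c ov : ℕ} {k : List ℕ → Bool}
    (e : negA m u c ov k = true) : ∃ s, s ≠ [] ∧ k s = true ∧ ∀ i, val s i =
      val (u.map fun p => Nat.xor p m) i + if c.testBit i then 1 else 0 := by
  induction u generalizing c ov k with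
  | nil => exact absurd rfl hu
  | cons p r ih =>
    rw [negA_cons] at e
    by_cases hr : r = []
    · subst hr
      change an _ _ = true at e
      rw [an_eq, Bool.and_eq_true] at e
      refine ⟨_, by simp, e.2, fun i => ?_⟩
      have := iz_bit e.1 i
      simp only [tb_land, tb_xor] at this
      simp only [List.map_cons, List.map_nil, val, tb_xor]
      revert this
      cases p.testBit i <;> cases m.testBit i <;> cases c.testBit i <;> simp
    · obtain ⟨s, hs, hk, h⟩ := ih hr e
      refine ⟨_, by simp, hk, fun i => ?_⟩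
      rw [val_cons _ hs, h, List.map_cons, val_cons _ (by simpa using hr)]
      simp only [tb_land, tb_xor]
      cases p.testBit i <;> cases m.testBit i <;> cases c.testBit i <;> simp <;> ring

/-- sum with carry; the result has one more plane -/
def add2 (u v : List ℕ) (c top : ℕ) (k : List ℕ → Bool) : Bool :=
  List.rec (motive := fun _ => List ℕ → ℕ → ℕ → (List ℕ → Bool) → Bool)
    (fun v _ top k => List.casesOn (motive := fun _ => Bool) v (fb top (k [top])) (fun _ _ => false))
    (fun a _ ih v c _ k => List.casesOn (motive := fun _ => Bool) v false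
      (fun b v' => (fun x y => (fun o c' =>
        fb o (fb c' (ih v' c' (Nat.lor y (Nat.land x o)) fun r => k (o :: r))))
        (Nat.xor x c) (Nat.lor y (Nat.land x c))) (Nat.xor a b) (Nat.land a b))) u v c top k

theorem add2_cons (a b : ℕ) (u v : List ℕ) (c top : ℕ) (k : List ℕ → Bool) :
    add2 (a :: u) (b :: v) c top k = add2 u v (Nat.lor (Nat.land a b) (Nat.land (Nat.xor a b) c))
      (Nat.lor (Nat.land a b) (Nat.land (Nat.xor a b) (Nat.xor (Nat.xor a b) c)))
      fun r => k (Nat.xor (Nat.xor a b) c :: r) :=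
  (fb_eq _ _).trans (fb_eq _ _)

theorem add2_sound {u v : List ℕ} (hu : u ≠ []) {c top : ℕ} {k : List ℕ → Bool}
    (e : add2 u v c top k = true) : v ≠ [] ∧ ∃ p s, s ≠ [] ∧ k (p :: s) = true ∧ ∀ i, val (p :: s) i =
      val u i + val v i + if c.testBit i then 1 else 0 := by
  induction u generalizing v c top k with
  | nil => exact absurd rfl hu
  | cons a u ih =>
    cases v with
    | nil => exact absurd e (by simp [add2])
    | cons b v =>
      refine ⟨by simp, ?_⟩
      rw [add2_cons] at e
      by_cases hr : u = []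
      · subst hr
        cases v with
        | cons b' v => exact absurd e (by simp [add2])
        | nil =>
          refine ⟨_, _, by simp, (fb_eq _ _).symm.trans e, fun i => ?_⟩
          simp only [val, tb_land, tb_xor, tb_lor]
          cases a.testBit i <;> cases b.testBit i <;> cases c.testBit i <;> simp
      · obtain ⟨hv, p, s, hs, hk, h⟩ := ih hr e
        refine ⟨_, _, by simp, hk, fun i => ?_⟩
        rw [val_cons _ (by simp), h, val_cons _ hr, val_cons _ hv]
        simp only [tb_land, tb_xor, tb_lor]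
        cases a.testBit i <;> cases b.testBit i <;> cases c.testBit i <;> simp <;> ring

/-- drop the last plane if it repeats the sign -/
def narA (s : List ℕ) (prev : ℕ) (k : List ℕ → Bool) : Bool :=
  List.rec (motive := fun _ => ℕ → (List ℕ → Bool) → Bool) (fun _ _ => false)
    (fun p r ih prev k => List.casesOn (motive := fun _ => Bool) r (an (Nat.beq p prev) (k []))
      (fun _ _ => ih p fun t => k (p :: t))) s prev k

theorem narA_sound {s : List ℕ} {prev : ℕ} {k : List ℕ → Bool} (e : narA s prev k = true) :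
    ∃ t, k t = true ∧ ∀ i, val (prev :: t) i = val (prev :: s) i := by
  induction s generalizing prev k with
  | nil => exact absurd e (by simp [narA])
  | cons p r ih =>
    cases r with
    | nil =>
      change an _ _ = true at e
      rw [an_eq, Bool.and_eq_true] at e
      obtain rfl := Nat.eq_of_beq_eq_true e.1
      refine ⟨[], e.2, fun i => ?_⟩
      simp only [val]
      cases p.testBit i <;> simp
    | cons q r =>
      obtain ⟨t, hk, h⟩ := ih (prev := p) (k := fun t => k (p :: t)) e
      refine ⟨_, hk, fun i => ?_⟩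
      rw [val_cons _ (by simp), h, val_cons prev (by simp)]

def nar (s : List ℕ) (k : List ℕ → Bool) : Bool :=
  List.casesOn (motive := fun _ => Bool) s false (fun p r => narA r p fun t => k (p :: t))

theorem nar_sound {s : List ℕ} {k : List ℕ → Bool} (e : nar s k = true) :
    ∃ t, k t = true ∧ ∀ i, val t i = val s i := by
  cases s with
  | nil => exact absurd e (by simp [nar])
  | cons p r =>
    obtain ⟨t, hk, h⟩ := narA_sound (s := r) (prev := p) (k := fun t => k (p :: t)) e
    exact ⟨_, hk, h⟩

/-- halve and narrow -/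
def hlf (s : List ℕ) (k : List ℕ → Bool) : Bool :=
  List.casesOn (motive := fun _ => Bool) s false (fun p r => an (iz p) (nar r k))

/-- a butterfly -/
def bfly (f : ℕ → ℕ) (H : ℕ) (u : List ℕ) (k : List ℕ → Bool) : Bool :=
  mapK f u fun a => mapK (fun p => Nat.xor p H) u fun b => add2 a b H 0 k

theorem bfly_sound {f : ℕ → ℕ} {H : ℕ} {u : List ℕ} (hu : u ≠ []) {k : List ℕ → Bool}
    (e : bfly f H u k = true) : ∃ p s, s ≠ [] ∧ k (p :: s) = true ∧ ∀ i, val (p :: s) i =
      val (u.map f) i + if H.testBit i then -val u i else val u i := by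
  rw [bfly, mapK_eq, mapK_eq] at e
  obtain ⟨-, p, s, hs, hk, h⟩ := add2_sound (by simpa using hu) e
  refine ⟨p, s, hs, hk, fun i => ?_⟩
  rw [h, val_map_xor _ _ hu]
  cases H.testBit i <;> simp; ring

namespace WFh

variable {δ ε m : ℕ} (h : WFh δ ε m)
include h

theorem wA : WFs δ (Nat.lor m (m <<< ε)) := by
  constructor <;> intro j hj <;> rw [tb_lor, Bool.or_eq_true, tb_shl_iff] at hj <;>
    rcases hj with hj | ⟨k, hk, rfl⟩
  · rw [tb_lor, (h.at1 hj).1, (h.at1 hj).2.2.1]; rfl
  · rw [tb_lor, show k + ε + δ = k + δ + ε by omega, (h.at3 hk).1, (h.at3 hk).2.2.1]; rfl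
  · have := h.lt j hj; omega
  · have := h.lt k hk; omega

theorem wB : WFs ε (Nat.lor m (m <<< δ)) := by
  constructor <;> intro j hj <;> rw [tb_lor, Bool.or_eq_true, tb_shl_iff] at hj <;>
    rcases hj with hj | ⟨k, hk, rfl⟩
  · rw [tb_lor, (h.at2 hj).1, (h.at2 hj).2.1]; rfl
  · rw [tb_lor, (h.at3 hk).1, (h.at3 hk).2.1]; rfl
  · have := h.lt j hj; omega
  · have := h.lt k hk; omega

end WFh

theorem shl_lor (a b d i : ℕ) :
    ((Nat.lor a b) <<< d).testBit i = ((a <<< d).testBit i || (b <<< d).testBit i) := by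
  simp only [Nat.testBit_shiftLeft, tb_lor]
  cases decide (i ≥ d) <;> simp

theorem shl_shl (a d e : ℕ) : (a <<< d) <<< e = a <<< (d + e) := (Nat.shiftLeft_add a d e).symm

/-- the two exchanges and signs into which a `had` layer splits -/
theorem WFh.split {δ ε m : ℕ} (h : WFh δ ε m) (y y1 : ℕ → ℚ)
    (h1 : ∀ i, y1 i = y ((Lay.swap δ (Nat.lor m (m <<< ε))).pm i) +
      if ((Nat.lor m (m <<< ε)) <<< δ).testBit i then -y i else y i) (i : ℕ) :
    (Lay.had δ ε m).sem y i =
      ((if (Nat.lor (Nat.lor m (m <<< ε)) ((Nat.lor m (m <<< ε)) <<< δ)).testBit i then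
        y1 ((Lay.swap ε (Nat.lor m (m <<< δ))).pm i) else 0) +
      if ((Nat.lor m (m <<< δ)) <<< ε).testBit i then -y1 i else y1 i) / 2 := by
  have e0 : ∀ j, m.testBit j = true → y1 j = y (j + δ) + y j := fun j hj => by
    obtain ⟨a, b, c⟩ := h.at0 hj
    simp only [h1, pm_swap, tb_lor, shl_lor, shl_shl, add_comm ε δ, hj, a, b, c]; simp
  have e1 : ∀ j, m.testBit j = true → y1 (j + δ) = y j - y (j + δ) := fun j hj => by
    obtain ⟨a, b, c, d⟩ := h.at1 hj
    simp only [h1, pm_swap, tb_lor, shl_lor, shl_shl, add_comm ε δ, a, b, c, d]; simp; ring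
  have e2 : ∀ j, m.testBit j = true → y1 (j + ε) = y (j + δ + ε) + y (j + ε) := fun j hj => by
    obtain ⟨a, b, c, d⟩ := h.at2 hj
    simp only [h1, pm_swap, tb_lor, shl_lor, shl_shl, add_comm ε δ, a, b, c, d,
      show j + ε + δ = j + δ + ε by omega]; simp
  have e3 : ∀ j, m.testBit j = true → y1 (j + δ + ε) = y (j + ε) - y (j + δ + ε) := fun j hj => by
    obtain ⟨a, b, c, d⟩ := h.at3 hj
    simp only [h1, pm_swap, tb_lor, shl_lor, shl_shl, add_comm ε δ, a, b, c, d,
      show j + δ + ε - δ = j + ε by omega]; simp; ring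
  rcases had_cases δ ε m i with hj | ⟨j, hj, rfl⟩ | ⟨j, hj, rfl⟩ | ⟨j, hj, rfl⟩ | hj
  · obtain ⟨a, b, c⟩ := h.at0 hj
    simp only [h.s0 hj, pm_swap, tb_lor, shl_lor, shl_shl, add_comm ε δ, hj, a, b, c]
    simp only [Bool.or_false, if_true, Bool.false_eq_true, if_false, e0 i hj, e2 i hj]; ring
  · obtain ⟨a, b, c, d⟩ := h.at1 hj
    simp only [h.s1 hj, pm_swap, tb_lor, shl_lor, shl_shl, add_comm ε δ, a, b, c, d]
    simp only [Bool.or_false, Bool.or_true, if_true, Bool.false_eq_true, if_false, e1 j hj, e3 j hj]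
    ring
  · obtain ⟨a, b, c, d⟩ := h.at2 hj
    simp only [h.s2 hj, pm_swap, tb_lor, shl_lor, shl_shl, add_comm ε δ, a, b, c, d]
    simp only [Bool.or_false, Bool.or_true, if_true, Bool.false_eq_true, if_false, e0 j hj, e2 j hj,
      Nat.add_sub_cancel]
    ring
  · obtain ⟨a, b, c, d⟩ := h.at3 hj
    simp only [h.s3 hj, pm_swap, tb_lor, shl_lor, shl_shl, add_comm ε δ, a, b, c, d]
    simp only [Bool.or_false, Bool.or_true, if_true, Bool.false_eq_true, if_false, e1 j hj, e3 j hj,
      Nat.add_sub_cancel]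
    ring
  · obtain ⟨a, b, c, d⟩ := hj
    rw [had_s4 ⟨a, b, c, d⟩]
    simp only [h1, pm_swap, tb_lor, shl_lor, shl_shl, add_comm ε δ, a, b, c, d]
    simp

def hadK (δ ε m : ℕ) (u : List ℕ) (k : List ℕ → Bool) : Bool :=
  (fun mA mB => (fun HA HB => (fun U => fb U (fb HB (
    bfly (swp δ mA) HA u fun u1 => bfly (fun p => Nat.land (swp ε mB p) U) HB u1 fun u2 => hlf u2 k)))
    (Nat.lor mA HA)) (Nat.shiftLeft mA δ) (Nat.shiftLeft mB ε))
    (Nat.lor m (Nat.shiftLeft m ε)) (Nat.lor m (Nat.shiftLeft m δ))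

theorem hadK_sound {δ ε m : ℕ} (h : WFh δ ε m) {u : List ℕ} (hu : u ≠ []) {k : List ℕ → Bool}
    (e : hadK δ ε m u k = true) : ∃ u', (Lay.had δ ε m).sem (valQ u) = valQ u' ∧ k u' = true := by
  simp only [hadK, fb_eq, Nat.shiftLeft_eq'] at e
  obtain ⟨p, s, -, e1, h1⟩ := bfly_sound hu e
  obtain ⟨p2, s2, hs2, e2, h2⟩ := bfly_sound (by simp) e1
  change an _ _ = true at e2
  rw [an_eq, Bool.and_eq_true] at e2
  obtain ⟨t, hk, h3⟩ := nar_sound e2.2
  refine ⟨t, funext fun i => ?_, hk⟩
  rw [h.split (valQ u) (valQ (p :: s)) (fun i => by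
    simp only [valQ]
    rw [h1, val_map (fun p => h.wA.swp_bit p i)]
    push_cast
    rfl)]
  have h4 := h2 i
  rw [val_cons _ hs2, iz_bit e2.1, ← h3] at h4
  simp only [Bool.false_eq_true, if_false, zero_add] at h4
  have h5 : val ((p :: s).map fun p => Nat.land (swp ε (Nat.lor m (m <<< δ)) p)
      (Nat.lor (Nat.lor m (m <<< ε)) ((Nat.lor m (m <<< ε)) <<< δ))) i =
      if (Nat.lor (Nat.lor m (m <<< ε)) ((Nat.lor m (m <<< ε)) <<< δ)).testBit i then
        val (p :: s) ((Lay.swap ε (Nat.lor m (m <<< δ))).pm i) else 0 := by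
    split_ifs with hU
    · exact val_map (fun p => by rw [tb_land, hU, Bool.and_true, h.wB.swp_bit]) _
    · exact val_map_zero (fun p => by rw [tb_land, Bool.eq_false_iff.2 hU, Bool.and_false]) _
  change 2 * val t i = val ((p :: s).map fun p => Nat.land (swp ε (Nat.lor m (m <<< δ)) p)
      (Nat.lor (Nat.lor m (m <<< ε)) ((Nat.lor m (m <<< ε)) <<< δ))) i +
      (if ((Nat.lor m (m <<< δ)) <<< ε).testBit i then -val (p :: s) i else val (p :: s) i) at h4
  rw [h5] at h4
  simp only [valQ]
  rw [div_eq_iff two_ne_zero, mul_comm]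
  have h6 := congrArg (Int.cast : ℤ → ℚ) h4
  push_cast at h6
  exact h6.symm

/-- one layer -/
def Lay.runK (l : Lay) (u : List ℕ) (k : List ℕ → Bool) : Bool :=
  List.casesOn (motive := fun _ => Bool) u false fun _ _ =>
    Lay.casesOn (motive := fun _ => Bool) l (fun δ m => mapK (swp δ m) u k)
      (fun m => negA m u m 0 k) (fun δ ε m => hadK δ ε m u k)

theorem Lay.runK_sound {l : Lay} (h : l.wf = true) {u : List ℕ} {k : List ℕ → Bool}
    (e : l.runK u k = true) : ∃ u', l.sem (valQ u) = valQ u' ∧ k u' = true := by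
  cases u with
  | nil => exact absurd e (by simp [Lay.runK])
  | cons p r =>
    cases l with
    | swap δ m =>
      refine ⟨_, funext fun i => ?_, (mapK_eq (swp δ m) (p :: r) k).symm.trans e⟩
      rw [sem_swap]
      simp only [valQ]
      rw [val_map (fun p => (wfs_of h).swp_bit p i)]
    | sign m =>
      obtain ⟨s, -, hk, hs⟩ := negA_sound (m := m) (u := p :: r) (c := m) (ov := 0) (by simp) e
      refine ⟨s, funext fun i => ?_, hk⟩
      simp only [Lay.sem, valQ]
      rw [hs, val_map_xor _ _ (by simp)]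
      cases m.testBit i <;> simp
    | had δ ε m => exact hadK_sound (wfh_of h) (by simp) e

/-- run a program keeping the number of planes; returns `false` on overflow or odd halving -/
def runK (P : List Lay) (u : List ℕ) (k : List ℕ → Bool) : Bool :=
  List.rec (motive := fun _ => List ℕ → Bool) k (fun l _ ih u => l.runK u ih) P u

theorem runK_sound {P : List Lay} (h : wf P = true) {u : List ℕ} {k : List ℕ → Bool}
    (e : runK P u k = true) : ∃ u', sem P (valQ u) = valQ u' ∧ k u' = true := by
  induction P generalizing u with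
  | nil => exact ⟨u, rfl, e⟩
  | cons l P ih =>
    rw [wf_cons] at h
    obtain ⟨u1, e1, e2⟩ := Lay.runK_sound (k := fun u => runK P u k) h.1 e
    rw [sem_cons, e1]
    exact ih h.2 e2

/-- run the programs `tab a` for the letters `a` of the list, first letter first -/
def runW (tab : ℕ → List Lay) (w : List ℕ) (u : List ℕ) (k : List ℕ → Bool) : Bool :=
  List.rec (motive := fun _ => List ℕ → Bool) k (fun a _ ih u => runK (tab a) u ih) w u

theorem runW_sound {tab : ℕ → List Lay} (h : ∀ a, wf (tab a) = true) {w u : List ℕ}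
    {k : List ℕ → Bool} (e : runW tab w u k = true) :
    ∃ u', sem (w.flatMap tab) (valQ u) = valQ u' ∧ k u' = true := by
  induction w generalizing u with
  | nil => exact ⟨u, rfl, e⟩
  | cons a w ih =>
    obtain ⟨u1, e1, e2⟩ := runK_sound (k := fun u => runW tab w u k) (h a) e
    rw [List.flatMap_cons, sem_append, e1]
    exact ih e2

def eqP (u v : List ℕ) : Bool :=
  List.rec (motive := fun _ => List ℕ → Bool)
    (fun v => List.casesOn (motive := fun _ => Bool) v true fun _ _ => false)
    (fun a _ ih v => List.casesOn (motive := fun _ => Bool) v false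
      fun b v' => an (Nat.beq a b) (ih v')) u v

theorem eqP_sound {u v : List ℕ} (e : eqP u v = true) : u = v := by
  induction u generalizing v with
  | nil =>
    cases v with
    | nil => rfl
    | cons b v => exact absurd e (by simp [eqP])
  | cons a u ih =>
    cases v with
    | nil => exact absurd e (by simp [eqP])
    | cons b v =>
      change an (Nat.beq a b) (eqP u v) = true at e
      rw [an_eq, Bool.and_eq_true] at e
      rw [Nat.eq_of_beq_eq_true e.1, ih e.2]

/-- sum of two vectors with the same number of planes -/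
def addK (u v : List ℕ) (k : List ℕ → Bool) : Bool :=
  List.casesOn (motive := fun _ => Bool) u false fun _ _ => add2 u v 0 0 fun s => nar s k

theorem addK_sound {u v : List ℕ} {k : List ℕ → Bool} (e : addK u v k = true) :
    ∃ s, valQ s = valQ u + valQ v ∧ k s = true := by
  cases u with
  | nil => exact absurd e (by simp [addK])
  | cons a u =>
    obtain ⟨-, p, s, -, e1, h1⟩ := add2_sound (u := a :: u) (v := v) (c := 0) (top := 0)
      (k := fun s => nar s k) (by simp) e
    obtain ⟨t, hk, h2⟩ := nar_sound e1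
    refine ⟨t, funext fun i => ?_, hk⟩
    simp only [valQ, Pi.add_apply]
    rw [h2, h1]; simp

/-- the `n + 1` planes of a constant on a mask: `p0` for the bit zero, `p1` for the bit one -/
def cstA (p0 p1 n a : ℕ) (k : List ℕ → Bool) : Bool :=
  Nat.rec (motive := fun _ => ℕ → (List ℕ → Bool) → Bool) (fun a k => an (iz a) (k [p0]))
    (fun _ ih a k => (fun a' => fb a' (Bool.rec (ih a' fun r => k (p0 :: r))
      (ih a' fun r => k (p1 :: r)) (od a))) (Nat.shiftRight a 1)) n a k

theorem cstA_sound {p0 p1 n a : ℕ} {k : List ℕ → Bool} (e : cstA p0 p1 n a k = true) :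
    ∃ s, s ≠ [] ∧ k s = true ∧ ∀ i,
      (p0.testBit i = false → p1.testBit i = false → val s i = 0) ∧
      (p0.testBit i = false → p1.testBit i = true → val s i = a) ∧
      (p0.testBit i = true → p1.testBit i = false → val s i = -(a : ℤ) - 1) := by
  induction n generalizing a k with
  | zero =>
    change an _ _ = true at e
    rw [an_eq, Bool.and_eq_true, iz_iff] at e
    obtain ⟨rfl, e⟩ := e
    refine ⟨_, by simp, e, fun i => ?_⟩
    simp only [val]
    cases p0.testBit i <;> simp
  | succ n ih =>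
    have e' : (Bool.rec (cstA p0 p1 n (Nat.shiftRight a 1) fun r => k (p0 :: r))
      (cstA p0 p1 n (Nat.shiftRight a 1) fun r => k (p1 :: r)) (od a) : Bool) = true :=
      (fb_eq _ _).symm.trans e
    rw [od_eq, shr_one] at e'
    rcases Nat.mod_two_eq_zero_or_one a with h | h
    · simp only [h, zero_ne_one, decide_false] at e'
      obtain ⟨s, hs, hk, hv⟩ := ih e'
      refine ⟨_, by simp, hk, fun i => ?_⟩
      rw [val_cons _ hs]
      obtain ⟨h1, h2, h3⟩ := hv i
      refine ⟨fun a b => ?_, fun a b => ?_, fun a b => ?_⟩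
      · rw [h1 a b, a]; simp
      · rw [h2 a b, a]; simp; omega
      · rw [h3 a b, a]; simp; omega
    · simp only [h, decide_true] at e'
      obtain ⟨s, hs, hk, hv⟩ := ih e'
      refine ⟨_, by simp, hk, fun i => ?_⟩
      rw [val_cons _ hs]
      obtain ⟨h1, h2, h3⟩ := hv i
      refine ⟨fun a b => ?_, fun a b => ?_, fun a b => ?_⟩
      · rw [h1 a b, b]; simp
      · rw [h2 a b, b]; simp; omega
      · rw [h3 a b, b]; simp; omega

def cstK (n : ℕ) (c : ℤ) (m : ℕ) (k : List ℕ → Bool) : Bool :=
  Int.casesOn (motive := fun _ => Bool) c (fun a => cstA 0 m n a k) (fun a => cstA m 0 n a k)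

theorem cstK_sound {n : ℕ} {c : ℤ} {m : ℕ} {k : List ℕ → Bool} (e : cstK n c m k = true) :
    ∃ s, k s = true ∧ ∀ i, valQ s i = if m.testBit i then (c : ℚ) else 0 := by
  cases c with
  | ofNat a =>
    obtain ⟨s, -, hk, h⟩ := cstA_sound (p0 := 0) (p1 := m) (a := a) e
    refine ⟨s, hk, fun i => ?_⟩
    obtain ⟨h1, h2, -⟩ := h i
    cases hm : m.testBit i
    · simp [valQ, h1 (by simp) hm]
    · simp [valQ, h2 (by simp) hm]
  | negSucc a =>
    obtain ⟨s, -, hk, h⟩ := cstA_sound (p0 := m) (p1 := 0) (a := a) e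
    refine ⟨s, hk, fun i => ?_⟩
    obtain ⟨h1, -, h3⟩ := h i
    cases hm : m.testBit i
    · simp [valQ, h1 hm (by simp)]
    · simp [valQ, h3 hm (by simp), Int.negSucc_eq]; ring

def sumA (n : ℕ) (l : List (ℤ × ℕ)) (u : List ℕ) (k : List ℕ → Bool) : Bool :=
  List.rec (motive := fun _ => List ℕ → Bool) k
    (fun p _ ih u => cstK n p.1 p.2 fun v => addK u v ih) l u

theorem sumA_sound {n : ℕ} {l : List (ℤ × ℕ)} {u : List ℕ} {k : List ℕ → Bool}
    (e : sumA n l u k = true) : ∃ s, (∀ i, valQ s i = valQ u i +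
      (l.map fun p => if p.2.testBit i then (p.1 : ℚ) else 0).sum) ∧ k s = true := by
  induction l generalizing u with
  | nil => exact ⟨u, by simp, e⟩
  | cons p l ih =>
    obtain ⟨v, e1, hv⟩ := cstK_sound (k := fun v => addK u v fun u => sumA n l u k) e
    obtain ⟨s, hs, e2⟩ := addK_sound e1
    obtain ⟨t, ht, e3⟩ := ih e2
    refine ⟨t, fun i => ?_, e3⟩
    rw [ht, hs, Pi.add_apply, hv, List.map_cons, List.sum_cons, add_assoc]

/-- the planes of `∑ c • indicator m` over the list of pairs `(c, m)`, with `n` planes -/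
def sumK (n : ℕ) (l : List (ℤ × ℕ)) (k : List ℕ → Bool) : Bool :=
  (fun n' => fb n' (cstA 0 0 n' 0 fun u => sumA n' l u k)) (Nat.pred n)

theorem sumK_sound {n : ℕ} {l : List (ℤ × ℕ)} {k : List ℕ → Bool} (e : sumK n l k = true) :
    ∃ s, (∀ i, valQ s i = (l.map fun p => if p.2.testBit i then (p.1 : ℚ) else 0).sum) ∧
      k s = true := by
  obtain ⟨u, -, e1, hu⟩ := cstA_sound ((fb_eq _ _).symm.trans e)
  obtain ⟨s, hs, e2⟩ := sumA_sound e1
  refine ⟨s, fun i => ?_, e2⟩
  rw [hs, valQ, (hu i).1 (by simp) (by simp)]; simp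

/-- union of the planes -/
def orP (u : List ℕ) : ℕ := List.rec 0 (fun p _ ih => Nat.lor p ih) u

theorem val_eq_zero {u : List ℕ} {i : ℕ} (h : (orP u).testBit i = false) : val u i = 0 := by
  induction u with
  | nil => rfl
  | cons p r ih =>
    change (Nat.lor p (orP r)).testBit i = false at h
    rw [tb_lor, Bool.or_eq_false_iff] at h
    cases r with
    | nil => simp [val, h.1]
    | cons q r => rw [val, ih h.2, h.1]; simp

/-- kernel-friendly version of `val` -/
def valN (u : List ℕ) (i : ℕ) : ℤ :=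
  List.rec 0 (fun p r ih => List.casesOn (motive := fun _ => ℤ) r
    (Bool.rec (Int.ofNat 0) (Int.negSucc 0) (tb p i))
    fun _ _ => Int.add (Bool.rec (Int.ofNat 0) (Int.ofNat 1) (tb p i)) (Int.mul (Int.ofNat 2) ih)) u

theorem valN_eq (u : List ℕ) (i : ℕ) : valN u i = val u i := by
  induction u with
  | nil => rfl
  | cons p r ih =>
    cases r with
    | nil =>
      change (Bool.rec 0 (-1) (tb p i) : ℤ) = _
      rw [tb_eq, val]; cases p.testBit i <;> rfl
    | cons q r =>
      change (Bool.rec 0 1 (tb p i) : ℤ) + 2 * valN (q :: r) i = _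
      rw [tb_eq, val, ih]; cases p.testBit i <;> rfl

end CfsgMO
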