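/-
Bit-sliced evaluation of structured linear maps (WP E), part 3: symbolic comparison.
-/
import Cfsg.Agent.MO.E2

set_option autoImplicit false

namespace CfsgMO

noncomputable section

/-- trees of slots; a slot is the list of planes presence, sign, label -/
inductive Tr
  | leaf (s : List ℕ)
  | node (a b : Tr)

/-- the value of a slot code -/
def cvS (x : ℕ → ℚ) (n : ℕ) : ℚ :=
  if n % 2 = 1 then (if n / 2 % 2 = 1 then -x (n / 4) else x (n / 4)) else 0

def tot (x : ℕ → ℚ) : Tr → ℕ → ℚ
  | .leaf s => fun i => cvS x (lab s i)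
  | .node a b => tot x a + tot x b

theorem cv_zero (x : ℕ → ℚ) : cvS x 0 = 0 := by simp [cvS]

theorem cv_lab (x : ℕ → ℚ) (p s : ℕ) (L : List ℕ) (i : ℕ) : cvS x (lab (p :: s :: L) i) =
    if p.testBit i then (if s.testBit i then -x (lab L i) else x (lab L i)) else 0 := by
  rw [lab, lab, cvS]
  cases p.testBit i <;> cases s.testBit i <;> simp only [Bool.false_eq_true, if_false, if_true]
  · rw [if_neg (by omega)]
  · rw [if_neg (by omega)]
  · rw [if_pos (by omega), if_neg (by omega)]; congr 1; omega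
  · rw [if_pos (by omega), if_pos (by omega)]; congr 2; omega

theorem lab_map {f : ℕ → ℕ} {i j : ℕ} (h : ∀ p, (f p).testBit i = p.testBit j) (u : List ℕ) :
    lab (u.map f) i = lab u j := by
  induction u with
  | nil => rfl
  | cons p r ih => rw [List.map_cons, lab, lab, ih, h]

theorem lab_map_zero {f : ℕ → ℕ} {i : ℕ} (h : ∀ p, (f p).testBit i = false) (u : List ℕ) :
    lab (u.map f) i = 0 := by
  induction u with
  | nil => rfl
  | cons p r ih => rw [List.map_cons, lab, ih, h]; simp

def mapT (f : List ℕ → (List ℕ → Bool) → Bool) (t : Tr) (k : Tr → Bool) : Bool :=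
  Tr.rec (motive := fun _ => (Tr → Bool) → Bool) (fun s k => f s fun s' => k (Tr.leaf s'))
    (fun _ _ iha ihb k => iha fun a => ihb fun b => k (Tr.node a b)) t k

theorem mapT_sound {x : ℕ → ℚ} {f : List ℕ → (List ℕ → Bool) → Bool} {Φ : (ℕ → ℚ) → ℕ → ℚ}
    (hΦ : ∀ a b, Φ (a + b) = Φ a + Φ b)
    (hf : ∀ s k, f s k = true → ∃ s', k s' = true ∧ tot x (.leaf s') = Φ (tot x (.leaf s)))
    {t : Tr} {k : Tr → Bool} (e : mapT f t k = true) : ∃ t', k t' = true ∧ tot x t' = Φ (tot x t) := by
  induction t generalizing k with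
  | leaf s =>
    obtain ⟨s', h1, h2⟩ := hf s _ e
    exact ⟨_, h1, h2⟩
  | node a b iha ihb =>
    obtain ⟨a', e1, h1⟩ := iha (k := fun a => mapT f b fun b => k (Tr.node a b)) e
    obtain ⟨b', e2, h2⟩ := ihb e1
    exact ⟨_, e2, by rw [tot, tot, hΦ, h1, h2]⟩

/-- exchange on all planes; unchanged planes are shared -/
def swpK (δ m : ℕ) (u : List ℕ) (k : List ℕ → Bool) : Bool :=
  List.rec (motive := fun _ => (List ℕ → Bool) → Bool) (fun k => k [])
    (fun x _ ih k => (fun t => Bool.rec
      ((fun y => fb y (ih fun r => k (y :: r))) (Nat.xor (Nat.xor x t) (Nat.shiftLeft t δ)))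
      (ih fun r => k (x :: r)) (Nat.beq t 0)) (Nat.land (Nat.xor (Nat.shiftRight x δ) x) m)) u k

theorem swpK_eq (δ m : ℕ) (u : List ℕ) (k : List ℕ → Bool) : swpK δ m u k = k (u.map (swp δ m)) := by
  induction u generalizing k with
  | nil => rfl
  | cons x r ih =>
    change (Bool.rec (fb _ (swpK δ m r fun r => k (swp δ m x :: r))) (swpK δ m r fun r => k (x :: r))
      (Nat.beq (Nat.land (Nat.xor (Nat.shiftRight x δ) x) m) 0) : Bool) = _
    cases h : Nat.beq (Nat.land (Nat.xor (Nat.shiftRight x δ) x) m) 0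
    · exact (fb_eq _ _).trans (ih _)
    · have : swp δ m x = x := by
        rw [swp, Nat.eq_of_beq_eq_true h]
        simp [Nat.shiftLeft_eq', Nat.xor_eq]
      rw [List.map_cons, this]
      exact ih _

/-- restriction of all planes; unchanged planes are shared -/
def lndK (U : ℕ) (u : List ℕ) (k : List ℕ → Bool) : Bool :=
  List.rec (motive := fun _ => (List ℕ → Bool) → Bool) (fun k => k [])
    (fun x _ ih k => (fun y => Bool.rec (ih fun r => k (y :: r)) (ih fun r => k (x :: r))
      (Nat.beq y x)) (Nat.land x U)) u k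

theorem lndK_eq (U : ℕ) (u : List ℕ) (k : List ℕ → Bool) :
    lndK U u k = k (u.map fun x => Nat.land x U) := by
  induction u generalizing k with
  | nil => rfl
  | cons x r ih =>
    change (Bool.rec (lndK U r fun r => k (Nat.land x U :: r)) (lndK U r fun r => k (x :: r))
      (Nat.beq (Nat.land x U) x) : Bool) = _
    cases h : Nat.beq (Nat.land x U) x
    · exact ih _
    · rw [List.map_cons, Nat.eq_of_beq_eq_true h]
      exact ih _

/-- sign change of a slot -/
def sgnS (m : ℕ) (u : List ℕ) (k : List ℕ → Bool) : Bool :=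
  List.casesOn (motive := fun _ => Bool) u false fun p r =>
    List.casesOn (motive := fun _ => Bool) r false fun s L =>
      (fun y => fb y (k (p :: y :: L))) (Nat.xor s (Nat.land p m))

theorem sgm_add (m : ℕ) (a b : ℕ → ℚ) : sgm m (a + b) = sgm m a + sgm m b := by
  funext i; simp only [sgm, Pi.add_apply]; split_ifs <;> ring

theorem sgnT_sound {x : ℕ → ℚ} {m : ℕ} {t : Tr} {k : Tr → Bool} (e : mapT (sgnS m) t k = true) :
    ∃ t', k t' = true ∧ tot x t' = sgm m (tot x t) := by
  refine mapT_sound (sgm_add m) (fun u k e => ?_) e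
  rcases u with _ | ⟨p, _ | ⟨s, L⟩⟩
  · exact absurd e (by simp [sgnS])
  · exact absurd e (by simp [sgnS])
  · refine ⟨_, (fb_eq _ _).symm.trans e, funext fun i => ?_⟩
    simp only [tot, sgm, cv_lab, tb_xor, tb_land]
    cases p.testBit i <;> cases s.testBit i <;> cases m.testBit i <;> simp

theorem swpT_sound {x : ℕ → ℚ} {δ m : ℕ} (h : WFs δ m) {t : Tr} {k : Tr → Bool}
    (e : mapT (swpK δ m) t k = true) :
    ∃ t', k t' = true ∧ tot x t' = fun i => tot x t ((Lay.swap δ m).pm i) := by
  refine mapT_sound (Φ := fun y i => y ((Lay.swap δ m).pm i)) (fun _ _ => rfl) (fun u k e => ?_) e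
  rw [swpK_eq] at e
  refine ⟨_, e, funext fun i => ?_⟩
  simp only [tot]
  rw [lab_map (fun p => h.swp_bit p i)]

theorem lndT_sound {x : ℕ → ℚ} {U : ℕ} {t : Tr} {k : Tr → Bool} (e : mapT (lndK U) t k = true) :
    ∃ t', k t' = true ∧ tot x t' = fun i => if U.testBit i then tot x t i else 0 := by
  refine mapT_sound (Φ := fun y i => if U.testBit i then y i else 0) (fun _ _ => funext fun i => ?_)
    (fun u k e => ?_) e
  · simp only [Pi.add_apply]; split_ifs <;> simp
  rw [lndK_eq] at e
  refine ⟨_, e, funext fun i => ?_⟩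
  simp only [tot]
  split_ifs with hU
  · rw [lab_map (j := i) (fun p => by rw [tb_land, hU, Bool.and_true])]
  · rw [lab_map_zero (fun p => by rw [tb_land, Bool.eq_false_iff.2 hU, Bool.and_false]), cv_zero]

def hadT (δ ε m : ℕ) (t : Tr) (k : Tr → Bool) : Bool :=
  (fun mA mB => (fun HA HB => (fun U => fb U (fb HB (
    mapT (swpK δ mA) t fun a => mapT (sgnS HA) t fun b =>
      mapT (swpK ε mB) (Tr.node a b) fun c => mapT (lndK U) c fun c' =>
        mapT (sgnS HB) (Tr.node a b) fun d => k (Tr.node c' d))))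
    (Nat.lor mA HA)) (Nat.shiftLeft mA δ) (Nat.shiftLeft mB ε))
    (Nat.lor m (Nat.shiftLeft m ε)) (Nat.lor m (Nat.shiftLeft m δ))

theorem hadT_sound {x : ℕ → ℚ} {δ ε m : ℕ} (h : WFh δ ε m) {t : Tr} {k : Tr → Bool}
    (e : hadT δ ε m t k = true) :
    ∃ t', k t' = true ∧ (Lay.had δ ε m).sem (tot x t) = (1 / 2 : ℚ) • tot x t' := by
  simp only [hadT, fb_eq, Nat.shiftLeft_eq'] at e
  obtain ⟨a, e, ha⟩ := swpT_sound (x := x) h.wA e
  obtain ⟨b, e, hb⟩ := sgnT_sound (x := x) e
  obtain ⟨c, e, hc⟩ := swpT_sound (x := x) h.wB e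
  obtain ⟨c', e, hc'⟩ := lndT_sound (x := x) e
  obtain ⟨d, e, hd⟩ := sgnT_sound (x := x) e
  refine ⟨_, e, funext fun i => ?_⟩
  rw [h.split (tot x t) (tot x (Tr.node a b)) (fun i => by rw [tot, ha, hb]; rfl),
    show tot x (Tr.node c' d) = tot x c' + tot x d from rfl, hc', hc, hd]
  simp only [Pi.smul_apply, Pi.add_apply, smul_eq_mul, sgm]
  ring

/-- does the layer meet the support? -/
def Lay.act (l : Lay) (x : ℕ) : ℕ :=
  Lay.casesOn (motive := fun _ => ℕ) l (fun δ m => Nat.land (Nat.lor x (Nat.shiftRight x δ)) m)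
    (fun m => Nat.land x m)
    (fun δ ε m => Nat.land (Nat.lor (Nat.lor x (Nat.shiftRight x δ))
        (Nat.lor (Nat.shiftRight x ε) (Nat.shiftRight x (Nat.add δ ε)))) m)

theorem Lay.act_sound {l : Lay} (h : l.wf = true) {W : ℕ} {y : ℕ → ℚ}
    (hy : ∀ i, W.testBit i = false → y i = 0) (e : l.act W = 0) : l.sem y = y := by
  funext i
  have e' : ∀ j, (l.act W).testBit j = false := fun j => by rw [e]; simp
  cases l with
  | swap δ m =>
    have w := wfs_of h
    have key : ∀ j, m.testBit j = true → y j = 0 ∧ y (j + δ) = 0 := fun j hj => by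
      have := e' j
      simp only [Lay.act, tb_land, tb_lor, tb_shr, hj, Bool.and_true, Bool.or_eq_false_iff] at this
      exact ⟨hy _ this.1, hy _ this.2⟩
    rcases swap_cases δ m i with hj | ⟨j, hj, rfl⟩ | ⟨a, b⟩
    · simp [Lay.sem, hj, key i hj]
    · simp [Lay.sem, w.d j hj, key j hj]
    · simp only [Lay.sem, a, b]; simp
  | sign m =>
    have := e' i
    simp only [Lay.act, tb_land] at this
    cases hm : m.testBit i
    · simp [Lay.sem, hm]
    · rw [hm, Bool.and_true] at this
      simp [Lay.sem, hy i this]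
  | had δ ε m =>
    have w := wfh_of h
    have key : ∀ j, m.testBit j = true →
        y j = 0 ∧ y (j + δ) = 0 ∧ y (j + ε) = 0 ∧ y (j + δ + ε) = 0 := fun j hj => by
      have := e' j
      simp only [Lay.act, tb_land, tb_lor, tb_shr, hj, Bool.and_true, Bool.or_eq_false_iff] at this
      exact ⟨hy _ this.1.1, hy _ this.1.2, hy _ this.2.1, hy _ (by rw [add_assoc]; exact this.2.2)⟩
    rcases had_cases δ ε m i with hj | ⟨j, hj, rfl⟩ | ⟨j, hj, rfl⟩ | ⟨j, hj, rfl⟩ | hj
    · obtain ⟨a, b, c, d⟩ := key i hj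
      rw [w.s0 hj, a, b, c, d]; simp
    · obtain ⟨a, b, c, d⟩ := key j hj
      rw [w.s1 hj, a, b, c, d]; simp
    · obtain ⟨a, b, c, d⟩ := key j hj
      rw [w.s2 hj, a, b, c, d]; simp
    · obtain ⟨a, b, c, d⟩ := key j hj
      rw [w.s3 hj, a, b, c, d]; simp
    · rw [had_s4 hj]

/-- one layer on the slots; `W` contains the support, `h` counts the halvings -/
def Lay.symK (l : Lay) (t : Tr) (W h : ℕ) (k : Tr → ℕ → ℕ → Bool) : Bool :=
  Bool.rec ((fun W' => fb W' (Lay.casesOn (motive := fun _ => Bool) l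
      (fun δ m => mapT (swpK δ m) t fun t' => k t' W' h)
      (fun m => mapT (sgnS m) t fun t' => k t' W' h)
      (fun δ ε m => hadT δ ε m t fun t' => k t' W' (Nat.succ h)))) (l.sup W))
    (k t W h) (Nat.beq (l.act W) 0)

theorem Lay.symK_sound {x : ℕ → ℚ} {l : Lay} (hl : l.wf = true) {t : Tr} {W h : ℕ}
    {k : Tr → ℕ → ℕ → Bool} (e : l.symK t W h k = true) {y : ℕ → ℚ}
    (hy : ∀ i, W.testBit i = false → y i = 0) (ht : y = (1 / 2 : ℚ) ^ h • tot x t) :
    ∃ t' W' h', k t' W' h' = true ∧ (∀ i, W'.testBit i = false → l.sem y i = 0) ∧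
      l.sem y = (1 / 2 : ℚ) ^ h' • tot x t' := by
  rw [Lay.symK] at e
  cases hb : Nat.beq (l.act W) 0
  · rw [hb] at e
    have e' := (fb_eq _ _).symm.trans e
    have hs := Lay.sup_sound hl hy
    cases l with
    | swap δ m =>
      obtain ⟨t', e1, h1⟩ := swpT_sound (x := x) (wfs_of hl) e'
      refine ⟨t', _, _, e1, hs, ?_⟩
      rw [ht, Lay.sem_smul, h1]
      congr 1
      exact funext (sem_swap δ m _)
    | sign m =>
      obtain ⟨t', e1, h1⟩ := sgnT_sound (x := x) e'
      refine ⟨t', _, _, e1, hs, ?_⟩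
      rw [ht, Lay.sem_smul, h1]
      rfl
    | had δ ε m =>
      obtain ⟨t', e1, h1⟩ := hadT_sound (x := x) (wfh_of hl) e'
      refine ⟨t', _, _, e1, hs, ?_⟩
      rw [ht, Lay.sem_smul, h1, smul_smul, pow_succ]
  · rw [hb] at e
    rw [Lay.act_sound hl hy (Nat.eq_of_beq_eq_true hb)]
    exact ⟨t, W, h, e, hy, ht⟩

def symRun (P : List Lay) (t : Tr) (W h : ℕ) (k : Tr → ℕ → ℕ → Bool) : Bool :=
  List.rec (motive := fun _ => Tr → ℕ → ℕ → Bool) k (fun l _ ih t W h => l.symK t W h ih) P t W h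

theorem symRun_sound {x : ℕ → ℚ} {P : List Lay} (hP : wf P = true) {t : Tr} {W h : ℕ}
    {k : Tr → ℕ → ℕ → Bool} (e : symRun P t W h k = true) {y : ℕ → ℚ}
    (hy : ∀ i, W.testBit i = false → y i = 0) (ht : y = (1 / 2 : ℚ) ^ h • tot x t) :
    ∃ t' W' h', k t' W' h' = true ∧ sem P y = (1 / 2 : ℚ) ^ h' • tot x t' := by
  induction P generalizing t W h y with
  | nil => exact ⟨t, W, h, e, ht⟩
  | cons l P ih =>
    rw [wf_cons] at hP
    obtain ⟨t', W', h', e1, h1, h2⟩ :=
      Lay.symK_sound (k := fun t W h => symRun P t W h k) hP.1 e hy ht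
    exact ih hP.2 e1 h1 h2

/-! ### sorting the slots -/

/-- positions where the first slot is larger -/
def gtA (a b : List ℕ) (c : ℕ) : ℕ :=
  List.rec (motive := fun _ => List ℕ → ℕ → ℕ) (fun _ c => c)
    (fun x _ ih b c => List.casesOn (motive := fun _ => ℕ) b c fun y b' =>
      (fun d => Bool.rec ((fun c' => fb c' (ih b' c')) (Nat.xor c (Nat.land (Nat.xor c x) d)))
        (ih b' c) (Nat.beq d 0)) (Nat.xor x y)) a b c

/-- exchange two slots under the mask `c` -/
def exA (c : ℕ) (a b : List ℕ) (k : List ℕ → List ℕ → Bool) : Bool :=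
  List.rec (motive := fun _ => List ℕ → (List ℕ → List ℕ → Bool) → Bool)
    (fun b k => List.casesOn (motive := fun _ => Bool) b (k [] []) fun _ _ => false)
    (fun x _ ih b k => List.casesOn (motive := fun _ => Bool) b false fun y b' =>
      (fun t => Bool.rec ((fun x' y' => fb x' (fb y' (ih b' fun r s => k (x' :: r) (y' :: s))))
        (Nat.xor x t) (Nat.xor y t)) (ih b' fun r s => k (x :: r) (y :: s)) (Nat.beq t 0))
        (Nat.land (Nat.xor x y) c)) a b k

theorem exA_cons (c x y : ℕ) (a b : List ℕ) (k : List ℕ → List ℕ → Bool) :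
    exA c (x :: a) (y :: b) k = exA c a b fun r s =>
      k (Nat.xor x (Nat.land (Nat.xor x y) c) :: r) (Nat.xor y (Nat.land (Nat.xor x y) c) :: s) := by
  change (Bool.rec (fb _ (fb _ (exA c a b fun r s =>
      k (Nat.xor x (Nat.land (Nat.xor x y) c) :: r) (Nat.xor y (Nat.land (Nat.xor x y) c) :: s))))
      (exA c a b fun r s => k (x :: r) (y :: s)) (Nat.beq (Nat.land (Nat.xor x y) c) 0) : Bool) = _
  cases h : Nat.beq (Nat.land (Nat.xor x y) c) 0
  · exact (fb_eq _ _).trans (fb_eq _ _)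
  · rw [Nat.eq_of_beq_eq_true h]
    simp [Nat.xor_eq]

theorem exA_sound {c : ℕ} {a b : List ℕ} {k : List ℕ → List ℕ → Bool} (e : exA c a b k = true) :
    ∃ r s, k r s = true ∧ ∀ i, lab r i = (if c.testBit i then lab b i else lab a i) ∧
      lab s i = if c.testBit i then lab a i else lab b i := by
  induction a generalizing b k with
  | nil =>
    cases b with
    | nil => exact ⟨[], [], e, fun i => by simp⟩
    | cons y b => exact absurd e (by simp [exA])
  | cons x a ih =>
    cases b with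
    | nil => exact absurd e (by simp [exA])
    | cons y b =>
      rw [exA_cons] at e
      obtain ⟨r, s, e1, h⟩ := ih e
      refine ⟨_, _, e1, fun i => ?_⟩
      simp only [lab, (h i).1, (h i).2, tb_xor, tb_land]
      cases c.testBit i <;> cases x.testBit i <;> cases y.testBit i <;> simp

def cmpS (a b : List ℕ) (k : List ℕ → List ℕ → Bool) : Bool :=
  (fun c => Bool.rec (exA c a b k) (k a b) (Nat.beq c 0)) (gtA a b 0)

theorem cmpS_sound {x : ℕ → ℚ} {a b : List ℕ} {k : List ℕ → List ℕ → Bool}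
    (e : cmpS a b k = true) : ∃ r s, k r s = true ∧
      tot x (.leaf r) + tot x (.leaf s) = tot x (.leaf a) + tot x (.leaf b) := by
  simp only [cmpS] at e
  cases h : Nat.beq (gtA a b 0) 0 <;> rw [h] at e
  · obtain ⟨r, s, e1, h1⟩ := exA_sound e
    refine ⟨r, s, e1, funext fun i => ?_⟩
    simp only [tot, Pi.add_apply, (h1 i).1, (h1 i).2]
    split_ifs
    · exact add_comm _ _
    · rfl
  · exact ⟨a, b, e, rfl⟩

def cmpT (d : Bool) (a b : Tr) (k : Tr → Tr → Bool) : Bool :=
  Tr.rec (motive := fun _ => Tr → (Tr → Tr → Bool) → Bool)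
    (fun s b k => Tr.casesOn (motive := fun _ => Bool) b
      (fun s' => Bool.rec (cmpS s' s fun v u => k (Tr.leaf u) (Tr.leaf v))
        (cmpS s s' fun u v => k (Tr.leaf u) (Tr.leaf v)) d) fun _ _ => false)
    (fun _ _ ih1 ih2 b k => Tr.casesOn (motive := fun _ => Bool) b (fun _ => false)
      fun b1 b2 => ih1 b1 fun x1 y1 => ih2 b2 fun x2 y2 => k (Tr.node x1 x2) (Tr.node y1 y2)) a b k

theorem cmpT_sound {x : ℕ → ℚ} {d : Bool} {a b : Tr} {k : Tr → Tr → Bool}
    (e : cmpT d a b k = true) : ∃ r s, k r s = true ∧ tot x r + tot x s = tot x a + tot x b := by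
  induction a generalizing b k with
  | leaf s =>
    cases b with
    | node b1 b2 => exact absurd e (by simp [cmpT])
    | leaf s' =>
      cases d
      · obtain ⟨v, u, e1, h⟩ := cmpS_sound (x := x) (a := s') (b := s) e
        exact ⟨_, _, e1, by rw [add_comm, h, add_comm]⟩
      · obtain ⟨u, v, e1, h⟩ := cmpS_sound (x := x) (a := s) (b := s') e
        exact ⟨_, _, e1, h⟩
  | node a1 a2 ih1 ih2 =>
    cases b with
    | leaf s => exact absurd e (by simp [cmpT])
    | node b1 b2 =>
      obtain ⟨x1, y1, e1, h1⟩ := ih1 (b := b1)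
        (k := fun x1 y1 => cmpT d a2 b2 fun x2 y2 => k (Tr.node x1 x2) (Tr.node y1 y2)) e
      obtain ⟨x2, y2, e2, h2⟩ := ih2 e1
      refine ⟨_, _, e2, ?_⟩
      simp only [tot]
      rw [add_add_add_comm, h1, h2, add_add_add_comm]

/-- bitonic merge; the first argument gives the shape -/
def bmerge (sh : Tr) (d : Bool) (t : Tr) (k : Tr → Bool) : Bool :=
  Tr.rec (motive := fun _ => Tr → (Tr → Bool) → Bool) (fun _ t k => k t)
    (fun _ _ ih1 ih2 t k => Tr.casesOn (motive := fun _ => Bool) t (fun _ => false)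
      fun a b => cmpT d a b fun a' b' => ih1 a' fun a'' => ih2 b' fun b'' => k (Tr.node a'' b'')) sh t k

theorem bmerge_sound {x : ℕ → ℚ} {sh : Tr} {d : Bool} {t : Tr} {k : Tr → Bool}
    (e : bmerge sh d t k = true) : ∃ r, k r = true ∧ tot x r = tot x t := by
  induction sh generalizing t k with
  | leaf s => exact ⟨t, e, rfl⟩
  | node s1 s2 ih1 ih2 =>
    cases t with
    | leaf s => exact absurd e (by simp [bmerge])
    | node a b =>
      obtain ⟨a', b', e1, h1⟩ := cmpT_sound (x := x) (d := d) (a := a) (b := b)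
        (k := fun a' b' => bmerge s1 d a' fun a'' => bmerge s2 d b' fun b'' => k (Tr.node a'' b'')) e
      obtain ⟨a'', e2, h2⟩ := ih1 e1
      obtain ⟨b'', e3, h3⟩ := ih2 e2
      exact ⟨_, e3, by rw [tot, tot, h2, h3, h1]⟩

/-- bitonic sort -/
def bsort (t : Tr) (d : Bool) (k : Tr → Bool) : Bool :=
  Tr.rec (motive := fun _ => Bool → (Tr → Bool) → Bool) (fun s _ k => k (Tr.leaf s))
    (fun a b ih1 ih2 d k => ih1 true fun a' => ih2 false fun b' =>
      bmerge (Tr.node a b) d (Tr.node a' b') k) t d k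

theorem bsort_sound {x : ℕ → ℚ} {t : Tr} {d : Bool} {k : Tr → Bool}
    (e : bsort t d k = true) : ∃ r, k r = true ∧ tot x r = tot x t := by
  induction t generalizing d k with
  | leaf s => exact ⟨_, e, rfl⟩
  | node a b ih1 ih2 =>
    obtain ⟨a', e1, h1⟩ := ih1 (d := true)
      (k := fun a' => bsort b false fun b' => bmerge (Tr.node a b) d (Tr.node a' b') k) e
    obtain ⟨b', e2, h2⟩ := ih2 e1
    obtain ⟨r, e3, h3⟩ := bmerge_sound (x := x) e2
    exact ⟨r, e3, by rw [h3, tot, tot, h1, h2]⟩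

def eqT (a b : Tr) : Bool :=
  Tr.rec (motive := fun _ => Tr → Bool)
    (fun s b => Tr.casesOn (motive := fun _ => Bool) b (fun s' => eqP s s') fun _ _ => false)
    (fun _ _ ih1 ih2 b => Tr.casesOn (motive := fun _ => Bool) b (fun _ => false)
      fun b1 b2 => an (ih1 b1) (ih2 b2)) a b

theorem eqT_sound {a b : Tr} (e : eqT a b = true) : a = b := by
  induction a generalizing b with
  | leaf s =>
    cases b with
    | leaf s' => rw [eqP_sound (u := s) (v := s') e]
    | node b1 b2 => exact absurd e (by simp [eqT])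
  | node a1 a2 ih1 ih2 =>
    cases b with
    | leaf s' => exact absurd e (by simp [eqT])
    | node b1 b2 =>
      change an (eqT a1 b1) (eqT a2 b2) = true at e
      rw [an_eq, Bool.and_eq_true] at e
      rw [ih1 e.1, ih2 e.2]

/-- symbolic comparison on the whole mask `M` at once -/
def symPart (M : ℕ) (L : List ℕ) (P Q : List Lay) : Bool :=
  fb M (lndK M L fun L' => (fun t => symRun P t M 0 fun a _ h => symRun Q t M 0 fun b _ h' =>
    an (Nat.beq h h') (bsort a true fun a' => bsort b true fun b' => eqT a' b'))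
    (Tr.leaf (M :: 0 :: L')))

theorem symPart_sound {M : ℕ} {L : List ℕ} {P Q : List Lay} (hP : wf P = true) (hQ : wf Q = true)
    (e : symPart M L P Q = true) (x : ℕ → ℚ) : sem P (lv M L x) = sem Q (lv M L x) := by
  rw [symPart, fb_eq, lndK_eq] at e
  have hy : ∀ i, M.testBit i = false → lv M L x i = 0 := fun i hi => by simp [lv, hi]
  have ht : lv M L x = (1 / 2 : ℚ) ^ 0 • tot x (Tr.leaf (M :: 0 :: L.map fun x => Nat.land x M)) := by
    funext i
    rw [pow_zero, one_smul]
    simp only [tot, cv_lab, lv]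
    split_ifs with h1 h2
    · simp at h2
    · rw [lab_map (j := i) (fun p => by rw [tb_land, h1, Bool.and_true])]
    · rfl
  obtain ⟨a, _, h, e1, h1⟩ := symRun_sound hP e hy ht
  obtain ⟨b, _, h', e2, h2⟩ := symRun_sound hQ e1 hy ht
  rw [an_eq, Bool.and_eq_true] at e2
  obtain ⟨a', e3, h3⟩ := bsort_sound (x := x) e2.2
  obtain ⟨b', e4, h4⟩ := bsort_sound (x := x) e3
  rw [h1, h2, Nat.eq_of_beq_eq_true e2.1, ← h3, ← h4, eqT_sound e4]

theorem lv_split (M C : ℕ) (L : List ℕ) (x : ℕ → ℚ) :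
    lv M L x = lv (Nat.land M C) L x + lv (Nat.xor M (Nat.land M C)) L x := by
  funext i
  simp only [lv, Pi.add_apply, tb_xor, tb_land]
  cases M.testBit i <;> cases C.testBit i <;> simp

/-- the comparison may be done separately inside and outside a mask `C` -/
theorem sem_lv_split {M C : ℕ} {L : List ℕ} {P Q : List Lay} {x : ℕ → ℚ}
    (h1 : sem P (lv (Nat.land M C) L x) = sem Q (lv (Nat.land M C) L x))
    (h2 : sem P (lv (Nat.xor M (Nat.land M C)) L x) = sem Q (lv (Nat.xor M (Nat.land M C)) L x)) :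
    sem P (lv M L x) = sem Q (lv M L x) := by
  rw [lv_split M C, sem_add, sem_add, h1, h2]

/-- symbolic comparison, piece by piece along the masks of the list -/
def symEqS (cuts : List ℕ) (M : ℕ) (L : List ℕ) (P Q : List Lay) : Bool :=
  List.rec (motive := fun _ => ℕ → Bool) (fun M => symPart M L P Q)
    (fun C _ ih M => (fun A => an (symPart A L P Q) (ih (Nat.xor M A))) (Nat.land M C)) cuts M

theorem symEqS_sound {cuts : List ℕ} {M : ℕ} {L : List ℕ} {P Q : List Lay} (hP : wf P = true)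
    (hQ : wf Q = true) (e : symEqS cuts M L P Q = true) (x : ℕ → ℚ) :
    sem P (lv M L x) = sem Q (lv M L x) := by
  induction cuts generalizing M with
  | nil => exact symPart_sound hP hQ e x
  | cons C r ih =>
    change an (symPart (Nat.land M C) L P Q) (symEqS r (Nat.xor M (Nat.land M C)) L P Q) = true at e
    rw [an_eq, Bool.and_eq_true] at e
    exact sem_lv_split (symPart_sound hP hQ e.1 x) (ih e.2)

/-- symbolic comparison of two programs with the same number (at most 3) of `had` layers -/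
def symEq (M : ℕ) (L : List ℕ) (P Q : List Lay) : Bool := symEqS [ones 51712] M L P Q

theorem symEq_sound {M : ℕ} {L : List ℕ} {P Q : List Lay} (hP : wf P = true) (hQ : wf Q = true)
    (e : symEq M L P Q = true) (x : ℕ → ℚ) : sem P (lv M L x) = sem Q (lv M L x) :=
  symEqS_sound hP hQ e x

/-! ### positions as labels -/

/-- the planes `k, k + 1, …` (`r` of them) of the position index below `2 ^ n` -/
def posPA (n r k : ℕ) : List ℕ :=
  Nat.rec (motive := fun _ => ℕ → List ℕ) (fun _ => [])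
    (fun _ ih k => mkM (fun i => tb i k) n 0 :: ih (Nat.succ k)) r k

theorem lab_posPA (n r k : ℕ) {i : ℕ} (hi : i < 2 ^ n) : lab (posPA n r k) i = i / 2 ^ k % 2 ^ r := by
  induction r generalizing k with
  | zero => simp [posPA, lab, Nat.mod_one]
  | succ r ih =>
    change lab (mkM (fun i => tb i k) n 0 :: posPA n r (k + 1)) i = _
    rw [lab, ih, testBit_mkM, tb_eq, zero_add, pow_succ' 2 r, Nat.mod_mul, Nat.div_div_eq_div_mul,
      ← pow_succ, Nat.testBit_eq_decide_div_mod_eq]
    rcases Nat.mod_two_eq_zero_or_one (i / 2 ^ k) with h | h <;> simp [h, hi]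

/-- restriction of a vector to a mask -/
def rs (M : ℕ) (y : ℕ → ℚ) : ℕ → ℚ := fun i => if M.testBit i then y i else 0

theorem lv_eq_rs (M : ℕ) (L : List ℕ) (x : ℕ → ℚ) : lv M L x = rs M fun i => x (lab L i) := rfl

/-- with labels which determine the position the comparison holds for all vectors on `M` -/
theorem symPart_rs {M : ℕ} {L : List ℕ} {P Q : List Lay} (hP : wf P = true) (hQ : wf Q = true)
    (hL : ∀ i, M.testBit i = true → lab L i = i) (e : symPart M L P Q = true) (y : ℕ → ℚ) :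
    sem P (rs M y) = sem Q (rs M y) := by
  have : rs M y = lv M L y := funext fun i => by
    simp only [rs, lv]
    split_ifs with h
    · rw [hL i h]
    · rfl
  rw [this]
  exact symPart_sound hP hQ e y

/-- the plane of bit `k` of the position index below `2 ^ n`, for `k < n` -/
def bitM (n k : ℕ) : ℕ :=
  Nat.rec (motive := fun _ => ℕ) (Nat.shiftLeft (ones (Nat.shiftLeft 1 k)) (Nat.shiftLeft 1 k))
    (fun j ih => (fun y => fb y (Nat.lor y (Nat.shiftLeft y (Nat.shiftLeft 1 (Nat.add (Nat.succ k) j))))) ih)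
    (Nat.sub n (Nat.succ k))

theorem bitM_aux (k j i : ℕ) : (Nat.rec (motive := fun _ => ℕ)
    (Nat.shiftLeft (ones (Nat.shiftLeft 1 k)) (Nat.shiftLeft 1 k))
    (fun j ih => (fun y => fb y (Nat.lor y (Nat.shiftLeft y
      (Nat.shiftLeft 1 (Nat.add (Nat.succ k) j))))) ih) j : ℕ).testBit i =
      (decide (i < 2 ^ (k + 1 + j)) && i.testBit k) := by
  induction j generalizing i with
  | zero =>
    simp only [Nat.rec_zero, Nat.shiftLeft_eq', Nat.testBit_shiftLeft, ones_bit, Nat.one_shiftLeft,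
      add_zero, pow_succ]
    by_cases h : i < 2 ^ k
    · have : ¬ i ≥ 2 ^ k := by omega
      simp [this, Nat.testBit_lt_two_pow h]
    · by_cases h2 : i < 2 ^ k * 2
      · have h3 : i - 2 ^ k < 2 ^ k := by omega
        have h4 : i.testBit k = true := by
          have : i = 2 ^ k + (i - 2 ^ k) := by omega
          rw [this, Nat.testBit_two_pow_add_eq, Nat.testBit_lt_two_pow h3]; rfl
        simp [h2, h3, h4, not_lt.1 h]
      · have h3 : ¬ i - 2 ^ k < 2 ^ k := by omega
        simp [h2, h3]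
  | succ j ih =>
    simp only [fb_eq, tb_lor, Nat.shiftLeft_eq', Nat.testBit_shiftLeft, Nat.one_shiftLeft,
      Nat.add_eq, Nat.succ_eq_add_one] at ih ⊢
    rw [ih, ih, ← add_assoc, pow_succ 2 (k + 1 + j)]
    by_cases h : i < 2 ^ (k + 1 + j)
    · have h1 : ¬ i ≥ 2 ^ (k + 1 + j) := by omega
      have h2 : i < 2 ^ (k + 1 + j) * 2 := by omega
      simp [h, h1, h2]
    · have h1 : i ≥ 2 ^ (k + 1 + j) := by omega
      have h2 : (i - 2 ^ (k + 1 + j) < 2 ^ (k + 1 + j)) ↔ i < 2 ^ (k + 1 + j) * 2 := by omega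
      have h3 : (i - 2 ^ (k + 1 + j)).testBit k = i.testBit k := by
        conv_rhs => rw [show i = 2 ^ (k + 1 + j) + (i - 2 ^ (k + 1 + j)) by omega]
        rw [Nat.testBit_two_pow_add_gt (by omega)]
      simp [h, h1, h2, h3]

theorem testBit_bitM {n k : ℕ} (hk : k < n) (i : ℕ) :
    (bitM n k).testBit i = (decide (i < 2 ^ n) && i.testBit k) := by
  rw [bitM, bitM_aux, show k + 1 + Nat.sub n (Nat.succ k) = n by
    simp only [Nat.sub_eq, Nat.succ_eq_add_one]; omega]

def posB (n r k : ℕ) : List ℕ :=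
  Nat.rec (motive := fun _ => ℕ → List ℕ) (fun _ => [])
    (fun _ ih k => bitM n k :: ih (Nat.succ k)) r k

theorem lab_posB (n r k : ℕ) (h : k + r ≤ n) {i : ℕ} (hi : i < 2 ^ n) :
    lab (posB n r k) i = i / 2 ^ k % 2 ^ r := by
  induction r generalizing k with
  | zero => simp [posB, lab, Nat.mod_one]
  | succ r ih =>
    change lab (bitM n k :: posB n r (k + 1)) i = _
    rw [lab, ih _ (by omega), testBit_bitM (by omega), pow_succ' 2 r, Nat.mod_mul,
      Nat.div_div_eq_div_mul, ← pow_succ, Nat.testBit_eq_decide_div_mod_eq]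
    rcases Nat.mod_two_eq_zero_or_one (i / 2 ^ k) with h | h <;> simp [h, hi]

/-- the planes of the position index below `2 ^ n` (cheap to evaluate) -/
def posL (n : ℕ) : List ℕ := posB n n 0

theorem lab_posL {n i : ℕ} (hi : i < 2 ^ n) : lab (posL n) i = i := by
  rw [posL, lab_posB n n 0 (by omega) hi, pow_zero, Nat.div_one, Nat.mod_eq_of_lt hi]

/-- comparison for all vectors supported on `M`, a mask of positions below `2 ^ n` -/
def symPos (n M : ℕ) (P Q : List Lay) : Bool :=
  an (iz (Nat.shiftRight M (Nat.shiftLeft 1 n))) (symPart M (posL n) P Q)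

theorem symPos_sound {n M : ℕ} {P Q : List Lay} (hP : wf P = true) (hQ : wf Q = true)
    (e : symPos n M P Q = true) (y : ℕ → ℚ) : sem P (rs M y) = sem Q (rs M y) := by
  rw [symPos, an_eq, Bool.and_eq_true] at e
  refine symPart_rs hP hQ (fun i hi => lab_posL ?_) e.2 y
  by_contra hn
  have := iz_bit e.1 (i - 2 ^ n)
  rw [tb_shr, Nat.shiftLeft_eq', Nat.one_shiftLeft, Nat.sub_add_cancel (not_lt.1 hn), hi] at this
  exact absurd this (by simp)

end

end CfsgMO
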