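/-
Coordinates of the Griess algebra (WP K1, part d): monomial matrices and Hadamard matrices.
-/
import Cfsg.Agent.MO.K1b

set_option autoImplicit false

namespace CfsgMO

open Matrix

noncomputable section

/-- data of a monomial pair of matrices -/
structure Mn where
  l : List ℕ
  b : ℕ
  qm : List ℕ
  e : ℕ
  r : List ℕ
  s : ℕ

def Mn.U (m : Mn) : ME := Matrix.of fun x' x =>
  if x' = mat2 12 m.l *ᵥ x + ce m.b then sg (x ⬝ᵥ mat2 12 m.qm *ᵥ x + (m.e : F2)) else 0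

/-- the affine map of a monomial pair -/
def Mn.φ (m : Mn) (x : E) : E := mat2 12 m.l *ᵥ x + ce m.b

theorem Mn.U_apply (m : Mn) (x' x : E) : m.U x' x =
    if x' = m.φ x then sg (x ⬝ᵥ mat2 12 m.qm *ᵥ x + (m.e : F2)) else 0 := rfl

theorem Mn.U_mul {m : Mn} (h : Function.Injective m.φ) {ι : Type} (w : Matrix E ι ℚ) (x : E)
    (i : ι) : (m.U * w) (m.φ x) i = sg (x ⬝ᵥ mat2 12 m.qm *ᵥ x + (m.e : F2)) * w x i := by
  rw [mul_apply, Finset.sum_eq_single x (fun y _ hy => by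
    rw [Mn.U_apply, if_neg fun e => hy (h e).symm, zero_mul]) (by simp), Mn.U_apply, if_pos rfl]

theorem Mn.U_orth {m : Mn} (h : Function.Injective m.φ) : m.Uᵀ * m.U = 1 := by
  rw [mul_eq_one_comm]
  ext x' y'
  obtain ⟨x, rfl⟩ := Finite.injective_iff_surjective.1 h x'
  rw [Mn.U_mul h, transpose_apply, one_apply, Mn.U_apply]
  by_cases e : y' = m.φ x
  · rw [if_pos e.symm, if_pos e, sg_mul_self]
  · rw [if_neg (Ne.symm e), if_neg e, mul_zero]

/-- the sign in the commutation rule -/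
def Mn.eps (m : Mn) (c d : Cl) : F2 := lo c ⬝ᵥ mat2 12 m.qm *ᵥ lo c + hi d ⬝ᵥ ce m.b

theorem Mn.U_q (m : Mn) {c d : Cl} (h1 : lo d = mat2 12 m.l *ᵥ lo c)
    (h2 : (mat2 12 m.l)ᵀ *ᵥ hi d = hi c + (mat2 12 m.qm + (mat2 12 m.qm)ᵀ) *ᵥ lo c) :
    m.U * q c = sg (m.eps c d) • (q d * m.U) := by
  ext x y
  rw [mul_q_apply, Matrix.smul_apply, q_mul_apply, Mn.U, of_apply, of_apply, mulVec_add, ← h1]
  by_cases e : x + lo d = mat2 12 m.l *ᵥ y + ce m.b
  · rw [if_pos e, if_pos (by rw [add_right_comm, ← e, add_assoc, add_self, add_zero]), e,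
      smul_eq_mul, ← sg_add, ← sg_add, ← sg_add]
    refine congrArg sg ?_
    have h3 : hi d ⬝ᵥ mat2 12 m.l *ᵥ y = hi c ⬝ᵥ y + (y ⬝ᵥ mat2 12 m.qm *ᵥ lo c +
        lo c ⬝ᵥ mat2 12 m.qm *ᵥ y) := by
      rw [dotProduct_mulVec, ← mulVec_transpose, h2, add_dotProduct, add_mulVec, add_dotProduct,
        dotProduct_comm (_ *ᵥ _) y, mulVec_transpose, ← dotProduct_mulVec]
    have h4 := CharTwo.add_self_eq_zero (hi d ⬝ᵥ ce m.b)
    simp only [Mn.eps, mulVec_add, add_dotProduct, dotProduct_add, h3]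
    linear_combination -h4
  · rw [if_neg e, if_neg fun e' => e (by rw [e', add_right_comm _ (lo d), add_assoc, add_self,
      add_zero]), zero_mul, mul_zero, smul_zero]

/-- transposed rows -/
def ktr (l : List ℕ) (r : ℕ) : ℕ := mkM (fun t => tb (kgd l t) r) 4 0

theorem bt_ktr (l : List ℕ) (r : ℕ) {t : ℕ} (h : t < 16) : bt (ktr l r) t = bt (l.getD t 0) r :=
  bt_congr (by simp [ktr, testBit_mkM, h])

/-- `a` is the matrix of the action of `m.U` on the classes -/
def okClf (m : Mn) (a : List ℕ) : Bool :=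
  kall 12 fun r => an (Nat.beq (kgd a r) (kgd m.l r)) <| an (iz (Nat.shiftRight (kgd m.l r) 12)) <|
    kfo (kxs 12 12 a (ktr m.l r)) fun K =>
      an (kagr K (Nat.xor (kgd m.qm r) (ktr m.qm r)) 4095)
        (Nat.beq (Nat.shiftRight K 12) (Nat.shiftLeft 1 r))

theorem sum24 (f : ℕ → F2) (c : Cl) : ∑ j : Fin 24, f j * c j =
    ∑ j : Fin 12, f j * lo c j + ∑ j : Fin 12, f (j + 12) * hi c j := by
  rw [Fin.sum_univ_add (a := 12) (b := 12)]
  simp only [Fin.val_castAdd, Fin.val_natAdd, add_comm 12]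
  rfl

theorem okClf_sound {m : Mn} {a : List ℕ} (h : okClf m a = true) (c : Cl) :
    m.U * q c = sg (m.eps c (mat2 24 a *ᵥ c)) • (q (mat2 24 a *ᵥ c) * m.U) := by
  simp only [okClf, kall_iff, an_eq, Bool.and_eq_true, kfo_eq, kgd_eq] at h
  refine m.U_q (funext fun r => ?_) (funext fun r => ?_)
  · obtain ⟨h1, h2, -⟩ := h r r.2
    refine (sum24 (bt (a.getD r 0)) c).trans ?_
    rw [Nat.eq_of_beq_eq_true h1, Finset.sum_eq_zero (s := Finset.univ) (f := fun j : Fin 12 =>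
      bt _ (j + 12) * _) fun j _ => by rw [bt_of' ((tb_shr _ _ _).symm.trans (iz_bit h2 j)),
        zero_mul], add_zero]
    rfl
  · obtain ⟨-, -, h1, h2⟩ := h r r.2
    have h3 : ∀ j : ℕ, bt (kxs 12 12 a (ktr m.l r)) j =
        ∑ t : Fin 12, mat2 12 m.l t r * bt (a.getD (Fin.natAdd 12 t : Fin 24) 0) j := fun j => by
      rw [bt_kxs]
      exact Finset.sum_congr rfl fun t _ => by rw [bt_ktr _ _ (by omega)]; rfl
    calc _ = ∑ j : Fin 24, bt (kxs 12 12 a (ktr m.l r)) j * c j := by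
          simp only [h3, Finset.sum_mul, mul_assoc]
          rw [Finset.sum_comm]
          simp only [← Finset.mul_sum]
          rfl
      _ = _ := by
          rw [sum24, add_comm, Pi.add_apply]
          refine congrArg₂ (· + ·) ?_ (Finset.sum_congr (g := fun j : Fin 12 =>
            (mat2 12 m.qm + (mat2 12 m.qm)ᵀ) r j * lo c j) rfl fun j _ => ?_)
          · rw [Finset.sum_eq_single r (fun j _ hj => ?_) (by simp), ← bt_congr (tb_shr _ _ _),
              Nat.eq_of_beq_eq_true h2, bt_of (by simp [Nat.one_shiftLeft]), one_mul]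
            rw [← bt_congr (tb_shr _ _ _), Nat.eq_of_beq_eq_true h2, bt_of' (by
              simp [Nat.one_shiftLeft, Nat.testBit_two_pow, Fin.val_inj, hj.symm]), zero_mul]
          · rw [kagr_bt h1 ((ones_bit 12 j).trans (by simp)), bt_xor, bt_ktr _ _ (by omega)]
            rfl

/-- `r` is a permutation of the 24 points -/
def okPm (r : List ℕ) : Bool :=
  an (kall 24 fun j => Nat.blt (kgd r j) 24) (kall 24 fun i => kany 24 fun j => Nat.beq (kgd r j) i)

theorem okPm_sound {r : List ℕ} (h : okPm r = true) :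
    ∃ ρ : Fin 24 ≃ Fin 24, ∀ j : Fin 24, r.getD j 0 = ρ j := by
  simp only [okPm, kall_iff, kany_iff, an_eq, Bool.and_eq_true, kgd_eq, Nat.blt_eq] at h
  refine ⟨Equiv.ofBijective (fun j => ⟨r.getD j 0, h.1 j j.2⟩)
    (Finite.surjective_iff_bijective.1 fun i => ?_), fun _ => rfl⟩
  obtain ⟨j, hj, e⟩ := h.2 i i.2
  exact ⟨⟨j, hj⟩, Fin.ext (Nat.eq_of_beq_eq_true e)⟩

section
variable {r : List ℕ} {ρ : Fin 24 ≃ Fin 24} (h : ∀ j : Fin 24, r.getD j 0 = ρ j) (s : ℕ)
include h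

theorem spm_apply (i j : Fin 24) : spm r s i j = if ρ j = i then sg (bt s i) else 0 := by
  rw [spm, of_apply, h, ← mul_one (sg _), ← sg_bt]
  exact if_congr Fin.val_inj rfl rfl

theorem spm_mul {ι : Type} (M : Matrix (Fin 24) ι ℚ) (j : Fin 24) (y : ι) :
    (spm r s * M) (ρ j) y = sg (bt s (ρ j)) * M j y := by
  simp [mul_apply, spm_apply h]

theorem mul_spmT {ι : Type} (M : Matrix ι (Fin 24) ℚ) (j : Fin 24) (y : ι) :
    (M * (spm r s)ᵀ) y (ρ j) = sg (bt s (ρ j)) * M y j := by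
  simp [mul_apply, spm_apply h, mul_comm]

theorem mul_spm {ι : Type} (M : Matrix ι (Fin 24) ℚ) (j : Fin 24) (y : ι) :
    (M * spm r s) y j = M y (ρ j) * sg (bt s (ρ j)) := by
  simp [mul_apply, spm_apply h]

end

/-! ### Hadamard matrices -/

/-- the classes of the two Pauli matrices at `a` -/
def cX (a : Fin 12) : Cl := mkc (Pi.single a 1) 0
def cZ (a : Fin 12) : Cl := mkc 0 (Pi.single a 1)
/-- the Hadamard matrix at `a`, up to a factor -/
def hG (a : Fin 12) : ME := q (cX a) + q (cZ a)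
/-- its action on the classes -/
def hS (a : Fin 12) (c : Cl) : Cl :=
  mkc (Function.update (lo c) a (hi c a)) (Function.update (hi c) a (lo c a))

theorem hG_mul {ι : Type} (a : Fin 12) (w : Matrix E ι ℚ) (x : E) (i : ι) :
    (hG a * w) x i = w (x + Pi.single a 1) i + sg (x a) * w x i := by
  simp [hG, Matrix.add_mul, q_mul_apply, cX, cZ, lo_mk, hi_mk, sg_zero]

theorem hG_orth (a : Fin 12) : (hG a)ᵀ * hG a = (2 : ℚ) • (1 : ME) := by
  simp [hG, Matrix.add_mul, Matrix.mul_add, q_transpose, q_mul, add_self, q_zero, Bf, cX, cZ, lo_mk,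
    hi_mk, sg_zero, sg_one, two_smul, add_comm (mkc 0 _)]

theorem hG_q (a : Fin 12) (c : Cl) :
    hG a * q c = sg (lo c a * hi c a) • (q (hS a c) * hG a) := by
  have h1 : ∀ x y : F2, x = y ∨ (x + 1 = y ∧ y + 1 = x ∧ x * y = 0) := by decide
  simp only [hG, Matrix.add_mul, Matrix.mul_add, q_mul, Bf, cX, cZ, hS, lo_mk, hi_mk,
    zero_dotProduct, dotProduct_zero, single_one_dotProduct, dotProduct_single_one,
    Function.update_self, sg_zero, one_smul, smul_add, smul_smul]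
  rcases h1 (lo c a) (hi c a) with h | ⟨h2, h3, h4⟩
  · have e : mkc (Function.update (lo c) a (hi c a)) (Function.update (hi c) a (lo c a)) = c :=
      cl_ext (by rw [lo_mk, ← h, Function.update_eq_self]) (by rw [hi_mk, h, Function.update_eq_self])
    have h2 : ∀ x : F2, x * x = x := by decide
    rw [e, ← h, h2, sg_mul_self, one_smul, add_comm c, add_comm c]
  · have h5 : ∀ (x : E) (y : F2), x a + 1 = y → Function.update x a y = x + Pi.single a 1 :=
      fun x y e => funext fun t => by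
        by_cases ht : t = a
        · simp [ht, e]
        · simp [ht]
    rw [h5 _ _ h2, h5 _ _ h3, h4, sg_zero, one_mul, one_smul, add_comm]
    congr 2 <;> [congr 1; skip] <;> refine cl_ext ?_ ?_ <;>
      simp [lo_add, hi_add, lo_mk, hi_mk, add_assoc, add_self] <;> exact add_comm _ _

/-- the Hadamard matrix at two places -/
def hH (a b : Fin 12) : ME := (1 / 2 : ℚ) • (hG b * hG a)

theorem hH_orth (a b : Fin 12) : (hH a b)ᵀ * hH a b = 1 := by
  rw [hH, transpose_smul, smul_mul, Matrix.mul_smul, transpose_mul, Matrix.mul_assoc,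
    ← Matrix.mul_assoc (hG b)ᵀ, hG_orth, smul_mul, Matrix.one_mul, Matrix.mul_smul, hG_orth]
  simp only [smul_smul]
  norm_num

theorem mul_q_of {U V : ME} {c d e : Cl} {a b : F2} (h1 : V * q c = sg a • (q d * V))
    (h2 : U * q d = sg b • (q e * U)) : U * V * q c = sg (a + b) • (q e * (U * V)) := by
  rw [Matrix.mul_assoc, h1, Matrix.mul_smul, ← Matrix.mul_assoc, h2, smul_mul, smul_smul, sg_add,
    Matrix.mul_assoc]

theorem orth_mul {n : Type} [Fintype n] [DecidableEq n] {U V : Matrix n n ℚ} (h1 : Uᵀ * U = 1)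
    (h2 : Vᵀ * V = 1) : (U * V)ᵀ * (U * V) = 1 := by
  rw [transpose_mul, Matrix.mul_assoc, ← Matrix.mul_assoc Uᵀ, h1, Matrix.one_mul, h2]

theorem hH_q {a b : Fin 12} (h : b ≠ a) (c : Cl) : hH a b * q c =
    sg (lo c a * hi c a + lo c b * hi c b) • (q (hS b (hS a c)) * hH a b) := by
  rw [hH, smul_mul, mul_q_of (hG_q a c) (hG_q b _), Matrix.mul_smul, smul_comm]
  simp [hS, lo_mk, hi_mk, h]

/-- the Hadamard matrix at the first four places -/
def hE : ME := hH 2 3 * hH 0 1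
/-- the exchange of the coordinates `k` and `k + 12` for `k < 4` -/
def hτ (t : ℕ) : ℕ :=
  Bool.rec t (Nat.mod (Nat.add t 12) 24) (Nat.blt (Nat.mod t 12) 4)

theorem hτ_lt : ∀ t < 24, hτ t < 24 := by decide

theorem hE_q (c : Cl) : hE * q c = sg (∑ t : Fin 4, c (f24 t) * c (f24 (12 + t))) •
    (q (fun t => c (f24 (hτ t))) * hE) := by
  have e : hS 3 (hS 2 (hS 1 (hS 0 c))) = fun t : Fin 24 => c (f24 (hτ t)) := by
    funext t
    fin_cases t <;> rfl
  rw [hE, mul_q_of (hH_q (by decide) c) (hH_q (by decide) _), e, Fin.sum_univ_four, add_assoc _ _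
    (c (f24 (3 : Fin 4)) * _)]
  rfl

theorem hH_mul {ι : Type} {a b : Fin 12} (h : b ≠ a) (w : Matrix E ι ℚ) (i : ι) {u : E}
    (ha : u a = 0) (hb : u b = 0) {y0 y1 y2 y3 : ℚ} (h0 : y0 = w u i)
    (h1 : y1 = w (u + Pi.single a 1) i) (h2 : y2 = w (u + Pi.single b 1) i)
    (h3 : y3 = w (u + Pi.single a 1 + Pi.single b 1) i) :
    (y0 + y1 + y2 + y3) / 2 = (hH a b * w) u i ∧
    (y0 - y1 + y2 - y3) / 2 = (hH a b * w) (u + Pi.single a 1) i ∧
    (y0 + y1 - y2 - y3) / 2 = (hH a b * w) (u + Pi.single b 1) i ∧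
    (y0 - y1 - y2 + y3) / 2 = (hH a b * w) (u + Pi.single a 1 + Pi.single b 1) i := by
  have e1 : ∀ x y : E, x + y + y = x := fun x y => by rw [add_assoc, add_self, add_zero]
  have e2 : ∀ x : E, x + Pi.single b 1 + Pi.single a 1 = x + Pi.single a 1 + Pi.single b 1 :=
    fun x => add_right_comm _ _ _
  simp only [hH, smul_mul, Matrix.mul_assoc, Matrix.smul_apply, hG_mul, e2, e1, Pi.add_apply, ha, hb,
    Pi.single_eq_same, Pi.single_eq_of_ne h, Pi.single_eq_of_ne h.symm, zero_add, add_zero, sg_zero,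
    sg_one, smul_eq_mul, h0, h1, h2, h3, CharTwo.add_self_eq_zero]
  refine ⟨?_, ?_, ?_, ?_⟩ <;> ring

theorem had_W {a b : Fin 12} (h : b ≠ a) {p : ℕ}
    (hp : ∀ x, p.testBit x = true ↔ x < 4096 ∧ x.testBit a = false ∧ x.testBit b = false)
    (hw : WFh (2 ^ a.1) (2 ^ b.1) (mWp p)) {y : ℕ → ℚ} {w : MW}
    (hy : ∀ (i : Fin 24) x, x < 4096 → y (posW i x) = w (ce x) i) (i : Fin 24) (x : ℕ)
    (hx : x < 4096) :
    (Lay.had (2 ^ a.1) (2 ^ b.1) (mWp p)).sem y (posW i x) = (hH a b * w) (ce x) i := by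
  have key : ∀ u, u < 4096 → u.testBit a = false → u.testBit b = false →
      ∀ x, x = u ∨ x = u + 2 ^ a.1 ∨ x = u + 2 ^ b.1 ∨ x = u + 2 ^ a.1 + 2 ^ b.1 →
      (Lay.had (2 ^ a.1) (2 ^ b.1) (mWp p)).sem y (posW i x) = (hH a b * w) (ce x) i := by
    intro u hu ha hb
    have hm := (testBit_mWp p _).2 ⟨i, i.2, u, (hp u).2 ⟨hu, ha, hb⟩, rfl⟩
    have hb' : (u + 2 ^ a.1).testBit b = false := by
      simp [testBit_add_pow ha, hb, Fin.val_inj, h]
    have e : ∀ x d, posW i x + d = posW i (x + d) := fun x d => add_assoc _ _ _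
    obtain ⟨k0, k1, k2, k3⟩ := hH_mul h w i (bt_of' ha) (bt_of' hb) (hy i u hu)
      ((hy i _ (lt_add_pow hu a.2 ha)).trans (by rw [ce_add_pow ha]))
      ((hy i _ (lt_add_pow hu b.2 hb)).trans (by rw [ce_add_pow hb]))
      ((hy i _ (lt_add_pow (lt_add_pow hu a.2 ha) b.2 hb')).trans
        (by rw [ce_add_pow hb', ce_add_pow ha]))
    rintro x (rfl | rfl | rfl | rfl)
    · rw [hw.s0 hm, e, e, e, k0]
    · rw [← e, hw.s1 hm, e, e, e, k1, ce_add_pow ha]
    · rw [← e, hw.s2 hm, e, e, e, k2, ce_add_pow hb]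
    · rw [← e, ← e, hw.s3 hm, e, e, e, k3, ce_add_pow hb', ce_add_pow ha]
  cases hb : x.testBit b
  · cases ha : x.testBit a
    · exact key x hx ha hb x (by simp)
    · obtain ⟨u, hu, rfl⟩ := exists_sub_pow ha
      rw [testBit_add_pow hu, Bool.or_eq_false_iff] at hb
      exact key u (lt_of_le_of_lt (Nat.le_add_right _ _) hx) hu hb.1 _ (by simp)
  · obtain ⟨v, hv, rfl⟩ := exists_sub_pow hb
    replace hx := lt_of_le_of_lt (Nat.le_add_right _ _) hx
    cases ha : v.testBit a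
    · exact key v hx ha hv _ (by simp)
    · obtain ⟨u, hu, rfl⟩ := exists_sub_pow ha
      rw [testBit_add_pow hu, Bool.or_eq_false_iff] at hv
      exact key u (lt_of_le_of_lt (Nat.le_add_right _ _) hx) hu hv.1 _ (by simp)

/-- twice the entries of the Hadamard matrix of the sextet -/
def hz (i j : ℕ) : ℤ :=
  Bool.rec 0 (Bool.rec 1 (-1) (xor (tb (Nat.land i j) 0) (tb (Nat.land i j) 1)))
    (Nat.beq (Nat.div i 4) (Nat.div j 4))
/-- the Hadamard matrix of the sextet -/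
def h24 : M24 := of fun i j => (hz i j : ℚ) / 2

theorem h24_sum (g : ℕ → ℚ) {a : ℕ} (ha : a < 6) :
    ∑ j : Fin 24, (hz (4 * a) j : ℚ) / 2 * g j =
      (g (4 * a) + g (4 * a + 1) + g (4 * a + 2) + g (4 * a + 3)) / 2 ∧
    ∑ j : Fin 24, (hz (4 * a + 1) j : ℚ) / 2 * g j =
      (g (4 * a) - g (4 * a + 1) + g (4 * a + 2) - g (4 * a + 3)) / 2 ∧
    ∑ j : Fin 24, (hz (4 * a + 2) j : ℚ) / 2 * g j =
      (g (4 * a) + g (4 * a + 1) - g (4 * a + 2) - g (4 * a + 3)) / 2 ∧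
    ∑ j : Fin 24, (hz (4 * a + 3) j : ℚ) / 2 * g j =
      (g (4 * a) - g (4 * a + 1) - g (4 * a + 2) + g (4 * a + 3)) / 2 := by
  have h : ∀ a < 6, ∀ u < 4, ∀ j < 24, hz (4 * a + u) j =
      if j = 4 * a then 1 else if j = 4 * a + 1 then (if u % 2 = 0 then 1 else -1)
      else if j = 4 * a + 2 then (if u < 2 then 1 else -1)
      else if j = 4 * a + 3 then (if u = 0 ∨ u = 3 then 1 else -1) else 0 := by decide +kernel
  have h1 : ∀ u < 4, ∑ j : Fin 24, (hz (4 * a + u) j : ℚ) / 2 * g j = (g (4 * a) +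
      (if u % 2 = 0 then 1 else -1) * g (4 * a + 1) + (if u < 2 then 1 else -1) * g (4 * a + 2) +
      (if u = 0 ∨ u = 3 then 1 else -1) * g (4 * a + 3)) / 2 := fun u hu => by
    rw [Fin.sum_univ_eq_sum_range (fun j => (hz (4 * a + u) j : ℚ) / 2 * g j) 24,
      ← Finset.sum_subset (s₁ := {4 * a, 4 * a + 1, 4 * a + 2, 4 * a + 3}) (fun j hj => by
        simp only [Finset.mem_insert, Finset.mem_singleton, Finset.mem_range] at hj ⊢
        omega) fun j hj hj' => by
          simp only [Finset.mem_insert, Finset.mem_singleton, not_or] at hj'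
          simp [h a ha u hu j (Finset.mem_range.1 hj), hj'],
      Finset.sum_insert (by simp), Finset.sum_insert (by simp), Finset.sum_insert (by simp),
      Finset.sum_singleton, h a ha u hu _ (by omega), h a ha u hu _ (by omega),
      h a ha u hu _ (by omega), h a ha u hu _ (by omega)]
    simp
    split_ifs <;> ring
  refine ⟨(h1 0 (by norm_num)).trans ?_, (h1 1 (by norm_num)).trans ?_,
    (h1 2 (by norm_num)).trans ?_, (h1 3 (by norm_num)).trans ?_⟩ <;> norm_num <;> ring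

theorem had_24 {δ ε m : ℕ} (hw : WFh δ ε m) (hε : ε = 2 * δ) (pos : ℕ → ℕ)
    (hpos : ∀ i, pos (i + 1) = pos i + δ) (hm : ∀ a < 6, m.testBit (pos (4 * a)) = true)
    (y : ℕ → ℚ) (i : Fin 24) :
    (Lay.had δ ε m).sem y (pos i) = ∑ j : Fin 24, h24 i j * y (pos j) := by
  obtain ⟨i, hi⟩ := i
  obtain ⟨k0, k1, k2, k3⟩ := h24_sum (fun j => y (pos j)) (show i / 4 < 6 by omega)
  have h0 := hm _ (show i / 4 < 6 by omega)
  have e1 := (hpos (4 * (i / 4))).symm
  have e2 : pos (4 * (i / 4)) + ε = pos (4 * (i / 4) + 2) := by rw [hpos, hpos, hε]; ring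
  have e3 : pos (4 * (i / 4) + 1) + ε = pos (4 * (i / 4) + 3) := by
    rw [hpos (_ + 2), hpos (_ + 1), hε]; ring
  simp only [h24, of_apply]
  generalize hj : i / 4 = a at *
  obtain rfl | rfl | rfl | rfl : i = 4 * a ∨ i = 4 * a + 1 ∨ i = 4 * a + 2 ∨ i = 4 * a + 3 := by
    omega
  · rw [k0, hw.s0 h0, e1, e2, e3]
  · rw [k1, ← e1, hw.s1 h0, e1, e2, e3]
  · rw [k2, ← e2, hw.s2 h0, e1, e2, e3]
  · rw [k3, ← e3, ← e1, hw.s3 h0, e1, e2, e3]

end

end CfsgMO
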