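/-
Coordinates of the Griess algebra and programs for the elements of `N` (WP K1).
-/
import Cfsg.Agent.MO.K1c
import Cfsg.Agent.MO.K1d

set_option autoImplicit false

namespace CfsgMO

open Matrix

noncomputable section

variable {D : Dat} {B : Lb}

/-- the plane of the values of a quadratic form -/
def kquad (qm L : List ℕ) : ℕ := kxo 12 fun r => Nat.land (kgd L r) (kxs 12 0 L (kgd qm r))

theorem bt_kquad (qm L : List ℕ) (k : ℕ) :
    bt (kquad qm L) k = vc 12 0 L k ⬝ᵥ mat2 12 qm *ᵥ vc 12 0 L k := by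
  rw [kquad, bt_kxo]
  exact Finset.sum_congr rfl fun r _ => by
    rw [bt_land, kgd_eq, kgd_eq, bt_kxs', vc, zero_add]

/-- the plane of the signs `m.eps` for source planes `S` and target planes `T` -/
def keps (m : Mn) (S T : List ℕ) : ℕ := Nat.xor (kquad m.qm S) (kxs 12 12 T m.b)

theorem bt_keps (m : Mn) (S T : List ℕ) (k : ℕ) :
    bt (keps m S T) k = m.eps (vc 24 0 S k) (vc 24 0 T k) := by
  rw [keps, bt_xor, bt_kquad, bt_kxs, Mn.eps, lo_vc, hi_vc, dotProduct_comm (vc 12 12 T k)]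
  rfl

/-- the check of the first and the last block; `L'` are the planes of the source labels and `s` is
the sign mask of `P` -/
def okAW (B : Lb) (m : Mn) (P : List Lay) (L' : List ℕ) (s : ℕ) : Bool :=
  an (okPm m.r) <| an (Nat.beq (prun P mA) mA) <| an (Nat.beq (prun P mW) mW) <|
  an (cutA L' fun L => kfo (Nat.land s (ones 3072)) fun t => kall 24 fun i => kall 24 fun j =>
    kfo (posA (kgd m.r i) (kgd m.r j)) fun k => an (Nat.beq (klab L k) (labA i j))
      (Bool.not (xor (tb t k) (xor (tb m.s (kgd m.r i)) (tb m.s (kgd m.r j)))))) <|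
  an (kall 12 fun r => kagr (kxs 12 0 L' (kgd m.l r))
    (Bool.rec (kgd B.L r) (Nat.xor (kgd B.L r) mW) (tb m.b r)) mW) <|
  an (kall 24 fun j => kall 5 fun t =>
    Nat.beq (kcut (kgd L' (Nat.add 12 t)) (posW (kgd m.r j) 0)) (kcst (tb j t))) <|
  kfo (Nat.xor s (kquad m.qm L')) fun T => kall 24 fun i =>
    Nat.beq (kcut T (posW i 0)) (kcst (xor (tb m.e 0) (tb m.s i)))

theorem bt_of_xor {a b c i j k : ℕ} (h : a.testBit i = xor (b.testBit j) (c.testBit k)) :
    bt a i = bt b j + bt c k := by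
  unfold bt
  rw [h]
  cases b.testBit j <;> cases c.testBit k <;> decide

theorem okAW_sound (hG : Good D B) {m : Mn} {P : List Lay} (hw : wf P = true) (hm : mono P = true)
    (h : okAW B m P ((List.range 26).map fun t => prun P (kgd B.L t)) (srun P) = true) :
    okPm m.r = true ∧ prun P mA = mA ∧ prun P mW = mW ∧ Function.Injective m.φ ∧ ∀ v : D.V,
      (∀ i j : Fin 24, (spm m.r m.s * v.1.1 * (spm m.r m.s)ᵀ) i j = sem P (co D B v) (posA i j)) ∧
      ∀ (i : Fin 24) (x : ℕ), x < 4096 →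
        (m.U * v.2.2 * (spm m.r m.s)ᵀ) (ce x) i = sem P (co D B v) (posW i x) := by
  have hl := lab_mv hG.len hw hm
  have hn : ((List.range 26).map fun t => prun P (kgd B.L t)).length = 26 := by simp
  generalize ((List.range 26).map fun t => prun P (kgd B.L t)) = L' at *
  simp only [okAW, an_eq, Bool.and_eq_true, kfo_eq, kall_iff, kgd_eq, tb_eq] at h
  obtain ⟨h1, h2, h3, h4, h5, h6, h7⟩ := h
  obtain ⟨ρ, hρ⟩ := okPm_sound h1
  replace h2 := Nat.eq_of_beq_eq_true h2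
  replace h3 := Nat.eq_of_beq_eq_true h3
  have key : ∀ (j : Fin 24) (x' : ℕ), x' < 4096 → ∃ x < 4096, pm P (posW (ρ j) x') = posW j x ∧
      ce x' = m.φ (ce x) ∧ bt (srun P) (posW (ρ j) x') =
        ce x ⬝ᵥ mat2 12 m.qm *ᵥ ce x + (m.e : F2) + bt m.s (ρ j) := fun j x' hx' => by
    have hk := mW_pos (ρ j).2 hx'
    obtain ⟨j0, hj0, x, hx, e⟩ := (testBit_mW _).1 ((testBit_prun hw hm mW _).symm.trans (h3 ▸ hk))
    have e1 : lab L' (posW (ρ j) x') = labW j0 x := by rw [hl, e, hG.hW j0 hj0 x hx]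
    have e2 : vc 12 0 L' (posW (ρ j) x') = ce x := by rw [← ce_lab, e1, ce_labW]
    obtain rfl : j0 = j := bits_inj (n := 5) (by omega) (by omega) fun t ht => bt_congr (by
      have := kcut_cst (h6 j j.2 t ht) hx'
      rw [hρ, ← testBit_lab, show posW (ρ j) 0 + x' = posW (ρ j) x' from rfl, e1, labW_bit hx,
        show Nat.add 12 t = 12 + t from rfl, if_neg (by omega), Nat.add_sub_cancel_left,
        show 8192 = 2 ^ 13 from rfl, Nat.testBit_two_pow_add_gt (by omega)] at this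
      exact this)
    refine ⟨x, hx, e, funext fun r => ?_, ?_⟩
    · have := kagr_bt (h5 r r.2) hk
      rw [bt_kxs', e2] at this
      have e3 : bt (B.L.getD r 0) (posW (ρ j) x') = ce x' r := by
        rw [← ce_labW (ρ j), ← hG.hW _ (ρ j).2 _ hx', ce_lab, vc, zero_add]
      rw [Mn.φ, Pi.add_apply, this, ← e3]
      cases hb : m.b.testBit r
      · exact ((congrArg _ (bt_of' hb)).trans (add_zero _)).symm
      · change _ = bt (Nat.xor _ _) _ + bt _ _
        rw [bt_xor, bt_of hk, bt_of hb, add_assoc, CharTwo.add_self_eq_zero, add_zero]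
    · have := bt_of_xor (kcut_cst (h7 _ (ρ j).2) hx')
      rw [show posW (ρ j) 0 + x' = posW (ρ j) x' from rfl, bt_xor, bt_kquad, e2,
        ← cast_eq_bt] at this
      rw [add_assoc, ← this, add_comm (bt _ _), ← add_assoc, CharTwo.add_self_eq_zero, zero_add]
  have hφ : Function.Injective m.φ := Finite.injective_iff_surjective.2 fun x' => by
    obtain ⟨a, ha, rfl⟩ := ce_surj x'
    obtain ⟨x, -, -, e, -⟩ := key 0 a ha
    exact ⟨_, e.symm⟩
  refine ⟨h1, h2, h3, hφ, fun v => ⟨fun i j => ?_, fun i x' hx' => ?_⟩⟩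
  · obtain ⟨i, rfl⟩ := ρ.surjective i
    obtain ⟨j, rfl⟩ := ρ.surjective j
    obtain ⟨L, h4, e⟩ := cutA_eq hn h4
    simp only [kall_iff, Bool.and_eq_true] at h4
    obtain ⟨h8, h9⟩ := h4 i i.2 j j.2
    rw [hρ, hρ] at h8 h9
    have hk := mA_pos (ρ i).2 (ρ j).2
    have h10 : bt (srun P) (posA (ρ i) (ρ j)) = bt m.s (ρ i) + bt m.s (ρ j) := bt_of_xor (by
      have : posA (ρ i) (ρ j) < 3072 := by unfold posA; omega
      rw [tb_land, ones_bit, decide_eq_true this, Bool.and_true] at h9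
      simpa using h9)
    rw [sem_mono hw hm, sg_bt, co_of v (M_of_A ((testBit_prun hw hm mA _).symm.trans
      (by rw [h2, hk]))),
      ← hl, ← e _ (ρ i).2 _ (ρ j).2, Nat.eq_of_beq_eq_true h8, valL_A, mul_spmT hρ, spm_mul hρ, h10,
      sg_add]
    ring
  · obtain ⟨j, rfl⟩ := ρ.surjective i
    obtain ⟨x, hx, e1, e2, e3⟩ := key j x' hx'
    rw [sem_mono hw hm, sg_bt, e1, e2, e3, co_W hG v j hx, mul_spmT hρ, Mn.U_mul hφ, sg_add _ (bt _ _)]
    ring

/-- the check of a monomial segment; `S L'` is the plane of the signs on the monomial part -/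
def okSeg (B : Lb) (m : Mn) (a : List ℕ) (P : List Lay) (S : List ℕ → (ℕ → Bool) → Bool) : Bool :=
  an (wf P) <| an (mono P) <| mvL B.L P fun L' => kfo (srun P) fun s =>
    an (okAW B m P L' s) <| an (okXa B a P L') (S L' fun t => kagr s t B.X)

theorem okSeg_okX {m : Mn} {a : List ℕ} {P : List Lay} {S : List ℕ → (ℕ → Bool) → Bool}
    (h : okSeg B m a P S = true) : okX B a P = true := by
  simp only [okSeg, okX, an_eq, Bool.and_eq_true, mvL_eq, kfo_eq] at h ⊢
  exact ⟨h.1, h.2.1, h.2.2.2.1⟩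

theorem okSeg_sound (hG : Good D B) {m : Mn} {a : List ℕ} {P : List Lay}
    {S : List ℕ → (ℕ → Bool) → Bool} (h : okSeg B m a P S = true) {ε : Cl → Cl → F2}
    (hS : ∀ L' f, S L' f = true → ∃ t, f t = true ∧
      ∀ k, bt t k = ε (vc 24 0 L' k) (vc 24 0 B.L k)) :
    wf P = true ∧ mono P = true ∧ okPm m.r = true ∧ Function.Injective m.φ ∧ ∀ u v : D.V,
      u.1.1 = spm m.r m.s * v.1.1 * (spm m.r m.s)ᵀ → u.2.2 = m.U * v.2.2 * (spm m.r m.s)ᵀ →
      (∀ p s, D.cls s = mat2 24 a *ᵥ D.cls p → u.2.1 s = sg (ε (D.cls p) (D.cls s)) * v.2.1 p) →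
      co D B u = sem P (co D B v) := by
  simp only [okSeg, an_eq, Bool.and_eq_true, mvL_eq, kfo_eq] at h
  obtain ⟨hw, hm, h1, h2, h3⟩ := h
  obtain ⟨k1, k2, k3, k4, k5⟩ := okAW_sound hG hw hm h1
  obtain ⟨t, h3, h4⟩ := hS _ _ h3
  refine ⟨hw, hm, k1, k4, fun u v e1 e2 e3 => co_eq hG (fun i j => e1 ▸ (k5 v).1 i j)
    (fun i x hx => e2 ▸ (k5 v).2 i x hx) (fun k s hk hs => ?_) fun k hk => ?_⟩
  · have hk' := (testBit_prun hw hm B.X k).symm.trans ((okXa_fix h2).symm ▸ hk)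
    obtain ⟨p, hp⟩ := (hG.hX _ hk').2
    rw [sem_mono hw hm, sg_bt, co_X hG v hk' hp, kagr_bt h3 hk, h4, ← cd_lab, ← cd_lab,
      lab_mv hG.len hw hm, ← hp, ← hs]
    exact e3 p s (by rw [hs, okXa_sound h2 hk, lab_mv hG.len hw hm, hp])
  · rw [sem_mono hw hm, co_out v (by
      rw [Lb.M_bit, ← testBit_prun hw hm, ← testBit_prun hw hm, ← testBit_prun hw hm, k2, k3,
        okXa_fix h2, ← Lb.M_bit, hk])]
    simp

/-- `P` computes an element of `N` with matrices `a` and `σ` -/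
def Let (D : Dat) (B : Lb) (P : List Lay) (a : List ℕ) (σ : M24) (n : D.N) : Prop :=
  Sem D B P n.1.1 ∧ (D.Ah n).1 = mat2 24 a ∧ ∃ U, D.IsN U σ ∧ n.1.1 = D.actL U σ

/-- what the lattice gives -/
def Lift (D : Dat) (a : List ℕ) (σ : M24) : Prop :=
  ∀ U : ME, Uᵀ * U = 1 → (∀ c, ∃ ε, U * q c = sg ε • (q (mat2 24 a *ᵥ c) * U)) → D.IsN U σ

theorem let_of {P : List Lay} {a : List ℕ} {σ : M24} {U : ME} (hL : Lift D a σ) (hU : Uᵀ * U = 1)
    {ε : Cl → F2} (hq : ∀ c, U * q c = sg (ε c) • (q (mat2 24 a *ᵥ c) * U)) (hw : wf P = true)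
    (h : ∀ v, (∀ p s, D.cls s = mat2 24 a *ᵥ D.cls p →
      (D.actL U σ v).2.1 s = sg (ε (D.cls p)) * v.2.1 p) →
      co D B (D.actL U σ v) = sem P (co D B v)) : ∃ n, Let D B P a σ n := by
  have hN := hL U hU fun c => ⟨_, hq c⟩
  obtain ⟨g, hg, e⟩ := Dat.exists_N hN
  exact ⟨⟨g, hg⟩, ⟨hw, fun v => e ▸ h v fun p s hs => Dat.actL_X hN (hs ▸ hq _) v⟩,
    ext_iff_mulVec.2 fun c => Dat.Ah_of (Dat.conj_xq hN e (hq c)), U, hN, e⟩

/-- monomial letters: `U = m.U`, `σ = spm m.r m.s` -/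
def okMon (B : Lb) (m : Mn) (a : List ℕ) (P : List Lay) : Bool :=
  an (okClf m a) (okSeg B m a P fun L' f => f (keps m L' B.L))

theorem okMon_okX {m : Mn} {a : List ℕ} {P : List Lay} (h : okMon B m a P = true) :
    okX B a P = true := by
  rw [okMon, an_eq, Bool.and_eq_true] at h
  exact okSeg_okX h.2

theorem let_mon (hG : Good D B) {m : Mn} {a : List ℕ} {P : List Lay} (h : okMon B m a P = true)
    (hL : Lift D a (spm m.r m.s)) : mono P = true ∧ ∃ n, Let D B P a (spm m.r m.s) n := by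
  rw [okMon, an_eq, Bool.and_eq_true] at h
  obtain ⟨hw, hm, -, hφ, h1⟩ := okSeg_sound hG h.2 (ε := m.eps)
    fun L' f hf => ⟨_, hf, bt_keps m L' B.L⟩
  exact ⟨hm, let_of hL (Mn.U_orth hφ) (okClf_sound h.1) hw fun v hv =>
    h1 _ v rfl rfl fun p s hs => by rw [hv p s hs, hs]⟩

/-! ### the letter `ξ` -/

def hM1 : ℕ := mWp (Nat.div (ones 4096) 15)
def hM2 : ℕ := mWp (Nat.mul (Nat.div (ones 4096) 65535) 15)
def hM3 : ℕ := Nat.shiftLeft (krep 24576 (ones 4096) 6) 52736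
def hM4 : ℕ := krep 128 1118481 24
def hM5 : ℕ := krep 512 (ones 24) 6

/-- the five Hadamard layers -/
def hadP : List Lay :=
  [.had 1 2 hM1, .had 4 8 hM2, .had 6144 12288 hM3, .had 1 2 hM4, .had 128 256 hM5]

theorem wf_hadP : wf hadP = true := by decide +kernel

/-- all positions touched by a Hadamard layer -/
def hadA (δ ε m : ℕ) : ℕ := Nat.lor (Nat.lor m (Nat.shiftLeft m δ))
  (Nat.lor (Nat.shiftLeft m ε) (Nat.shiftLeft m (Nat.add δ ε)))

theorem had_out {δ ε m R : ℕ} (h : Nat.lor (hadA δ ε m) R = R) (y : ℕ → ℚ) {k : ℕ}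
    (hk : R.testBit k = false) : (Lay.had δ ε m).sem y k = y k := by
  have := congrArg (·.testBit k) h
  simp only [hadA, tb_lor, hk, Bool.or_false, Bool.or_eq_false_iff] at this
  exact had_s4 ⟨this.1.1, this.1.2, this.2.1, this.2.2⟩ y

theorem pat_bit {p a b : ℕ} (h : p = mkM (fun x => an (Bool.not (tb x a)) (Bool.not (tb x b))) 12 0)
    (x : ℕ) : p.testBit x = true ↔ x < 4096 ∧ x.testBit a = false ∧ x.testBit b = false := by
  simp [h, testBit_mkM]

theorem sem_hadP (hG : Good D B) (u v : D.V) (e1 : u.1.1 = h24 * v.1.1 * h24ᵀ)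
    (e2 : u.2.2 = hE * v.2.2 * h24ᵀ) (e3 : u.2.1 = v.2.1) : co D B u = sem hadP (co D B v) := by
  have hw := wf_iff.1 wf_hadP
  have w1 := wfh_of (hw (.had 1 2 hM1) (by simp [hadP]))
  have w2 := wfh_of (hw (.had 4 8 hM2) (by simp [hadP]))
  have w3 := wfh_of (hw (.had 6144 12288 hM3) (by simp [hadP]))
  have w4 := wfh_of (hw (.had 1 2 hM4) (by simp [hadP]))
  have w5 := wfh_of (hw (.had 128 256 hM5) (by simp [hadP]))
  have ho : Nat.lor (hadA 1 2 hM1) mW = mW ∧ Nat.lor (hadA 4 8 hM2) mW = mW ∧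
      Nat.lor (hadA 6144 12288 hM3) mW = mW ∧ Nat.lor (hadA 1 2 hM4) mA = mA ∧
      Nat.lor (hadA 128 256 hM5) mA = mA := by decide +kernel
  obtain ⟨o1, o2, o3, o4, o5⟩ := ho
  have h0 : ∀ k, mA.testBit k = false → mW.testBit k = false →
      sem hadP (co D B v) k = co D B v k := fun k h1 h2 => by
    simp only [hadP, sem_cons, sem_nil]
    rw [had_out o5 _ h1, had_out o4 _ h1, had_out o3 _ h2, had_out o2 _ h2, had_out o1 _ h2]
  refine co_eq hG (fun i j => ?_) (fun i x hx => ?_) (fun k p hk hp => ?_) fun k hk => ?_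
  · simp only [hadP, sem_cons, sem_nil]
    rw [had_24 w5 rfl (fun i => posA i j) (fun i => by unfold posA; omega) (fun a ha =>
      (krep_bit _ _ _ _).2 ⟨a, ha, j, by simp [ones_bit], by unfold posA; omega⟩), e1,
      Matrix.mul_assoc, mul_apply]
    refine Finset.sum_congr rfl fun i' _ => congrArg _ ?_
    rw [had_24 w4 rfl (posA i') (fun i => by unfold posA; omega) (fun a ha =>
      (krep_bit _ _ _ _).2 ⟨i', i'.2, 4 * a, by revert a; decide, rfl⟩), mul_apply]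
    refine Finset.sum_congr rfl fun j' _ => ?_
    have := mW_posA i'.2 j'.2
    rw [had_out o3 _ this, had_out o2 _ this, had_out o1 _ this, co_A hG, mul_comm, transpose_apply]
  · simp only [hadP, sem_cons, sem_nil]
    rw [had_out o5 _ (mA_posW i x), had_out o4 _ (mA_posW i x),
      had_24 w3 rfl (fun i => posW i x) (fun i => by unfold posW; omega) (fun a ha =>
      (krep_shl_bit _ _ _ _ _).2 ⟨a, ha, x, by simp [ones_bit, hx], by unfold posW; omega⟩), e2,
      mul_apply]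
    refine Finset.sum_congr rfl fun j _ => ?_
    rw [mul_comm, transpose_apply, hE, Matrix.mul_assoc]
    exact congrArg _ (had_W (a := 2) (b := 3) (by decide) (pat_bit (by decide +kernel)) w2
      (had_W (a := 0) (b := 1) (by decide) (pat_bit (by decide +kernel)) w1
        fun i x hx => co_W hG v i hx) j x hx).symm
  · rw [h0 k (hG.X_out hk).1 (hG.X_out hk).2, co_X hG v hk hp, e3]
  · rw [← co_out v hk]
    rw [Lb.M_bit, Bool.or_eq_false_iff, Bool.or_eq_false_iff] at hk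
    exact h0 k hk.1.1 hk.1.2

/-- the program of the letter `ξ`: `P2`, then `had` on the bits (0,1), (2,3) of `x`, on the tetrads
of `i` in the last block, on the tetrads of columns and rows of the first block, then `P1` -/
def xiP (P1 P2 : List Lay) : List Lay := P2 ++ (hadP ++ P1)

/-- the unit matrix -/
def idL : List ℕ := (List.range 24).map fun k => Nat.shiftLeft 1 k

theorem mat2_idL : mat2 24 idL = 1 := by decide +kernel

/-- a sign -/
def sz (b : Bool) : ℤ := Bool.rec 1 (-1) b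

theorem sz_cast (s i : ℕ) : ((sz (tb s i) : ℤ) : ℚ) = sg (bt s i) := by
  rw [tb_eq, bt]
  cases s.testBit i <;> simp [sz, sg_zero, sg_one]

/-- `U = m1.U * H * m2.U` with class matrices `a1`, `a2` of the factors,
`σ = spm m1.r m1.s * H' * spm m2.r m2.s = smat sm`; `P2` does the whole action on the monomial
part, `P1` fixes it -/
def okXi (B : Lb) (m1 m2 : Mn) (a1 a2 a : List ℕ) (sm : List (List ℤ)) (P1 P2 : List Lay) : Bool :=
  an (okClf m1 a1) <| an (okClf m2 a2) <|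
  an (ktab 24 (fun t => kgd a2 (hτ t)) fun a3 =>
    kall 24 fun r => Nat.beq (kxs 24 0 a3 (kgd a1 r)) (kgd a r)) <|
  an (kall 24 fun i => kall 24 fun j => decide ((sm.getD (kgd m1.r i) []).getD j 0 =
    Int.mul (sz (tb m1.s (kgd m1.r i))) (Int.mul (hz i (kgd m2.r j)) (sz (tb m2.s (kgd m2.r j)))))) <|
  an (okSeg B m1 idL P1 fun _ f => f 0) <|
  okSeg B m2 a P2 fun L' f => ktab 24 (fun t => kxs 24 0 L' (kgd a2 t)) fun L2 =>
    ktab 24 (fun t => kgd L2 (hτ t)) fun L3 =>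
      f (Nat.xor (Nat.xor (keps m2 L' L2)
        (kxo 4 fun t => Nat.land (kgd L2 t) (kgd L2 (Nat.add 12 t)))) (keps m1 L3 B.L))

theorem f24_lt {n : ℕ} (h : n < 24) : (f24 n).1 = n := Nat.mod_eq_of_lt h

theorem vc_hτ (L : List ℕ) (k : ℕ) : vc 24 0 ((List.range 24).map fun t => kgd L (hτ t)) k =
    fun t : Fin 24 => vc 24 0 L k (f24 (hτ t)) := funext fun t => by
  rw [vc, vc, zero_add, zero_add, getD_tab _ t.2, kgd_eq, f24_lt (hτ_lt t t.2)]

theorem mat_xi {a1 a2 a : List ℕ} (h : ∀ r < 24, Nat.beq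
    (kxs 24 0 ((List.range 24).map fun t => kgd a2 (hτ t)) (kgd a1 r)) (kgd a r) = true) (c : Cl) :
    mat2 24 a1 *ᵥ (fun t : Fin 24 => (mat2 24 a2 *ᵥ c) (f24 (hτ t))) = mat2 24 a *ᵥ c := by
  have e : mat2 24 a = mat2 24 a1 * (mat2 24 a2).submatrix (fun t : Fin 24 => f24 (hτ t)) id := by
    ext r j
    have := bt_kxs' 24 0 ((List.range 24).map fun t => kgd a2 (hτ t)) a1 j r
    rw [← kgd_eq, Nat.eq_of_beq_eq_true (h r r.2), kgd_eq, vc_hτ] at this
    simpa only [mulVec, dotProduct, vc, zero_add, mul_apply, of_apply, mat2, bt, submatrix_apply,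
      id] using this
  rw [e, ← mulVec_mulVec]
  exact congrArg _ (funext fun t => by simp only [mulVec, submatrix_apply, id])

/-- the sign of `ξ` on the monomial part -/
def xiE (m1 m2 : Mn) (a2 : List ℕ) (c d : Cl) : F2 := m2.eps c (mat2 24 a2 *ᵥ c) +
  ∑ t : Fin 4, (mat2 24 a2 *ᵥ c) (f24 t) * (mat2 24 a2 *ᵥ c) (f24 (12 + t)) +
  m1.eps (fun t => (mat2 24 a2 *ᵥ c) (f24 (hτ t))) d

theorem exists_tri (U : ME) (σ : M24) (x : D.I → ℚ) (v : D.V) :
    ∃ u : D.V, u.1.1 = σ * v.1.1 * σᵀ ∧ u.2.2 = U * v.2.2 * σᵀ ∧ u.2.1 = x :=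
  ⟨((D.actL U σ v).1, x, (D.actL U σ v).2.2), rfl, rfl, rfl⟩

theorem let_xi (hG : Good D B) {m1 m2 : Mn} {a1 a2 a : List ℕ} {sm : List (List ℤ)}
    {P1 P2 : List Lay} (h : okXi B m1 m2 a1 a2 a sm P1 P2 = true) (hL : Lift D a (smat sm)) :
    okX B a P2 = true ∧ ∃ n, Let D B (xiP P1 P2) a (smat sm) n := by
  simp only [okXi, an_eq, Bool.and_eq_true, ktab_eq, kall_iff, decide_eq_true_eq] at h
  obtain ⟨c1, c2, h1, h2, h3, h4⟩ := h
  obtain ⟨w1, -, r1, f1, s1⟩ := okSeg_sound hG h3 (ε := fun _ _ => 0)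
    fun _ f hf => ⟨0, hf, bt_zero⟩
  obtain ⟨w2, -, r2, f2, s2⟩ := okSeg_sound hG h4 (ε := xiE m1 m2 a2) fun L' f hf => ⟨_, hf, fun k => by
    have e : vc 24 0 ((List.range 24).map fun t => kxs 24 0 L' (kgd a2 t)) k =
        mat2 24 a2 *ᵥ vc 24 0 L' k := funext fun t => by
      rw [vc, zero_add, getD_tab _ t.2, kgd_eq, bt_kxs']
    rw [bt_xor, bt_xor, bt_keps, bt_keps, bt_kxo, vc_hτ, xiE, ← e]
    refine congrArg₂ (· + ·) (congrArg _ (Finset.sum_congr rfl fun t _ => ?_)) rfl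
    have := t.2
    rw [bt_land, kgd_eq, kgd_eq, vc, vc, zero_add, zero_add, f24_lt (show t.1 < 24 by omega),
      f24_lt (show 12 + t.1 < 24 by omega)]
    rfl⟩
  obtain ⟨ρ1, k1⟩ := okPm_sound r1
  obtain ⟨ρ2, k2⟩ := okPm_sound r2
  have hσ : smat sm = spm m1.r m1.s * (h24 * spm m2.r m2.s) := by
    ext i j
    obtain ⟨i, rfl⟩ := ρ1.surjective i
    have := h2 i i.2 j j.2
    rw [kgd_eq, kgd_eq, k1, k2] at this
    rw [spm_mul k1, mul_spm k2, smat, of_apply, this, h24, of_apply, ← sz_cast, ← sz_cast]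
    simp only [Int.mul_def]
    push_cast
    ring
  have hq : ∀ c, m1.U * (hE * m2.U) * q c = sg (xiE m1 m2 a2 c (mat2 24 a *ᵥ c)) •
      (q (mat2 24 a *ᵥ c) * (m1.U * (hE * m2.U))) := fun c => by
    rw [mul_q_of (mul_q_of (okClf_sound c2 c) (hE_q _)) (okClf_sound c1 _), mat_xi h1, xiE]
  refine ⟨okSeg_okX h4, let_of hL (U := m1.U * (hE * m2.U)) (orth_mul (Mn.U_orth f1)
    (orth_mul (U := hE) (orth_mul (hH_orth _ _) (hH_orth _ _)) (Mn.U_orth f2))) hq
    (wf_append w2 (wf_append wf_hadP w1)) fun v hv => ?_⟩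
  generalize hg : D.actL (m1.U * (hE * m2.U)) (smat sm) v = u at hv ⊢
  have e1 : u.1.1 = smat sm * v.1.1 * (smat sm)ᵀ := hg ▸ rfl
  have e2 : u.2.2 = m1.U * (hE * m2.U) * v.2.2 * (smat sm)ᵀ := hg ▸ rfl
  obtain ⟨u2, a1, a2, a3⟩ := exists_tri m2.U (spm m2.r m2.s) u.2.1 v
  obtain ⟨u3, b1, b2, b3⟩ := exists_tri hE h24 u.2.1 u2
  rw [xiP, sem_append, sem_append, ← s2 u2 v a1 a2 fun p s hs => by rw [a3, hv p s hs, hs],
    ← sem_hadP hG u3 u2 b1 b2 (b3.trans a3.symm)]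
  refine s1 _ u3 ?_ ?_ fun p s hs => ?_
  · simp only [e1, b1, a1, hσ, Matrix.mul_assoc, transpose_mul]
  · simp only [e2, b2, a2, hσ, Matrix.mul_assoc, transpose_mul]
  · rw [mat2_idL, one_mulVec] at hs
    rw [D.cls_inj hs, sg_zero, one_mul, b3]

end

end CfsgMO
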