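/-
The triality element is an automorphism of the Griess algebra (WP K2), part a: reduction to pairs.
-/
import Cfsg.Agent.MO.A2
import Cfsg.Agent.MO.K1c

set_option autoImplicit false

namespace CfsgMO

open Matrix

noncomputable section

/-! ### programs are orthogonal -/

theorem sum_msk {α : Type} [Fintype α] (m : ℕ) (ι : α → ℕ) (inj : Function.Injective ι)
    (hm : ∀ k, m.testBit k = true ↔ ∃ a, k = ι a) (lt : ∀ a, ι a < NB) (H : ℕ → ℚ) :
    ∑ k ∈ Finset.range NB, (if m.testBit k then H k else 0) = ∑ a, H (ι a) := by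
  rw [← Finset.sum_filter, ← Finset.sum_image (s := Finset.univ) (g := ι) fun a _ b _ h => inj h]
  refine Finset.sum_congr ?_ fun _ _ => rfl
  ext k
  simp only [Finset.mem_filter, Finset.mem_range, Finset.mem_image, Finset.mem_univ, true_and, hm]
  exact ⟨fun ⟨_, a, h⟩ => ⟨a, h.symm⟩, fun ⟨a, h⟩ => ⟨h ▸ lt a, a, h.symm⟩⟩

theorem sum_shl (m d : ℕ) (lt : ∀ j, m.testBit j = true → j + d < NB) (G : ℕ → ℚ) :
    ∑ k ∈ Finset.range NB, (if (m <<< d).testBit k then G k else 0) =
      ∑ j ∈ Finset.range NB, if m.testBit j then G (j + d) else 0 := by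
  rw [← Finset.sum_filter, ← Finset.sum_filter]
  symm
  refine Finset.sum_nbij (fun j => j + d) ?_ ?_ ?_ fun _ _ => rfl
  · intro j hj
    rw [Finset.mem_filter] at hj ⊢
    exact ⟨Finset.mem_range.2 (lt j hj.2), by rw [tb_shl_add]; exact hj.2⟩
  · intro a _ b _ h
    exact Nat.add_right_cancel h
  · intro k hk
    rw [Finset.coe_filter] at hk
    obtain ⟨j, hj, rfl⟩ := tb_shl_iff.1 hk.2
    refine ⟨j, ?_, rfl⟩
    rw [Finset.coe_filter]
    exact ⟨Finset.mem_range.2 (by have := lt j hj; omega), hj⟩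

theorem Lay.sem_ortho {l : Lay} (h : l.wf = true) (y y' : ℕ → ℚ) :
    ∑ k ∈ Finset.range NB, l.sem y k * l.sem y' k = ∑ k ∈ Finset.range NB, y k * y' k := by
  cases l with
  | swap δ m =>
    have w := wfs_of h
    have hm : ∀ i ∈ Finset.range NB, (Lay.swap δ m).pm i ∈ Finset.range NB := fun i hi => by
      rw [Finset.mem_range] at hi ⊢
      rw [pm_swap]
      split_ifs with h1 h2
      · exact w.lt i h1
      · omega
      · exact hi
    exact Finset.sum_nbij' (Lay.swap δ m).pm (Lay.swap δ m).pm hm hm (fun i _ => w.pm_pm i)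
      (fun i _ => w.pm_pm i) fun i _ => by rw [sem_swap, sem_swap]
  | sign m =>
    refine Finset.sum_congr rfl fun k _ => ?_
    simp only [Lay.sem]; split_ifs <;> simp
  | had δ ε m =>
    have w := wfh_of h
    rw [← sub_eq_zero, ← Finset.sum_sub_distrib]
    set F : ℕ → ℚ := fun k => (Lay.had δ ε m).sem y k * (Lay.had δ ε m).sem y' k - y k * y' k
      with hF
    have e : ∀ k, F k = (if m.testBit k then F k else 0) + (if (m <<< δ).testBit k then F k else 0) +
        (if (m <<< ε).testBit k then F k else 0) +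
        (if (m <<< (δ + ε)).testBit k then F k else 0) := fun k => by
      rcases had_cases δ ε m k with hj | ⟨j, hj, rfl⟩ | ⟨j, hj, rfl⟩ | ⟨j, hj, rfl⟩ | hj
      · obtain ⟨a, b, c⟩ := w.at0 hj
        simp [hj, a, b, c]
      · obtain ⟨a, b, c, d⟩ := w.at1 hj
        simp [a, b, c, d]
      · obtain ⟨a, b, c, d⟩ := w.at2 hj
        simp [a, b, c, d]
      · obtain ⟨a, b, c, d⟩ := w.at3 hj
        simp [a, b, c, d]
      · have : F k = 0 := by simp only [hF, had_s4 hj, sub_self]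
        simp [this]
    rw [Finset.sum_congr rfl fun k _ => e k, Finset.sum_add_distrib, Finset.sum_add_distrib,
      Finset.sum_add_distrib, sum_shl m δ (fun j hj => by have := w.lt j hj; omega),
      sum_shl m ε (fun j hj => by have := w.lt j hj; omega),
      sum_shl m (δ + ε) (fun j hj => by have := w.lt j hj; omega), ← Finset.sum_add_distrib,
      ← Finset.sum_add_distrib, ← Finset.sum_add_distrib]
    refine Finset.sum_eq_zero fun j _ => ?_
    by_cases hj : m.testBit j = true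
    · simp only [hj, if_true, hF, ← add_assoc, w.s0 hj, w.s1 hj, w.s2 hj, w.s3 hj]
      ring
    · simp [hj]

theorem sem_ortho {P : List Lay} (h : wf P = true) (y y' : ℕ → ℚ) :
    ∑ k ∈ Finset.range NB, sem P y k * sem P y' k = ∑ k ∈ Finset.range NB, y k * y' k := by
  induction P generalizing y y' with
  | nil => rfl
  | cons l P ih =>
    rw [wf_cons] at h
    rw [sem_cons, sem_cons, ih h.2, Lay.sem_ortho h.1]

theorem eq_of_bits {n x y : ℕ} (hx : x < 2 ^ n) (hy : y < 2 ^ n)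
    (h : ∀ k : Fin n, (if x.testBit k then (1 : F2) else 0) = if y.testBit k then 1 else 0) :
    x = y := by
  refine Nat.eq_of_testBit_eq fun k => ?_
  by_cases hk : k < n
  · have := h ⟨k, hk⟩
    revert this
    cases x.testBit k <;> cases y.testBit k <;> simp
  · have h2 : 2 ^ n ≤ 2 ^ k := Nat.pow_le_pow_right (by norm_num) (not_lt.1 hk)
    rw [Nat.testBit_lt_two_pow (hx.trans_le h2), Nat.testBit_lt_two_pow (hy.trans_le h2)]

theorem ce_bij : Function.Bijective fun x : Fin 4096 => ce x := by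
  rw [Fintype.bijective_iff_injective_and_card, card_E, Fintype.card_fin]
  exact ⟨fun x y h => Fin.ext (eq_of_bits (n := 12) x.2 y.2 (congrFun h)), rfl⟩

theorem lab_lt_pow (L : List ℕ) (i : ℕ) : lab L i < 2 ^ L.length := by
  induction L with
  | nil => simp [lab]
  | cons p r ih =>
    rw [lab, List.length_cons, pow_succ]
    split_ifs <;> omega

variable {D : Dat} {B : Lb}

theorem Good.lab_lt26 (hG : Good D B) (k : ℕ) : lab B.L k < 2 ^ 26 := hG.len ▸ lab_lt_pow B.L k

theorem Good.look_iff (hG : Good D B) {l : ℕ} (hl : l < 2 ^ 26) (k : ℕ) :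
    (look B.L B.M l).testBit k = true ↔ B.M.testBit k = true ∧ lab B.L k = l :=
  testBit_look _ _ (hG.len ▸ hl) k

theorem ip_eq_sum (hG : Good D B) (u v : D.V) :
    D.ip u v = ∑ k ∈ Finset.range NB, co D B u k * co D B v k := by
  set H : ℕ → ℚ := fun k => co D B u k * co D B v k with hH
  have hM : ∀ k, B.M.testBit k = (mA.testBit k || mW.testBit k || B.X.testBit k) := fun k => by
    rw [Lb.M, tb_lor, tb_lor]
  have e : ∀ k, H k = (if mA.testBit k then H k else 0) + (if B.X.testBit k then H k else 0) +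
      (if mW.testBit k then H k else 0) := fun k => by
    have d1 := congrArg (fun x => x.testBit k) hG.disj
    simp only [tb_land, tb_lor, Nat.zero_testBit] at d1
    have d2 : ¬ (mA.testBit k = true ∧ mW.testBit k = true) := by
      rw [testBit_mA, testBit_mW]
      rintro ⟨⟨i, hi, j, hj, e1⟩, i', -, x, -, e2⟩
      unfold posA at e1
      unfold posW at e2
      omega
    have d3 := co_out (B := B) u (k := k)
    rw [hM] at d3
    revert d1 d2 d3
    cases mA.testBit k <;> cases mW.testBit k <;> cases B.X.testBit k <;> simp [hH]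
    exact fun h => Or.inl h
  choose ι hι using hG.surj
  rw [Finset.sum_congr rfl fun k _ => e k, Finset.sum_add_distrib, Finset.sum_add_distrib,
    sum_msk mA (fun a : Fin 24 × Fin 24 => posA a.1 a.2), sum_msk B.X ι,
    sum_msk mW (fun a : Fin 4096 × Fin 24 => posW a.2 a.1)]
  · refine congrArg₂ (· + ·) (congrArg₂ (· + ·) ?_ ?_) ?_
    · rw [← Sy_tr u.1, trace_tr_mul, Fintype.sum_prod_type]
      simp only [hH, co_A hG]
    · exact Finset.sum_congr rfl fun p _ => by
        simp only [hH, co_X hG _ (hι p).1 (hι p).2]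
    · rw [trace_tr_mul, Fintype.sum_prod_type, ← (Equiv.ofBijective _ ce_bij).sum_comp]
      refine Finset.sum_congr rfl fun x _ => Finset.sum_congr rfl fun i _ => ?_
      simp only [hH, co_W hG _ _ x.2]
      rfl
  · rintro ⟨x, i⟩ ⟨y, j⟩ h
    simp only [posW] at h
    have := x.2
    have := y.2
    exact Prod.ext (Fin.ext (by simp only; omega)) (Fin.ext (by simp only; omega))
  · intro k
    rw [testBit_mW]
    exact ⟨fun ⟨i, hi, x, hx, e⟩ => ⟨(⟨x, hx⟩, ⟨i, hi⟩), e⟩, fun ⟨a, e⟩ => ⟨_, a.2.2, _, a.1.2, e⟩⟩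
  · rintro ⟨x, i⟩
    have := x.2
    have := i.2
    simp only [posW, NB]
    omega
  · intro p s h
    exact D.cls_inj (by rw [(hι p).2, (hι s).2, h])
  · intro k
    refine ⟨fun hk => ?_, fun ⟨p, e⟩ => e ▸ (hι p).1⟩
    obtain ⟨h1, p, hp⟩ := hG.hX k hk
    refine ⟨p, hG.inj _ _ hk (hι p).1 ?_⟩
    exact eq_of_bits h1 (hG.hX _ (hι p).1).1 (congrFun (hp.symm.trans (hι p).2))
  · intro p
    exact hG.lt_NB (by rw [hM, (hι p).1, Bool.or_true])
  · rintro ⟨i, j⟩ ⟨i', j'⟩ h
    simp only [posA] at h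
    have := j.2
    have := j'.2
    exact Prod.ext (Fin.ext (by simp only; omega)) (Fin.ext (by simp only; omega))
  · intro k
    rw [testBit_mA]
    exact ⟨fun ⟨i, hi, j, hj, e⟩ => ⟨(⟨i, hi⟩, ⟨j, hj⟩), e⟩, fun ⟨a, e⟩ => ⟨_, a.1.2, _, a.2.2, e⟩⟩
  · rintro ⟨i, j⟩
    have := i.2
    have := j.2
    simp only [posA, NB]
    omega

/-- programs preserve the inner product -/
theorem ip_of_sem (hG : Good D B) {P : List Lay} {g : Module.End ℚ D.V} (h : Sem D B P g)
    (u v : D.V) : D.ip (g u) (g v) = D.ip u v := by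
  rw [ip_eq_sum hG, ip_eq_sum hG, h.2, h.2, sem_ortho h.1]

/-! ### invariance for two fixed arguments -/

/-- invariance of the trilinear form for two fixed arguments -/
def Gd (t : D.Γ) (a b : D.V) : Prop := ∀ c, D.f (t.1 a) (t.1 b) (t.1 c) = D.f a b c

/-- support inside a mask -/
def Sup (D : Dat) (B : Lb) (m : ℕ) (v : D.V) : Prop := ∀ k, m.testBit k = false → co D B v k = 0

/-- the checker `okL` certifies short vectors -/
def LamOK (D : Dat) (okL : List ℤ → ℕ → Bool) : Prop :=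
  ∀ v c, okL v c = true → ∃ p : D.I, D.cls p = cd c ∧ PM (D.lam p) fun i => ((v.getD i 0 : ℤ) : ℚ)

/-- monomial letters `g a` with programs `tab a` which stay automorphisms after conjugation by `t` -/
def TabOK (D : Dat) (B : Lb) (t : D.Γ) (tab : ℕ → List Lay) : Prop :=
  ∀ a, mono (tab a) = true ∧ ∃ g ∈ D.Au, Sem D B (tab a) g.1 ∧ t * g * t⁻¹ ∈ D.Au

theorem Gd.symm {t : D.Γ} {a b : D.V} (h : Gd t a b) : Gd t b a := fun c => by
  rw [D.f_12, h, D.f_12]

theorem Gd.smul {t : D.Γ} {a b : D.V} (h : Gd t a b) (r : ℚ) : Gd t (r • a) b := fun c => by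
  rw [map_smul, D.f_smul, D.f_smul, h]

theorem Gd.add {t : D.Γ} {a a' b : D.V} (h : Gd t a b) (h' : Gd t a' b) : Gd t (a + a') b :=
  fun c => by rw [map_add, D.f_add, D.f_add, h, h']

theorem Gd.zero (t : D.Γ) (b : D.V) : Gd t 0 b := fun c => by
  have h : ∀ u v, D.f 0 u v = 0 := fun u v => by
    have := D.f_smul 0 0 u v
    rwa [zero_smul, zero_mul] at this
  rw [map_zero, h, h]

theorem Gd.map {t g : D.Γ} (hg : g ∈ D.Au) (hc : t * g * t⁻¹ ∈ D.Au) {a b : D.V} (h : Gd t a b) :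
    Gd t (g.1 a) (g.1 b) := fun c => by
  have e : ∀ v, t.1 (g.1 v) = (t * g * t⁻¹).1 (t.1 v) := fun v => by
    show _ = t.1 (g.1 ((t⁻¹).1 (t.1 v)))
    rw [Dat.unit_inj]
  rw [← Dat.unit_surj g c, e, e, e, hc.2, h, hg.2]

/-- a property of vectors which holds on a subspace -/
structure Lin (Q : D.V → Prop) : Prop where
  zero : Q 0
  add : ∀ a b, Q a → Q b → Q (a + b)
  smul : ∀ (r : ℚ) a, Q a → Q (r • a)

/-- the property holds for the basis vectors at the positions of the mask -/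
def Cov (D : Dat) (B : Lb) (Q : D.V → Prop) (m : ℕ) : Prop :=
  ∀ k, m.testBit k = true → B.M.testBit k = true → Q (bv D (lab B.L k))

theorem co_zero : co D B 0 = 0 := by
  have := co_smul (D := D) (B := B) 0 0
  rwa [zero_smul, zero_smul] at this

theorem co_sum {ι : Type} (s : Finset ι) (φ : ι → D.V) :
    co D B (∑ i ∈ s, φ i) = ∑ i ∈ s, co D B (φ i) := by
  classical
  induction s using Finset.induction_on with
  | empty => simp [co_zero]
  | insert a s ha ih => rw [Finset.sum_insert ha, Finset.sum_insert ha, co_add, ih]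

theorem Cov.sup (hG : Good D B) {Q : D.V → Prop} (hQ : Lin Q) {m : ℕ} (h : Cov D B Q m) {b : D.V}
    (hb : Sup D B m b) : Q b := by
  let T := (Finset.range NB).filter fun k => m.testBit k = true ∧ B.M.testBit k = true
  have e : b = ∑ l ∈ T.image (lab B.L), valL D b l • bv D l := by
    refine co_inj hG (funext fun k => ?_)
    rw [co_sum, Finset.sum_apply]
    have k1 : ∀ l ∈ T.image (lab B.L), co D B (valL D b l • bv D l) k =
        if lab B.L k = l then co D B b k else 0 := fun l hl => by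
      obtain ⟨j, -, rfl⟩ := Finset.mem_image.1 hl
      rw [co_smul, Pi.smul_apply, co_bv hG (hG.lab_lt26 j), smul_eq_mul]
      have := hG.look_iff (hG.lab_lt26 j) k
      by_cases h1 : B.M.testBit k = true
      · by_cases h2 : lab B.L k = lab B.L j
        · rw [if_pos (this.2 ⟨h1, h2⟩), if_pos h2, mul_one, ← h2]
          simp only [co, lv, h1, if_true]
        · rw [if_neg fun h => h2 (this.1 h).2, if_neg h2, mul_zero]
      · rw [if_neg fun h => h1 (this.1 h).1, mul_zero, co_out b (by simpa using h1), ite_self]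
    rw [Finset.sum_congr rfl k1, Finset.sum_ite_eq]
    split_ifs with h1
    · rfl
    · by_contra h2
      refine h1 (Finset.mem_image.2 ⟨k, ?_, rfl⟩)
      have h3 : B.M.testBit k = true := by
        by_contra h4
        exact h2 (co_out b (by simpa using h4))
      refine Finset.mem_filter.2 ⟨Finset.mem_range.2 (hG.lt_NB h3), ?_, h3⟩
      by_contra h4
      exact h2 (hb k (by simpa using h4))
  rw [e]
  refine Finset.sum_induction _ Q hQ.add hQ.zero fun l hl => ?_
  obtain ⟨j, hj, rfl⟩ := Finset.mem_image.1 hl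
  obtain ⟨-, h1, h2⟩ := Finset.mem_filter.1 hj
  exact hQ.smul _ _ (h j h1 h2)

theorem co_mono {P : List Lay} (hm : mono P = true) {g : Module.End ℚ D.V} (h : Sem D B P g)
    (v : D.V) (k : ℕ) : co D B (g v) k = 0 ↔ co D B v (pm P k) = 0 := by
  rw [h.2, sem_mono h.1 hm]
  split_ifs <;> simp

/-- a monomial program permutes the basis vectors up to scalars -/
theorem bv_mono (hG : Good D B) {P : List Lay} (hm : mono P = true) {g : D.Γ} (h : Sem D B P g.1)
    {k : ℕ} (hk : B.M.testBit k = true) :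
    B.M.testBit (pm P k) = true ∧ ∃ c : ℚ, bv D (lab B.L k) = c • g.1 (bv D (lab B.L (pm P k))) := by
  have nz : ∀ j i, co D B (bv D (lab B.L j)) i ≠ 0 ↔ B.M.testBit i = true ∧ lab B.L i = lab B.L j :=
    fun j i => by
      rw [co_bv hG (hG.lab_lt26 j), ← hG.look_iff (hG.lab_lt26 j)]
      split_ifs with h1 <;> simp [h1]
  set u := (g⁻¹).1 (bv D (lab B.L k)) with hu
  have gu : g.1 u = bv D (lab B.L k) := Dat.unit_surj g _
  have h1 : B.M.testBit (pm P k) = true := by
    by_contra h2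
    refine (nz k k).2 ⟨hk, rfl⟩ ?_
    rw [← gu, co_mono hm h]
    exact co_out u (by simpa using h2)
  refine ⟨h1, ?_⟩
  obtain ⟨c, hc⟩ := eq_smul_bv hG (hG.lab_lt26 (pm P k)) (v := u) fun j hj => by
    obtain ⟨k', rfl⟩ := (pm_bij h.1 hm).2 j
    by_contra h2
    rw [← co_mono hm h, gu] at h2
    obtain ⟨h3, h4⟩ := (nz k k').1 h2
    have h5 : co D B (g.1 (bv D (lab B.L (pm P k)))) k' =
        co D B (g.1 (bv D (lab B.L (pm P k)))) k := by
      simp only [co, lv, h3, hk, h4, if_true]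
    have h6 : co D B (bv D (lab B.L (pm P k))) (pm P k') ≠ 0 := by
      rw [ne_eq, ← co_mono hm h, h5, co_mono hm h]
      exact (nz _ _).2 ⟨h1, rfl⟩
    rw [(hG.look_iff (hG.lab_lt26 _) _).2 ((nz _ _).1 h6)] at hj
    exact absurd hj (by simp)
  exact ⟨c, by rw [← map_smul, ← hc, gu]⟩

theorem Cov.prun (hG : Good D B) {Q Q' : D.V → Prop} (hQ : Lin Q') {P : List Lay}
    (hm : mono P = true) {g : D.Γ} (h : Sem D B P g.1) (hg : ∀ v, Q v → Q' (g.1 v)) {m : ℕ}
    (hc : Cov D B Q m) : Cov D B Q' (prun P m) := fun k hk hM => by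
  rw [testBit_prun h.1 hm] at hk
  obtain ⟨h1, c, e⟩ := bv_mono hG hm h hM
  rw [e]
  exact hQ.smul _ _ (hg _ (hc _ hk h1))

theorem Cov.lor {Q : D.V → Prop} {m m' : ℕ} (h : Cov D B Q m) (h' : Cov D B Q m') :
    Cov D B Q (Nat.lor m m') := fun k hk hM => by
  rw [tb_lor, Bool.or_eq_true] at hk
  exact hk.elim (fun a => h k a hM) fun a => h' k a hM

/-- `a` is contained in `b` -/
def subM (a b : ℕ) : Bool := Nat.beq (Nat.lor a b) b

theorem subM_bit {a b : ℕ} (h : subM a b = true) {k : ℕ} (hk : a.testBit k = true) :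
    b.testBit k = true := by
  have e : Nat.lor a b = b := Nat.eq_of_beq_eq_true h
  rw [← e, tb_lor, hk, Bool.true_or]

theorem subM_bit' {a b : ℕ} (h : subM a b = true) {k : ℕ} (hk : b.testBit k = false) :
    a.testBit k = false := by
  by_contra h1
  rw [subM_bit h (by simpa using h1)] at hk
  exact absurd hk (by simp)

theorem Cov.mono {Q : D.V → Prop} {m m' : ℕ} (h : Cov D B Q m) (e : subM m' m = true) :
    Cov D B Q m' := fun k hk hM => h k (subM_bit e hk) hM

/-- the positions of a list of labels; labels must be below `2 ^ 26` -/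
def lookL (B : Lb) (ls : List ℕ) (k : ℕ → Bool) : Bool :=
  List.rec (motive := fun _ => ℕ → Bool) k
    (fun l _ ih m => an (Nat.blt l 67108864)
      ((fun y => fb y (ih y)) (Nat.lor m (look B.L B.M l)))) ls 0

theorem lookL_sound (hG : Good D B) {Q : D.V → Prop} {ls : List ℕ} (hp : ∀ l ∈ ls, Q (bv D l))
    {k : ℕ → Bool} (h : lookL B ls k = true) : ∃ m, Cov D B Q m ∧ k m = true := by
  have h0 : Cov D B Q 0 := fun k hk => absurd hk (by simp)
  unfold lookL at h
  generalize 0 = m at h h0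
  induction ls generalizing m with
  | nil => exact ⟨m, h0, h⟩
  | cons l ls ih =>
    change an _ (fb _ _) = true at h
    rw [an_eq, fb_eq, Bool.and_eq_true, Nat.blt_eq] at h
    refine ih (fun l' hl' => hp l' (List.mem_cons_of_mem _ hl')) _ h.2 (h0.lor fun j hj _ => ?_)
    rw [((hG.look_iff (l := l) (by norm_num; exact h.1) j).1 hj).2]
    exact hp l List.mem_cons_self

/-- move a mask through a word, first letter first -/
def prunW (tab : ℕ → List Lay) (w : List ℕ) (m : ℕ) : ℕ :=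
  List.rec (motive := fun _ => ℕ → ℕ) (fun m => m)
    (fun a _ ih m => (fun y => fb y (ih y)) (prun (tab a) m)) w m

theorem prunW_cons (tab : ℕ → List Lay) (a : ℕ) (w : List ℕ) (m : ℕ) :
    prunW tab (a :: w) m = prunW tab w (prun (tab a) m) := fb_eq _ _

theorem prunW_sound (hG : Good D B) {t : D.Γ} {tab : ℕ → List Lay} (hT : TabOK D B t tab)
    (w : List ℕ) : ∃ g ∈ D.Au, t * g * t⁻¹ ∈ D.Au ∧ ∀ (Q : D.V → Prop) (m : ℕ), Cov D B Q m →
      Cov D B (fun v => ∃ (c : ℚ) (u : D.V), Q u ∧ v = c • g.1 u) (prunW tab w m) := by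
  induction w with
  | nil =>
    refine ⟨1, D.Au.one_mem, by rw [mul_one, mul_inv_cancel]; exact D.Au.one_mem,
      fun Q m h k hk hM => ⟨1, _, h k hk hM, (one_smul _ _).symm⟩⟩
  | cons a w ih =>
    obtain ⟨g, hg, hc, hw⟩ := ih
    obtain ⟨hm, g', hg', hs, hc'⟩ := hT a
    refine ⟨g * g', D.Au.mul_mem hg hg', ?_, fun Q m h k hk hM => ?_⟩
    · have := D.Au.mul_mem hc hc'
      rwa [show t * g * t⁻¹ * (t * g' * t⁻¹) = t * (g * g') * t⁻¹ by group] at this
    · rw [prunW_cons] at hk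
      have h1 : Cov D B (fun v => ∃ (c : ℚ) (u : D.V), Q u ∧ v = c • g'.1 u) (prun (tab a) m) :=
        fun j hj hjM => by
          rw [testBit_prun hs.1 hm] at hj
          obtain ⟨h1, c, e⟩ := bv_mono hG hm hs hjM
          exact ⟨c, _, h _ hj h1, e⟩
      obtain ⟨c, _, ⟨c', u, hu, rfl⟩, e⟩ := hw _ _ h1 k hk hM
      exact ⟨c * c', u, hu, by rw [e, map_smul, smul_smul]; rfl⟩

theorem lin_row (t : D.Γ) (a : D.V) : Lin fun b => Gd t a b :=
  ⟨(Gd.zero t a).symm, fun _ _ h h' => (h.symm.add h'.symm).symm,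
    fun r _ h => (h.symm.smul r).symm⟩

/-- apply the words `ws`, each of which must fix the mask `m1`, and take unions -/
def rowA (tab : ℕ → List Lay) (m1 : ℕ) (ws : List (List ℕ)) (k : ℕ → Bool) (m : ℕ) : Bool :=
  List.rec (motive := fun _ => ℕ → Bool) k
    (fun w _ ih m => an (Nat.beq (prunW tab w m1) m1)
      ((fun y => fb y (ih y)) (Nat.lor m (prunW tab w m)))) ws m

theorem rowA_sound (hG : Good D B) {t : D.Γ} {tab : ℕ → List Lay} (hT : TabOK D B t tab) {l1 : ℕ}
    (hl : l1 < 2 ^ 26) {ws : List (List ℕ)} {k : ℕ → Bool} {m : ℕ}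
    (hm : Cov D B (fun b => Gd t (bv D l1) b) m)
    (h : rowA tab (look B.L B.M l1) ws k m = true) :
    ∃ m', Cov D B (fun b => Gd t (bv D l1) b) m' ∧ k m' = true := by
  induction ws generalizing m with
  | nil => exact ⟨m, hm, h⟩
  | cons w ws ih =>
    change an _ (fb _ _) = true at h
    rw [an_eq, fb_eq, Bool.and_eq_true] at h
    refine ih (hm.lor ?_) h.2
    obtain ⟨g, hg, hc, hw⟩ := prunW_sound hG hT w
    have e1 : prunW tab w (look B.L B.M l1) = look B.L B.M l1 := Nat.eq_of_beq_eq_true h.1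
    have e2 : ∃ c : ℚ, bv D l1 = c • g.1 (bv D l1) := by
      by_cases h0 : ∃ j, (look B.L B.M l1).testBit j = true
      · obtain ⟨j, hj⟩ := h0
        obtain ⟨h1, h2⟩ := (hG.look_iff hl j).1 hj
        obtain ⟨c, u, rfl, e⟩ := hw (fun v => v = bv D l1) (look B.L B.M l1)
          (fun i hi _ => by rw [((hG.look_iff hl i).1 hi).2]) j (by rw [e1]; exact hj) h1
        exact ⟨c, by rwa [h2] at e⟩
      · refine ⟨0, ?_⟩
        rw [zero_smul]
        refine co_inj hG (funext fun j => ?_)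
        rw [co_bv hG hl, if_neg fun hj => h0 ⟨j, hj⟩, co_zero]; rfl
    intro j hj hM
    obtain ⟨c, u, hu, e⟩ := hw _ _ hm j hj hM
    obtain ⟨c', e'⟩ := e2
    show Gd t _ _
    rw [e, e']
    exact (((hu.map hg hc).symm.smul c).symm.smul c')

/-- start with the positions of the labels `ls`, apply the words `ws` (lists of letters, first letter
first; each must fix the mask of `l1`) and take unions; the result must contain `R` -/
def okRow (B : Lb) (tab : ℕ → List Lay) (l1 : ℕ) (ls : List ℕ) (ws : List (List ℕ)) (R : ℕ) : Bool :=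
  an (Nat.blt l1 67108864) (lookL B ls (rowA tab (look B.L B.M l1) ws (subM R)))

theorem okRow_sound (hG : Good D B) {t : D.Γ} {tab : ℕ → List Lay} (hT : TabOK D B t tab) {l1 : ℕ}
    {ls : List ℕ} {ws : List (List ℕ)} {R : ℕ} (hp : ∀ l ∈ ls, Gd t (bv D l1) (bv D l))
    (h : okRow B tab l1 ls ws R = true) : ∀ b, Sup D B R b → Gd t (bv D l1) b := by
  rw [okRow, an_eq, Bool.and_eq_true, Nat.blt_eq] at h
  obtain ⟨m, hm, e⟩ := lookL_sound hG (Q := fun b => Gd t (bv D l1) b) hp h.2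
  obtain ⟨m', hm', e'⟩ := rowA_sound hG hT (by norm_num; exact h.1) hm e
  exact fun b hb => (hm'.mono e').sup hG (lin_row t _) hb

/-- continuation of `okRow` from a mask `S` which is already covered -/
def okRow2 (B : Lb) (tab : ℕ → List Lay) (l1 S : ℕ) (ws : List (List ℕ)) (R : ℕ) : Bool :=
  an (Nat.blt l1 67108864) (rowA tab (look B.L B.M l1) ws (subM R) S)

theorem cov_of_sup (hG : Good D B) {Q : D.V → Prop} {S : ℕ} (hS : prun trP S = S)
    (h : ∀ b, Sup D B S b → Q b) : Cov D B Q S := fun k hk hM => by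
  obtain ⟨u, hu⟩ := exists_co_restrict hG hS (bv D (lab B.L k))
  obtain ⟨c, hc⟩ := eq_smul_bv hG (hG.lab_lt26 k) (v := u) fun j hj => by
    rw [hu]
    simp only [co_bv hG (hG.lab_lt26 k), hj]
    simp
  have h1 : co D B (bv D (lab B.L k)) k = 1 := by
    rw [co_bv hG (hG.lab_lt26 k), if_pos ((hG.look_iff (hG.lab_lt26 k) k).2 ⟨hM, rfl⟩)]
  have h2 := congrFun hu k
  rw [hc, co_smul, Pi.smul_apply, if_pos hk, h1, smul_eq_mul, mul_one] at h2
  rw [h2, one_smul] at hc
  refine h _ fun j hj => ?_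
  rw [← hc, hu]
  simp [hj]

theorem okRow2_sound (hG : Good D B) {t : D.Γ} {tab : ℕ → List Lay} (hT : TabOK D B t tab)
    {l1 S : ℕ} {ws : List (List ℕ)} {R : ℕ} (hS : prun trP S = S)
    (hp : ∀ b, Sup D B S b → Gd t (bv D l1) b)
    (h : okRow2 B tab l1 S ws R = true) : ∀ b, Sup D B R b → Gd t (bv D l1) b := by
  rw [okRow2, an_eq, Bool.and_eq_true, Nat.blt_eq] at h
  obtain ⟨m', hm', e'⟩ := rowA_sound hG hT (by norm_num; exact h.1) (cov_of_sup hG hS hp) h.2
  exact fun b hb => (hm'.mono e').sup hG (lin_row t _) hb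

/-- apply the letters `ws`, each of which must fix the mask `R`, and take unions -/
def colA (tab : ℕ → List Lay) (R : ℕ) (ws : List ℕ) (k : ℕ → Bool) (m : ℕ) : Bool :=
  List.rec (motive := fun _ => ℕ → Bool) k
    (fun a _ ih m => an (Nat.beq (prun (tab a) R) R)
      ((fun y => fb y (ih y)) (Nat.lor m (prun (tab a) m)))) ws m

theorem lin_col (t : D.Γ) (R : ℕ) : Lin fun a => ∀ b, Sup D B R b → Gd t a b :=
  ⟨fun b _ => Gd.zero t b, fun _ _ h h' b hb => (h b hb).add (h' b hb),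
    fun r _ h b hb => (h b hb).smul r⟩

theorem colA_sound (hG : Good D B) {t : D.Γ} {tab : ℕ → List Lay} (hT : TabOK D B t tab) {R : ℕ}
    {ws : List ℕ} {k : ℕ → Bool} {m : ℕ} (hm : Cov D B (fun a => ∀ b, Sup D B R b → Gd t a b) m)
    (h : colA tab R ws k m = true) :
    ∃ m', Cov D B (fun a => ∀ b, Sup D B R b → Gd t a b) m' ∧ k m' = true := by
  induction ws generalizing m with
  | nil => exact ⟨m, hm, h⟩
  | cons a ws ih =>
    change an _ (fb _ _) = true at h
    rw [an_eq, fb_eq, Bool.and_eq_true] at h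
    obtain ⟨h1, g, hg, hs, hc⟩ := hT a
    refine ih (hm.lor (hm.prun hG (lin_col t R) h1 hs fun v hv b hb => ?_)) h.2
    have e1 : prun (tab a) R = R := Nat.eq_of_beq_eq_true h.1
    rw [← Dat.unit_surj g b]
    refine (hv _ fun j hj => ?_).map hg hc
    obtain ⟨i, rfl⟩ := (pm_bij hs.1 h1).2 j
    rw [← co_mono h1 hs, Dat.unit_surj]
    exact hb i (by rw [← e1, testBit_prun hs.1 h1]; exact hj)

/-- the same for the first argument; the letters `ws` must fix the mask `R` -/
def okCol (B : Lb) (tab : ℕ → List Lay) (ls : List ℕ) (ws : List ℕ) (R S : ℕ) : Bool :=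
  lookL B ls (colA tab R ws (subM S))

theorem okCol_sound (hG : Good D B) {t : D.Γ} {tab : ℕ → List Lay} (hT : TabOK D B t tab)
    {ls ws : List ℕ} {R S : ℕ} (hp : ∀ l ∈ ls, ∀ b, Sup D B R b → Gd t (bv D l) b)
    (h : okCol B tab ls ws R S = true) : ∀ a b, Sup D B S a → Sup D B R b → Gd t a b := by
  obtain ⟨m, hm, e⟩ := lookL_sound hG (Q := fun a => ∀ b, Sup D B R b → Gd t a b) hp h
  obtain ⟨m', hm', e'⟩ := colA_sound hG hT hm e
  exact fun a b ha hb => (hm'.mono e').sup hG (lin_col t R) ha b hb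

/-! ### the four regions -/

/-- the four regions: `R0 ∪ RX ∪ RY ∪ RZ ⊇ M`, symmetric, `t` maps `RX → RZ`, `RZ → RX`, `RY → RY`,
`mW` contains `RY`, `RZ` and misses `RX`; `s` contains `RX`, `RY` and misses `RZ` -/
def okReg (B : Lb) (Pt : List Lay) (s R0 RX RY RZ : ℕ) : Bool :=
  an (subM B.M (Nat.lor (Nat.lor R0 RX) (Nat.lor RY RZ)))
  (an (Nat.beq (prun trP R0) R0) (an (Nat.beq (prun trP RX) RX) (an (Nat.beq (prun trP RY) RY)
  (an (subM (supp Pt RX) RZ) (an (subM (supp Pt RZ) RX) (an (subM (supp Pt RY) RY)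
  (an (iz (Nat.land mW RX)) (an (subM RY mW) (an (subM RZ mW)
  (an (subM RX s) (an (subM RY s) (iz (Nat.land s RZ)))))))))))))

theorem sup_split (hG : Good D B) {m : ℕ} (hm : prun trP m = m) (v : D.V) :
    ∃ u w, v = u + w ∧ Sup D B m u ∧ (∀ k, m.testBit k = true → co D B w k = 0) ∧
      ∀ k, co D B v k = 0 → co D B w k = 0 := by
  obtain ⟨u, hu⟩ := exists_co_restrict hG hm v
  have e : ∀ k, co D B (v - u) k = co D B v k - co D B u k := fun k => by
    have := congrFun (co_add (D := D) (B := B) (v - u) u) k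
    rw [sub_add_cancel, Pi.add_apply] at this
    rw [this, add_sub_cancel_right]
  refine ⟨u, v - u, by abel, fun k hk => ?_, fun k hk => ?_, fun k hk => ?_⟩
  · rw [hu]; simp [hk]
  · rw [e, hu]; simp [hk]
  · rw [e, hu]; simp [hk]

theorem sign_neg (hG : Good D B) {s R : ℕ} {g : Module.End ℚ D.V} (hs : Sem D B [Lay.sign s] g)
    (h : subM R s = true) {a : D.V} (ha : Sup D B R a) : g a = (-1 : ℚ) • a := by
  refine co_inj hG (funext fun k => ?_)
  rw [hs.2, co_smul]
  show (if s.testBit k then -co D B a k else co D B a k) = -1 * co D B a k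
  split_ifs with h1
  · ring
  · rw [ha k (subM_bit' h (by simpa using h1))]; ring

theorem sign_pos (hG : Good D B) {s R : ℕ} {g : Module.End ℚ D.V} (hs : Sem D B [Lay.sign s] g)
    (h : iz (Nat.land s R) = true) {a : D.V} (ha : Sup D B R a) : g a = (1 : ℚ) • a := by
  refine co_inj hG (funext fun k => ?_)
  rw [hs.2, co_smul]
  show (if s.testBit k then -co D B a k else co D B a k) = 1 * co D B a k
  split_ifs with h1
  · rw [ha k (dis_of h h1)]; ring
  · ring

theorem f_van {g : D.Γ} (hg : g ∈ D.Au) {a b c : D.V} {α β γ : ℚ} (ha : g.1 a = α • a)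
    (hb : g.1 b = β • b) (hc : g.1 c = γ • c) (h : α * β * γ = -1) : D.f a b c = 0 := by
  have := hg.2 a b c
  rw [ha, hb, hc, D.f_smul, D.f_12, D.f_smul, D.f_12 b, D.f_23, D.f_12, D.f_smul, D.f_12 c,
    D.f_23 a c] at this
  linear_combination (-1 / 2 : ℚ) * this + (D.f a b c / 2) * h

theorem mem_Au (hG : Good D B) {t : D.Γ} {Pt : List Lay} (ht : Sem D B Pt t.1) {s R0 RX RY RZ : ℕ}
    {g : D.Γ} (hg : g ∈ D.Au) (hs : Sem D B [Lay.sign s] g.1) (h : okReg B Pt s R0 RX RY RZ = true)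
    (h0 : ∀ a b, Sup D B R0 a → Sup D B B.M b → Gd t a b)
    (h1 : ∀ a b, Sup D B RX a → Sup D B RZ b → Gd t a b) : t ∈ D.Au := by
  simp only [okReg, an_eq, Bool.and_eq_true] at h
  obtain ⟨c0, s0, sX, sY, tX, tZ, tY, zX, zY, zZ, gX, gY, gZ⟩ := h
  have hz : D.z ∈ D.Au := D.N_le_Au D.z_mem
  have dec : ∀ v, ∃ a x y z, v = a + (x + (y + z)) ∧ Sup D B R0 a ∧ Sup D B RX x ∧ Sup D B RY y ∧
      Sup D B RZ z := fun v => by
    obtain ⟨a, v1, rfl, ha, a1, a2⟩ := sup_split hG (Nat.eq_of_beq_eq_true s0) v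
    obtain ⟨x, v2, rfl, hx, x1, x2⟩ := sup_split hG (Nat.eq_of_beq_eq_true sX) v1
    obtain ⟨y, z, rfl, hy, y1, y2⟩ := sup_split hG (Nat.eq_of_beq_eq_true sY) v2
    refine ⟨a, x, y, z, rfl, ha, hx, hy, fun k hk => ?_⟩
    by_cases hM : B.M.testBit k = true
    · have := subM_bit c0 hM
      simp only [tb_lor, hk, Bool.or_false, Bool.or_eq_true] at this
      rcases this with (k1 | k1) | k1
      · exact y2 k (x2 k (a1 k k1))
      · exact y2 k (x1 k k1)
      · exact y1 k k1
    · exact co_out z (by simpa using hM)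
  have mv : ∀ {R R' : ℕ}, subM (supp Pt R) R' = true → ∀ {a}, Sup D B R a → Sup D B R' (t.1 a) :=
    fun e a ha k hk => by
      rw [ht.2]
      exact supp_sound ht.1 ha k (subM_bit' e hk)
  -- the signs
  let S : ℚ → ℚ → D.V → Prop := fun α β a => D.z.1 a = α • a ∧ g.1 a = β • a
  have pX : ∀ {a}, Sup D B RX a → S 1 (-1) a := fun ha =>
    ⟨sign_pos hG (sem_z hG) zX ha, sign_neg hG hs gX ha⟩
  have pY : ∀ {a}, Sup D B RY a → S (-1) (-1) a := fun ha =>
    ⟨sign_neg hG (sem_z hG) zY ha, sign_neg hG hs gY ha⟩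
  have pZ : ∀ {a}, Sup D B RZ a → S (-1) 1 a := fun ha =>
    ⟨sign_neg hG (sem_z hG) zZ ha, sign_pos hG hs gZ ha⟩
  have van : ∀ {α β γ α' β' γ' : ℚ} {a b c : D.V}, S α α' a → S β β' b → S γ γ' c →
      (α * β * γ = -1 ∨ α' * β' * γ' = -1) → D.f a b c = 0 := fun ha hb hc h =>
    h.elim (f_van hz ha.1 hb.1 hc.1) (f_van hg ha.2 hb.2 hc.2)
  let T : D.V → D.V → D.V → Prop := fun a b c => D.f (t.1 a) (t.1 b) (t.1 c) = D.f a b c
  have T12 : ∀ {a b c}, T a b c → T b a c := fun h => by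
    show _ = _
    rw [D.f_12, h, D.f_12]
  have T23 : ∀ {a b c}, T a b c → T a c b := fun h => by
    show _ = _
    rw [D.f_23, h, D.f_23]
  have Tadd : ∀ {a a' b c}, T a b c → T a' b c → T (a + a') b c := fun h h' => by
    show _ = _
    rw [map_add, D.f_add, D.f_add, h, h']
  have r0 : ∀ {a}, Sup D B R0 a → ∀ b c, T a b c := fun ha b c =>
    h0 _ b ha (fun _ hk => co_out b hk) c
  have XX : ∀ {a b}, Sup D B RX a → Sup D B RX b → ∀ c, T a b c := fun ha hb c => by
    obtain ⟨u, x, y, z, rfl, hu, hx, hy, hz⟩ := dec c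
    refine T23 (T12 (Tadd (r0 hu _ _) (Tadd ?_ (Tadd ?_ (T12 (h1 _ _ ha hz _))))))
    · exact (van (pZ (mv tX hx)) (pZ (mv tX ha)) (pZ (mv tX hb)) (by norm_num)).trans
        (van (pX hx) (pX ha) (pX hb) (by norm_num)).symm
    · exact (van (pY (mv tY hy)) (pZ (mv tX ha)) (pZ (mv tX hb)) (by norm_num)).trans
        (van (pY hy) (pX ha) (pX hb) (by norm_num)).symm
  have ZZ : ∀ {a b}, Sup D B RZ a → Sup D B RZ b → ∀ c, T a b c := fun ha hb c => by
    obtain ⟨u, x, y, z, rfl, hu, hx, hy, hz⟩ := dec c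
    refine T23 (T12 (Tadd (r0 hu _ _) (Tadd (h1 _ _ hx ha _) (Tadd ?_ ?_))))
    · exact (van (pY (mv tY hy)) (pX (mv tZ ha)) (pX (mv tZ hb)) (by norm_num)).trans
        (van (pY hy) (pZ ha) (pZ hb) (by norm_num)).symm
    · exact (van (pX (mv tZ hz)) (pX (mv tZ ha)) (pX (mv tZ hb)) (by norm_num)).trans
        (van (pZ hz) (pZ ha) (pZ hb) (by norm_num)).symm
  have YY : ∀ {a b}, Sup D B RY a → Sup D B RY b → ∀ c, T a b c := fun ha hb c => by
    obtain ⟨u, x, y, z, rfl, hu, hx, hy, hz⟩ := dec c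
    refine T23 (T12 (Tadd (r0 hu _ _) (Tadd ?_ (Tadd ?_ ?_))))
    · exact (van (pZ (mv tX hx)) (pY (mv tY ha)) (pY (mv tY hb)) (by norm_num)).trans
        (van (pX hx) (pY ha) (pY hb) (by norm_num)).symm
    · exact (van (pY (mv tY hy)) (pY (mv tY ha)) (pY (mv tY hb)) (by norm_num)).trans
        (van (pY hy) (pY ha) (pY hb) (by norm_num)).symm
    · exact (van (pX (mv tZ hz)) (pY (mv tY ha)) (pY (mv tY hb)) (by norm_num)).trans
        (van (pZ hz) (pY ha) (pY hb) (by norm_num)).symm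
  have XY : ∀ {a b}, Sup D B RX a → Sup D B RY b → ∀ c, T a b c := fun ha hb c => by
    obtain ⟨u, x, y, z, rfl, hu, hx, hy, hz⟩ := dec c
    exact T23 (T12 (Tadd (r0 hu _ _) (Tadd (XX hx ha _)
      (Tadd (T23 (YY hy hb _)) (T12 (h1 _ _ ha hz _))))))
  have ZY : ∀ {a b}, Sup D B RZ a → Sup D B RY b → ∀ c, T a b c := fun ha hb c => by
    obtain ⟨u, x, y, z, rfl, hu, hx, hy, hz⟩ := dec c
    exact T23 (T12 (Tadd (r0 hu _ _) (Tadd (h1 _ _ hx ha _)
      (Tadd (T23 (YY hy hb _)) (ZZ hz ha _)))))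
  refine ⟨ip_of_sem hG ht, fun a b c => ?_⟩
  obtain ⟨u, x, y, z, rfl, hu, hx, hy, hz⟩ := dec a
  obtain ⟨u', x', y', z', rfl, hu', hx', hy', hz'⟩ := dec b
  refine Tadd (r0 hu _ _) (Tadd ?_ (Tadd ?_ ?_))
  · exact T12 (Tadd (r0 hu' _ _) (Tadd (XX hx' hx _) (Tadd (T12 (XY hx hy' _))
      (T12 (h1 _ _ hx hz' _)))))
  · exact T12 (Tadd (r0 hu' _ _) (Tadd (XY hx' hy _) (Tadd (YY hy' hy _) (ZY hz' hy _))))
  · exact T12 (Tadd (r0 hu' _ _) (Tadd (h1 _ _ hx' hz _) (Tadd (T12 (ZY hz hy' _)) (ZZ hz' hz _))))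

end

end CfsgMO
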