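/-
The triality element is an automorphism of the Griess algebra (WP K2), part b: products of basis vectors.
-/
import Cfsg.Agent.MO.K2a

set_option autoImplicit false

namespace CfsgMO

open Matrix

noncomputable section

/-- unit vector -/
def ei (i : ℕ) : Fin 24 → ℚ := fun k => if (k : ℕ) = i then 1 else 0
/-- vector of an integer list -/
def vq (v : List ℤ) : Fin 24 → ℚ := fun i => ((v.getD i 0 : ℤ) : ℚ)

theorem ei_dot {i : ℕ} (hi : i < 24) (u : Fin 24 → ℚ) : ei i ⬝ᵥ u = u ⟨i, hi⟩ := by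
  unfold dotProduct
  rw [Finset.sum_eq_single ⟨i, hi⟩]
  · simp [ei]
  · intro b _ hb
    have : (b : ℕ) ≠ i := fun h => hb (Fin.ext h)
    simp [ei, this]
  · simp

def muZ (a b : ℕ) : ℤ := Bool.rec 1 2 (Nat.beq a b)
def dlZ (a b : ℕ) : ℤ := Bool.rec 0 1 (Nat.beq a b)
def sgZ (b : Bool) : ℤ := Bool.rec 1 (-1) b

theorem beq_eq_dec (a b : ℕ) : Nat.beq a b = decide (a = b) := by
  by_cases h : a = b
  · simp [h]
  · have : ¬ Nat.beq a b = true := fun e => h (Nat.eq_of_beq_eq_true e)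
    simp [h, this]

theorem muZ_eq (a b : ℕ) : (muZ a b : ℚ) = if a = b then 2 else 1 := by
  rw [muZ, beq_eq_dec]; by_cases h : a = b <;> simp [h]
theorem dlZ_eq (a b : ℕ) : (dlZ a b : ℚ) = if a = b then 1 else 0 := by
  rw [dlZ, beq_eq_dec]; by_cases h : a = b <;> simp [h]
theorem sgZ_eq (b : Bool) : (sgZ b : ℚ) = sg (if b then 1 else 0) := by
  cases b <;> simp [sgZ, sg]

theorem ei_ei {i : ℕ} (hi : i < 24) (j : ℕ) : ei i ⬝ᵥ ei j = dlZ i j := by
  rw [ei_dot hi, dlZ_eq]; rfl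

theorem sg_od (e : ℕ) : sg (e : F2) = sgZ (od e) := by
  rw [sgZ_eq, od_eq, ← ZMod.natCast_mod e 2]
  rcases Nat.mod_two_eq_zero_or_one e with h | h <;> simp [h]

/-- parity of the lowest `n` bits -/
def parB (n x : ℕ) : Bool := Nat.rec false (fun k ih => xor ih (tb x k)) n

theorem parB_eq (n x : ℕ) : (if parB n x then (1 : F2) else 0) =
    ∑ k ∈ Finset.range n, if x.testBit k then 1 else 0 := by
  induction n with
  | zero => rfl
  | succ n ih =>
    rw [Finset.sum_range_succ, ← ih]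
    show (if xor (parB n x) (tb x n) then (1 : F2) else 0) = _
    rw [tb_eq]
    cases parB n x <;> cases x.testBit n <;> decide

def bfB (l x : ℕ) : Bool := parB 12 (Nat.land (Nat.shiftRight l 12) x)

theorem bfB_eq (l x : ℕ) : (sgZ (bfB l x) : ℚ) = sg (Bf (cd l) (cd x)) := by
  have e : Bf (cd l) (cd x) = ∑ i : Fin 12,
      (if l.testBit (12 + i) then (1 : F2) else 0) * if x.testBit i then 1 else 0 := rfl
  rw [sgZ_eq, bfB, parB_eq, Finset.sum_range, e]
  congr 1
  refine Finset.sum_congr rfl fun i _ => ?_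
  rw [tb_land, tb_shr, add_comm]
  cases l.testBit (12 + i) <;> cases x.testBit i <;> simp

theorem cd_xor (a b : ℕ) : cd (Nat.xor a b) = cd a + cd b := funext fun k => by
  simp only [cd, Pi.add_apply, tb_xor]
  cases a.testBit k <;> cases b.testBit k <;> decide

theorem ce_xor (x l : ℕ) : ce (Nat.land (Nat.xor x l) 4095) = ce x + lo (cd l) := funext fun k => by
  have h : (4095 : ℕ).testBit k = true := by revert k; decide
  show (if (Nat.land (Nat.xor x l) 4095).testBit k then (1 : F2) else 0) =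
    (if x.testBit k then 1 else 0) + if l.testBit k then 1 else 0
  rw [tb_land, tb_xor, h]
  cases x.testBit k <;> cases l.testBit k <;> decide

theorem q_single (l x : ℕ) : q (cd l) *ᵥ Pi.single (ce x) 1 =
    (sgZ (bfB l x) : ℚ) • Pi.single (ce (Nat.land (Nat.xor x l) 4095)) 1 := by
  rw [bfB_eq, ce_xor, mulVec_single_one]
  funext y
  show (if y = ce x + lo (cd l) then sg (hi (cd l) ⬝ᵥ ce x) else 0) =
    sg (hi (cd l) ⬝ᵥ ce x) * (Pi.single (ce x + lo (cd l)) 1 : E → ℚ) y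
  rw [Pi.single_apply]
  split_ifs <;> simp

/-- inner product of two lists -/
def dotL (v w : List ℤ) : ℤ :=
  List.rec (motive := fun _ => List ℤ → ℤ) (fun _ => 0)
    (fun a _ ih w => List.casesOn (motive := fun _ => ℤ) w 0
      fun b w' => Int.add (Int.mul a b) (ih w')) v w

theorem dotL_eq (v w : List ℤ) (n : ℕ) (h : v.length ≤ n) :
    dotL v w = ∑ i ∈ Finset.range n, v.getD i 0 * w.getD i 0 := by
  induction v generalizing w n with
  | nil => simp [dotL]
  | cons a v ih =>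
    cases w with
    | nil => simp [dotL]
    | cons b w =>
      obtain ⟨n, rfl⟩ : ∃ m, n = m + 1 := ⟨n - 1, by simp at h; omega⟩
      rw [Finset.sum_range_succ', add_comm]
      simp only [List.getD_cons_succ, List.getD_cons_zero]
      rw [← ih w n (by simpa using h)]
      rfl

theorem vq_dot {v : List ℤ} (h : v.length = 24) (w : List ℤ) : vq v ⬝ᵥ vq w = dotL v w := by
  rw [dotL_eq v w 24 h.le, Finset.sum_range]
  push_cast
  rfl

/-- the entries of a list with their indices -/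
def idx (v : List ℤ) (n : ℕ) : List (ℤ × ℕ) :=
  List.rec (motive := fun _ => ℕ → List (ℤ × ℕ)) (fun _ => [])
    (fun a _ ih n => Bool.rec ((a, n) :: ih (Nat.succ n)) (ih (Nat.succ n))
      (Nat.beq (Int.natAbs a) 0)) v n

def lv2 (L : List (ℤ × ℕ)) : Fin 24 → ℚ := (L.map fun p => (p.1 : ℚ) • ei p.2).sum

theorem lv2_cons (p : ℤ × ℕ) (L : List (ℤ × ℕ)) : lv2 (p :: L) = (p.1 : ℚ) • ei p.2 + lv2 L := rfl

theorem idx_spec (v : List ℤ) (n : ℕ) : (∀ p ∈ idx v n, p.2 < n + v.length) ∧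
    ∀ k : Fin 24, lv2 (idx v n) k = if n ≤ k then ((v.getD (k - n) 0 : ℤ) : ℚ) else 0 := by
  induction v generalizing n with
  | nil => exact ⟨fun p hp => absurd hp (by simp [idx]), fun k => by simp [idx, lv2]⟩
  | cons a v ih =>
    obtain ⟨h1, h2⟩ := ih (n + 1)
    have e : idx (a :: v) n = Bool.rec ((a, n) :: idx v (n + 1)) (idx v (n + 1))
      (Nat.beq (Int.natAbs a) 0) := rfl
    have k1 : ∀ k : Fin 24, (a : ℚ) * ei n k + lv2 (idx v (n + 1)) k =
        if n ≤ k then (((a :: v).getD (k - n) 0 : ℤ) : ℚ) else 0 := fun k => by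
      rw [h2, ei]
      rcases lt_trichotomy n k with h | h | h
      · obtain ⟨m, hm⟩ : ∃ m, (k : ℕ) - n = m + 1 := ⟨k - n - 1, by omega⟩
        rw [if_neg (by omega), if_pos (by omega), if_pos h.le, hm, List.getD_cons_succ,
          show (k : ℕ) - (n + 1) = m by omega, mul_zero, zero_add]
      · rw [if_pos h.symm, if_neg (by omega), if_pos h.le, h, Nat.sub_self, List.getD_cons_zero,
          mul_one, add_zero]
      · rw [if_neg (by omega), if_neg (by omega), if_neg (by omega), mul_zero, add_zero]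
    rw [e, beq_eq_dec, List.length_cons]
    by_cases ha : a.natAbs = 0
    · simp only [ha, decide_true]
      refine ⟨fun p hp => by have := h1 p hp; omega, fun k => ?_⟩
      rw [← k1, Int.natAbs_eq_zero.1 ha]; simp
    · simp only [ha, decide_false]
      refine ⟨fun p hp => ?_, fun k => by rw [← k1]; rfl⟩
      rcases List.mem_cons.1 hp with rfl | hp
      · simp
      · have := h1 p hp; omega

theorem lv2_idx (v : List ℤ) : lv2 (idx v 0) = vq v := funext fun k => by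
  rw [(idx_spec v 0).2, if_pos (Nat.zero_le _)]; rfl

theorem idx_lt {v : List ℤ} (h : v.length = 24) : ∀ p ∈ idx v 0, p.2 < 24 := fun p hp => by
  have := (idx_spec v 0).1 p hp; omega

namespace Dat

variable (D : Dat)

/-- symmetrised product of two vectors -/
def SA : (Fin 24 → ℚ) →ₗ[ℚ] (Fin 24 → ℚ) →ₗ[ℚ] D.V :=
  LinearMap.mk₂ ℚ (fun a b => (⟨vecMulVec a b + vecMulVec b a, by
      show _ = _
      rw [transpose_add, transpose_vecMulVec, transpose_vecMulVec, add_comm]⟩, 0, 0))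
    (fun a a' b => Prod.ext (Subtype.ext (by
      show vecMulVec (a + a') b + vecMulVec b (a + a') = _ + _ + (_ + _)
      rw [add_vecMulVec, vecMulVec_add]; abel)) (by simp))
    (fun c a b => Prod.ext (Subtype.ext (by
      show vecMulVec (c • a) b + vecMulVec b (c • a) = c • (_ + _)
      rw [smul_vecMulVec, vecMulVec_smul, smul_add])) (by simp))
    (fun a b b' => Prod.ext (Subtype.ext (by
      show vecMulVec a (b + b') + vecMulVec (b + b') a = _ + _ + (_ + _)
      rw [add_vecMulVec, vecMulVec_add]; abel)) (by simp))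
    (fun c a b => Prod.ext (Subtype.ext (by
      show vecMulVec a (c • b) + vecMulVec (c • b) a = c • (_ + _)
      rw [smul_vecMulVec, vecMulVec_smul, smul_add])) (by simp))

/-- pure tensors in the third summand -/
def WT : (E → ℚ) →ₗ[ℚ] (Fin 24 → ℚ) →ₗ[ℚ] D.V :=
  LinearMap.mk₂ ℚ (fun u c => (0, 0, vecMulVec u c))
    (fun a a' b => by rw [add_vecMulVec]; simp) (fun c a b => by rw [smul_vecMulVec]; simp)
    (fun a b b' => by rw [vecMulVec_add]; simp) (fun c a b => by rw [vecMulVec_smul]; simp)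

def eX (p : D.I) : D.V := (0, Pi.single p 1, 0)

theorem ad_comm (a b : D.V) : D.ad a b = D.ad b a :=
  D.eq_of_ip fun c => by rw [ad_spec, ad_spec, f_12]

theorem ad_AA (a b c d : Fin 24 → ℚ) : D.ad (D.SA a b) (D.SA c d) = (2 : ℚ) •
    ((b ⬝ᵥ c) • D.SA a d + (b ⬝ᵥ d) • D.SA a c + (a ⬝ᵥ c) • D.SA b d + (a ⬝ᵥ d) • D.SA b c) := by
  rw [D.ad_eq rfl]
  refine Prod.ext (Subtype.ext ?_) (Prod.ext (funext fun s => ?_) ?_)
  · show D.mA (vecMulVec a b + vecMulVec b a) 0 (vecMulVec c d + vecMulVec d c) 0 = (2 : ℚ) •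
      ((b ⬝ᵥ c) • (vecMulVec a d + vecMulVec d a) + (b ⬝ᵥ d) • (vecMulVec a c + vecMulVec c a) +
        (a ⬝ᵥ c) • (vecMulVec b d + vecMulVec d b) + (a ⬝ᵥ d) • (vecMulVec b c + vecMulVec c b))
    simp only [mA, Pi.zero_apply, zero_mul, zero_div, zero_smul, Finset.sum_const_zero, add_zero,
      Matrix.add_mul, Matrix.mul_add, vecMulVec_mul_vecMulVec, vecMulVec_smul,
      dotProduct_comm c, dotProduct_comm d]
    module
  · show D.mX _ 0 _ 0 s = _
    simp [mX, rho_zero, SA]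
  · show D.mW _ _ 0 = _
    simp [mW_zero, SA]

theorem ad_AX (a b : Fin 24 → ℚ) (p : D.I) :
    D.ad (D.SA a b) (D.eX p) = ((a ⬝ᵥ D.lam p) * (b ⬝ᵥ D.lam p) / 4) • D.eX p := by
  rw [D.ad_eq rfl]
  refine Prod.ext (Subtype.ext ?_) (Prod.ext (funext fun s => ?_) ?_)
  · show D.mA _ 0 0 _ = _
    simp [mA, eX]
  · show D.mX (vecMulVec a b + vecMulVec b a) 0 0 (Pi.single p 1) s =
      _ * (Pi.single p 1 : D.I → ℚ) s
    by_cases h : s = p
    · subst h
      simp only [mX, rho_zero, Matrix.zero_mul, trace_zero, add_mulVec, vv_mulVec, dotProduct_add,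
        dotProduct_smul, smul_eq_mul, Pi.zero_apply]
      rw [dotProduct_comm (D.lam s) a, dotProduct_comm (D.lam s) b]
      ring
    · simp [mX, rho_zero, h]
  · show D.mW _ _ 0 = _
    simp [mW_zero, eX]

theorem ad_AW (a b : Fin 24 → ℚ) (u : E → ℚ) (c : Fin 24 → ℚ) : D.ad (D.SA a b) (D.WT u c) =
    (c ⬝ᵥ a) • D.WT u b + (c ⬝ᵥ b) • D.WT u a + (a ⬝ᵥ b / 4) • D.WT u c := by
  rw [D.ad_eq rfl]
  refine Prod.ext (Subtype.ext ?_) (Prod.ext (funext fun s => ?_) ?_)
  · show D.mA _ 0 0 0 = _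
    simp [mA, WT]
  · show D.mX _ 0 0 0 s = _
    simp [mX, rho_zero, WT]
  · show D.mW (vecMulVec a b + vecMulVec b a) 0 (vecMulVec u c) =
      (c ⬝ᵥ a) • vecMulVec u b + (c ⬝ᵥ b) • vecMulVec u a + (a ⬝ᵥ b / 4) • vecMulVec u c
    simp only [mW, Pi.zero_apply, zero_div, zero_smul, Finset.sum_const_zero, add_zero,
      Matrix.mul_add, vecMulVec_mul_vecMulVec, vecMulVec_smul, trace_add, trace_vecMulVec,
      dotProduct_comm b a]
    module

theorem ad_XX (p : D.I) : D.ad (D.eX p) (D.eX p) = (1 / 16 : ℚ) • D.SA (D.lam p) (D.lam p) := by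
  rw [D.ad_eq rfl]
  refine Prod.ext (Subtype.ext ?_) (Prod.ext (funext fun s => ?_) ?_)
  · show D.mA 0 (Pi.single p 1) 0 (Pi.single p 1) = (1 / 16 : ℚ) • (D.PL p + D.PL p)
    rw [mA, D.sum_single p _ (fun t s => (t * (Pi.single p 1 : D.I → ℚ) s / 8) • D.PL s)
      (fun s => by rw [zero_mul, zero_div, zero_smul]), Pi.single_eq_same, Matrix.zero_mul]
    module
  · show D.mX 0 (Pi.single p 1) 0 (Pi.single p 1) s = _
    rw [mX, rho_single, one_smul, qc_sq, Matrix.one_mul, trace_qc]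
    simp [SA]
  · show D.mW _ _ 0 = _
    simp [mW_zero, SA]

theorem ad_XX' {p s : D.I} (h : p ≠ s) : D.ad (D.eX p) (D.eX s) =
    (D.c2 * sg (Bf (D.cls p) (D.cls s))) •
      ((0, fun r => if D.cls r = D.cls p + D.cls s then 1 else 0, 0) : D.V) := by
  rw [D.ad_eq rfl]
  refine Prod.ext (Subtype.ext ?_) (Prod.ext (funext fun r => ?_) ?_)
  · show D.mA 0 (Pi.single p 1) 0 (Pi.single s 1) = _
    rw [mA, D.sum_single p _ (fun t r => (t * (Pi.single s 1 : D.I → ℚ) r / 8) • D.PL r)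
      (fun s => by rw [zero_mul, zero_div, zero_smul]), Pi.single_eq_of_ne h]
    simp
  · show D.mX 0 (Pi.single p 1) 0 (Pi.single s 1) r =
      _ * if D.cls r = D.cls p + D.cls s then 1 else 0
    rw [mX, rho_single, rho_single, one_smul, one_smul, trace_qqq, zero_mulVec, dotProduct_zero]
    split_ifs <;> ring
  · show D.mW _ _ 0 = _
    simp [mW_zero]

theorem ad_XW (p : D.I) (u : E → ℚ) (c : Fin 24 → ℚ) : D.ad (D.eX p) (D.WT u c) =
    (1 / 8 : ℚ) • D.WT (q (D.cls p) *ᵥ u) c -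
      (c ⬝ᵥ D.lam p / 32) • D.WT (q (D.cls p) *ᵥ u) (D.lam p) := by
  rw [D.ad_eq rfl]
  refine Prod.ext (Subtype.ext ?_) (Prod.ext (funext fun s => ?_) ?_)
  · show D.mA 0 _ 0 0 = _
    simp [mA, WT]
  · show D.mX 0 _ 0 0 s = _
    simp [mX, rho_zero, WT]
  · show D.mW 0 (Pi.single p 1) (vecMulVec u c) = (1 / 8 : ℚ) • vecMulVec (q (D.cls p) *ᵥ u) c -
      (c ⬝ᵥ D.lam p / 32) • vecMulVec (q (D.cls p) *ᵥ u) (D.lam p)
    rw [mW, D.sum_single p _ (fun t s => (t / 8) • (q (D.cls s) * vecMulVec u c *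
      (1 - (1 / 4 : ℚ) • D.PL s))) (fun s => by rw [zero_div, zero_smul]), Matrix.mul_zero,
      trace_zero, mul_vecMulVec, Matrix.mul_sub, Matrix.mul_one, Matrix.mul_smul, PL,
      vecMulVec_mul_vecMulVec, vecMulVec_smul]
    module

end Dat

variable {D : Dat} {B : Lb}

theorem bv_A {i j : ℕ} (hi : i < 24) (hj : j < 24) :
    D.SA (ei i) (ei j) = (muZ i j : ℚ) • bv D (labA i j) := by
  have h1 : ¬ labA i j < 2 ^ 24 := by unfold labA; omega
  have h2 : labA i j < 2 ^ 25 := by unfold labA; omega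
  rw [bv, if_neg h1, if_pos h2]
  refine Prod.ext (Subtype.ext ?_) (by simp [Dat.SA])
  ext a b
  show ei i a * ei j b + ei j a * ei i b = (muZ i j : ℚ) * if labA a b = labA i j then 1 else 0
  have ha := a.2
  have hb := b.2
  have : labA a b = labA i j ↔ ((a : ℕ) = i ∧ (b : ℕ) = j) ∨ ((a : ℕ) = j ∧ (b : ℕ) = i) := by
    unfold labA; omega
  rw [muZ_eq]
  simp only [this, ei]
  by_cases e1 : (a : ℕ) = i <;> by_cases e2 : (b : ℕ) = j <;> by_cases e3 : (a : ℕ) = j <;>
    by_cases e4 : (b : ℕ) = i <;> by_cases e5 : i = j <;>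
    first | (exfalso; omega) | (simp [e1, e2, e3, e4, e5])
  all_goals first | (simp_all; done) | (simp_all; norm_num)

theorem bv_A' {i j : ℕ} (hi : i < 24) (hj : j < 24) :
    bv D (labA i j) = ((3 - muZ i j : ℤ) / 2 : ℚ) • D.SA (ei i) (ei j) := by
  rw [bv_A hi hj, smul_smul]
  push_cast
  rw [muZ_eq]
  split_ifs <;> norm_num

theorem bv_X {l : ℕ} (hl : l < 2 ^ 24) {p : D.I} (hp : D.cls p = cd l) : bv D l = D.eX p := by
  rw [bv, if_pos hl]
  refine Prod.ext rfl (Prod.ext (funext fun s => ?_) rfl)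
  show (if D.cls s = cd l then 1 else 0) = (Pi.single p 1 : D.I → ℚ) s
  rw [← hp, Pi.single_apply]
  simp only [D.cls_inj.eq_iff]

theorem bv_W {i x : ℕ} (hi : i < 24) (hx : x < 4096) :
    bv D (labW i x) = D.WT (Pi.single (ce x) 1) (ei i) := by
  have h1 : ¬ labW i x < 2 ^ 24 := by unfold labW; omega
  have h2 : ¬ labW i x < 2 ^ 25 := by unfold labW; omega
  have h3 : labW i x % 4096 = x := by unfold labW; omega
  rw [bv, if_neg h1, if_neg h2, h3]
  refine Prod.ext rfl (Prod.ext rfl ?_)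
  ext y j
  show (if y = ce x ∧ labW j x = labW i x then 1 else 0) = (Pi.single (ce x) 1 : E → ℚ) y * ei i j
  have : labW j x = labW i x ↔ (j : ℕ) = i := by unfold labW; omega
  rw [Pi.single_apply, ei]
  simp only [this]
  by_cases e1 : y = ce x <;> by_cases e2 : (j : ℕ) = i <;> simp [e1, e2]

/-- sparse vectors -/
def sv (D : Dat) (s : List (ℤ × ℕ)) : D.V := (s.map fun p => (p.1 : ℚ) • bv D p.2).sum

theorem sv_nil : sv D [] = 0 := rfl
theorem sv_cons (p : ℤ × ℕ) (s : List (ℤ × ℕ)) : sv D (p :: s) = (p.1 : ℚ) • bv D p.2 + sv D s := rfl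
theorem sv_append (s s' : List (ℤ × ℕ)) : sv D (s ++ s') = sv D s + sv D s' := by
  simp [sv]

/-- decoded labels -/
inductive At
  | ta (i j : ℕ)
  | tx (l : ℕ) (v : List ℤ)
  | tw (i x : ℕ)

def At.lb (a : At) : ℕ := At.casesOn (motive := fun _ => ℕ) a labA (fun l _ => l) labW

def At.OK (D : Dat) : At → Prop
  | .ta i j => i < 24 ∧ j < 24
  | .tx l v => l < 2 ^ 24 ∧ v.length = 24 ∧ ∃ p, D.cls p = cd l ∧ PM (D.lam p) (vq v)
  | .tw i x => i < 24 ∧ x < 4096

def At.ok (okL : List ℤ → ℕ → Bool) (a : At) : Bool :=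
  At.casesOn (motive := fun _ => Bool) a (fun i j => an (Nat.blt i 24) (Nat.blt j 24))
    (fun l v => an (Nat.blt l 16777216) (an (Nat.beq v.length 24) (okL v l)))
    (fun i x => an (Nat.blt i 24) (Nat.blt x 4096))

theorem At.ok_sound {okL : List ℤ → ℕ → Bool} (hL : LamOK D okL) {a : At} (h : a.ok okL = true) :
    a.OK D := by
  cases a with
  | ta i j => simpa [At.ok, At.OK] using h
  | tx l v =>
    simp only [At.ok, an_eq, Bool.and_eq_true, Nat.blt_eq] at h
    exact ⟨by norm_num; exact h.1, Nat.eq_of_beq_eq_true h.2.1, hL v l h.2.2⟩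
  | tw i x => simpa [At.ok, At.OK] using h

def pAA (i j k m : ℕ) : List (ℤ × ℕ) :=
  (fun c : ℤ => [(dlZ j k * c * muZ i m, labA i m), (dlZ j m * c * muZ i k, labA i k),
    (dlZ i k * c * muZ j m, labA j m), (dlZ i m * c * muZ j k, labA j k)])
    (16 * (3 - muZ i j) * (3 - muZ k m))

def pAX (i j l : ℕ) (v : List ℤ) : List (ℤ × ℕ) :=
  [(4 * (3 - muZ i j) * v.getD i 0 * v.getD j 0, l)]

def pAW (i j k x : ℕ) : List (ℤ × ℕ) :=
  [(16 * (3 - muZ i j) * dlZ k i, labW j x), (16 * (3 - muZ i j) * dlZ k j, labW i x),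
    (4 * (3 - muZ i j) * dlZ i j, labW k x)]

def pDg (L : List (ℤ × ℕ)) : List (ℤ × ℕ) :=
  L.flatMap fun p => L.map fun r => (2 * p.1 * r.1 * muZ p.2 r.2, labA p.2 r.2)

def pXX (e l : ℕ) (v : List ℤ) (l' : ℕ) (v' : List ℤ) : List (ℤ × ℕ) :=
  Bool.rec (Bool.rec [] [(32 * sgZ (od e) * sgZ (bfB l l'), Nat.xor l l')]
    (Nat.beq (Int.natAbs (dotL v v')) 16)) (pDg (idx v 0)) (Nat.beq l l')

def pXW (l : ℕ) (v : List ℤ) (k x : ℕ) : List (ℤ × ℕ) :=
  (fun (s : ℤ) (y : ℕ) => (4 * s, labW k y) ::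
    (idx v 0).map fun p => (-s * v.getD k 0 * p.1, labW p.2 y))
    (sgZ (bfB l x)) (Nat.land (Nat.xor x l) 4095)

theorem pAA_sound {i j k m : ℕ} (hi : i < 24) (hj : j < 24) (hk : k < 24) (hm : m < 24) :
    (32 : ℚ) • D.ad (bv D (labA i j)) (bv D (labA k m)) = sv D (pAA i j k m) := by
  rw [bv_A' hi hj, bv_A' hk hm, map_smul, map_smul, LinearMap.smul_apply, D.ad_AA, ei_ei hi,
    ei_ei hi, ei_ei hj, ei_ei hj, bv_A hi hm, bv_A hi hk, bv_A hj hm, bv_A hj hk]
  simp only [pAA, sv_cons, sv_nil]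
  push_cast
  module

theorem PM_sq {u v : Fin 24 → ℚ} (h : PM u v) : ∃ t : ℚ, t * t = 1 ∧ u = t • v := by
  rcases h with h | h
  · exact ⟨1, by norm_num, by rw [h, one_smul]⟩
  · exact ⟨-1, by norm_num, by rw [h, neg_smul, one_smul]⟩

theorem pAX_sound {i j l : ℕ} {v : List ℤ} (hi : i < 24) (hj : j < 24) (h : (At.tx l v).OK D) :
    (32 : ℚ) • D.ad (bv D (labA i j)) (bv D l) = sv D (pAX i j l v) := by
  obtain ⟨h1, -, p, hp, h2⟩ := h
  obtain ⟨t, ht, e⟩ := PM_sq h2
  simp only [pAX, sv_cons, sv_nil]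
  rw [bv_A' hi hj, bv_X h1 hp, map_smul, LinearMap.smul_apply, D.ad_AX, ei_dot hi, ei_dot hj, e,
    smul_smul, smul_smul, add_zero]
  congr 1
  simp only [Pi.smul_apply, vq, smul_eq_mul]
  push_cast
  linear_combination (4 * (3 - (muZ i j : ℚ)) * (v.getD i 0 : ℤ) * (v.getD j 0 : ℤ)) * ht

theorem pAW_sound {i j k x : ℕ} (hi : i < 24) (hj : j < 24) (hk : k < 24) (hx : x < 4096) :
    (32 : ℚ) • D.ad (bv D (labA i j)) (bv D (labW k x)) = sv D (pAW i j k x) := by
  simp only [pAW, sv_cons, sv_nil]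
  rw [bv_A' hi hj, bv_W hk hx, bv_W hi hx, bv_W hj hx, map_smul, LinearMap.smul_apply, D.ad_AW,
    ei_ei hk, ei_ei hk, ei_ei hi]
  push_cast
  module

theorem pDg_sound {L : List (ℤ × ℕ)} (h : ∀ p ∈ L, p.2 < 24) :
    sv D (pDg L) = (2 : ℚ) • D.SA (lv2 L) (lv2 L) := by
  have k : ∀ (p : ℤ × ℕ), p.2 < 24 → ∀ M : List (ℤ × ℕ), (∀ r ∈ M, r.2 < 24) →
      sv D (M.map fun r => (2 * p.1 * r.1 * muZ p.2 r.2, labA p.2 r.2)) =
        (2 : ℚ) • D.SA ((p.1 : ℚ) • ei p.2) (lv2 M) := fun p hp M hM => by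
    induction M with
    | nil => simp [sv, lv2]
    | cons r M ih =>
      rw [List.map_cons, sv_cons, ih fun r' hr' => hM r' (List.mem_cons_of_mem _ hr'), lv2_cons,
        map_add, map_smul (D.SA _), map_smul D.SA, LinearMap.smul_apply, LinearMap.smul_apply,
        bv_A hp (hM r List.mem_cons_self)]
      push_cast
      module
  have k2 : ∀ M : List (ℤ × ℕ), (∀ r ∈ M, r.2 < 24) →
      sv D (M.flatMap fun p => L.map fun r => (2 * p.1 * r.1 * muZ p.2 r.2, labA p.2 r.2)) =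
        (2 : ℚ) • D.SA (lv2 M) (lv2 L) := fun M hM => by
    induction M with
    | nil => simp [sv, lv2]
    | cons r M ih =>
      rw [List.flatMap_cons, sv_append, ih fun r' hr' => hM r' (List.mem_cons_of_mem _ hr'),
        k r (hM r List.mem_cons_self) L h, lv2_cons, map_add, LinearMap.add_apply, smul_add]
  exact k2 L h

theorem pXX_sound (hI : ∀ p, D.Ips p) {e : ℕ} (he : D.c2 = sg (e : F2)) {l l' : ℕ} {v v' : List ℤ}
    (h : (At.tx l v).OK D) (h' : (At.tx l' v').OK D) :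
    (32 : ℚ) • D.ad (bv D l) (bv D l') = sv D (pXX e l v l' v') := by
  obtain ⟨h1, h2, p, hp, h3⟩ := h
  obtain ⟨h1', -, s, hs, h3'⟩ := h'
  obtain ⟨t, ht, e1⟩ := PM_sq h3
  obtain ⟨t', ht', e1'⟩ := PM_sq h3'
  rw [pXX, beq_eq_dec l]
  by_cases hl : l = l'
  · subst hl
    simp only [decide_true]
    rw [bv_X h1 hp, D.ad_XX, pDg_sound (idx_lt h2), lv2_idx, e1, map_smul (D.SA _), map_smul D.SA,
      LinearMap.smul_apply, smul_smul t, ht]
    module
  · simp only [hl, decide_false]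
    have hne : p ≠ s := fun e => hl (eq_of_bits h1 h1' (congrFun (hp.symm.trans (e ▸ hs))))
    rw [bv_X h1 hp, bv_X h1' hs, D.ad_XX' hne, beq_eq_dec]
    by_cases hd : (dotL v v').natAbs = 16
    · simp only [hd, decide_true, sv_cons, sv_nil]
      have h4 : Nat.xor l l' < 2 ^ 24 := Nat.xor_lt_two_pow h1 h1'
      rw [bv, if_pos h4, cd_xor, ← hp, ← hs, he, sg_od, add_zero, smul_smul]
      push_cast
      rw [bfB_eq, ← hp, ← hs, mul_assoc]
    · simp only [hd, decide_false, sv_nil]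
      have h5 : ∀ r, D.cls r ≠ D.cls p + D.cls s := by
        rcases hI p s hne.symm with k | k | k
        · exact k.2.2
        · exact fun r hr => k.2 (D.comm_of_add hr)
        · exfalso
          apply hd
          have k1 := k.1
          rw [e1, e1', smul_dotProduct, dotProduct_smul, vq_dot h2, smul_eq_mul, smul_eq_mul] at k1
          have k2 : ((dotL v v' : ℤ) : ℚ) ^ 2 = 256 := by
            linear_combination k1 - (t' * t' * (dotL v v' : ℤ) ^ 2) * ht - ((dotL v v' : ℤ) ^ 2) * ht'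
          have k3 : dotL v v' * dotL v v' = 16 * 16 := by
            have : ((dotL v v' * dotL v v' : ℤ) : ℚ) = ((16 * 16 : ℤ) : ℚ) := by
              push_cast; linear_combination k2
            exact_mod_cast this
          rcases mul_self_eq_mul_self_iff.1 k3 with k4 | k4 <;> rw [k4] <;> rfl
      have : ((0, fun r => if D.cls r = D.cls p + D.cls s then 1 else 0, 0) : D.V) = 0 :=
        Prod.ext rfl (Prod.ext (funext fun r => if_neg (h5 r)) rfl)
      rw [this, smul_zero, smul_zero]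

theorem pXW_sound {l k x : ℕ} {v : List ℤ} (h : (At.tx l v).OK D) (hk : k < 24) (hx : x < 4096) :
    (32 : ℚ) • D.ad (bv D l) (bv D (labW k x)) = sv D (pXW l v k x) := by
  obtain ⟨h1, h2, p, hp, h3⟩ := h
  obtain ⟨t, ht, e1⟩ := PM_sq h3
  have hy : Nat.land (Nat.xor x l) 4095 < 4096 := Nat.lt_succ_of_le Nat.and_le_right
  have k1 : ∀ (c : ℤ) (M : List (ℤ × ℕ)), (∀ r ∈ M, r.2 < 24) →
      sv D (M.map fun r => (c * r.1, labW r.2 (Nat.land (Nat.xor x l) 4095))) =
        (c : ℚ) • D.WT (Pi.single (ce (Nat.land (Nat.xor x l) 4095)) 1) (lv2 M) := fun c M hM => by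
    induction M with
    | nil => simp [sv, lv2]
    | cons r M ih =>
      rw [List.map_cons, sv_cons, ih fun r' hr' => hM r' (List.mem_cons_of_mem _ hr'), lv2_cons,
        map_add, map_smul, bv_W (hM r List.mem_cons_self) hy]
      push_cast
      module
  simp only [pXW, sv_cons]
  rw [k1 _ _ (idx_lt h2), lv2_idx, bv_X h1 hp, bv_W hk hx, bv_W hk hy, D.ad_XW, hp, q_single,
    ei_dot hk, e1, map_smul D.WT, LinearMap.smul_apply, LinearMap.smul_apply, map_smul]
  have : (t • vq v) ⟨k, hk⟩ = t * (v.getD k 0 : ℤ) := rfl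
  rw [this, smul_smul _ _ (D.WT _ (vq v)), smul_smul _ _ (D.WT _ (vq v))]
  have e2 : t * (v.getD k 0 : ℤ) / 32 * ((sgZ (bfB l x) : ℚ) * t) =
      (sgZ (bfB l x) : ℚ) * (v.getD k 0 : ℤ) / 32 := by
    linear_combination ((sgZ (bfB l x) : ℚ) * (v.getD k 0 : ℤ) / 32) * ht
  rw [e2]
  push_cast
  module

/-- 32 times the product of two basis vectors, not both in the last block -/
def prodK (e : ℕ) (a b : At) (k : List (ℤ × ℕ) → Bool) : Bool :=
  At.casesOn (motive := fun _ => Bool) a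
    (fun i j => At.casesOn (motive := fun _ => Bool) b (fun i' j' => k (pAA i j i' j'))
      (fun l v => k (pAX i j l v)) (fun i' x => k (pAW i j i' x)))
    (fun l v => At.casesOn (motive := fun _ => Bool) b (fun i j => k (pAX i j l v))
      (fun l' v' => k (pXX e l v l' v')) (fun i x => k (pXW l v i x)))
    (fun i x => At.casesOn (motive := fun _ => Bool) b (fun i' j' => k (pAW i' j' i x))
      (fun l v => k (pXW l v i x)) (fun _ _ => false))

theorem prodK_sound (hI : ∀ p, D.Ips p) {e : ℕ} (he : D.c2 = sg (e : F2)) {a b : At} (ha : a.OK D)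
    (hb : b.OK D) {k : List (ℤ × ℕ) → Bool} (h : prodK e a b k = true) :
    ∃ L, (32 : ℚ) • D.ad (bv D a.lb) (bv D b.lb) = sv D L ∧ k L = true := by
  cases a with
  | ta i j =>
    cases b with
    | ta i' j' => exact ⟨_, pAA_sound ha.1 ha.2 hb.1 hb.2, h⟩
    | tx l v => exact ⟨_, pAX_sound ha.1 ha.2 hb, h⟩
    | tw i' x => exact ⟨_, pAW_sound ha.1 ha.2 hb.1 hb.2, h⟩
  | tx l v =>
    cases b with
    | ta i j => exact ⟨_, by rw [D.ad_comm]; exact pAX_sound hb.1 hb.2 ha, h⟩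
    | tx l' v' => exact ⟨_, pXX_sound hI he ha hb, h⟩
    | tw i x => exact ⟨_, pXW_sound ha hb.1 hb.2, h⟩
  | tw i x =>
    cases b with
    | ta i' j' => exact ⟨_, by rw [D.ad_comm]; exact pAW_sound hb.1 hb.2 ha.1 ha.2, h⟩
    | tx l v => exact ⟨_, by rw [D.ad_comm]; exact pXW_sound hb ha.1 ha.2, h⟩
    | tw i' x' => exact absurd h (by simp [prodK])

end

end CfsgMO
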