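/-
The triality element is an automorphism of the Griess algebra (WP K2).
-/
import Cfsg.Agent.MO.K2b

set_option autoImplicit false

namespace CfsgMO

open Matrix

noncomputable section

variable {D : Dat} {B : Lb}

/-- evaluate a small number -/
def frN (n : ℕ) (k : ℕ → Bool) : Bool :=
  Nat.casesOn (motive := fun _ => Bool) n (k 0) fun m => k (Nat.succ m)

theorem frN_eq (n : ℕ) (k : ℕ → Bool) : frN n k = k n := by cases n <;> rfl

/-- evaluate a small integer -/
def frZ (c : ℤ) (k : ℤ → Bool) : Bool :=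
  Int.casesOn (motive := fun _ => Bool) c (fun n => frN n fun m => k (Int.ofNat m))
    fun n => frN n fun m => k (Int.negSucc m)

theorem frZ_eq (c : ℤ) (k : ℤ → Bool) : frZ c k = k c := by
  cases c with
  | ofNat n => exact frN_eq n fun m => k (Int.ofNat m)
  | negSucc n => exact frN_eq n fun m => k (Int.negSucc m)

def insA (c : ℤ) (l : ℕ) (s : List (ℤ × ℕ)) (k : List (ℤ × ℕ) → Bool) : Bool :=
  List.rec (motive := fun _ => (List (ℤ × ℕ) → Bool) → Bool) (fun k => k [(c, l)])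
    (fun p r ih k => Bool.rec (ih fun r' => k (p :: r'))
      (frZ (Int.add p.1 c) fun d => k ((d, l) :: r)) (Nat.beq p.2 l)) s k

theorem insA_sound {c : ℤ} {l : ℕ} {s : List (ℤ × ℕ)} {k : List (ℤ × ℕ) → Bool}
    (h : insA c l s k = true) : ∃ s', sv D s' = sv D s + (c : ℚ) • bv D l ∧ k s' = true := by
  induction s generalizing k with
  | nil => exact ⟨_, by rw [sv_cons, sv_nil, add_comm], h⟩
  | cons p r ih =>
    change Bool.rec (insA c l r fun r' => k (p :: r'))
      (frZ (Int.add p.1 c) fun d => k ((d, l) :: r)) (Nat.beq p.2 l) = true at h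
    rw [beq_eq_dec] at h
    by_cases e : p.2 = l
    · simp only [e, decide_true, frZ_eq] at h
      refine ⟨_, ?_, h⟩
      rw [sv_cons, sv_cons, e]
      show ((p.1 + c : ℤ) : ℚ) • _ + _ = _
      push_cast
      module
    · simp only [e, decide_false] at h
      obtain ⟨s', e1, e2⟩ := ih h
      exact ⟨_, by rw [sv_cons, sv_cons, e1, add_assoc], e2⟩

/-- add a term to a sparse vector -/
def insK (c : ℤ) (l : ℕ) (s : List (ℤ × ℕ)) (k : List (ℤ × ℕ) → Bool) : Bool :=
  frZ c fun c => Bool.rec (frN l fun l => insA c l s k) (k s) (Nat.beq (Int.natAbs c) 0)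

theorem insK_sound {c : ℤ} {l : ℕ} {s : List (ℤ × ℕ)} {k : List (ℤ × ℕ) → Bool}
    (h : insK c l s k = true) : ∃ s', sv D s' = sv D s + (c : ℚ) • bv D l ∧ k s' = true := by
  rw [insK, frZ_eq, beq_eq_dec] at h
  by_cases e : c.natAbs = 0
  · simp only [e, decide_true] at h
    exact ⟨s, by rw [Int.natAbs_eq_zero.1 e]; simp, h⟩
  · simp only [e, decide_false, frN_eq] at h
    exact insA_sound h

/-- add a multiple of a sparse vector -/
def addSv (c : ℤ) (L s : List (ℤ × ℕ)) (k : List (ℤ × ℕ) → Bool) : Bool :=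
  List.rec (motive := fun _ => List (ℤ × ℕ) → Bool) k
    (fun p _ ih s => insK (Int.mul c p.1) p.2 s ih) L s

theorem addSv_sound {c : ℤ} {L s : List (ℤ × ℕ)} {k : List (ℤ × ℕ) → Bool}
    (h : addSv c L s k = true) : ∃ s', sv D s' = sv D s + (c : ℚ) • sv D L ∧ k s' = true := by
  induction L generalizing s with
  | nil => exact ⟨s, by rw [sv_nil, smul_zero, add_zero], h⟩
  | cons p L ih =>
    obtain ⟨s1, e1, h1⟩ := insK_sound (D := D) (k := fun s => addSv c L s k) h
    obtain ⟨s2, e2, h2⟩ := ih h1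
    refine ⟨s2, ?_, h2⟩
    rw [e2, e1, sv_cons]
    show _ + ((c * p.1 : ℤ) : ℚ) • _ + _ = _
    push_cast
    module

/-- combination of decoded labels -/
def sa (D : Dat) (s : List (ℤ × At)) : D.V := sv D (s.map fun p => (p.1, p.2.lb))

theorem sa_cons (p : ℤ × At) (s : List (ℤ × At)) :
    sa D (p :: s) = (p.1 : ℚ) • bv D p.2.lb + sa D s := rfl

def rowP (e : ℕ) (c : ℤ) (a : At) (T : List (ℤ × At)) (s : List (ℤ × ℕ))
    (k : List (ℤ × ℕ) → Bool) : Bool :=
  List.rec (motive := fun _ => List (ℤ × ℕ) → Bool) k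
    (fun p _ ih s => prodK e a p.2 fun L => addSv (Int.mul c p.1) L s ih) T s

theorem rowP_sound (hI : ∀ p, D.Ips p) {e : ℕ} (he : D.c2 = sg (e : F2)) {c : ℤ} {a : At}
    (ha : a.OK D) {T : List (ℤ × At)} (hT : ∀ p ∈ T, p.2.OK D) {s : List (ℤ × ℕ)}
    {k : List (ℤ × ℕ) → Bool} (h : rowP e c a T s k = true) :
    ∃ s', sv D s' = sv D s + (32 * c : ℚ) • D.ad (bv D a.lb) (sa D T) ∧ k s' = true := by
  induction T generalizing s with
  | nil => exact ⟨s, by simp [sa, sv], h⟩
  | cons p T ih =>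
    obtain ⟨L, e1, h1⟩ := prodK_sound hI he ha (hT p List.mem_cons_self)
      (k := fun L => addSv (Int.mul c p.1) L s fun s => rowP e c a T s k) h
    obtain ⟨s1, e2, h2⟩ := addSv_sound (D := D) (k := fun s => rowP e c a T s k) h1
    obtain ⟨s2, e3, h3⟩ := ih (fun r hr => hT r (List.mem_cons_of_mem _ hr)) h2
    refine ⟨s2, ?_, h3⟩
    rw [e3, e2, ← e1, sa_cons, map_add, map_smul]
    show _ + ((c * p.1 : ℤ) : ℚ) • _ + _ = _
    push_cast
    module

def dblP (e : ℕ) (S T : List (ℤ × At)) (s : List (ℤ × ℕ)) (k : List (ℤ × ℕ) → Bool) : Bool :=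
  List.rec (motive := fun _ => List (ℤ × ℕ) → Bool) k
    (fun p _ ih s => rowP e p.1 p.2 T s ih) S s

theorem dblP_sound (hI : ∀ p, D.Ips p) {e : ℕ} (he : D.c2 = sg (e : F2)) {S T : List (ℤ × At)}
    (hS : ∀ p ∈ S, p.2.OK D) (hT : ∀ p ∈ T, p.2.OK D) {s : List (ℤ × ℕ)}
    {k : List (ℤ × ℕ) → Bool} (h : dblP e S T s k = true) :
    ∃ s', sv D s' = sv D s + (32 : ℚ) • D.ad (sa D S) (sa D T) ∧ k s' = true := by
  induction S generalizing s with
  | nil => exact ⟨s, by simp [sa, sv], h⟩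
  | cons p S ih =>
    obtain ⟨s1, e1, h1⟩ := rowP_sound hI he (hS p List.mem_cons_self) hT
      (k := fun s => dblP e S T s k) h
    obtain ⟨s2, e2, h2⟩ := ih (fun r hr => hS r (List.mem_cons_of_mem _ hr)) h1
    refine ⟨s2, ?_, h2⟩
    rw [e2, e1, sa_cons, map_add, map_smul, LinearMap.add_apply, LinearMap.smul_apply]
    module

/-- the masks of the labels with non-zero coefficients -/
def mskK (B : Lb) (s : List (ℤ × ℕ)) (k : List (ℤ × ℕ) → Bool) : Bool :=
  List.rec (motive := fun _ => (List (ℤ × ℕ) → Bool) → Bool) (fun k => k [])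
    (fun p _ ih k => Bool.rec
      (an (Nat.blt p.2 67108864) ((fun m => fb m (ih fun r => k ((p.1, m) :: r))) (look B.L B.M p.2)))
      (ih k) (Nat.beq (Int.natAbs p.1) 0)) s k

theorem mskK_sound (hG : Good D B) {s : List (ℤ × ℕ)} {k : List (ℤ × ℕ) → Bool}
    (h : mskK B s k = true) : ∃ r, k r = true ∧ ∀ i,
      (r.map fun p => if p.2.testBit i then (p.1 : ℚ) else 0).sum = co D B (sv D s) i := by
  induction s generalizing k with
  | nil => exact ⟨[], h, fun i => by rw [sv_nil, co_zero]; rfl⟩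
  | cons p s ih =>
    change Bool.rec (an (Nat.blt p.2 67108864) (fb _ (mskK B s fun r =>
      k ((p.1, look B.L B.M p.2) :: r)))) (mskK B s k) (Nat.beq (Int.natAbs p.1) 0) = true at h
    rw [beq_eq_dec] at h
    by_cases e : p.1.natAbs = 0
    · simp only [e, decide_true] at h
      obtain ⟨r, h1, h2⟩ := ih h
      exact ⟨r, h1, fun i => by rw [h2, sv_cons, Int.natAbs_eq_zero.1 e]; simp⟩
    · simp only [e, decide_false, an_eq, fb_eq, Bool.and_eq_true, Nat.blt_eq] at h
      obtain ⟨r, h1, h2⟩ := ih h.2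
      refine ⟨_, h1, fun i => ?_⟩
      rw [List.map_cons, List.sum_cons, h2, sv_cons, co_add, co_smul, Pi.add_apply, Pi.smul_apply,
        co_bv hG (by norm_num; exact h.1)]
      simp

/-- the planes of a sparse vector -/
def plK (B : Lb) (s : List (ℤ × ℕ)) (k : List ℕ → Bool) : Bool := mskK B s fun r => sumK 18 r k

theorem plK_sound (hG : Good D B) {s : List (ℤ × ℕ)} {k : List ℕ → Bool} (h : plK B s k = true) :
    ∃ u, valQ u = co D B (sv D s) ∧ k u = true := by
  obtain ⟨r, h1, h2⟩ := mskK_sound hG h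
  obtain ⟨u, h3, h4⟩ := sumK_sound h1
  exact ⟨u, funext fun i => (h3 i).trans (h2 i), h4⟩

/-- the program maps the first sparse vector to the second -/
def chkSv (B : Lb) (P : List Lay) (s s' : List (ℤ × ℕ)) : Bool :=
  plK B s fun u => runK P u fun u' => plK B s' fun u'' => eqP u' u''

theorem chkSv_sound (hG : Good D B) {P : List Lay} {g : Module.End ℚ D.V} (hg : Sem D B P g)
    {s s' : List (ℤ × ℕ)} (h : chkSv B P s s' = true) : g (sv D s) = sv D s' := by
  obtain ⟨u, e1, h1⟩ := plK_sound hG h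
  obtain ⟨u', e2, h2⟩ := runK_sound hg.1 h1
  obtain ⟨u'', e3, h3⟩ := plK_sound hG h2
  refine co_inj hG ?_
  rw [hg.2, ← e1, e2, eqP_sound h3, e3]

def lkV (lamT : List (ℕ × List ℤ)) (l : ℕ) : List ℤ :=
  List.rec [] (fun p _ ih => Bool.rec ih p.2 (Nat.beq p.1 l)) lamT

/-- decode a label -/
def decA (lamT : List (ℕ × List ℤ)) (l : ℕ) : At :=
  Bool.rec (Bool.rec (At.tw (Nat.shiftRight (Nat.sub l 33554432) 12) (Nat.land l 4095))
    (At.ta (Nat.shiftRight (Nat.sub l 16777216) 5) (Nat.land l 31)) (Nat.blt l 33554432))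
    (At.tx l (lkV lamT l)) (Nat.blt l 16777216)

def allOK (okL : List ℤ → ℕ → Bool) (S : List (ℤ × At)) : Bool :=
  List.rec true (fun p _ ih => an (p.2.ok okL) ih) S

theorem allOK_sound {okL : List ℤ → ℕ → Bool} (hL : LamOK D okL) {S : List (ℤ × At)}
    (h : allOK okL S = true) : ∀ p ∈ S, p.2.OK D := by
  induction S with
  | nil => simp
  | cons p S ih =>
    change an _ (allOK okL S) = true at h
    rw [an_eq, Bool.and_eq_true] at h
    intro r hr
    rcases List.mem_cons.1 hr with rfl | hr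
    · exact At.ok_sound hL h.1
    · exact ih h.2 r hr

def okPairA (B : Lb) (okL : List ℤ → ℕ → Bool) (e : ℕ) (Pt : List Lay) (a1 a2 : At)
    (S1 S2 : List (ℤ × At)) : Bool :=
  an (a1.ok okL) (an (a2.ok okL) (an (allOK okL S1) (an (allOK okL S2)
  (an (chkSv B Pt [(8, a1.lb)] (S1.map fun p => (p.1, p.2.lb)))
  (an (chkSv B Pt [(8, a2.lb)] (S2.map fun p => (p.1, p.2.lb)))
  (prodK e a1 a2 fun L => addSv 64 L [] fun lhs => dblP e S1 S2 [] fun rhs => chkSv B Pt lhs rhs))))))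

theorem okPairA_sound (hG : Good D B) (hI : ∀ p, D.Ips p) {okL : List ℤ → ℕ → Bool}
    (hL : LamOK D okL) {e : ℕ} (he : D.c2 = sg (e : F2)) {t : D.Γ} {Pt : List Lay}
    (ht : Sem D B Pt t.1) {a1 a2 : At} {S1 S2 : List (ℤ × At)}
    (h : okPairA B okL e Pt a1 a2 S1 S2 = true) : Gd t (bv D a1.lb) (bv D a2.lb) := by
  simp only [okPairA, an_eq, Bool.and_eq_true] at h
  obtain ⟨h1, h2, h3, h4, h5, h6, h7⟩ := h
  have t1 : t.1 ((8 : ℚ) • bv D a1.lb) = sa D S1 := by
    have := chkSv_sound hG ht h5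
    rwa [sv_cons, sv_nil, add_zero] at this
  have t2 : t.1 ((8 : ℚ) • bv D a2.lb) = sa D S2 := by
    have := chkSv_sound hG ht h6
    rwa [sv_cons, sv_nil, add_zero] at this
  obtain ⟨L, e1, k1⟩ := prodK_sound hI he (At.ok_sound hL h1) (At.ok_sound hL h2) h7
  obtain ⟨lhs, e2, k2⟩ := addSv_sound (D := D) k1
  obtain ⟨rhs, e3, k3⟩ := dblP_sound hI he (allOK_sound hL h3) (allOK_sound hL h4) k2
  have e4 := chkSv_sound hG ht k3
  rw [e2, e3, sv_nil, zero_add, zero_add, ← e1, ← t1, ← t2] at e4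
  simp only [map_smul, LinearMap.smul_apply, smul_smul] at e4
  have e5 : t.1 (D.ad (bv D a1.lb) (bv D a2.lb)) = D.ad (t.1 (bv D a1.lb)) (t.1 (bv D a2.lb)) := by
    refine smul_right_injective _ (show (2048 : ℚ) ≠ 0 by norm_num) ?_
    convert e4 using 2 <;> norm_num
  intro c
  rw [← D.ad_spec, ← D.ad_spec, ← e5, ip_of_sem hG ht]

/-- `lamT` lists pairs (class code, short vector) for all labels below `2 ^ 24` among `l1`, `l2`, `s1`,
`s2`; `t (bv l1) = ∑ (c / 8) • bv l` over `(c, l) ∈ s1`, the same for `l2`, `s2`; at most one of the two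
arguments lies in the last block, before and after `t`.
Checks `t (bv l1 * bv l2) = t (bv l1) * t (bv l2)`; `e` is the sign bit of `c2`. -/
def okPair (B : Lb) (okL : List ℤ → ℕ → Bool) (e : ℕ) (Pt : List Lay) (lamT : List (ℕ × List ℤ))
    (l1 l2 : ℕ) (s1 s2 : List (ℤ × ℕ)) : Bool :=
  an (Nat.beq (decA lamT l1).lb l1) (an (Nat.beq (decA lamT l2).lb l2)
    (okPairA B okL e Pt (decA lamT l1) (decA lamT l2) (s1.map fun p => (p.1, decA lamT p.2))
      (s2.map fun p => (p.1, decA lamT p.2))))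

theorem okPair_sound (hG : Good D B) (hI : ∀ p, D.Ips p) {okL : List ℤ → ℕ → Bool}
    (hL : LamOK D okL) {e : ℕ} (he : D.c2 = sg (e : F2)) {t : D.Γ} {Pt : List Lay}
    (ht : Sem D B Pt t.1) {lamT : List (ℕ × List ℤ)} {l1 l2 : ℕ}
    {s1 s2 : List (ℤ × ℕ)} (h : okPair B okL e Pt lamT l1 l2 s1 s2 = true) :
    Gd t (bv D l1) (bv D l2) := by
  simp only [okPair, an_eq, Bool.and_eq_true] at h
  have := okPairA_sound hG hI hL he ht h.2.2
  rwa [Nat.eq_of_beq_eq_true h.1, Nat.eq_of_beq_eq_true h.2.1] at this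

end

end CfsgMO
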