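/-
Packed input for the pair check (WP K2).
-/
import Cfsg.Agent.MO.K2

set_option autoImplicit false

namespace CfsgMO

noncomputable section

variable {D : Dat} {B : Lb}

/-- the hexadecimal digits minus 4 -/
def decV (n c : ℕ) (k : List ℤ → Bool) : Bool :=
  Nat.rec (motive := fun _ => ℕ → (List ℤ → Bool) → Bool) (fun _ k => k [])
    (fun _ ih c k => frZ (Int.subNatNat (Nat.land c 15) 4) fun a =>
      frN (Nat.shiftRight c 4) fun c' => ih c' fun r => k (a :: r)) n c k

theorem decV_ex {n c : ℕ} {k : List ℤ → Bool} (h : decV n c k = true) : ∃ r, k r = true := by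
  induction n generalizing c k with
  | zero => exact ⟨_, h⟩
  | succ n ih =>
    change frZ _ (fun a => frN (Nat.shiftRight c 4) fun c' => decV n c' fun r => k (a :: r)) = true at h
    rw [frZ_eq, frN_eq] at h
    obtain ⟨r, hr⟩ := ih h
    exact ⟨_, hr⟩

/-- entries `2 ^ 24 * vector + class` -/
def decT (T : List ℕ) (k : List (ℕ × List ℤ) → Bool) : Bool :=
  List.rec (motive := fun _ => (List (ℕ × List ℤ) → Bool) → Bool) (fun k => k [])
    (fun c _ ih k => frN (Nat.land c 16777215) fun l => decV 24 (Nat.shiftRight c 24) fun v =>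
      ih fun r => k ((l, v) :: r)) T k

theorem decT_ex {T : List ℕ} {k : List (ℕ × List ℤ) → Bool} (h : decT T k = true) :
    ∃ r, k r = true := by
  induction T generalizing k with
  | nil => exact ⟨_, h⟩
  | cons c T ih =>
    change frN _ (fun l => decV 24 (Nat.shiftRight c 24) fun v =>
      decT T fun r => k ((l, v) :: r)) = true at h
    rw [frN_eq] at h
    obtain ⟨v, hv⟩ := decV_ex h
    obtain ⟨r, hr⟩ := ih hv
    exact ⟨_, hr⟩

/-- entries `2 ^ 26 * (coefficient + 8) + label` -/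
def decS (s : List ℕ) (k : List (ℤ × ℕ) → Bool) : Bool :=
  List.rec (motive := fun _ => (List (ℤ × ℕ) → Bool) → Bool) (fun k => k [])
    (fun c _ ih k => frN (Nat.land c 67108863) fun l =>
      frZ (Int.subNatNat (Nat.shiftRight c 26) 8) fun a => ih fun r => k ((a, l) :: r)) s k

theorem decS_ex {s : List ℕ} {k : List (ℤ × ℕ) → Bool} (h : decS s k = true) :
    ∃ r, k r = true := by
  induction s generalizing k with
  | nil => exact ⟨_, h⟩
  | cons c s ih =>
    change frN _ (fun l => frZ (Int.subNatNat (Nat.shiftRight c 26) 8) fun a =>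
      decS s fun r => k ((a, l) :: r)) = true at h
    rw [frN_eq, frZ_eq] at h
    obtain ⟨r, hr⟩ := ih h
    exact ⟨_, hr⟩

/-- `okPair` with packed data -/
def okPairC (B : Lb) (okL : List ℤ → ℕ → Bool) (e : ℕ) (Pt : List Lay) (T : List ℕ) (l1 l2 : ℕ)
    (s1 s2 : List ℕ) : Bool :=
  decT T fun lamT => decS s1 fun s1 => decS s2 fun s2 => okPair B okL e Pt lamT l1 l2 s1 s2

theorem okPairC_sound (hG : Good D B) (hI : ∀ p, D.Ips p) {okL : List ℤ → ℕ → Bool}
    (hL : LamOK D okL) {e : ℕ} (he : D.c2 = sg (e : F2)) {t : D.Γ} {Pt : List Lay}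
    (ht : Sem D B Pt t.1) {T : List ℕ} {l1 l2 : ℕ} {s1 s2 : List ℕ}
    (h : okPairC B okL e Pt T l1 l2 s1 s2 = true) : Gd t (bv D l1) (bv D l2) := by
  obtain ⟨_, h⟩ := decT_ex h
  obtain ⟨_, h⟩ := decS_ex h
  obtain ⟨_, h⟩ := decS_ex h
  exact okPair_sound hG hI hL he ht h

end

end CfsgMO
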