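/-
Automorphisms of the lattice given by lists.
-/
import Cfsg.Agent.MO.La

set_option autoImplicit false
set_option linter.unusedSimpArgs false
set_option linter.unusedVariables false
set_option maxRecDepth 100000

namespace CfsgMO

open CfsgH5 CfsgH6 Cfsg Finset Matrix Cw
open scoped Pointwise

noncomputable section

variable {e : F2}

/-! ### Automorphisms given by lists -/

/-- `σ` is an automorphism of the lattice and induces `A` on the classes -/
def CoA (σ : CfsgMO.M24) (A : Matrix (Fin 24) (Fin 24) F2) : Prop :=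
  ∃ g : Co0, (∀ v : LL, cv (g • v : LL) = σ *ᵥ cv v) ∧ ∀ v : LL, red (g • v : LL) = A *ᵥ red v

theorem CoA.eq {σ : CfsgMO.M24} {A : Matrix (Fin 24) (Fin 24) F2} (h : CoA σ A) (e : F2) :
    ∃ g : Co0, σ = (C0 e).mat g ∧ A = ((C0 e).ρ g).1 := by
  obtain ⟨g, h1, h2⟩ := h
  exact ⟨g, (C0 e).mat_ext' fun v => by rw [Crd.mat_mulVec]; exact (h1 v).symm,
    (C0 e).mat_ext fun v => by rw [Crd.ρ_spec, C0_φ, C0_φ, h2]⟩

theorem coA_mat (e : F2) (g : Co0) : CoA ((C0 e).mat g) ((C0 e).ρ g).1 :=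
  ⟨g, fun v => ((C0 e).mat_mulVec g v).symm, fun v => by rw [← C0_φ (e := e), ← C0_φ (e := e), Crd.ρ_spec]⟩

theorem mat_inj {g h : Co0} (k : (C0 e).mat g = (C0 e).mat h) : g = h :=
  co_ext fun v => Subtype.ext ((C0 e).tq_inj (by rw [← Crd.mat_mulVec, k, Crd.mat_mulVec]))

theorem CoA.unique {σ : CfsgMO.M24} {A B : Matrix (Fin 24) (Fin 24) F2} (h : CoA σ A) (h' : CoA σ B) :
    A = B := by
  obtain ⟨g, h1, rfl⟩ := h.eq 0
  obtain ⟨g', h2, rfl⟩ := h'.eq 0
  rw [mat_inj (h1.symm.trans h2)]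

theorem CoA.orth {σ : CfsgMO.M24} {A : Matrix (Fin 24) (Fin 24) F2} (h : CoA σ A) : σᵀ * σ = 1 := by
  obtain ⟨g, rfl, -⟩ := h.eq 0
  exact (C0 0).mat_orth g

theorem CoA.mul {σ τ : CfsgMO.M24} {A B : Matrix (Fin 24) (Fin 24) F2} (h : CoA σ A) (h' : CoA τ B) :
    CoA (σ * τ) (A * B) := by
  obtain ⟨g, h1, h2⟩ := h
  obtain ⟨g', h3, h4⟩ := h'
  exact ⟨g * g', fun v => by rw [mul_smul, h1, h3, mulVec_mulVec],
    fun v => by rw [mul_smul, h2, h4, mulVec_mulVec]⟩

/-- the code of four times the matrix with the given rows -/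
def mcode (m : List (List ℤ)) : ℕ :=
  sumLt 24 fun i => sumLt 24 fun j => U (Int.toNat (4 * (m.getD i []).getD j 0 + 8))
    (25 * ppL.getD i 0 + 25 - ppL.getD j 0)

/-- the checks for a given code -/
def okG' (m : List (List ℤ)) (a : List ℕ) (g : ℕ) : Bool :=
  band (okCo g) <|
    band (allLt 24 fun i => allLt 24 fun j => decide
      ((dg g (25 * ppL.getD i 0 + 25 - ppL.getD j 0) : ℤ) - 8 = 4 * (m.getD i []).getD j 0)) <|
    allLt 24 fun k => Nat.beq (Nat.land (mvraw WC (act g (rowEnc WC k))) M15)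
      (evK 24 fun i => 8 * bit (a.getD i 0) ((k + 12) % 24))

/-- `smat m` is an automorphism inducing `mat2 24 a` -/
def okG (m : List (List ℤ)) (a : List ℕ) : Bool := forceH (mcode m) (okG' m a)

theorem okG'_sound {m : List (List ℤ)} {a : List ℕ} {n : ℕ} (h : okG' m a n = true) :
    CoA (smat m) (mat2 24 a) := by
  rw [okG', band_eq, band_eq, Bool.and_eq_true, Bool.and_eq_true, allLt_iff, allLt_iff] at h
  obtain ⟨h1, h2, h3⟩ := h
  obtain ⟨g, hg⟩ := exists_rep h1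
  have e1 : smat m = (C0 0).mat g := by
    ext i j
    have h4 := of_decide_eq_true ((allLt_iff _ _).1 (h2 i i.2) j j.2)
    have h5 : CfsgH6.matOf n (pp i) (pp j) = 4 * (m.getD i []).getD j 0 := by
      rw [CfsgH6.matOf, pn_pp, pn_pp, h4]
    have := congrFun (hg.2 (e8 (pp j))) (pp i)
    rw [coe_e8, Matrix.mulVec_single] at this
    simp only [Pi.smul_apply, smul_eq_mul, MulOpposite.smul_eq_mul_unop, MulOpposite.unop_op,
      Matrix.col_apply, Matrix.transpose_apply, h5] at this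
    have h6 : (C0 0).mat g i j = (((g • e8 (pp j) : LL) : V) (pp i) : ℚ) / 8 := rfl
    rw [h6, show ((g • e8 (pp j) : LL) : V) (pp i) = 4 * (m.getD i []).getD j 0 by omega]
    simp only [smat, of_apply]; push_cast; ring
  have e2 : mat2 24 a = ((C0 0).ρ g).1 := by
    ext i j
    have hk := okV_row (op12 j)
    have h4 := (beq_true_iff _ _).1 (h3 _ (op12 j).2)
    have h7 : act n (rowEnc WC (op12 j)) = enc ((g • wLL (op12 j) : LL) : V) := by
      have := hg.act _ (okV_norm hk)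
      rwa [enc_vec (okV_inL hk)] at this
    rw [evK_eq, h7] at h4
    have h5 := (red_of_land (bd_of_sqNorm (by rw [co_norm]; exact okV_norm hk))
      (fun i => bit_le _ _) h4 i).2
    have h6 := congrFun ((C0 0).ρ_spec g (wLL (op12 j))) i
    rw [C0_φ, C0_φ, coe_wLL, red_wv, op12_op12, mulVec_single_one, h5] at h6
    rw [show ((op12 j).val + 12) % 24 = j from congrArg Fin.val (op12_op12 j), bit_eq] at h6
    refine Eq.trans ?_ h6.symm
    simp only [mat2, of_apply]; split_ifs <;> rfl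
  rw [e1, e2]; exact coA_mat 0 g

theorem okG_sound {m : List (List ℤ)} {a : List ℕ} (h : okG m a = true) : CoA (smat m) (mat2 24 a) :=
  okG'_sound ((forceH_eq _ _).symm.trans h)

theorem isN_of {σ : CfsgMO.M24} {A : Matrix (Fin 24) (Fin 24) F2} {U : ME} (h : CoA σ A)
    (hU : Uᵀ * U = 1) (hq : ∀ c, ∃ ε, U * q c = sg ε • (q (A *ᵥ c) * U)) : (D0 e).IsN U σ := by
  obtain ⟨g, rfl, rfl⟩ := h.eq e
  exact (C0 e).isN_of hU hq

/-- every automorphism of the lattice lifts -/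
theorem CoA.lift {σ : CfsgMO.M24} {A : Matrix (Fin 24) (Fin 24) F2} (h : CoA σ A) (e : F2) :
    ∃ (n : (D0 e).N) (U : ME), (D0 e).IsN U σ ∧ n.1.1 = (D0 e).actL U σ ∧ ((D0 e).Ah n).1 = A := by
  obtain ⟨g, rfl, rfl⟩ := h.eq e
  obtain ⟨n, U, h1, h2, h3⟩ := (C0 e).lift g
  exact ⟨n, U, h1, h2, congrArg Units.val h3⟩

theorem CoA.Ah_eq {σ : CfsgMO.M24} {A : Matrix (Fin 24) (Fin 24) F2} (h : CoA σ A) {n : (D0 e).N}
    {U : ME} (hN : (D0 e).IsN U σ) (hn : n.1.1 = (D0 e).actL U σ) : ((D0 e).Ah n).1 = A := by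
  obtain ⟨g, rfl, rfl⟩ := h.eq e
  exact congrArg Units.val ((C0 e).Ah_eq hN hn)

theorem exists_coA (n : (D0 e).N) : ∃ U σ, (D0 e).IsN U σ ∧ n.1.1 = (D0 e).actL U σ ∧
    CoA σ ((D0 e).Ah n).1 := by
  obtain ⟨U, g, h1, h2, h3⟩ := (C0 e).of_N n
  exact ⟨U, _, h1, h2, (congrArg Units.val h3).symm ▸ coA_mat e g⟩

end

end CfsgMO
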