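/-
Generators of the monomial group; frames.
-/
import Cfsg.Agent.MO.Lb

set_option autoImplicit false
set_option linter.unusedSimpArgs false
set_option linter.unusedVariables false
set_option maxRecDepth 100000

namespace CfsgMO

open CfsgH5 CfsgH6 Cfsg Finset Matrix Cw
open scoped Pointwise

noncomputable section

variable {e : F2}

/-! ### Generators of the monomial group -/

def rAlpha : List ℕ := [1, 2, 3, 16, 9, 15, 7, 23, 20, 13, 5, 11, 21, 14, 10, 6, 8, 12, 22, 4, 17, 18, 19, 0]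
def rGamma : List ℕ := [11, 23, 22, 13, 17, 9, 12, 19, 21, 5, 16, 0, 6, 3, 18, 20, 10, 4, 14, 7, 15, 8, 2, 1]
def rDelta : List ℕ := [0, 5, 20, 3, 21, 16, 18, 6, 7, 10, 22, 11, 14, 13, 4, 23, 2, 8, 17, 12, 1, 19, 15, 9]

/-- generators of the monomial group -/
def gP : List CfsgMO.M24 := [spm rAlpha 0, spm rGamma 0, spm rDelta 0, spm (List.range 24) 255]

/-- codes of three permutations -/
def gC : List ℕ := [0xb82d5a4e5183dcd62d4941cc520c41, 0x5883388a1c8f5140b46cd317aed7,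
  0xbba8ab116d7c52899d90286a219a40]

theorem top_of_gC {S : Subgroup Cfsg.M24} (h : ∀ s ∈ gC, CM.In S s) : S = ⊤ := by
  rw [eq_top_iff, ← grp_chM]
  refine CM.grp_le fun s hs => ?_
  have : allL (gens chM) (fun s => anyL [0x108002080409000004a01, 0x8850840420004204a50,
      0x8002008508404010012, 0x194202142021025200000, 0x180a129424090250, 0x180812900509005080800,
      0x8250100409025280840, 0xca12848028085084a12] fun w =>
      Nat.beq s (evalW ops24 gC ops24.one w)) = true := by decide +kernel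
  obtain ⟨w, -, hw⟩ := (anyL_iff _ _).1 ((allL_iff _ _).1 this s hs)
  rw [(beq_true_iff _ _).1 hw]
  exact Codes.In.evalW h (Codes.In.one _ _) w

theorem mat_mono {g : Co0} {σ : Equiv.Perm GolayPt} {c : Finset GolayPt} (h : Mono g σ c)
    (i j : Fin 24) : (C0 e).mat g i j = if σ (pp j) = pp i then (if pp i ∈ c then -1 else 1) else 0 := by
  show (((g • e8 (pp j) : LL) : V) (pp i) : ℚ) / 8 = _
  rw [h, coe_e8, signedPerm_single, Pi.single_apply]
  by_cases k : σ (pp j) = pp i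
  · rw [if_pos k.symm, if_pos k, k]; split_ifs <;> norm_num
  · rw [if_neg (Ne.symm k), if_neg k]; norm_num

theorem NN_le {K : Subgroup Co0} (h : ∀ g, (C0 e).mat g ∈ gP → g ∈ K) : NN ≤ K := by
  choose F hF using fun σ : Cfsg.M24 => exists_mono σ.2 empty_mem_Sup
  let f : Cfsg.M24 →* Co0 := MonoidHom.mk' F fun a b => mono_ext (hF _) (by
    simpa using mono_mul (hF a) (hF b))
  have h1 : K.comap f = ⊤ := top_of_gC fun s hs => by
    have key : ∀ (s : ℕ) (r : List ℕ), inM24 s = true → spm r 0 ∈ gP →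
        (∀ i j : Fin 24, r.getD j 0 = i ↔ app24 s (pn (pp j)) = pn (pp i)) → CM.In (K.comap f) s := by
      intro s r h1 h2 h3
      obtain ⟨σ, -, rfl⟩ := in_CM h1
      refine ⟨σ, h _ ?_, rfl⟩
      convert h2 using 1
      ext i j
      refine (mat_mono (hF σ) i j).trans ?_
      simp only [spm, of_apply, h3, ← pn_smulM, Nat.zero_testBit, notMem_empty, if_false,
        Bool.false_eq_true]
      exact if_congr ⟨congrArg _, pn_inj⟩ rfl rfl
    simp only [gC, List.mem_cons, List.not_mem_nil, or_false] at hs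
    rcases hs with rfl | rfl | rfl
    · exact key _ rAlpha (by decide +kernel) (by simp [gP]) (by decide +kernel)
    · exact key _ rGamma (by decide +kernel) (by simp [gP]) (by decide +kernel)
    · exact key _ rDelta (by decide +kernel) (by simp [gP]) (by decide +kernel)
  have hF' : ∀ σ, F σ ∈ K := fun σ => (h1 ▸ Subgroup.mem_top σ : σ ∈ K.comap f)
  have o1 : ts 0x34200f ∈ octads := ts_mem_octads (by decide +kernel)
  have h2 : ∀ d ∈ octads, ∀ g, Mono g 1 d → g ∈ K := fun d hd g hg => by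
    obtain ⟨σ, rfl⟩ := trans_octads o1 hd
    obtain ⟨a, ha⟩ := exists_mono Cfsg.M24.one_mem ((mem_octads _).1 o1).1
    rw [mono_ext hg (mono_conj ((mem_octads _).1 o1).1 σ.2 (hF σ) ha)]
    refine K.mul_mem (K.mul_mem (hF' σ) (h _ ?_)) (K.inv_mem (hF' σ))
    have : (C0 e).mat a = spm (List.range 24) 255 := by
      ext i j
      rw [mat_mono ha]
      have : ∀ i j : Fin 24, ((List.range 24).getD j 0 = i ↔ pp j = pp i) ∧
          (Nat.testBit 255 i = true ↔ pp i ∈ ts 0x34200f) := by decide +kernel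
      exact if_congr (this i j).1.symm (if_congr (this i j).2.symm rfl rfl) rfl
    rw [this]; simp [gP]
  have h3 : ∀ c ∈ Sup, ∀ g, Mono g 1 c → g ∈ K := fun c hc g hg => by
    have := isC_induction (P := fun m => isC m = true ∧ ∀ g, Mono g 1 (ts m) → g ∈ K)
      ⟨isC_zero, fun g hg => ?_⟩ (fun a b ha hb => ⟨isC_xor ha.1 hb.1, fun g hg => ?_⟩)
      (fun b hb => ?_) ((mem_Sup c).1 hc)
    · exact this.2 g (by rwa [ts_mk])
    · rw [show ts 0 = ∅ by decide +kernel] at hg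
      rw [mono_ext hg mono_one]; exact K.one_mem
    · have sa : ts a ∈ Sup := (mem_Sup _).2 (by rw [mk_ts (isC_lt ha.1)]; exact ha.1)
      have sb : ts b ∈ Sup := (mem_Sup _).2 (by rw [mk_ts (isC_lt hb.1)]; exact hb.1)
      obtain ⟨x, he⟩ := exists_mono Cfsg.M24.one_mem sa
      obtain ⟨y, he'⟩ := exists_mono Cfsg.M24.one_mem sb
      have h1 := mono_mul he he'
      have h2 : symmDiff (ts a) (ts b) = ts (a ^^^ b) := mk_inj (by
        rw [mk_ts (isC_lt (isC_xor ha.1 hb.1))]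
        refine (E24.mask_symmDiff _ _).trans ?_
        rw [E24.mask_toSet (isC_lt ha.1), E24.mask_toSet (isC_lt hb.1)]; rfl)
      rw [mul_one, one_smul, h2] at h1
      rw [mono_ext hg h1]
      exact K.mul_mem (ha.2 _ he) (hb.2 _ he')
    · have : ∀ b ∈ basisW, isOct b = true ∧ isC b = true := by decide +kernel
      exact ⟨(this b hb).2, h2 _ (ts_mem_octads (this b hb).1)⟩
  intro g hg
  obtain ⟨σ, hσ, c, hc, hm⟩ := mono_of_NN hg
  obtain ⟨a, ha⟩ := exists_mono Cfsg.M24.one_mem hc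
  have := mono_mul ha (hF ⟨σ, hσ⟩)
  rw [one_mul, one_smul, ← bot_eq_empty, symmDiff_bot] at this
  rw [mono_ext hm this]
  exact K.mul_mem (h3 c hc a ha) (hF' _)

/-- a set of classes closed under the generators contains all short classes -/
theorem short_sub (C : Set Cl) (p0 : (D0 e).I) (h0 : (D0 e).cls p0 ∈ C)
    (hg : ∀ σ ∈ gP, ∃ A, CoA σ A ∧ ∀ c ∈ C, A *ᵥ c ∈ C)
    (hx : ∃ σ A, CoA σ A ∧ σ 0 0 = 1 / 2 ∧ ∀ c ∈ C, A *ᵥ c ∈ C) (p : (D0 e).I) :
    (D0 e).cls p ∈ C := by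
  let S : Submonoid Co0 :=
    { carrier := {g | ∀ c ∈ C, ((C0 e).ρ g).1 *ᵥ c ∈ C}
      one_mem' := fun c hc => by rwa [map_one, Units.val_one, one_mulVec]
      mul_mem' := fun {a b} ha hb c hc => by
        rw [map_mul, Units.val_mul, ← mulVec_mulVec]; exact ha _ (hb c hc) }
  let K : Subgroup Co0 :=
    { S with
      inv_mem' := fun {a} ha => (Submonoid.powers_le.2 ha)
        ((isOfFinOrder_of_finite a).mem_powers_iff_mem_zpowers.2
          (Subgroup.inv_mem _ (Subgroup.mem_zpowers a))) }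
  have h1 : NN ≤ K := NN_le (e := e) fun g hg' => by
    obtain ⟨A, hA, hC⟩ := hg _ hg'
    rw [hA.unique (coA_mat e g)] at hC
    exact hC
  obtain ⟨σ, A, hA, h2, hC⟩ := hx
  obtain ⟨g, rfl, rfl⟩ := hA.eq e
  have h3 : K = ⊤ := top_of_gt h1 (h := g) hC fun hn => by
    obtain ⟨σ, -, c, -, hm⟩ := mono_of_NN hn
    rw [mat_mono hm] at h2
    split_ifs at h2 <;> norm_num at h2
  obtain ⟨a, ha⟩ := transL2 _ ((C0 e).L_norm p0)
  obtain ⟨b, hb⟩ := transL2 _ ((C0 e).L_norm p)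
  have := (h3 ▸ Subgroup.mem_top (b⁻¹ * a) : b⁻¹ * a ∈ K) _ h0
  rwa [show (D0 e).cls p0 = (C0 e).φ ((C0 e).L p0) from rfl, Crd.ρ_spec, mul_smul, ha, ← hb,
    inv_smul_smul] at this

theorem red_e8 : red (e8 (pp 0) : V) = cd (2 ^ 23) := by
  have h := red_wv 11
  have h1 : wv 11 = (e8 (pp 0) : V) := by rw [coe_e8]; decide +kernel
  rw [← h1, h]; decide +kernel

/-- generation of the stabiliser of the class of the standard frame -/
theorem stab_gen (H : Subgroup (D0 e).Γ) (hz : (D0 e).z ∈ H) (hq : ∀ c, (D0 e).xq c ∈ H)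
    (hg : ∀ σ ∈ gP, ∃ U, (D0 e).IsN U σ ∧ ∃ h ∈ H, h.1 = (D0 e).actL U σ)
    (n : (D0 e).N) (hn : ((D0 e).Ah n).1 *ᵥ cd (2 ^ 23) = cd (2 ^ 23)) : n.1 ∈ H := by
  have h1 : NN ≤ ((H.subgroupOf (D0 e).N).map (D0 e).Ah).comap (C0 e).ρ := NN_le (e := e) fun g hg' => by
    obtain ⟨U, hU, h, hH, e1⟩ := hg _ hg'
    obtain ⟨k, hk, e2⟩ := Dat.exists_N hU
    obtain rfl : k = h := Units.ext (e2.trans e1.symm)
    exact ⟨⟨k, hk⟩, hH, (C0 e).Ah_eq (n := ⟨k, hk⟩) hU e2⟩
  obtain ⟨U, g, -, -, e1⟩ := (C0 e).of_N n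
  have e1 : (D0 e).Ah n = (C0 e).ρ g := e1
  have h2 : g ∈ NN := by
    rw [e1, ← red_e8, ← C0_φ (e := e), Crd.ρ_spec, Crd.φ_eq_iff] at hn
    obtain ⟨u, hu⟩ := hn
    obtain ⟨-, w, hw⟩ := cross_iff.1 (e8_cross (pp 0))
    refine mem_NN_of (e8_cross (pp 0)) (cross_iff.2 ⟨by rw [co_norm, norm_e8], u + w, ?_⟩)
    rw [hu]
    conv_lhs => rw [hw]
    abel
  obtain ⟨k, hk, e2⟩ := h1 h2
  have h3 : k⁻¹ * n ∈ (D0 e).Ah.ker := by
    rw [MonoidHom.mem_ker, map_mul, map_inv, e1, e2, inv_mul_cancel]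
  obtain ⟨ε, c, e3⟩ := Dat.mem_ker.1 h3
  have h4 : (D0 e).zp ε ∈ H := by
    unfold Dat.zp; split_ifs
    · exact H.one_mem
    · exact hz
  have := H.mul_mem hk (H.mul_mem h4 (hq c))
  rw [← e3] at this
  simpa using this

theorem isCo1_range (e : F2) : Cfsg.IsCo1 (D0 e).Ah.range := (C0 e).isCo1_range
theorem isCo1_quot (e : F2) : Cfsg.IsCo1 ((D0 e).N ⧸ (D0 e).Ah.ker) := (C0 e).isCo1_quot
theorem card_N (e : F2) : Nat.card (D0 e).N = 2 ^ 25 * 4157776806543360000 := (C0 e).card_N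

theorem trans_I (e : F2) (p s : (D0 e).I) :
    ∃ n : (D0 e).N, ((D0 e).Ah n).1 *ᵥ (D0 e).cls p = (D0 e).cls s := (C0 e).trans_cls p s

theorem trans_ax (e : F2) (p s : (D0 e).I) (η θ : F2) :
    ∃ n ∈ (D0 e).N, n.1 ((D0 e).ax p η) = (D0 e).ax s θ := (C0 e).trans_ax p s η θ

/-- the classes of the frames -/
def Fr (D : Dat) : Set Cl := {c | c ≠ 0 ∧ Bf c c = 0 ∧ ∀ p, D.cls p ≠ c}

theorem ncard_aux {α ι : Type} [Fintype α] [Fintype ι] (P : α → Prop) [DecidablePred P] (z : α)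
    (f : ι → α) (hf : Function.Injective f) (h0 : P z) (h1 : ∀ p, P (f p)) (h2 : ∀ p, f p ≠ z) :
    {c | c ≠ z ∧ P c ∧ ∀ p, f p ≠ c}.ncard + Fintype.card ι + 1 = (univ.filter P).card := by
  classical
  have k : univ.filter P = insert z ((univ.filter fun c => c ≠ z ∧ P c ∧ ∀ p, f p ≠ c) ∪
      univ.map ⟨f, hf⟩) := by
    ext c
    simp only [mem_filter, mem_univ, true_and, mem_insert, mem_union, mem_map,
      Function.Embedding.coeFn_mk]
    constructor
    · intro h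
      by_cases h0 : c = z
      · exact Or.inl h0
      by_cases h1 : ∃ p, f p = c
      · exact Or.inr (Or.inr h1)
      · exact Or.inr (Or.inl ⟨h0, h, fun p e => h1 ⟨p, e⟩⟩)
    · rintro (rfl | h | ⟨p, rfl⟩)
      · exact h0
      · exact h.2.1
      · exact h1 p
  rw [k, card_insert_of_notMem, card_union_of_disjoint, card_map, card_univ, ← Set.ncard_coe_finset,
    coe_filter]
  · simp
  · rw [disjoint_left]
    intro c hc hc'
    obtain ⟨p, -, rfl⟩ := mem_map.1 hc'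
    exact (mem_filter.1 hc).2.2.2 p rfl
  · simp only [mem_union, mem_filter, mem_map, not_or]
    exact ⟨fun h => h.2.1 rfl, fun ⟨p, _, h⟩ => h2 p h⟩

theorem ncard_Fr' (D : Dat) : (Fr D).ncard + Fintype.card D.I + 1 = 8390656 :=
  (ncard_aux (fun c : Cl => Bf c c = 0) 0 D.cls D.cls_inj (Bf_zero_left _) D.cls_sing D.cls_ne).trans
    card_sing

theorem ncard_Fr (e : F2) : (Fr (D0 e)).ncard = 8292375 := by
  have := ncard_Fr' (D0 e)
  rw [card_I] at this
  omega

theorem Omega_Fr (e : F2) : cd (2 ^ 23) ∈ Fr (D0 e) := by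
  refine ⟨by decide +kernel, by decide +kernel, fun p h => ?_⟩
  rw [← red_e8, ← C0_φ (e := e)] at h
  obtain ⟨u, hu⟩ := (C0 e).φ_eq_iff.1 h
  have h1 := (C0 e).L_norm p
  rcases eq_of_mod hu (by rw [h1, norm_e8]; decide) with k | k
  · rw [k, norm_e8] at h1; exact absurd h1 (by decide)
  · rw [k, AddSubgroup.coe_neg, sqNorm_neg, norm_e8] at h1; exact absurd h1 (by decide)

theorem Fr_smul {D : Dat} (n : D.N) {c : Cl} (hc : c ∈ Fr D) : (D.Ah n).1 *ᵥ c ∈ Fr D := by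
  have h : (D.Ah n⁻¹).1 *ᵥ (D.Ah n).1 *ᵥ c = c := by
    rw [mulVec_mulVec, ← Units.val_mul, ← map_mul, inv_mul_cancel, map_one, Units.val_one, one_mulVec]
  refine ⟨fun e => hc.1 (by rw [← h, e, mulVec_zero]), by rw [Dat.Ah_Bf, hc.2.1], fun p e => ?_⟩
  obtain ⟨s, -, k, -⟩ := Dat.act_ax n⁻¹ p
  exact hc.2.2 s (by rw [k, e, h])

end

end CfsgMO
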