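/-
Intertwiners for the generalised Pauli matrices.
-/
import Cfsg.Agent.MO.A1

set_option autoImplicit false

namespace CfsgMO

open Matrix Finset

noncomputable section

theorem Bf_smul_left (a : F2) (c d : Cl) : Bf (a • c) d = a * Bf c d := by
  have : hi (a • c) = a • hi c := rfl
  rw [Bf, this, smul_dotProduct]; rfl

theorem Bf_smul_right (a : F2) (c d : Cl) : Bf c (a • d) = a * Bf c d := by
  have : lo (a • d) = a • lo d := rfl
  rw [Bf, this, dotProduct_smul]; rfl

/-- the cocycle as a bilinear map -/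
def BfL : Cl →ₗ[F2] Cl →ₗ[F2] F2 :=
  LinearMap.mk₂ F2 Bf Bf_add_left Bf_smul_left Bf_add_right Bf_smul_right

theorem F2_add_self (a : F2) : a + a = 0 := CharTwo.add_self_eq_zero a

/-- an alternating form over the field of two elements is the polar form of a function -/
theorem exists_polar (β : Cl →ₗ[F2] Cl →ₗ[F2] F2) (h : ∀ c, β c c = 0) :
    ∃ s : Cl → F2, ∀ c d, s (c + d) = s c + s d + β c d := by
  have hs : ∀ c d, β c d = β d c := fun c d => by
    have := h (c + d)
    simp only [map_add, LinearMap.add_apply, h, zero_add, add_zero] at this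
    rw [← add_zero (β c d), ← this, add_comm (β d c), ← add_assoc, F2_add_self, zero_add]
  let b : Fin 24 → Fin 24 → F2 := fun i j => β (Pi.single i 1) (Pi.single j 1)
  have he : ∀ c d, β c d = ∑ i, ∑ j, c i * d j * b i j := fun c d => by
    conv_lhs => rw [pi_eq_sum_univ' c, pi_eq_sum_univ' d]
    simp only [map_sum, map_smul, LinearMap.sum_apply, LinearMap.smul_apply, smul_eq_mul, mul_sum, b]
    rw [sum_comm]
    exact sum_congr rfl fun i _ => sum_congr rfl fun j _ => by ring
  let γ : Cl → Cl → F2 := fun c d => ∑ i, ∑ j, if i < j then c i * d j * b i j else 0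
  have h1 : ∀ c d, β c d = γ c d + γ d c := fun c d => by
    simp only [γ]
    rw [he, sum_comm (f := fun i j => if i < j then d i * c j * b i j else 0), ← sum_add_distrib]
    refine sum_congr rfl fun i _ => ?_
    rw [← sum_add_distrib]
    refine sum_congr rfl fun j _ => ?_
    rcases lt_trichotomy i j with k | rfl | k
    · rw [if_pos k, if_neg k.asymm, add_zero]
    · simp [b, h]
    · rw [if_neg k.asymm, if_pos k, zero_add, show b j i = b i j from hs _ _]; ring
  refine ⟨fun c => γ c c, fun c d => ?_⟩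
  have h2 : γ (c + d) (c + d) = γ c c + γ d d + (γ c d + γ d c) := by
    simp only [γ, ← sum_add_distrib]
    refine sum_congr rfl fun i _ => sum_congr rfl fun j _ => ?_
    split_ifs
    · simp only [Pi.add_apply]; ring
    · simp
  rw [h1]; exact h2

/-- an isometry of the quadratic form is induced by a similarity -/
theorem exists_sim (A : Cl →ₗ[F2] Cl) (hA : ∀ c, Bf (A c) (A c) = Bf c c) :
    ∃ (W : ME) (a : ℚ), a ≠ 0 ∧ Wᵀ * W = a • (1 : ME) ∧
      ∀ c, ∃ ε, W * q c = sg ε • (q (A c) * W) := by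
  obtain ⟨s, hs⟩ := exists_polar (BfL.compl₁₂ A A + BfL) fun c => by
    show Bf (A c) (A c) + Bf c c = 0
    rw [hA, F2_add_self]
  have hs' : ∀ c d, s (c + d) = s c + s d + (Bf (A c) (A d) + Bf c d) := hs
  have h0 : s 0 = 0 := by
    have := hs 0 0
    rw [add_zero, map_zero, add_zero, F2_add_self] at this
    exact this
  let r : Cl → ME := fun c => sg (s c) • q (A c)
  have hr : ∀ c d, r c * r d = sg (Bf c d) • r (c + d) := fun c d => by
    simp only [r, smul_mul_assoc, mul_smul_comm, q_mul, smul_smul, ← sg_add, map_add, hs']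
    congr 2
    linear_combination (-1 : F2) * F2_add_self (Bf c d)
  let Wf : ME → ME := fun X => ∑ c, r c * X * (q c)ᵀ
  have hW : ∀ X d, Wf X * q d = r d * Wf X := fun X d => by
    have : r d * Wf X * (q d)ᵀ = Wf X := by
      simp only [Wf, mul_sum, sum_mul]
      rw [← Equiv.sum_comp (Equiv.addLeft d) fun c => r c * X * (q c)ᵀ]
      refine sum_congr rfl fun c _ => ?_
      rw [Matrix.mul_assoc, Matrix.mul_assoc, ← transpose_mul, q_mul, ← Matrix.mul_assoc,
        ← Matrix.mul_assoc, hr, transpose_smul, smul_mul_assoc, smul_mul_assoc, mul_smul_comm,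
        smul_smul, sg_mul_self, one_smul]
      rfl
    conv_lhs => rw [← this]
    rw [Matrix.mul_assoc, q_orth, Matrix.mul_one]
  obtain ⟨X, hX⟩ : ∃ X, Wf X ≠ 0 := by
    by_contra hn
    push Not at hn
    have h1 : ∀ x y, ∑ c, r c x x * q c y y = 0 := fun x y => by
      have := congrFun (congrFun (hn (single x y 1)) x) y
      simp only [Wf, Matrix.sum_apply, Matrix.zero_apply] at this
      rw [← this]
      refine sum_congr rfl fun c _ => ?_
      rw [Matrix.mul_assoc, Matrix.mul_apply, sum_eq_single x (fun z _ hz => by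
        rw [single_mul_apply_of_ne (h := hz), mul_zero]) (by simp), single_mul_apply_same, one_mul,
        transpose_apply]
    have h2 : ∑ c, trace (r c) * trace (q c) = 0 := by
      simp only [trace, diag_apply, sum_mul_sum]
      rw [sum_comm, sum_eq_zero fun x _ => ?_]
      rw [sum_comm, sum_eq_zero fun y _ => h1 x y]
    rw [sum_eq_single 0 (fun c _ hc => by rw [trace_q, if_neg hc, mul_zero]) (by simp)] at h2
    simp only [r, h0, map_zero, sg_zero, one_smul, trace_q, if_true] at h2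
    norm_num at h2
  have hrr : ∀ d, (r d)ᵀ * r d = 1 := fun d => by
    simp only [r, transpose_smul, smul_mul_assoc, mul_smul_comm, smul_smul, sg_mul_self, one_smul, q_orth]
  obtain ⟨a, ha⟩ := comm_q (M := (Wf X)ᵀ * Wf X) fun d => by
    have h1 : (q d)ᵀ * ((Wf X)ᵀ * Wf X) * q d = (Wf X)ᵀ * Wf X := by
      rw [← Matrix.mul_assoc, ← transpose_mul, Matrix.mul_assoc, hW, transpose_mul, Matrix.mul_assoc,
        ← Matrix.mul_assoc (r d)ᵀ, hrr, Matrix.one_mul]
    conv_rhs => rw [← h1]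
    rw [← Matrix.mul_assoc, ← Matrix.mul_assoc, mul_eq_one_comm.1 (q_orth d), Matrix.one_mul]
  refine ⟨Wf X, a, fun e => hX ?_, ha, fun c => ⟨s c, by rw [hW, smul_mul_assoc]⟩⟩
  rw [e, zero_smul] at ha
  exact conjTranspose_mul_self_eq_zero.1 (by rwa [conjTranspose_eq_transpose_of_trivial])

/-- the elements of a group of isometries which are induced by an orthogonal matrix -/
def liftable {G : Type*} [Group G] (ρ : G →* (Matrix (Fin 24) (Fin 24) F2)ˣ) : Subgroup G where
  carrier := {g | ∃ U : ME, Uᵀ * U = 1 ∧ ∀ c, ∃ ε, U * q c = sg ε • (q ((ρ g).1 *ᵥ c) * U)}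
  one_mem' := ⟨1, by simp, fun c => ⟨0, by simp [sg_zero]⟩⟩
  mul_mem' := by
    rintro g h ⟨U, h1, h2⟩ ⟨U', h3, h4⟩
    refine ⟨U * U', ?_, fun c => ?_⟩
    · rw [transpose_mul, Matrix.mul_assoc, ← Matrix.mul_assoc Uᵀ, h1, Matrix.one_mul, h3]
    · obtain ⟨ε, e⟩ := h4 c
      obtain ⟨ε', e'⟩ := h2 ((ρ h).1 *ᵥ c)
      refine ⟨ε + ε', ?_⟩
      rw [Matrix.mul_assoc, e, mul_smul_comm, ← Matrix.mul_assoc, e', smul_mul_assoc, smul_smul,
        ← sg_add, map_mul, Units.val_mul, mulVec_mulVec, Matrix.mul_assoc]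
  inv_mem' := by
    rintro g ⟨U, h1, h2⟩
    have h3 := mul_eq_one_comm.1 h1
    refine ⟨Uᵀ, by rwa [transpose_transpose], fun c => ?_⟩
    obtain ⟨ε, e⟩ := h2 ((ρ g⁻¹).1 *ᵥ c)
    rw [mulVec_mulVec, ← Units.val_mul, ← map_mul, mul_inv_cancel, map_one, Units.val_one,
      one_mulVec] at e
    refine ⟨ε, ?_⟩
    have : q ((ρ g⁻¹).1 *ᵥ c) * Uᵀ = Uᵀ * (U * q ((ρ g⁻¹).1 *ᵥ c)) * Uᵀ := by
      rw [← Matrix.mul_assoc, h1, Matrix.one_mul]
    rw [this, e, mul_smul_comm, smul_mul_assoc, smul_smul, sg_mul_self, one_smul, Matrix.mul_assoc,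
      Matrix.mul_assoc, h3, Matrix.mul_one]

theorem sq_mem_liftable {G : Type*} [Group G] (ρ : G →* (Matrix (Fin 24) (Fin 24) F2)ˣ)
    (h : ∀ g c, Bf ((ρ g).1 *ᵥ c) ((ρ g).1 *ᵥ c) = Bf c c) (g : G) : g * g ∈ liftable ρ := by
  obtain ⟨W, a, ha, h1, h2⟩ := exists_sim (mulVecLin (ρ g).1) (h g)
  refine ⟨a⁻¹ • (W * W), ?_, fun c => ?_⟩
  · rw [transpose_smul, smul_mul_assoc, mul_smul_comm, transpose_mul, Matrix.mul_assoc,
      ← Matrix.mul_assoc Wᵀ W, h1, smul_mul_assoc, Matrix.one_mul, mul_smul_comm, h1, smul_smul,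
      smul_smul, smul_smul]
    rw [show a⁻¹ * a⁻¹ * a * a = 1 by field_simp, one_smul]
  · obtain ⟨ε, e⟩ := h2 c
    obtain ⟨ε', e'⟩ := h2 ((ρ g).1 *ᵥ c)
    simp only [mulVecLin_apply] at e e'
    refine ⟨ε + ε', ?_⟩
    rw [smul_mul_assoc, Matrix.mul_assoc, e, mul_smul_comm, ← Matrix.mul_assoc, e', smul_mul_assoc,
      smul_smul (sg ε), ← sg_add, map_mul, Units.val_mul, mulVec_mulVec, Matrix.mul_assoc,
      mul_smul_comm, smul_comm]

end

end CfsgMO
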