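/-
The data of the Griess algebra from the rank-24 lattice; the image of `N` in the orthogonal group.
-/
import Cfsg.Agent.MO.Lift
import Cfsg.Agent.MO.Co1
import Cfsg.Agent.H6.LGram

set_option autoImplicit false
set_option linter.unusedSimpArgs false
set_option linter.unusedVariables false

namespace CfsgMO

open CfsgH5 CfsgH6 Cfsg Finset Matrix Cw

noncomputable section

/-- the basis vectors as lattice elements -/
def bL (j : Fin 24) : LL := ⟨bv j, bv_mem j⟩

/-- the lattice element with given coordinates -/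
def cL (c : Fin 24 → ℤ) : LL := ⟨φL c, φL_mem c⟩

theorem cL_eq (c : Fin 24 → ℤ) : cL c = ∑ j, c j • bL j := by
  apply Subtype.ext
  rw [AddSubgroup.val_finset_sum]; rfl

theorem exists_cL (v : LL) : ∃ c, cL c = v := (exists_φL v.2).imp fun _ h => Subtype.ext h

theorem basis_ind {T : AddSubgroup LL} (h : ∀ j, bL j ∈ T) (v : LL) : v ∈ T := by
  obtain ⟨c, rfl⟩ := exists_cL v
  rw [cL_eq]
  exact T.sum_mem fun j _ => T.zsmul_mem (h j) _

/-- the inner product modulo two -/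
def ip2 (u v : LL) : F2 := ((dotInt (u : V) v / 8 : ℤ) : F2)
/-- the type modulo two -/
def ty2 (v : LL) : F2 := ((sqNorm (v : V) / 16 : ℤ) : F2)

theorem ip2_comm (u v : LL) : ip2 u v = ip2 v u := by rw [ip2, dot_comm]; rfl

theorem ip2_add (u v w : LL) : ip2 u (v + w) = ip2 u v + ip2 u w := by
  have h1 := eight_dvd_dot u.2 v.2
  have h2 := eight_dvd_dot u.2 w.2
  rw [ip2, ip2, ip2, ← Int.cast_add, AddSubgroup.coe_add, dot_add_right]
  congr 1; omega

theorem ty2_add (u v : LL) : ty2 (u + v) = ty2 u + ty2 v + ip2 u v := by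
  have h1 := eight_dvd_dot u.2 v.2
  have h2 := sixteen_dvd_sqNorm u.2
  have h3 := sixteen_dvd_sqNorm v.2
  rw [ty2, ty2, ty2, ip2, ← Int.cast_add, ← Int.cast_add, AddSubgroup.coe_add, sqNorm_add]
  congr 1; omega

theorem ty2_neg (u : LL) : ty2 (-u) = ty2 u := by rw [ty2, AddSubgroup.coe_neg, sqNorm_neg]; rfl

theorem ty2_smul (g : Co0) (u : LL) : ty2 (g • u) = ty2 u := by rw [ty2, co_norm]; rfl

/-- the inner product with a fixed vector modulo two -/
def ipH (u : LL) : LL →+ F2 := AddMonoidHom.mk' (ip2 u) (ip2_add u)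

/-- coordinates given by inner products with 24 vectors -/
def crdH (w : Fin 24 → LL) : LL →+ Cl := Pi.addMonoidHom fun k => ipH (w k)

theorem crdH_apply (w : Fin 24 → LL) (v : LL) (k : Fin 24) : crdH w v k = ip2 (w k) v := rfl

theorem Cl_neg (c : Cl) : -c = c := funext fun _ => CharTwo.neg_eq _
theorem Cl_add_self (c : Cl) : c + c = 0 := funext fun _ => F2_add_self _

/-- the quadratic forms agree if they do so on the basis -/
theorem hQ_of_basis (φ : LL →+ Cl)
    (h1 : ∀ i j, Bf (φ (bL i)) (φ (bL j)) + Bf (φ (bL j)) (φ (bL i)) = ip2 (bL i) (bL j))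
    (h2 : ∀ j, Bf (φ (bL j)) (φ (bL j)) = ty2 (bL j)) (v : LL) : Bf (φ v) (φ v) = ty2 v := by
  have k : ∀ u, (∀ j, Bf (φ u) (φ (bL j)) + Bf (φ (bL j)) (φ u) = ip2 u (bL j)) →
      ∀ v, Bf (φ u) (φ v) + Bf (φ v) (φ u) = ip2 u v := fun u hu v => by
    let f : LL →+ F2 := AddMonoidHom.mk' (fun v => Bf (φ u) (φ v) + Bf (φ v) (φ u)) fun a b => by
      rw [map_add, Bf_add_left, Bf_add_right]; ring
    exact basis_ind (T := f.eqLocus (ipH u)) hu v
  have hB : ∀ u v, Bf (φ u) (φ v) + Bf (φ v) (φ u) = ip2 u v := fun u =>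
    k u fun j => by rw [add_comm, k _ (h1 j), ip2_comm]
  let T : AddSubgroup LL :=
    { carrier := {v | Bf (φ v) (φ v) = ty2 v}
      zero_mem' := by
        show Bf (φ 0) (φ 0) = ty2 0
        rw [map_zero]; simp [Bf, ty2, sqNorm, lo, dotProduct]
      add_mem' := fun {a b} ha hb => by
        show Bf (φ (a + b)) (φ (a + b)) = ty2 (a + b)
        rw [map_add, Bf_add_left, Bf_add_right, Bf_add_right, ty2_add, ← hB, ← ha, ← hb]; ring
      neg_mem' := fun {a} ha => by
        show Bf (φ (-a)) (φ (-a)) = ty2 (-a)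
        rw [map_neg, Cl_neg, ty2_neg]; exact ha }
  exact basis_ind (T := T) h2 v

theorem eq_of_mod {x y u : LL} (h : x = y + u + u) (hn : sqNorm (x : V) + sqNorm (y : V) < 128) :
    x = y ∨ x = -y := by
  have h1 : sqNorm (x : V) = sqNorm (y : V) + 4 * sqNorm (u : V) + 4 * dotInt (y : V) u := by
    rw [h, add_assoc, AddSubgroup.coe_add, sqNorm_add, AddSubgroup.coe_add, sqNorm_add, dot_add_right,
      ← sqNorm_eq_dot]; ring
  have h2 := sqNorm_add (y : V) u
  by_cases hu : u = 0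
  · left; rw [h, hu]; simp
  · right
    have h3 := min_norm u.2 fun e => hu (Subtype.ext e)
    have h4 : y + u = 0 := by
      by_contra e
      have := min_norm (y + u).2 fun e' => e (Subtype.ext e')
      rw [AddSubgroup.coe_add] at this
      omega
    rw [h, h4, zero_add]; exact eq_neg_of_add_eq_zero_right h4

theorem dot_short {x y : LL} (hx : sqNorm (x : V) = 32) (hy : sqNorm (y : V) = 32) (h1 : x ≠ y)
    (h2 : x ≠ -y) : dotInt (x : V) y = 0 ∨ dotInt (x : V) y = 8 ∨ dotInt (x : V) y = -8 ∨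
      dotInt (x : V) y = 16 ∨ dotInt (x : V) y = -16 := by
  have a := min_norm (x - y).2 fun e => h1 (sub_eq_zero.1 (Subtype.ext e))
  have b := min_norm (x + y).2 fun e => h2 (eq_neg_of_add_eq_zero_left (Subtype.ext e))
  rw [AddSubgroup.coe_sub, sqNorm_sub] at a
  rw [AddSubgroup.coe_add, sqNorm_add] at b
  have := eight_dvd_dot x.2 y.2
  omega

/-- a choice of coordinates -/
structure Crd where
  pe : Fin 24 ≃ GolayPt
  φ : LL →+ Cl
  hQ : ∀ v, Bf (φ v) (φ v) = ty2 v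
  I : Type
  [fin : Fintype I]
  [dec : DecidableEq I]
  L : I → LL
  L_norm : ∀ p, sqNorm (L p : V) = 32
  L_inj : ∀ p s, L p = L s ∨ L p = -L s → p = s
  L_surj : ∀ v : LL, sqNorm (v : V) = 32 → ∃ p, v = L p ∨ v = -L p
  c2 : ℚ
  c2_sq : c2 * c2 = 1

attribute [instance] Crd.fin Crd.dec

namespace Crd

variable (C : Crd)

theorem hB (u v : LL) : Bf (C.φ u) (C.φ v) + Bf (C.φ v) (C.φ u) = ip2 u v := by
  have := C.hQ (u + v)
  rw [map_add, Bf_add_left, Bf_add_right, Bf_add_right, ty2_add, C.hQ, C.hQ] at this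
  linear_combination this

theorem φ_neg (v : LL) : C.φ (-v) = C.φ v := by rw [map_neg, Cl_neg]

theorem φ_two (v u : LL) : C.φ (v + u + u) = C.φ v := by
  rw [add_assoc, map_add, map_add, Cl_add_self, add_zero]

theorem even_of_φ {c : Fin 24 → ℤ} (h : C.φ (cL c) = 0) : (fun j => (c j : F2)) = 0 := by
  refine eq_zero_of_mulVec_eq_zero (M := BL.map (Int.castRingHom F2)) ?_ (funext fun i => ?_)
  · rw [← RingHom.mapMatrix_apply, ← RingHom.map_det, det_BL, map_one]; exact one_ne_zero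
  · have := C.hB (bL i) (cL c)
    rw [h, show Bf (C.φ (bL i)) 0 = 0 from map_zero (BfL _), show Bf 0 (C.φ (bL i)) = 0 from
      LinearMap.map_zero₂ BfL _, add_zero, cL_eq, ← show ∀ v, ipH (bL i) v = ip2 (bL i) v from
      fun _ => rfl, map_sum] at this
    rw [Pi.zero_apply, this]
    simp only [mulVec, dotProduct, map_zsmul, zsmul_eq_mul]
    exact sum_congr rfl fun j _ => mul_comm _ _

theorem φ_eq_zero {v : LL} (h : C.φ v = 0) : ∃ u, v = u + u := by
  obtain ⟨c, rfl⟩ := exists_cL v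
  have := C.even_of_φ h
  refine ⟨cL fun j => c j / 2, Subtype.ext ?_⟩
  show φL c = φL _ + φL _
  rw [← map_add]
  congr 1
  funext j
  have := (ZMod.intCast_zmod_eq_zero_iff_dvd _ 2).1 (congrFun this j)
  simp only [Pi.add_apply]
  omega

theorem φ_eq_iff {v w : LL} : C.φ v = C.φ w ↔ ∃ u, v = w + u + u := by
  refine ⟨fun h => ?_, fun ⟨u, e⟩ => by rw [e, φ_two]⟩
  obtain ⟨u, e⟩ := C.φ_eq_zero (v := v - w) (by rw [map_sub, h, sub_self])
  exact ⟨u, by rw [add_assoc, ← e, add_sub_cancel]⟩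

/-- the classes of the basis vectors -/
def Mb : Matrix (Fin 24) (Fin 24) F2 := fun k j => C.φ (bL j) k

theorem hom_cL (f : LL →+ Cl) (c : Fin 24 → ℤ) :
    f (cL c) = (Matrix.of fun k j => f (bL j) k) *ᵥ fun j => (c j : F2) := by
  rw [cL_eq, map_sum]
  funext k
  simp only [Finset.sum_apply, mulVec, dotProduct, map_zsmul, Pi.smul_apply, zsmul_eq_mul, of_apply]
  exact sum_congr rfl fun j _ => mul_comm _ _

theorem Mb_unit : IsUnit C.Mb := by
  rw [← mulVec_injective_iff_isUnit]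
  refine (injective_iff_map_eq_zero C.Mb.mulVecLin).2 fun d hd => ?_
  have e : (fun j => (((d j).val : ℤ) : F2)) = d := funext fun j => by simp
  rw [← e]
  refine C.even_of_φ ?_
  rw [hom_cL, e]; exact hd

theorem φ_surj : Function.Surjective C.φ := fun c => by
  obtain ⟨d, rfl⟩ := mulVec_surjective_iff_isUnit.2 C.Mb_unit c
  have e : (fun j => (((d j).val : ℤ) : F2)) = d := funext fun j => by simp
  exact ⟨cL fun j => (d j).val, by rw [hom_cL, e]; rfl⟩

theorem mat_ext {A B : Matrix (Fin 24) (Fin 24) F2} (h : ∀ v, A *ᵥ C.φ v = B *ᵥ C.φ v) : A = B :=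
  Matrix.toLin'.injective (LinearMap.ext fun c => by
    obtain ⟨v, rfl⟩ := C.φ_surj c; exact h v)

theorem exists_rho : ∃ ρ : Co0 →* (Matrix (Fin 24) (Fin 24) F2)ˣ,
    ∀ g v, (ρ g).1 *ᵥ C.φ v = C.φ (g • v) := by
  obtain ⟨u, hu⟩ := C.Mb_unit
  have : ∀ g : Co0, ∃ A : Matrix (Fin 24) (Fin 24) F2, ∀ v, A *ᵥ C.φ v = C.φ (g • v) := fun g => by
    refine ⟨(Matrix.of fun k j => C.φ (g • bL j) k) * (u⁻¹).1, fun v => ?_⟩
    obtain ⟨c, rfl⟩ := exists_cL v
    have h := hom_cL (C.φ.comp (coHom g)) c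
    rw [hom_cL, show (Matrix.of fun k j => C.φ (bL j) k) = u.1 from hu.symm, mulVec_mulVec,
      Matrix.mul_assoc, Units.inv_mul, Matrix.mul_one]
    exact h.symm
  choose A hA using this
  exact ⟨MonoidHom.toHomUnits
    { toFun := A
      map_one' := C.mat_ext fun v => by rw [hA, one_smul, one_mulVec]
      map_mul' := fun g h => C.mat_ext fun v => by rw [← mulVec_mulVec, hA, hA, hA, mul_smul] }, hA⟩

/-- the action on the lattice modulo two -/
def ρ : Co0 →* (Matrix (Fin 24) (Fin 24) F2)ˣ := C.exists_rho.choose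

theorem ρ_spec (g : Co0) (v : LL) : (C.ρ g).1 *ᵥ C.φ v = C.φ (g • v) := C.exists_rho.choose_spec g v

theorem ρ_eq_one (g : Co0) : C.ρ g = 1 ↔ Pm g := by
  constructor
  · intro h
    refine pm_of_mod fun v => C.φ_eq_iff.1 ?_
    rw [← ρ_spec, h, Units.val_one, one_mulVec]
  · intro h
    refine Units.ext (C.mat_ext fun v => ?_)
    rw [ρ_spec, Units.val_one, one_mulVec]
    rcases h with h | h
    · rw [h]
    · rw [h, φ_neg]

theorem ρ_Bf (g : Co0) (c : Cl) : Bf ((C.ρ g).1 *ᵥ c) ((C.ρ g).1 *ᵥ c) = Bf c c := by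
  obtain ⟨v, rfl⟩ := C.φ_surj c
  rw [ρ_spec, C.hQ, C.hQ, ty2_smul]

theorem exists_U (g : Co0) :
    ∃ U : ME, Uᵀ * U = 1 ∧ ∀ c, ∃ ε, U * q c = sg ε • (q ((C.ρ g).1 *ᵥ c) * U) :=
  (top_of_sq (sq_mem_liftable C.ρ C.ρ_Bf) ▸ Subgroup.mem_top g : g ∈ liftable C.ρ)

/-- rational coordinates of a vector -/
def tq (x : V) : Fin 24 → ℚ := fun i => (x (C.pe i) : ℚ)

theorem tq_add (x y : V) : C.tq (x + y) = C.tq x + C.tq y := funext fun i => by simp [tq]
theorem tq_neg (x : V) : C.tq (-x) = -C.tq x := funext fun i => by simp [tq]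
theorem tq_sub (x y : V) : C.tq (x - y) = C.tq x - C.tq y := funext fun i => by simp [tq]
theorem tq_zero : C.tq 0 = 0 := funext fun i => by simp [tq]

theorem tq_inj {x y : V} (h : C.tq x = C.tq y) : x = y := funext fun a => by
  have := congrFun h (C.pe.symm a)
  simpa [tq] using this

theorem tq_dot (x y : V) : C.tq x ⬝ᵥ C.tq y = (dotInt x y : ℚ) := by
  rw [dotInt, ← C.pe.sum_comp]; simp [tq, dotProduct]

theorem tq_single (i : Fin 24) (a : ℤ) : C.tq (Pi.single (C.pe i) a) = ev i a := funext fun j => by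
  simp only [tq, ev, Pi.single_apply, EmbeddingLike.apply_eq_iff_eq]
  split_ifs <;> simp

theorem PM_iff {v w : LL} : PM (C.tq v) (C.tq w) ↔ v = w ∨ v = -w := by
  rw [PM, ← tq_neg]
  exact ⟨fun h => h.imp (fun e => Subtype.ext (C.tq_inj e)) fun e => Subtype.ext (C.tq_inj e),
    fun h => h.imp (fun e => by rw [e]) fun e => by rw [e]; rfl⟩

theorem φ_pm {v w : LL} (h : v = w ∨ v = -w) : C.φ v = C.φ w := by
  rcases h with rfl | rfl
  · rfl
  · exact C.φ_neg w

theorem ty2_L (p : C.I) : ty2 (C.L p) = 0 := by rw [ty2, C.L_norm]; rfl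

/-- the data of the algebra -/
@[reducible] def D : Dat where
  I := C.I
  lam p := C.tq (C.L p)
  cls p := C.φ (C.L p)
  c2 := C.c2
  c2_sq := C.c2_sq
  cls_inj p s h := by
    obtain ⟨u, e⟩ := C.φ_eq_iff.1 h
    exact C.L_inj p s (eq_of_mod e (by rw [C.L_norm, C.L_norm]; decide))
  cls_ne p h := by
    obtain ⟨u, e⟩ := C.φ_eq_iff.1 (h.trans C.φ.map_zero.symm)
    have h0 : sqNorm ((0 : LL) : V) = 0 := by simp [sqNorm]
    have h1 := C.L_norm p
    rcases eq_of_mod e (by rw [C.L_norm, h0]; decide) with k | k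
    · rw [k, h0] at h1; exact absurd h1 (by decide)
    · rw [k, neg_zero, h0] at h1; exact absurd h1 (by decide)
  cls_sing p := by rw [C.hQ, ty2_L]
  cls_span := by
    rw [eq_top_iff]
    rintro c -
    obtain ⟨v, rfl⟩ := C.φ_surj c
    refine closure_short (T := (Submodule.span F2 (Set.range fun p => C.φ (C.L p))).toAddSubgroup.comap
      C.φ) (fun v hv => ?_) v
    obtain ⟨p, h⟩ := C.L_surj v hv
    exact Submodule.subset_span ⟨p, (C.φ_pm h).symm⟩
  lam_norm p := by rw [tq_dot, ← sqNorm_eq_dot, C.L_norm]; rfl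
  lam_inj p s h := C.L_inj p s (C.PM_iff.1 h)
  duad i j h := by
    have h' : C.pe i ≠ C.pe j := fun e => h (C.pe.injective e)
    have key : ∀ v : LL, sqNorm (v : V) = 32 → ∃ p, PM (C.tq (C.L p)) (C.tq v) := fun v hv => by
      obtain ⟨p, e⟩ := C.L_surj v hv
      exact ⟨p, C.PM_iff.2 (e.imp Eq.symm fun e => by rw [e, neg_neg])⟩
    constructor
    · have := key _ (norm_du h')
      rwa [du_eq, tq_add, tq_single, tq_single] at this
    · have e : ((du (C.pe i) (C.pe j) - e8 (C.pe j) : LL) : V) =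
          Pi.single (C.pe i) 4 - Pi.single (C.pe j) 4 := by
        rw [AddSubgroup.coe_sub, du_eq, coe_e8, show (8 : ℤ) = 4 + 4 from rfl, Pi.single_add]; abel
      have := key (du (C.pe i) (C.pe j) - e8 (C.pe j)) (by
        rw [e, sqNorm_sub, sqNorm_single, sqNorm_single, dot_single_left, Pi.single_apply, if_neg h']
        rfl)
      rwa [e, tq_sub, tq_single, tq_single] at this

theorem D_lam (p : C.I) : C.D.lam p = C.tq (C.L p) := rfl
theorem D_cls (p : C.I) : C.D.cls p = C.φ (C.L p) := rfl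
theorem D_c2 : C.D.c2 = C.c2 := rfl

theorem card_I : Fintype.card C.D.I = 98280 := by
  have hb : Function.Bijective fun x : C.I × Bool =>
      (⟨if x.2 then C.L x.1 else -C.L x.1, by
        split_ifs
        · exact C.L_norm _
        · show sqNorm _ = 32
          rw [AddSubgroup.coe_neg, sqNorm_neg, C.L_norm]⟩ : {x : LL | sqNorm (x : V) = 32}) := by
    have hn : ∀ p, C.L p ≠ -C.L p := fun p e => by
      have h1 := congrArg (fun v : LL => dotInt (C.L p : V) v) e
      simp only [AddSubgroup.coe_neg, dot_neg_right, ← sqNorm_eq_dot, C.L_norm] at h1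
      exact absurd h1 (by decide)
    constructor
    · rintro ⟨p, a⟩ ⟨s, b⟩ e
      have e := congrArg Subtype.val e
      cases a <;> cases b <;> simp only [Bool.false_eq_true, if_true, if_false] at e
      · rw [C.L_inj p s (Or.inl (neg_injective e))]
      · obtain rfl := C.L_inj s p (Or.inr e.symm); exact absurd e.symm (hn _)
      · obtain rfl := C.L_inj p s (Or.inr e); exact absurd e (hn _)
      · rw [C.L_inj p s (Or.inl e)]
    · rintro ⟨v, hv⟩
      obtain ⟨p, e | e⟩ := C.L_surj v hv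
      · exact ⟨(p, true), Subtype.ext e.symm⟩
      · exact ⟨(p, false), Subtype.ext e.symm⟩
  have := Nat.card_eq_of_bijective _ hb
  rw [Nat.card_coe_set_eq, ncard_short, Nat.card_prod, Nat.card_eq_fintype_card,
    Nat.card_eq_fintype_card, Fintype.card_bool] at this
  show Fintype.card C.I = _
  omega

theorem exists_cls {v : LL} (hv : sqNorm (v : V) = 32) : ∃ p, C.D.cls p = C.φ v :=
  (C.L_surj v hv).imp fun _ h => (C.φ_pm h).symm

theorem ips (p : C.D.I) : C.D.Ips p := fun s hs => by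
  have hB := C.hB (C.L p) (C.L s)
  rw [D_lam, D_lam, tq_dot, D_cls, D_cls]
  have hp := C.L_norm p
  have hs' := C.L_norm s
  rcases dot_short hp hs' (fun e => hs (C.L_inj _ _ (Or.inl e)).symm)
    (fun e => hs (C.L_inj _ _ (Or.inr e)).symm) with h | h | h | h | h
  · refine Or.inl ⟨by rw [h]; rfl, ?_, fun r e => ?_⟩
    · rw [ip2, h] at hB
      exact (CharTwo.add_eq_zero.1 hB)
    · rw [D_cls, ← map_add] at e
      obtain ⟨u, e⟩ := C.φ_eq_iff.1 e
      have h1 : sqNorm ((C.L p + C.L s : LL) : V) = 64 := by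
        rw [AddSubgroup.coe_add, sqNorm_add, hp, hs', h]; rfl
      have h2 := C.L_norm r
      rcases eq_of_mod e (by rw [h1, h2]; decide) with k | k
      · rw [k, h1] at h2; exact absurd h2 (by decide)
      · rw [k, AddSubgroup.coe_neg, sqNorm_neg, h1] at h2; exact absurd h2 (by decide)
  · refine Or.inr (Or.inl ⟨by rw [h]; norm_num, fun e => ?_⟩)
    rw [e, F2_add_self, ip2, h] at hB
    exact absurd hB (by decide)
  · refine Or.inr (Or.inl ⟨by rw [h]; norm_num, fun e => ?_⟩)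
    rw [e, F2_add_self, ip2, h] at hB
    exact absurd hB (by decide)
  · refine Or.inr (Or.inr ⟨by rw [h]; norm_num, ?_⟩)
    obtain ⟨r, e⟩ := C.exists_cls (v := C.L p - C.L s)
      (by rw [AddSubgroup.coe_sub, sqNorm_sub, hp, hs', h]; rfl)
    exact ⟨r, by rw [e, sub_eq_add_neg, map_add, φ_neg]⟩
  · refine Or.inr (Or.inr ⟨by rw [h]; norm_num, ?_⟩)
    obtain ⟨r, e⟩ := C.exists_cls (v := C.L p + C.L s)
      (by rw [AddSubgroup.coe_add, sqNorm_add, hp, hs', h]; rfl)
    exact ⟨r, by rw [e, map_add]⟩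

/-- the matrix of a lattice automorphism -/
def mat (g : Co0) : CfsgMO.M24 := fun i j => C.tq (g • e8 (C.pe j) : LL) i / 8

theorem mat_mulVec (g : Co0) (v : LL) : C.mat g *ᵥ C.tq v = C.tq (g • v : LL) := by
  funext i
  have h := congrArg (fun x : LL => (((g • x : LL) : V) (C.pe i) : ℚ)) (eight_smul_eq v)
  simp only [co_zsmul, co_sum, AddSubgroup.val_finset_sum, AddSubgroup.coe_zsmul, Finset.sum_apply,
    Pi.smul_apply, smul_eq_mul] at h
  rw [← C.pe.sum_comp] at h
  push_cast at h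
  simp only [mulVec, dotProduct, mat, tq]
  rw [← mul_right_inj' (by norm_num : (8 : ℚ) ≠ 0), h, mul_sum]
  exact sum_congr rfl fun j _ => by ring

theorem mat_orth (g : Co0) : (C.mat g)ᵀ * C.mat g = 1 := by
  ext i j
  have h := C.tq_dot (g • e8 (C.pe i) : LL) (g • e8 (C.pe j) : LL)
  rw [co_dot, coe_e8, coe_e8, dot_single_left, Pi.single_apply] at h
  simp only [Matrix.mul_apply, transpose_apply, mat, one_apply]
  have : ∑ k, C.tq (g • e8 (C.pe i) : LL) k / 8 * (C.tq (g • e8 (C.pe j) : LL) k / 8) =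
      (C.tq (g • e8 (C.pe i) : LL) ⬝ᵥ C.tq (g • e8 (C.pe j) : LL)) / 64 := by
    rw [dotProduct, sum_div]; exact sum_congr rfl fun k _ => by ring
  rw [this, h]
  simp only [EmbeddingLike.apply_eq_iff_eq]
  split_ifs <;> norm_num

theorem mat_ext' {σ τ : CfsgMO.M24} (h : ∀ v : LL, σ *ᵥ C.tq v = τ *ᵥ C.tq v) : σ = τ := by
  ext i j
  have := congrFun (h (e8 (C.pe j))) i
  rw [coe_e8, tq_single, ev, mulVec_single, mulVec_single] at this
  simpa using this

/-- a matrix inducing the action of `g` on the classes gives an element of `N` -/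
theorem isN_of {g : Co0} {U : ME} (h1 : Uᵀ * U = 1)
    (h2 : ∀ c, ∃ ε, U * q c = sg ε • (q ((C.ρ g).1 *ᵥ c) * U)) : C.D.IsN U (C.mat g) := by
  refine ⟨h1, C.mat_orth g, fun p => ?_⟩
  obtain ⟨s, hs⟩ := C.L_surj (g • C.L p) (by rw [co_norm, C.L_norm])
  obtain ⟨ε, e⟩ := h2 (C.D.cls p)
  refine ⟨s, ε, ?_, ?_⟩
  · rw [e, D_cls, ρ_spec, C.φ_pm hs]
  · rw [D_lam, mat_mulVec, D_lam]; exact C.PM_iff.2 hs

/-- the second matrix of an element of `N` comes from a lattice automorphism -/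
theorem exists_co_of {U : ME} {σ : CfsgMO.M24} (h : C.D.IsN U σ) : ∃ g : Co0, σ = C.mat g := by
  let T : AddSubgroup LL :=
    { carrier := {v | ∃ u : LL, σ *ᵥ C.tq v = C.tq u}
      zero_mem' := ⟨0, by rw [AddSubgroup.coe_zero, tq_zero, mulVec_zero]⟩
      add_mem' := by
        rintro a b ⟨u, hu⟩ ⟨w, hw⟩
        exact ⟨u + w, by rw [AddSubgroup.coe_add, tq_add, mulVec_add, hu, hw, ← tq_add]; rfl⟩
      neg_mem' := by
        rintro a ⟨u, hu⟩
        exact ⟨-u, by rw [AddSubgroup.coe_neg, tq_neg, mulVec_neg, hu, ← tq_neg]; rfl⟩ }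
  have hL : ∀ p, C.L p ∈ T := fun p => by
    obtain ⟨s, -, -, e | e⟩ := h.2.2 p
    · exact ⟨C.L s, e⟩
    · exact ⟨-C.L s, by rw [AddSubgroup.coe_neg, tq_neg]; exact e⟩
  choose f hf using closure_short (T := T) fun v hv => by
    obtain ⟨p, e | e⟩ := C.L_surj v hv
    · exact e ▸ hL p
    · exact e ▸ T.neg_mem (hL p)
  obtain ⟨g, hg⟩ := exists_co f (fun v w => Subtype.ext (C.tq_inj (by
    rw [← hf, AddSubgroup.coe_add, AddSubgroup.coe_add, tq_add, tq_add, mulVec_add, hf, hf])))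
    fun v => by
      have := C.tq_dot (f v) (f v)
      rw [← hf, dotProduct_mulVec, ← mulVec_transpose, mulVec_mulVec, h.2.1, one_mulVec, tq_dot] at this
      rw [sqNorm_eq_dot, sqNorm_eq_dot]
      exact_mod_cast this.symm
  exact ⟨g, C.mat_ext' fun v => by rw [mat_mulVec, hg, hf]⟩

theorem Ah_eq {n : C.D.N} {U : ME} {g : Co0} (h : C.D.IsN U (C.mat g))
    (e : n.1.1 = C.D.actL U (C.mat g)) : C.D.Ah n = C.ρ g := by
  refine Units.ext (Matrix.toLin'.injective (LinearMap.ext_on_range C.D.cls_span fun p => ?_))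
  obtain ⟨s, ε, h1, h2⟩ := h.2.2 p
  rw [D_lam, mat_mulVec, D_lam, PM_iff] at h2
  rw [toLin'_apply, toLin'_apply, Dat.Ah_of (Dat.conj_xq h e h1), D_cls, D_cls, ρ_spec, C.φ_pm h2]

/-- every element of `N` lies over a lattice automorphism -/
theorem of_N (n : C.D.N) : ∃ (U : ME) (g : Co0), C.D.IsN U (C.mat g) ∧
    n.1.1 = C.D.actL U (C.mat g) ∧ C.D.Ah n = C.ρ g := by
  obtain ⟨U, σ, h, e⟩ := Dat.of_mem_N n.2
  obtain ⟨g, rfl⟩ := C.exists_co_of h
  exact ⟨U, g, h, e, C.Ah_eq h e⟩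

/-- every lattice automorphism lifts to `N` -/
theorem lift (g : Co0) : ∃ (n : C.D.N) (U : ME), C.D.IsN U (C.mat g) ∧
    n.1.1 = C.D.actL U (C.mat g) ∧ C.D.Ah n = C.ρ g := by
  obtain ⟨U, h1, h2⟩ := C.exists_U g
  have h := C.isN_of h1 h2
  obtain ⟨n, hn, e⟩ := Dat.exists_N h
  exact ⟨⟨n, hn⟩, U, h, e, C.Ah_eq (n := ⟨n, hn⟩) h e⟩

theorem range_Ah : C.D.Ah.range = C.ρ.range := by
  ext A
  constructor
  · rintro ⟨n, rfl⟩
    obtain ⟨U, g, -, -, e⟩ := C.of_N n
    exact ⟨g, e.symm⟩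
  · rintro ⟨g, rfl⟩
    obtain ⟨n, U, -, -, e⟩ := C.lift g
    exact ⟨n, e⟩

theorem isCo1_range : Cfsg.IsCo1 C.D.Ah.range := by
  rw [range_Ah]; exact range_isCo1 C.ρ C.ρ_eq_one

theorem isCo1_of_range {G H : Type*} [Group G] [Group H] (f : G →* H) (h : Cfsg.IsCo1 f.range) :
    Cfsg.IsCo1 (G ⧸ f.ker) := by
  have e := QuotientGroup.quotientKerEquivRange f
  obtain ⟨h1, h2⟩ := h
  exact ⟨e.isSimpleGroup, (Nat.card_congr e.toEquiv).trans h2⟩

theorem isCo1_quot : Cfsg.IsCo1 (C.D.N ⧸ C.D.Ah.ker) := isCo1_of_range _ C.isCo1_range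

theorem card_N : Nat.card C.D.N = 2 ^ 25 * 4157776806543360000 := by
  rw [← Subgroup.card_mul_index C.D.Ah.ker, Dat.card_ker, Subgroup.index_ker, C.isCo1_range.2]

/-- `N` is transitive on the short classes -/
theorem trans_cls (p s : C.D.I) : ∃ n : C.D.N, (C.D.Ah n).1 *ᵥ C.D.cls p = C.D.cls s := by
  obtain ⟨g, hg⟩ := transL2 _ (C.L_norm p)
  obtain ⟨h, hh⟩ := transL2 _ (C.L_norm s)
  obtain ⟨n, U, -, -, e⟩ := C.lift (h⁻¹ * g)
  exact ⟨n, by rw [e, D_cls, ρ_spec, mul_smul, hg, ← hh, inv_smul_smul]⟩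

/-- `N` is transitive on the short axes -/
theorem trans_ax (p s : C.D.I) (η θ : F2) : ∃ n ∈ C.D.N, n.1 (C.D.ax p η) = C.D.ax s θ := by
  obtain ⟨n, hn⟩ := C.trans_cls p s
  obtain ⟨s', ε, h1, -, h2⟩ := Dat.act_ax n p
  obtain rfl : s' = s := C.D.cls_inj (h1.trans hn)
  obtain ⟨c, hc⟩ : ∃ c, Bf c (C.D.cls s') + Bf (C.D.cls s') c = η + ε + θ := by
    obtain ⟨d, hd⟩ : ∃ d, Bf d (C.D.cls s') + Bf (C.D.cls s') d = 1 := by
      obtain ⟨g, hg⟩ := transL2 _ (C.L_norm s')
      refine ⟨C.φ (g⁻¹ • vec c0c), ?_⟩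
      rw [D_cls, hB, ip2, ← co_dot g, smul_inv_smul, hg, dot_comm, dot_v0, coe_vec (by decide +kernel)]
      decide +kernel
    refine ⟨(η + ε + θ) • d, ?_⟩
    rw [Bf_smul_left, Bf_smul_right, ← mul_add, hd, mul_one]
  refine ⟨C.D.xq c * n.1, C.D.N.mul_mem (C.D.xq_mem c) n.2, ?_⟩
  rw [Units.val_mul, Module.End.mul_apply, h2, Dat.xq_ax, hc, ← add_assoc, F2_add_self, zero_add]

end Crd

end

end CfsgMO
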