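/-
Subgroups of the Monster: definitions.
-/
import Cfsg.Agent.MO.Six

set_option autoImplicit false

namespace CfsgMO

open Matrix

noncomputable section

namespace Dat

variable {D : Dat}

/-- the centraliser of `R` in the group -/
def CG (t : D.Γ) (R : Set D.Γ) : Subgroup D.Γ := D.GG t ⊓ Subgroup.centralizer R
/-- the centraliser of `R` in `N` -/
def CN (D : Dat) (R : Set D.Γ) : Subgroup D.Γ := D.N ⊓ Subgroup.centralizer R
/-- the stabiliser of two vectors -/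
def S2 (t : D.Γ) (u v : D.V) : Subgroup D.Γ :=
  D.GG t ⊓ MulAction.stabilizer D.Γ u ⊓ MulAction.stabilizer D.Γ v
/-- the classes fixed by `x` -/
def FX (x : D.N) : AddSubgroup Cl where
  carrier := {c | x • c = c}
  zero_mem' := smul_cl_zero x
  add_mem' := fun {a b} ha hb => by
    change x • (a + b) = a + b
    rw [smul_cl_add, ha, hb]
  neg_mem' := fun {a} ha => by rwa [neg_eq_of_add_eq_zero_right (Cl_aa a)]

/-- the hypotheses for simplicity -/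
structure HypK (t : D.Γ) (K : Subgroup D.Γ) (F : AddSubgroup Cl) : Prop where
  le : K ≤ D.GG t
  z : D.z ∈ K
  q : ∀ c ∈ F, D.xq c ∈ K
  inv : ∀ n : D.N, n.1 ∈ K → ∀ c ∈ F, n • c ∈ F
  nd : ∀ c ∈ F, c ≠ 0 → ∃ u ∈ F, pol c u = 1
  ker : ∀ n : D.N, n.1 ∈ K → (∀ c ∈ F, n • c = c) → ∃ e, ∃ c ∈ F, n.1 = D.zp e * D.xq c
  four : ∃ g ∈ K, ∃ e, ∃ f ∈ F, f ≠ 0 ∧ g * D.z * g⁻¹ = D.zp e * D.xq f
  top : ∀ L ≤ K, (∀ g ∈ K, ∀ l ∈ L, g * l * g⁻¹ ∈ L) → D.z ∈ L → K ⊓ D.N ≤ L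

/-- the facts on class matrices: `R` is centralised, `x` defines the fixed classes, `hs` are generators, `n0` is a
normal generator -/
structure HypM (R : List D.N) (x : D.N) (hs : List D.N) (n0 : D.N) : Prop where
  gen : ∀ n : D.N, (∀ r ∈ R, D.Ah n * D.Ah r = D.Ah r * D.Ah n) →
    D.Ah n ∈ Subgroup.closure {A | ∃ h ∈ hs, D.Ah h = A}
  ker : ∀ n : D.N, (∀ r ∈ R, D.Ah n * D.Ah r = D.Ah r * D.Ah n) → (∀ c ∈ FX x, n • c = c) → D.Ah n = 1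
  om : Om ∈ FX x
  nd : ∀ c ∈ FX x, c ≠ 0 → ∃ u ∈ FX x, pol c u = 1
  span : ∀ W : AddSubgroup Cl, Om ∈ W → (∀ h ∈ hs, ∀ c ∈ W, h • c ∈ W) → FX x ≤ W
  top : ∀ L : Subgroup (Matrix (Fin 24) (Fin 24) F2)ˣ, D.Ah n0 ∈ L →
    (∀ h ∈ hs, ∀ l ∈ L, D.Ah h * l * (D.Ah h)⁻¹ ∈ L ∧ (D.Ah h)⁻¹ * l * D.Ah h ∈ L) → ∀ h ∈ hs, D.Ah h ∈ L

/-- the pair `(u, v)` is equivalent to the pair `(A, B)` -/
def Eqv (t : D.Γ) (A B u v : D.V) : Prop := ∃ g ∈ D.GG t, g.1 A = u ∧ g.1 B = v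

open Classical in
/-- the number of short axes which form with `b` a pair equivalent to `(A, B)` -/
def nE (t : D.Γ) (A B b : D.V) : ℕ :=
  (Finset.univ.filter fun x : D.I × F2 => Eqv t A B b (D.ax x.1 x.2)).card

/-- the orbit of a vector under a subgroup -/
def OrbC (C : Subgroup D.Γ) (b : D.V) : Set D.V := {u | ∃ n ∈ C, n.1 b = u}

open Classical in
/-- the hypotheses for the order of `C ⊔ ⟨T⟩`, `C = CN R`; `h i` moves the frame `f i` to the standard one, `u` is an odd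
class; `b k` are representatives of the orbits of `C` on the axes, `nb k i ε` their neighbours -/
structure HypH (t : D.Γ) (a : Fin 12 → D.V) (R : Set D.Γ) (F : AddSubgroup Cl) (T : D.Γ) (f : Fin 7 → Cl)
    (h : Fin 7 → D.N) (u : Cl) (p1 : D.I) (m : ℕ) (b : Fin (m + 1) → D.V)
    (nb : Fin (m + 1) → Fin 7 → F2 → Fin (m + 1)) (o s : Fin (m + 1) → ℕ)
    (par : Fin (m + 1) → Fin (m + 1)) : Prop where
  tG : T ∈ CG t R
  sq : T * T = 1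
  tz : ∃ e, T * D.z * T⁻¹ = D.zp e * D.xq Om
  card : Nat.card (D.CN R) = 21504
  zC : D.z ∈ D.CN R
  qC : ∀ c, D.xq c ∈ D.CN R ↔ c ∈ F
  inv : ∀ n : D.N, n.1 ∈ D.CN R → ∀ c ∈ F, n • c ∈ F
  hC : ∀ i, (h i).1 ∈ D.CN R ∧ h i • f i = Om
  finj : Function.Injective f
  fr : ∀ n : D.N, n.1 ∈ D.CN R → ∃ i, n • f i = Om
  odd : u ∈ F ∧ u 11 = 1
  b0 : b 0 = D.ax p1 0 ∧ D.cls p1 ∈ F
  sh : (Finset.univ.filter fun p => D.cls p ∈ F).card = 21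
  tr : ∀ p η, D.cls p ∈ F → D.ax p η ∈ OrbC (D.CN R) (b 0)
  nbr : ∀ k i (ε : F2), T.1 ((D.xq (ε • u)).1 ((h i).1.1 (b k))) ∈ OrbC (D.CN R) (b (nb k i ε))
  sep : ∀ k l, inv2 (b k) = inv2 (b l) →
    (∀ i ε, ∃ j δ, inv2 (b (nb k i ε)) = inv2 (b (nb l j δ))) → k = l
  o0 : o 0 = 42
  edge : ∀ k, k ≠ 0 → par k < k ∧ (∃ i ε, nb (par k) i ε = k) ∧
    o (par k) * (Finset.univ.filter fun x : Fin 7 × F2 => nb (par k) x.1 x.2 = k).card =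
      o k * (Finset.univ.filter fun x : Fin 7 × F2 => nb k x.1 x.2 = par k).card
  tot : ∑ k, o k = 24990
  cnt : ∀ k, (Finset.univ.filter fun x : D.I × F2 =>
    D.cls x.1 ∈ F ∧ D.ip (b k) (D.ax x.1 x.2) = 0).card = s k
  totF : ∑ k, o k * s k = 42 * 315
  std : ∀ k p η, D.cls p ∈ F → D.ip (b k) (D.ax p η) = 0 →
    ∃ g ∈ D.CN R ⊔ Subgroup.zpowers T, g.1 (b k) = D.ax p1 1 ∧ g.1 (D.ax p η) = D.ax p1 0

end Dat

end

end CfsgMO
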