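/-
Subgroups of the Monster: two abstract lemmas on finite groups.
-/
import Cfsg.Agent.H4.ZStar
import Cfsg.Agent.H1.Transfer
import Cfsg.Agent.H2.Card
import Cfsg.Agent.MO.Top

set_option autoImplicit false
set_option linter.style.haveILetI false

namespace CfsgMO

open Subgroup

/-- simplicity from a Frattini argument -/
theorem simple_of_frattini {G : Type} [Group G] [Finite G] {M Q : Subgroup G} {z : G} (z1 : z ≠ 1)
    (hQ : IsPGroup 2 Q) (hQM : Q ≤ M) (hz : z ∈ Q) (hc : ∀ g ∈ M, g * z = z * g)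
    (hM : ∀ g, g * z = z * g → g ∈ M)
    (hu : ∀ y ∈ M, y ≠ 1 → (∀ x ∈ Q, y * x = x * y) → y = z)
    (hL : ∀ L : Subgroup G, L.Normal → L ≠ ⊥ → M ≤ L) : IsSimpleGroup G := by
  haveI : Nontrivial G := ⟨⟨z, 1, z1⟩⟩
  refine ⟨fun L hn => or_iff_not_imp_left.2 fun h0 => ?_⟩
  obtain ⟨P, hP, hle⟩ := CfsgH2.exists_isSylowOf_ge hQ hQM
  have h1 : normalizer (P : Set G) ≤ M := fun g hg => by
    have k := (mem_normalizer_iff.1 hg z).1 (hle hz)
    refine hM g (mul_inv_eq_iff_eq_mul.1 (hu _ (hP.1 k) (by simpa using z1) fun x hx => ?_))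
    have k2 := hc _ (hP.1 ((mem_normalizer_iff.1 (inv_mem hg) x).1 (hle hx)))
    calc _ = g * (z * (g⁻¹ * x * g⁻¹⁻¹)) * g⁻¹ := by group
      _ = _ := by rw [← k2]; group
  have h2 := hL L hn h0
  have h3 : CfsgH2.IsSylowOf 2 P L := CfsgH2.IsSylowOf.of_normalizer (hP.1.trans h2)
    (hP.mono (le_inf (hP.1.trans h2) le_normalizer) (inf_le_right.trans h1))
  have h4 := h3.frattini le_top (by rw [normalizer_eq_top_iff.2 hn])
  rw [← h4, eq_comm, sup_eq_left]
  exact inf_le_right.trans (h1.trans h2)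

theorem sq_one_of_odd_inv {G : Type} [Group G] {y x : G} (hy : Odd (orderOf y))
    (h : y * x * y⁻¹ = x⁻¹) : x = x⁻¹ := by
  have h2 : Commute (y * y) x := by
    refine mul_inv_eq_iff_eq_mul.1 ?_
    calc _ = y * (y * x * y⁻¹) * y⁻¹ := by group
      _ = y * x⁻¹ * y⁻¹ := by rw [h]
      _ = (y * x * y⁻¹)⁻¹ := by group
      _ = x := by rw [h, inv_inv]
  obtain ⟨k, hk⟩ := hy
  have h3 : y⁻¹ = (y * y) ^ k := by
    rw [← pow_two, ← pow_mul, inv_eq_iff_mul_eq_one, ← pow_succ', ← hk, pow_orderOf_eq_one]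
  have h4 : Commute y x := by simpa using (h3 ▸ h2.pow_left k : Commute y⁻¹ x)
  rw [← h, h4.eq, mul_inv_cancel_right]

theorem pow3_19 : ∀ a < 11, ∀ b < 11, 3 ^ a % 19 = 3 ^ b % 19 → a = b := by decide

/-- the centraliser of a product of order three of two isolated involutions -/
theorem cent3_abs {G : Type} [Group G] [Finite G] {d e : G} (hd : d * d = 1) (he : e * e = 1)
    (ox : orderOf (d * e) = 3) {K : Subgroup G} (hK : ∀ g, g ∈ K ↔ g * d = d * g ∧ g * e = e * g)
    (hs : IsSimpleGroup K) (cK : Nat.card K = 90745943887872000)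
    (cG : Nat.card G = 808017424794512875886459904961710757005754368000000000)
    (iso : ∀ c, c * (d * e) = d * e * c → Commute d (c * d * c⁻¹) → c * d * c⁻¹ = d)
    (ord : ∀ o, orderOf (d * (o * d * o⁻¹)) ≤ 6)
    (cN : ∀ o, (∀ k ∈ K, o * k = k * o) → o * (d * e) = d * e * o → Odd (orderOf o) →
      o ∈ zpowers (d * e)) :
    Nat.card (centralizer ({d * e} : Set G)) = 3 * 90745943887872000 := by
  haveI := Fact.mk Nat.prime_three
  haveI : Fact (Nat.Prime 19) := ⟨by norm_num⟩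
  have di : d⁻¹ = d := inv_eq_of_mul_eq_one_right hd
  have hx : d * (d * e) * d⁻¹ = (d * e)⁻¹ := by
    rw [← mul_assoc, hd, one_mul, mul_inv_rev, inv_eq_of_mul_eq_one_right he]
  have hK' : ∀ g, g * (d * e) = d * e * g → g * d = d * g → g ∈ K := fun g h1 h2 =>
    (hK g).2 ⟨h2, mul_left_cancel (a := d) (by rw [← mul_assoc, ← h2, mul_assoc, h1, mul_assoc])⟩
  have hKx : ∀ g ∈ K, g * (d * e) = d * e * g := fun g h => by
    rw [← mul_assoc, ((hK g).1 h).1, mul_assoc, ((hK g).1 h).2, mul_assoc]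
  generalize d * e = x at *
  have x3 : x ^ 3 = 1 := ox ▸ pow_orderOf_eq_one x
  have xx : x ≠ x⁻¹ := fun h => by
    have : x ^ 2 = 1 := by rw [pow_two]; nth_rw 1 [h]; exact inv_mul_cancel x
    have := Nat.le_of_dvd two_pos (orderOf_dvd_of_pow_eq_one this)
    omega
  have d1 : d ≠ 1 := fun h => xx (by rw [← hx, h]; simp)
  let X : Subgroup G :=
    { carrier := {g | g * x * g⁻¹ = x ∨ g * x * g⁻¹ = x⁻¹}
      one_mem' := Or.inl (by simp)
      mul_mem' := fun {g h} hg hh => by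
        have e1 : g * h * x * (g * h)⁻¹ = g * (h * x * h⁻¹) * g⁻¹ := by group
        have e2 : g * x⁻¹ * g⁻¹ = (g * x * g⁻¹)⁻¹ := by group
        change _ ∨ _
        rcases hh with hh | hh <;> rw [e1, hh]
        · exact hg
        · rw [e2]; rcases hg with hg | hg <;> rw [hg] <;> simp
      inv_mem' := fun {g} hg => by
        change _ ∨ _
        rcases hg with hg | hg
        · left; nth_rw 1 [← hg]; group
        · right; rw [← inv_inj, inv_inv]; nth_rw 1 [← inv_inv x, ← hg]; group }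
  have dX : d ∈ X := Or.inr hx
  have hi : CfsgH4.Isol (⟨d, dX⟩ : X) := by
    refine CfsgH4.isol_of_commute (orderOf_eq_prime (p := 2) (Subtype.ext (by
      simpa [pow_two] using hd)) fun h => d1 (congrArg Subtype.val h)) fun w hw hc => ?_
    obtain ⟨⟨c, hc'⟩, rfl⟩ := isConj_iff.1 hw
    have h1 : Commute d (c * d * c⁻¹) := congrArg Subtype.val hc.eq
    refine Subtype.ext (?_ : c * d * c⁻¹ = d)
    rcases hc' with h | h
    · exact iso c (mul_inv_eq_iff_eq_mul.1 h) h1
    · have e1 : c * d * d * (c * d)⁻¹ = c * d * c⁻¹ := by group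
      rw [← e1] at h1 ⊢
      refine iso _ (mul_inv_eq_iff_eq_mul.1 ?_) h1
      calc _ = c * (d * x * d⁻¹) * c⁻¹ := by group
        _ = (c * x * c⁻¹)⁻¹ := by rw [hx]; group
        _ = x := by rw [h, inv_inv]
  set O := (Cfsg.pPrimeCore 2 X).map X.subtype with hO
  have oO : Odd (Nat.card O) := by
    rw [hO, card_map_of_injective X.subtype_injective]; exact CfsgH4.odd_card_pPrimeCore
  have nO : X ≤ normalizer (O : Set G) := CfsgL0.le_normalizer_pPrimeCoreOf
  have cO : ∀ g ∈ X, d * g * d⁻¹ * g⁻¹ ∈ O := fun g hg =>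
    ⟨_, CfsgH4.zstar (Subtype.ext hd) hi ⟨g, hg⟩, rfl⟩
  have oo : ∀ o ∈ O, Odd (orderOf o) := fun o ho => oO.of_dvd_nat (O.orderOf_dvd_natCard ho)
  have OC : ∀ o ∈ O, o * x = x * o := fun o ho => mul_inv_eq_iff_eq_mul.1
    ((map_subtype_le _ ho).resolve_right fun h => xx (sq_one_of_odd_inv (oo o ho) h))
  have KX : K ≤ X := fun g hg => Or.inl (mul_inv_eq_iff_eq_mul.2 (hKx g hg))
  have hnorm : ∀ L : Subgroup G, K ≤ normalizer (L : Set G) → K ⊓ L = ⊥ ∨ K ≤ L := fun L h => by
    have : (L.subgroupOf K).Normal := ⟨fun l hl g => (mem_normalizer_iff.1 (h g.2) l.1).1 hl⟩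
    exact this.eq_bot_or_eq_top.imp (fun k => by rw [inf_comm]; exact (subgroupOf_eq_bot.1 k).eq_bot)
      subgroupOf_eq_top.1
  have KO : K ⊓ O = ⊥ := (hnorm O (KX.trans nO)).resolve_right fun h => by
    have := oO.of_dvd_nat (card_dvd_of_le h)
    rw [cK] at this
    exact absurd this (by decide)
  have inv : ∀ o ∈ O, d * o * d⁻¹ = o⁻¹ := fun o ho => inverts_of_fpf hd
    (fun k hk => (mem_normalizer_iff.1 (nO dX) k).1 hk)
    (fun k hk h => mem_bot.1 (KO ▸ (⟨hK' k (OC k hk) h, hk⟩ : k ∈ K ⊓ O))) ho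
  have hC : centralizer ({x} : Set G) = K ⊔ O := by
    refine le_antisymm (fun c hc => ?_) (sup_le (fun g hg => mem_centralizer_singleton_iff.2 (hKx g hg))
      fun g hg => mem_centralizer_singleton_iff.2 (OC g hg))
    have hc' := mem_centralizer_singleton_iff.1 hc
    have hd2 : d ^ 2 = 1 := by rwa [pow_two]
    have h2 : IsPGroup 2 (zpowers d) := IsPGroup.of_card (n := 1) (by
      rw [Nat.card_zpowers, orderOf_eq_prime (p := 2) (by rwa [pow_two]) d1, pow_one])
    obtain ⟨n, hn, k, hk, rfl⟩ := CfsgH2.exists_eq_mul_centralizer (zpowers_le.2 (nO dX))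
      (CfsgH2.coprime_card_of_isPGroup h2 fun h =>
        (Nat.not_even_iff_odd.2 oO) (even_iff_two_dvd.2 h))
      (Or.inl (CfsgH2.isSolvable_of_isPGroup h2)) (x := c) fun b hb => by
        obtain ⟨i, rfl⟩ := mem_zpowers_iff.1 hb
        rcases Int.even_or_odd' i with ⟨j, rfl | rfl⟩
        · simp [zpow_mul, hd2]
        · have := inv_mem (cO c (Or.inl (mul_inv_eq_iff_eq_mul.2 hc')))
          simpa [zpow_add, zpow_mul, hd2, commutatorElement_def, mul_assoc] using this
    refine mul_mem (mem_sup_right hn) (mem_sup_left (hK' k ?_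
      (mem_centralizer_iff.1 hk d (mem_zpowers d)).symm))
    refine mul_left_cancel (a := n) ?_
    rw [← mul_assoc, hc', ← mul_assoc, ← mul_assoc, OC n hn]
  have le6 : ∀ o ∈ O, orderOf o ≤ 6 := fun o ho => by
    obtain ⟨k, hk⟩ := oo o ho
    have := ord (o ^ k)
    rwa [show d * (o ^ k * d * (o ^ k)⁻¹) = d * o ^ k * d⁻¹ * (o ^ k)⁻¹ by rw [di]; group,
      inv _ (pow_mem ho k), ← mul_inv_rev, ← pow_add, show (o ^ (k + k))⁻¹ = o by
        rw [inv_eq_iff_mul_eq_one, ← pow_succ, ← two_mul, ← hk, pow_orderOf_eq_one]] at this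
  have xO : x ∈ O := by
    have := cO x (Or.inl (by simp))
    rwa [hx, show x⁻¹ * x⁻¹ = x by
      rw [← mul_inv_rev, inv_eq_iff_mul_eq_one, ← pow_two, ← pow_succ, x3]] at this
  have pO : IsPGroup 3 O := fun o => ⟨1, Subtype.ext (by
    have h1 := le6 o o.2
    have h2 := Nat.odd_iff.1 (oo o o.2)
    have h3 : orderOf (o : G) ≠ 5 := fun h => by
      have k := le6 _ (mul_mem o.2 xO)
      rw [(show Commute (o : G) x from OC o o.2).orderOf_mul_eq_mul_orderOf_of_coprime
        (by rw [h, ox]; decide), h, ox] at k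
      omega
    have h4 : orderOf (o : G) ∣ 3 ^ 1 := by
      obtain h | h : orderOf (o : G) = 1 ∨ orderOf (o : G) = 3 := by omega
      all_goals rw [h]; decide
    exact orderOf_dvd_iff_pow_eq_one.1 h4)⟩
  have card := CfsgH2.card_sup_of_disjoint (KX.trans nO) KO
  obtain ⟨k, ok⟩ := exists_prime_orderOf_dvd_card' (G := K) 19 (by rw [cK]; norm_num)
  have kc : (k : G) ∈ centralizer (O : Set G) := by
    have h1 := CfsgH1.card_modEq_card_inf_centralizer (p := 19) (IsPGroup.of_card (n := 1) (by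
      rw [Nat.card_zpowers, orderOf_coe, ok, pow_one])) (zpowers_le.2 (nO (KX k.2)))
    obtain ⟨a, ha⟩ := IsPGroup.iff_card.1 pO
    obtain ⟨b, hb⟩ := IsPGroup.iff_card.1 (pO.to_inf_left (K := centralizer (zpowers (k : G))))
    have h2 := card_subgroup_dvd_card (K ⊔ O)
    rw [card, cK, cG, ha] at h2
    have h3 : a ≤ 10 := by
      by_contra h
      have : 90745943887872000 * 3 ^ 11 ∣ _ :=
        (Nat.mul_dvd_mul_left _ (pow_dvd_pow 3 (by omega))).trans h2
      norm_num at this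
    have h4 := card_le_of_le (inf_le_left (a := O) (b := centralizer (zpowers (k : G))))
    rw [ha, hb] at h1 h4
    have h5 : b ≤ a := (Nat.pow_le_pow_iff_right (by norm_num)).1 h4
    have h6 : a = b := pow3_19 a (by omega) b (by omega) h1
    have h7 := eq_of_le_of_card_ge (inf_le_left (a := O) (b := centralizer (zpowers (k : G))))
      (by rw [ha, hb, h6])
    exact mem_centralizer_iff.2 fun o ho =>
      (mem_centralizer_iff.1 (h7.ge ho).2 k (mem_zpowers _)).symm
  have KC := (hnorm _ (CfsgH2.le_normalizer_centralizer (KX.trans nO))).resolve_left fun h => by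
    have : k = 1 := Subtype.ext (mem_bot.1 (h ▸ (⟨k.2, kc⟩ : (k : G) ∈ K ⊓ centralizer O)))
    rw [this, orderOf_one] at ok
    omega
  have hO3 : O = zpowers x := le_antisymm (fun o ho => cN o
    (fun g hg => mem_centralizer_iff.1 (KC hg) o ho) (OC o ho) (oo o ho)) (zpowers_le.2 xO)
  rw [hC, card, cK, hO3, Nat.card_zpowers, ox, mul_comm]

end CfsgMO
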