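/-
Subgroups of the Monster: simplicity and the centraliser of an element of order three.
-/
import Cfsg.Agent.MO.Sb0
import Cfsg.Agent.MO.Sb1a
import Cfsg.Prelude.Def_Sporadic

set_option autoImplicit false
set_option linter.style.haveILetI false

namespace CfsgMO

open Matrix

noncomputable section

namespace Dat

variable {D : Dat} {t : D.Γ} {p0 : D.I} {a : Fin 12 → D.V} {w : Fin 12 → Fin 12 → ℕ}
  {s o : Fin 12 → ℕ} {par : Fin 12 → Fin 12}

/-- the part of the extraspecial group over `F` -/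
def QF (D : Dat) (F : AddSubgroup Cl) : Subgroup D.Γ where
  carrier := {x | ∃ e, ∃ c ∈ F, x = D.zp e * D.xq c}
  one_mem' := ⟨0, 0, zero_mem _, by rw [zp_zero, xq_zero, mul_one]⟩
  mul_mem' := by
    rintro _ _ ⟨e, c, h, rfl⟩ ⟨e', c', h', rfl⟩
    exact ⟨_, c + c', add_mem h h', D.zx_mul _ _ _ _⟩
  inv_mem' := by
    rintro _ ⟨e, c, h, rfl⟩
    exact ⟨_, _, h, zx_inv _ _⟩

theorem zp_mem_of {K : Subgroup D.Γ} (h : D.z ∈ K) (e : F2) : D.zp e ∈ K := by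
  rcases F2_cases e with rfl | rfl
  exacts [one_mem _, h]

theorem zx_pow_four (e : F2) (c : Cl) : (D.zp e * D.xq c) ^ 2 ^ 2 = 1 := by
  have h : (D.zp e * D.xq c) ^ 2 = D.zp (e + e + Bf c c) := by
    rw [pow_two, zx_mul, Cl_aa, xq_zero, mul_one]
  rw [show 2 ^ 2 = 2 * 2 from rfl, pow_mul, h, pow_two]
  rcases F2_cases (e + e + Bf c c) with k | k <;> rw [k]
  exacts [mul_one _, D.z_mul_z]

theorem smul_of_comm {n : D.N} {e : F2} {c : Cl}
    (h : n.1 * (D.zp e * D.xq c) = D.zp e * D.xq c * n.1) : n • c = c := by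
  obtain ⟨ε, k⟩ := Ah_spec n c
  have := conj_zx n.2 k e
  rw [h, mul_inv_cancel_right] at this
  exact (D.zp_xq_inj this).2.symm

theorem HypK.z_mem {K : Subgroup D.Γ} {F : AddSubgroup Cl} (h : HypK t K F) {L : Subgroup D.Γ}
    (hL : L ≤ K) (hn : ∀ g ∈ K, ∀ l ∈ L, g * l * g⁻¹ ∈ L) {l : D.Γ} (hl : l ∈ L) (hN : l ∈ D.N)
    (l1 : l ≠ 1) : D.z ∈ L := by
  have key : ∀ e, ∀ c ∈ F, D.zp e * D.xq c ∈ L → c ≠ 0 → D.z ∈ L := fun e c hc k h0 => by
    obtain ⟨u, hu, k'⟩ := h.nd c hc h0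
    rw [← comm_zx e k']
    exact mul_mem (hn _ (h.q u hu) _ k) (inv_mem k)
  by_contra hc
  obtain ⟨e, c, hF, k⟩ := h.ker ⟨l, hN⟩ (hL hl) fun c hF => by
    obtain ⟨ε, k⟩ := Ah_spec ⟨l, hN⟩ c
    have h1 : l * D.xq c * l⁻¹ * (D.zp 0 * D.xq c)⁻¹ ∈ L := by
      have := mul_mem hl (hn _ (h.q c hF) _ (inv_mem hl))
      simpa [mul_assoc, zp_zero] using this
    rw [show l * D.xq c * l⁻¹ = _ from k, zx_inv, zx_mul] at h1
    by_contra h2
    exact hc (key _ _ (add_mem (h.inv ⟨l, hN⟩ (hL hl) c hF) hF) h1 fun e => h2 (eq_of_add e))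
  change l = _ at k
  refine hc (key e c hF (k ▸ hl) ?_)
  rintro rfl
  rw [xq_zero, mul_one] at k
  rcases F2_cases e with rfl | rfl
  exacts [l1 k, hc (show D.zp 1 ∈ L from k ▸ hl)]

theorem HypK.normal (hL : HypL D) (hT : HypT t) (hA : HypA t p0 a w s o par) {K : Subgroup D.Γ}
    {F : AddSubgroup Cl} (h : HypK t K F) {L : Subgroup D.Γ} (hK : L ≤ K)
    (hn : ∀ g ∈ K, ∀ l ∈ L, g * l * g⁻¹ ∈ L) (hb : L ≠ ⊥) : K ⊓ D.N ≤ L := by
  have := finite_GG hL hT hA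
  have : Finite L := Finite.of_injective _ (Subgroup.inclusion_injective (hK.trans h.le))
  refine h.top L hK hn (by_contra fun hz => hb ?_)
  obtain ⟨g, hg, e, f, hf, f0, he⟩ := h.four
  obtain ⟨u, hu, k⟩ := h.nd f hf f0
  have hc := comm_zx (D := D) e k
  rw [← he] at hc
  have key : ∀ v ∈ K, ∀ k ∈ L, k * (v * D.z * v⁻¹) = v * D.z * v⁻¹ * k → k = 1 := by
    intro v hv k hk e
    have h1 : v⁻¹ * k * v⁻¹⁻¹ ∈ L := hn _ (inv_mem hv) k hk
    have h2 : v⁻¹ * k * v⁻¹⁻¹ = 1 := by_contra fun h3 => hz (h.z_mem hK hn h1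
      (cent_GG hL hT hA (h.le (hK h1)) (by
        calc v⁻¹ * k * v⁻¹⁻¹ * D.z = v⁻¹ * (k * (v * D.z * v⁻¹)) * v := by group
          _ = _ := by rw [e]; group)) h3)
    calc k = v * (v⁻¹ * k * v⁻¹⁻¹) * v⁻¹ := by group
      _ = 1 := by rw [h2]; group
  have hzz : g * D.z * g⁻¹ * (g * D.z * g⁻¹) = 1 := by
    calc _ = g * (D.z * D.z) * g⁻¹ := by group
      _ = 1 := by rw [z_mul_z, mul_one, mul_inv_cancel]
  refine (Subgroup.eq_bot_iff_forall _).2 fun k hk => ?_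
  have i1 := inverts_of_fpf D.z_mul_z (hn _ h.z) (by simpa using key 1 (one_mem _)) (inv_mem hk)
  have i2 := inverts_of_fpf hzz (hn _ (mul_mem (mul_mem hg h.z) (inv_mem hg))) (key g hg) hk
  refine key (D.xq u * g) (mul_mem (h.q u hu) hg) k hk ?_
  have : D.xq u * g * D.z * (D.xq u * g)⁻¹ = D.z * (g * D.z * g⁻¹) := by
    rw [← mul_inv_eq_iff_eq_mul, ← hc]
    conv_lhs => rw [hc]
    group
  rw [this]
  calc k * (D.z * (g * D.z * g⁻¹)) = (D.z * k⁻¹ * D.z⁻¹) * (D.z * (g * D.z * g⁻¹)) := by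
        rw [i1, inv_inv]
    _ = _ := by rw [← i2]; group

/-- (S1) -/
theorem simple_K (hL : HypL D) (hT : HypT t) (hA : HypA t p0 a w s o par) {K : Subgroup D.Γ}
    {F : AddSubgroup Cl} (h : HypK t K F) : IsSimpleGroup K := by
  have := finite_GG hL hT hA
  have : Finite K := Finite.of_injective _ (Subgroup.inclusion_injective h.le)
  refine simple_of_frattini (M := D.N.subgroupOf K) (Q := (D.QF F).subgroupOf K) (z := ⟨D.z, h.z⟩)
    (fun e => D.z_ne_one (congrArg Subtype.val e)) ?_ ?_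
    ⟨1, 0, zero_mem _, by rw [xq_zero, mul_one]; rfl⟩
    (fun g hg => Subtype.ext (D.z_comm hg))
    (fun g hg => cent_GG hL hT hA (h.le g.2) (congrArg Subtype.val hg)) (fun y hy y1 hc => ?_)
    fun L hn h0 g hg => ?_
  · rintro ⟨x, e, c, -, k⟩
    exact ⟨2, Subtype.ext (Subtype.ext (by
      change (x : D.Γ) ^ 2 ^ 2 = 1
      rw [show (x : D.Γ) = _ from k, zx_pow_four]))⟩
  · rintro x ⟨e, c, -, k⟩
    exact show (x : D.Γ) ∈ D.N from (show (x : D.Γ) = _ from k) ▸ mul_mem (D.zp_mem e) (D.xq_mem c)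
  · have hc' : ∀ c ∈ F, (y : D.Γ) * (D.zp 0 * D.xq c) = D.zp 0 * D.xq c * y := fun c hF =>
      congrArg Subtype.val (hc ⟨_, mul_mem (zp_mem_of h.z 0) (h.q c hF)⟩ ⟨0, c, hF, rfl⟩)
    obtain ⟨e, c, hF, k⟩ := h.ker ⟨y, hy⟩ y.2 fun c hF => smul_of_comm (hc' c hF)
    change (y : D.Γ) = _ at k
    have c0 : c = 0 := by_contra fun c0 => by
      obtain ⟨u, hu, k'⟩ := h.nd c hF c0
      have := comm_zx (D := D) e k'
      have k2 := hc' u hu
      rw [zp_zero, one_mul] at k2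
      rw [← k, ← k2] at this
      exact D.z_ne_one (by rw [← this]; group)
    rw [c0, xq_zero, mul_one] at k
    rcases F2_cases e with rfl | rfl
    exacts [absurd (Subtype.ext k) y1, Subtype.ext k]
  · obtain ⟨k, hk, e⟩ := h.normal hL hT hA (L := L.map K.subtype) (Subgroup.map_subtype_le L)
      (by
        rintro g hg _ ⟨k, hk, rfl⟩
        exact ⟨_, hn.conj_mem k hk ⟨g, hg⟩, rfl⟩)
      (by rwa [Ne, Subgroup.map_eq_bot_iff_of_injective _ K.subtype_injective]) ⟨g.2, hg⟩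
    exact (Subtype.ext e : k = g) ▸ hk

/-- (S2) -/
theorem hypK_of (hL : HypL D) {R : List D.N} {x : D.N} {hs : List D.N} {n0 : D.N}
    (hM : HypM R x hs n0) {K : Subgroup D.Γ} (le : K ≤ CG t {g | ∃ r ∈ R, r.1 = g}) (hz : D.z ∈ K)
    (hx : ∀ n : D.N, n.1 ∈ K → n * x = x * n) (hq : ∀ c ∈ FX x, D.xq c ∈ K)
    (hh : ∀ h ∈ hs, h.1 ∈ K) {g : D.Γ} (hg : g ∈ K) {e : F2} (gz : g * D.z * g⁻¹ = D.zp e * D.xq Om)
    {c : Cl} (hc : c ∈ FX x) {n : D.N} (gc : g * D.xq c * g⁻¹ = n.1) (hn : D.Ah n = D.Ah n0) :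
    HypK t K (FX x) := by
  have hR : ∀ m : D.N, m.1 ∈ K → ∀ r ∈ R, D.Ah m * D.Ah r = D.Ah r * D.Ah m := fun m hm r hr => by
    rw [← map_mul, ← map_mul]
    exact congrArg _ (Subtype.ext (Subgroup.mem_centralizer_iff.1 (le hm).2 _ ⟨r, hr, rfl⟩).symm)
  have hker : ∀ m : D.N, m.1 ∈ K → D.Ah m = 1 → ∃ e, ∃ c ∈ FX x, m.1 = D.zp e * D.xq c :=
    fun m hm h1 => by
      obtain ⟨e, c, k⟩ := mem_ker.1 h1
      exact ⟨e, c, smul_of_comm (n := x) (by rw [← k]; exact (congrArg Subtype.val (hx m hm)).symm), k⟩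
  refine ⟨le.trans inf_le_left, hz, hq, fun m hm c hc => ?_, hM.nd,
    fun m hm h1 => hker m hm (hM.ker m (hR m hm) h1), ⟨g, hg, e, Om, hM.om, hL.om.1, gz⟩,
    fun L hL' hn' hz' => ?_⟩
  · change x • m • c = m • c
    rw [← mul_smul, ← hx m hm, mul_smul, show x • c = c from hc]
  have hx' : ∀ {a c}, D.zp a * D.xq c ∈ L → D.xq c ∈ L := fun {a c} h =>
    (Subgroup.mul_mem_cancel_left _ (zp_mem_of hz' a)).1 h
  let W : AddSubgroup Cl :=
    { carrier := {c | D.xq c ∈ L}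
      zero_mem' := show D.xq 0 ∈ L from D.xq_zero ▸ one_mem _
      add_mem' := fun {c d} h1 h2 => hx' (D.xq_mul c d ▸ mul_mem h1 h2)
      neg_mem' := fun {c} h => by rwa [neg_eq_of_add_eq_zero_right (Cl_aa c)] }
  have hW : FX x ≤ W := hM.span W (hx' (gz ▸ hn' g hg _ hz')) fun h hh' c hc => by
    obtain ⟨ε, k⟩ := Ah_spec h c
    exact hx' (k ▸ hn' _ (hh h hh') _ hc)
  have h1 := hM.top ((L.subgroupOf D.N).map D.Ah) ⟨n, show n.1 ∈ L from gc ▸ hn' g hg _ (hW hc), hn⟩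
    (by
      rintro h hh' _ ⟨l, hl, rfl⟩
      refine ⟨⟨h * l * h⁻¹, hn' _ (hh h hh') _ hl, by simp⟩, h⁻¹ * l * h, ?_, by simp⟩
      have := hn' _ (inv_mem (hh h hh')) _ hl
      rwa [inv_inv] at this)
  rintro m ⟨hm, hN⟩
  obtain ⟨l, hl, k⟩ := (Subgroup.closure_le ((L.subgroupOf D.N).map D.Ah)).2
    (by rintro _ ⟨h, hh', rfl⟩; exact h1 h hh') (hM.gen ⟨m, hN⟩ (hR _ hm))
  obtain ⟨ε, c, hc, k'⟩ := hker ((⟨m, hN⟩ : D.N) * l⁻¹) (mul_mem hm (inv_mem (hL' hl)))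
    (by rw [map_mul, map_inv, k, mul_inv_cancel])
  have : m * l.1⁻¹ ∈ L := (show m * l.1⁻¹ = _ from k') ▸ mul_mem (zp_mem_of hz' ε) (hW hc)
  exact (Subgroup.mul_mem_cancel_right _ (inv_mem (show l.1 ∈ L from hl))).1 this

theorem Dd_std (hL : HypL D) (hT : HypT t) (hA : HypA t p0 a w s o par) {u : D.V} (hu : u ∈ Dd a) :
    ∃ h ∈ D.GG t, h.1 (D.ax p0 0) = u := by
  rw [← orbit_GG hL hT hA] at hu
  exact hu

/-- commuting with the involution of an axis means fixing the axis -/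
theorem cent_tt (hL : HypL D) (hT : HypT t) (hA : HypA t p0 a w s o par) (hS : HypS t p0 a)
    {u : D.V} (hu : u ∈ Dd a) {d : D.Γ} (hd : D.tt u = d.1) {g : D.Γ} (hg : g ∈ D.GG t) :
    g * d = d * g ↔ g.1 u = u := by
  obtain ⟨h, hh, rfl⟩ := Dd_std hL hT hA hu
  have e : d = h * D.xq (D.cls p0) * h⁻¹ := Units.ext (by rw [conj_tt hT hh (d_val hL), hd])
  have k := cent_d hL hT hA hS (mul_mem (mul_mem (inv_mem hh) hg) hh)
  rw [mem_SS] at k
  constructor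
  · intro h1
    have := (k.1 (by
      calc _ = h⁻¹ * (g * (h * D.xq (D.cls p0) * h⁻¹)) * g⁻¹ * h := by group
        _ = _ := by rw [← e, h1, e]; group)).2
    rw [mul_ap, mul_ap] at this
    have k2 := congrArg h.1 this
    rwa [← mul_ap h, mul_inv_cancel] at k2
  · intro h1
    have := k.2 ⟨mul_mem (mul_mem (inv_mem hh) hg) hh, by rw [mul_ap, mul_ap, h1, unit_inj]⟩
    rw [e]
    calc _ = h * (h⁻¹ * g * h * D.xq (D.cls p0) * (h⁻¹ * g * h)⁻¹) * h⁻¹ * g := by group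
      _ = _ := by rw [this]

theorem tt_sq (hL : HypL D) (hT : HypT t) (hA : HypA t p0 a w s o par)
    {u : D.V} (hu : u ∈ Dd a) {d : D.Γ} (hd : D.tt u = d.1) : d ∈ D.GG t ∧ d * d = 1 := by
  obtain ⟨h, hh, rfl⟩ := Dd_std hL hT hA hu
  have e : d = h * D.xq (D.cls p0) * h⁻¹ := Units.ext (by rw [conj_tt hT hh (d_val hL), hd])
  refine ⟨e ▸ mul_mem (mul_mem hh (N_le_GG t (D.xq_mem _))) (inv_mem hh), ?_⟩
  rw [e, conj_mul, xq_mul, D.cls_sing, Cl_aa, xq_zero, zp_zero, mul_one, mul_one, mul_inv_cancel]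

theorem tt_ord (hL : HypL D) (hT : HypT t) (hA : HypA t p0 a w s o par) (hS : HypS t p0 a)
    {u v : D.V} (hu : u ∈ Dd a) (hv : v ∈ Dd a) {d e : D.Γ} (hd : D.tt u = d.1)
    (he : D.tt v = e.1) : orderOf (d * e) ≤ 6 := by
  obtain ⟨g, hg, rfl⟩ := Dd_std hL hT hA hu
  obtain ⟨h, hh, rfl⟩ := Dd_std hL hT hA hv
  obtain ⟨u, hu, k, p, η, e1, e2⟩ := pair_std hL hT hA hg hh
  obtain ⟨n, h0, h6, h1⟩ := hS.ord k p η
  refine (orderOf_le_of_pow_eq_one h0 ?_).trans h6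
  rwa [← e1, ← e2, ← conj_tt hT hu hd.symm, ← conj_tt hT hu he.symm, ← Units.val_mul,
    ← Units.val_pow_eq_pow_val, conj_mul, conj_pow, Units.val_eq_one, conj_eq_one_iff] at h1

theorem mem_S2 {A B : D.V} {g : D.Γ} : g ∈ S2 t A B ↔ g ∈ D.GG t ∧ g.1 A = A ∧ g.1 B = B :=
  and_assoc

theorem S2_eq (hL : HypL D) (hT : HypT t) (hA : HypA t p0 a w s o par) (hS : HypS t p0 a)
    {A B : D.V} (hA' : A ∈ Dd a) (hB : B ∈ Dd a) {d1 d2 : D.Γ} (h1 : D.tt A = d1.1)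
    (h2 : D.tt B = d2.1) : S2 t A B = CG t {d1, d2} := by
  ext g
  rw [mem_S2, CG, Subgroup.mem_inf, Subgroup.mem_centralizer_iff]
  refine and_congr_right fun hg => ?_
  rw [← cent_tt hL hT hA hS hA' h1 hg, ← cent_tt hL hT hA hS hB h2 hg]
  simp only [Set.mem_insert_iff, Set.mem_singleton_iff, forall_eq_or_imp, forall_eq]
  exact and_congr eq_comm eq_comm

theorem card_subOf {K : Subgroup D.Γ} (h : K ≤ D.GG t) :
    Nat.card (K.subgroupOf (D.GG t)) = Nat.card K :=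
  Nat.card_congr (Subgroup.subgroupOfEquivOfLe h).toEquiv

theorem simple_subOf {K : Subgroup D.Γ} (h : K ≤ D.GG t) (hs : IsSimpleGroup K) :
    IsSimpleGroup (K.subgroupOf (D.GG t)) :=
  (Subgroup.subgroupOfEquivOfLe h).isSimpleGroup

/-- (S3), inside the group -/
theorem cent3 (hL : HypL D) (hT : HypT t) (hA : HypA t p0 a w s o par) (hS : HypS t p0 a)
    {A B : D.V} (hA' : A ∈ Dd a) (hB : B ∈ Dd a) {d1 d2 : D.Γ} (h1 : D.tt A = d1.1)
    (h2 : D.tt B = d2.1) (ox : orderOf (d1 * d2) = 3)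
    (cK : Nat.card (S2 t A B) = 90745943887872000) (hs : IsSimpleGroup (S2 t A B))
    (ipAB : D.ip A (d2.1 A) = 1 / 8)
    (six : ∀ u ∈ Dd a, ∀ v ∈ Dd a, ∀ e1 ∈ D.GG t, ∀ e2 ∈ D.GG t, D.tt u = e1.1 → D.tt v = e2.1 →
      orderOf (e1 * e2) = 6 → D.ip u (e2.1 u) ≠ 1 / 8)
    (cN : ∀ n ∈ D.N, (∀ k ∈ S2 t A B, n * k = k * n) → n * (d1 * d2) = d1 * d2 * n →
      Odd (orderOf n) → n ∈ Subgroup.zpowers (d1 * d2))
    (hz : D.z ∈ S2 t A B) {x : D.GG t} (hx : x.1 = d1 * d2) :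
    Nat.card (Subgroup.centralizer ({x} : Set (D.GG t))) = 3 * 90745943887872000 := by
  have := finite_GG hL hT hA
  obtain ⟨m1, s1⟩ := tt_sq hL hT hA hA' h1
  obtain ⟨m2, s2⟩ := tt_sq hL hT hA hB h2
  have le : S2 t A B ≤ D.GG t := fun g hg => (mem_S2.1 hg).1
  rw [show x = (⟨d1, m1⟩ : D.GG t) * ⟨d2, m2⟩ from Subtype.ext hx]
  refine cent3_abs (K := (S2 t A B).subgroupOf (D.GG t)) (Subtype.ext s1) (Subtype.ext s2)
    ((Subgroup.orderOf_coe _).symm.trans ox) (fun g => ?_) (simple_subOf le hs)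
    ((card_subOf le).trans cK) (card_GG hL hT hA) (fun c hc hd => Subtype.ext ?_) (fun g => ?_)
    fun n k1 k2 k3 => ?_
  · rw [Subgroup.mem_subgroupOf, mem_S2, ← cent_tt hL hT hA hS hA' h1 g.2,
      ← cent_tt hL hT hA hS hB h2 g.2]
    simp only [g.2, true_and, Subtype.ext_iff, Subgroup.coe_mul]
  · obtain ⟨c, mc⟩ := c
    replace hc : c * (d1 * d2) = d1 * d2 * c := congrArg Subtype.val hc
    replace hd : Commute d1 (c * d1 * c⁻¹) := congrArg Subtype.val hd.eq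
    change c * d1 * c⁻¹ = d1
    by_contra hne
    set d := c * d1 * c⁻¹ with ed
    have dd : d * d = 1 := by rw [ed, conj_mul, s1, mul_one, mul_inv_cancel]
    have e2 : c * d2 * c⁻¹ = d * (d1 * d2) := by
      calc _ = c * (d1 * d1) * d2 * c⁻¹ := by rw [s1, mul_one]
        _ = c * d1 * c⁻¹ * (c * (d1 * d2) * c⁻¹) := by group
        _ = _ := by rw [hc, mul_inv_cancel_right]
    have ee : d * (d1 * d2) * (d * (d1 * d2)) = 1 := by
      rw [← e2, conj_mul, s2, mul_one, mul_inv_cancel]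
    have hw : Commute (d1 * d) (d1 * d2) := by
      have k : d1 * d2 * d * (d1 * d2) = d := by
        calc _ = d * d * (d1 * d2 * d * (d1 * d2)) := by rw [dd, one_mul]
          _ = d * (d * (d1 * d2) * (d * (d1 * d2))) := by group
          _ = d := by rw [ee, mul_one]
      change _ = _
      calc d1 * d * (d1 * d2) = d * (d1 * d1) * d2 := by rw [hd.eq]; group
        _ = d1 * d2 * d * (d1 * d2) * d2 := by rw [s1, k, mul_one]
        _ = d1 * d2 * (d * d1) * (d2 * d2) := by group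
        _ = _ := by rw [s2, mul_one, hd.eq]
    have ow : orderOf (d1 * d) = 2 := orderOf_eq_prime (by rw [hd.mul_pow, sq, sq, s1, dd, one_mul])
      fun k => hne (by rw [eq_inv_of_mul_eq_one_right k, inv_eq_of_mul_eq_one_right s1])
    have mc2 := mul_mem (mul_mem mc m2) (inv_mem mc)
    have md : d ∈ D.GG t := mul_mem (mul_mem mc m1) (inv_mem mc)
    refine six A hA' _ (Dd_GG hL hT hA mc hB) d1 m1 _ mc2 h1 (conj_tt hT mc h2.symm).symm ?_ ?_
    · rw [e2, ← mul_assoc, hw.orderOf_mul_eq_mul_orderOf_of_coprime (by rw [ow, ox]; decide), ow, ox]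
    · have fA := (cent_tt hL hT hA hS hA' h1 (mul_mem m1 md)).1
        ((Commute.refl d1).mul_left hd.symm).eq
      rw [e2, ← mul_assoc, ← hd.eq, mul_ap, ← ipAB]
      nth_rw 1 [← fA]
      exact (GG_le_Au hT (mul_mem m1 md)).1 _ _
  · rw [← Subgroup.orderOf_coe]
    exact tt_ord hL hT hA hS hA' (Dd_GG hL hT hA g.2 hA') h1 (conj_tt hT g.2 h1.symm).symm
  · have k4 : ∀ k ∈ S2 t A B, n.1 * k = k * n.1 := fun k hk =>
      congrArg Subtype.val (k1 ⟨k, le hk⟩ hk)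
    obtain ⟨i, hi⟩ := Subgroup.mem_zpowers_iff.1 (cN n.1 (cent_GG hL hT hA n.2 (k4 _ hz)) k4
      (congrArg Subtype.val k2) (by rwa [Subgroup.orderOf_coe]))
    exact Subgroup.mem_zpowers_iff.2 ⟨i, Subtype.ext (by simpa using hi)⟩

theorem sub_cent {K : Subgroup D.Γ} {x : D.GG t} (h : ∀ k ∈ K, k * x.1 = x.1 * k) :
    K.subgroupOf (D.GG t) ≤ Subgroup.centralizer ({x} : Set (D.GG t)) := fun k hk =>
  Subgroup.mem_centralizer_singleton_iff.2 (Subtype.ext (h k.1 hk))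

/-- the final assembly -/
theorem s0470_of (hL : HypL D) (hT : HypT t) (hA : HypA t p0 a w s o par)
    {x3 x5 x7 : D.GG t} {K3 K5 K7 : Subgroup D.Γ} (o3 : orderOf x3.1 = 3) (o5 : orderOf x5.1 = 5)
    (o7 : orderOf x7.1 = 7) (l3 : K3 ≤ D.GG t) (l5 : K5 ≤ D.GG t) (l7 : K7 ≤ D.GG t)
    (c3 : ∀ k ∈ K3, k * x3.1 = x3.1 * k) (c5 : ∀ k ∈ K5, k * x5.1 = x5.1 * k)
    (c7 : ∀ k ∈ K7, k * x7.1 = x7.1 * k) (s3 : IsSimpleGroup K3) (s5 : IsSimpleGroup K5)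
    (s7 : IsSimpleGroup K7) (n3 : Nat.card K3 = 90745943887872000)
    (n5 : Nat.card K5 = 273030912000000) (n7 : Nat.card K7 = 4030387200)
    (hc : Nat.card (Subgroup.centralizer ({x3} : Set (D.GG t))) = 3 * 90745943887872000) :
    ∃ (G : Type) (_ : Group G) (_ : Finite G), Cfsg.IsM G ∧ (∃ x : G, orderOf x = 3 ∧ Nat.card (Subgroup.centralizer ({x} : Set G)) = 272237831663616000 ∧ ∃ K : Subgroup G, K ≤ Subgroup.centralizer ({x} : Set G) ∧ Cfsg.IsTh K) ∧ (∃ x : G, orderOf x = 5 ∧ ∃ K : Subgroup G, K ≤ Subgroup.centralizer ({x} : Set G) ∧ Cfsg.IsHN K) ∧ (∃ x : G, orderOf x = 7 ∧ ∃ K : Subgroup G, K ≤ Subgroup.centralizer ({x} : Set G) ∧ Cfsg.IsHe K) :=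
  ⟨D.GG t, inferInstance, finite_GG hL hT hA, isM_GG hL hT hA,
    ⟨x3, (Subgroup.orderOf_coe _).symm.trans o3, hc, _, sub_cent c3, simple_subOf l3 s3,
      (card_subOf l3).trans n3⟩,
    ⟨x5, (Subgroup.orderOf_coe _).symm.trans o5, _, sub_cent c5, simple_subOf l5 s5,
      (card_subOf l5).trans n5⟩,
    ⟨x7, (Subgroup.orderOf_coe _).symm.trans o7, _, sub_cent c7, simple_subOf l7 s7,
      (card_subOf l7).trans n7⟩⟩

end Dat

end

end CfsgMO
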