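/-
Subgroups of the Monster: a variant of the hypotheses on class matrices.
-/
import Cfsg.Agent.MO.Sb1

set_option autoImplicit false

namespace CfsgMO

open Matrix

noncomputable section

namespace Dat

variable {D : Dat} {t : D.Γ}

/-- the facts on class matrices, when the frames do not span the fixed classes -/
structure HypM2 (R : List D.N) (x : D.N) (hs : List D.N) (n0 : D.N) (c0 : Cl) : Prop where
  gen : ∀ n : D.N, (∀ r ∈ R, D.Ah n * D.Ah r = D.Ah r * D.Ah n) →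
    D.Ah n ∈ Subgroup.closure {A | ∃ h ∈ hs, D.Ah h = A}
  ker : ∀ n : D.N, (∀ r ∈ R, D.Ah n * D.Ah r = D.Ah r * D.Ah n) → (∀ c ∈ FX x, n • c = c) → D.Ah n = 1
  om : Om ∈ FX x
  nd : ∀ c ∈ FX x, c ≠ 0 → ∃ u ∈ FX x, pol c u = 1
  span1 : ∀ W : AddSubgroup Cl, Om ∈ W → (∀ h ∈ hs, ∀ c ∈ W, h • c ∈ W) → c0 ∈ W
  span2 : ∀ W : AddSubgroup Cl, (∀ h ∈ hs, ∀ u ∈ FX x, u + h • u ∈ W) → FX x ≤ W
  top : ∀ L : Subgroup (Matrix (Fin 24) (Fin 24) F2)ˣ, D.Ah n0 ∈ L →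
    (∀ h ∈ hs, ∀ l ∈ L, D.Ah h * l * (D.Ah h)⁻¹ ∈ L ∧ (D.Ah h)⁻¹ * l * D.Ah h ∈ L) → ∀ h ∈ hs, D.Ah h ∈ L

/-- (S2) -/
theorem hypK_of2 (hL : HypL D) {R : List D.N} {x : D.N} {hs : List D.N} {n0 : D.N} {c : Cl}
    (hM : HypM2 R x hs n0 c) {K : Subgroup D.Γ} (le : K ≤ CG t {g | ∃ r ∈ R, r.1 = g}) (hz : D.z ∈ K)
    (hx : ∀ n : D.N, n.1 ∈ K → n * x = x * n) (hq : ∀ c ∈ FX x, D.xq c ∈ K)
    (hh : ∀ h ∈ hs, h.1 ∈ K) {g : D.Γ} (hg : g ∈ K) {e : F2} (gz : g * D.z * g⁻¹ = D.zp e * D.xq Om)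
    {n : D.N} (gc : g * D.xq c * g⁻¹ = n.1) (hn : D.Ah n = D.Ah n0) :
    HypK t K (FX x) := by
  have hR : ∀ m : D.N, m.1 ∈ K → ∀ r ∈ R, D.Ah m * D.Ah r = D.Ah r * D.Ah m := fun m hm r hr => by
    rw [← map_mul, ← map_mul]
    exact congrArg _ (Subtype.ext (Subgroup.mem_centralizer_iff.1 (le hm).2 _ ⟨r, hr, rfl⟩).symm)
  have hker : ∀ m : D.N, m.1 ∈ K → D.Ah m = 1 → ∃ e, ∃ c ∈ FX x, m.1 = D.zp e * D.xq c :=
    fun m hm h1 => by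
      obtain ⟨e, c, k⟩ := mem_ker.1 h1
      exact ⟨e, c, smul_of_comm (n := x) (by rw [← k]; exact (congrArg Subtype.val (hx m hm)).symm), k⟩
  refine ⟨le.trans inf_le_left, hz, hq, fun m hm c hc => ?_, hM.nd,
    fun m hm h1 => hker m hm (hM.ker m (hR m hm) h1), ⟨g, hg, e, Om, hM.om, hL.om.1, gz⟩,
    fun L hL' hn' hz' => ?_⟩
  · change x • m • c = m • c
    rw [← mul_smul, ← hx m hm, mul_smul, show x • c = c from hc]
  have hx' : ∀ {a c}, D.zp a * D.xq c ∈ L → D.xq c ∈ L := fun {a c} h =>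
    (Subgroup.mul_mem_cancel_left _ (zp_mem_of hz' a)).1 h
  let W : AddSubgroup Cl :=
    { carrier := {c | D.xq c ∈ L}
      zero_mem' := show D.xq 0 ∈ L from D.xq_zero ▸ one_mem _
      add_mem' := fun {c d} h1 h2 => hx' (D.xq_mul c d ▸ mul_mem h1 h2)
      neg_mem' := fun {c} h => by rwa [neg_eq_of_add_eq_zero_right (Cl_aa c)] }
  have hW0 : c ∈ W := hM.span1 W (hx' (gz ▸ hn' g hg _ hz')) fun h hh' c hc => by
    obtain ⟨ε, k⟩ := Ah_spec h c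
    exact hx' (k ▸ hn' _ (hh h hh') _ hc)
  have h1 := hM.top ((L.subgroupOf D.N).map D.Ah) ⟨n, show n.1 ∈ L from gc ▸ hn' g hg _ hW0, hn⟩
    (by
      rintro h hh' _ ⟨l, hl, rfl⟩
      refine ⟨⟨h * l * h⁻¹, hn' _ (hh h hh') _ hl, by simp⟩, h⁻¹ * l * h, ?_, by simp⟩
      have := hn' _ (inv_mem (hh h hh')) _ hl
      rwa [inv_inv] at this)
  have hW : FX x ≤ W := hM.span2 W fun h hh' u hu => by
    obtain ⟨l, hl, k⟩ := h1 h hh'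
    obtain ⟨ε, k'⟩ := Ah_spec l u
    have k2 : D.zp 0 * D.xq u * (D.zp ε * D.xq (h • u)) ∈ L := by
      rw [zp_zero, one_mul, smul_cl, ← k, ← k', show D.xq u * (l.1 * D.xq u * l.1⁻¹) =
        D.xq u * l.1 * (D.xq u)⁻¹ * (D.xq u * D.xq u) * l.1⁻¹ by group, xq_mul, Cl_aa, xq_zero, mul_one]
      exact mul_mem (mul_mem (hn' _ (hq u hu) _ hl) (zp_mem_of hz' _)) (inv_mem (show l.1 ∈ L from hl))
    rw [zx_mul] at k2
    exact hx' k2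
  rintro m ⟨hm, hN⟩
  obtain ⟨l, hl, k⟩ := (Subgroup.closure_le ((L.subgroupOf D.N).map D.Ah)).2
    (by rintro _ ⟨h, hh', rfl⟩; exact h1 h hh') (hM.gen ⟨m, hN⟩ (hR _ hm))
  obtain ⟨ε, c, hc, k'⟩ := hker ((⟨m, hN⟩ : D.N) * l⁻¹) (mul_mem hm (inv_mem (hL' hl)))
    (by rw [map_mul, map_inv, k, mul_inv_cancel])
  have : m * l.1⁻¹ ∈ L := (show m * l.1⁻¹ = _ from k') ▸ mul_mem (zp_mem_of hz' ε) (hW hc)
  exact (Subgroup.mul_mem_cancel_right _ (inv_mem (show l.1 ∈ L from hl))).1 this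

end Dat

end

end CfsgMO
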