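/-
Subgroups of the Monster: orders of stabilisers.
-/
import Cfsg.Agent.MO.Sb0

set_option autoImplicit false

namespace CfsgMO

open Matrix

noncomputable section

namespace Dat

variable {D : Dat} {t : D.Γ} {p0 : D.I} {a : Fin 12 → D.V} {w : Fin 12 → Fin 12 → ℕ}
  {s o : Fin 12 → ℕ} {par : Fin 12 → Fin 12}

/-! ### the stabiliser of a pair of axes -/

theorem ax_mem_Dd (hL : HypL D) (hA : HypA t p0 a w s o par) (p : D.I) (η : F2) :
    D.ax p η ∈ Dd a := ⟨0, by rw [hA.a0, Orb_ax hL]; exact ⟨p, η, rfl⟩⟩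

theorem orbit_Dd (hL : HypL D) (hT : HypT t) (hA : HypA t p0 a w s o par) {B : D.V}
    (hB : B ∈ Dd a) : {y | ∃ h ∈ D.GG t, h • B = y} = Dd a := by
  ext y
  refine ⟨fun ⟨h, hh, e⟩ => e ▸ Dd_GG hL hT hA hh hB, fun hy => ?_⟩
  rw [← orbit_GG hL hT hA] at hB hy
  obtain ⟨g, hg, rfl⟩ := hB
  obtain ⟨k, hk, rfl⟩ := hy
  exact ⟨k * g⁻¹, mul_mem hk (inv_mem hg), by rw [mul_smul, inv_smul_smul]⟩

theorem Eqv.ap {A B u v : D.V} (h : Eqv t A B u v) {g : D.Γ} (hg : g ∈ D.GG t) :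
    Eqv t A B (g.1 u) (g.1 v) := by
  obtain ⟨k, hk, rfl, rfl⟩ := h
  exact ⟨g * k, mul_mem hg hk, rfl, rfl⟩

theorem nE_le {A B : D.V} {n : D.Γ} (hn : n ∈ D.N) (b : D.V) :
    nE t A B b ≤ nE t A B (n.1 b) := by
  classical
  have h : ∀ x : D.I × F2, ∃ y : D.I × F2, n.1 (D.ax x.1 x.2) = D.ax y.1 y.2 := fun x => by
    obtain ⟨p, η, e⟩ := O1_N hn ⟨x.1, x.2, rfl⟩
    exact ⟨(p, η), e⟩
  choose π hπ using h
  refine Finset.card_le_card_of_injOn π (fun x hx => ?_) fun x _ y _ e => ?_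
  · simp only [Finset.coe_filter, Finset.mem_univ, true_and, Set.mem_ofPred_eq] at hx ⊢
    rw [← hπ]
    exact hx.ap (N_le_GG t hn)
  · have : D.ax x.1 x.2 = D.ax y.1 y.2 := by
      rw [← unit_inj n (D.ax x.1 x.2), hπ, e, ← hπ, unit_inj]
    exact Prod.ext (ax_inj this).1 (ax_inj this).2

theorem nE_N {A B : D.V} {n : D.Γ} (hn : n ∈ D.N) (b : D.V) :
    nE t A B (n.1 b) = nE t A B b := by
  refine le_antisymm ?_ (nE_le hn b)
  have := nE_le (t := t) (A := A) (B := B) (inv_mem hn) (n.1 b)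
  rwa [unit_inj] at this

theorem card_pair (hL : HypL D) (hT : HypT t) (hA : HypA t p0 a w s o par) {A B : D.V}
    (mA : A ∈ Dd a) (mB : B ∈ Dd a) {n : Fin 12 → ℕ} (hn : ∀ k, nE t A B (a k) = n k) :
    Nat.card (S2 t A B) * (∑ k, o k * n k) = 196560 * Nat.card (SS t p0) := by
  classical
  have h1 := card_stab_mul (D.GG t) B
  have h2 := card_stab_mul (D.GG t) (D.ax p0 0)
  have h3 := card_stab_mul (D.GG t ⊓ MulAction.stabilizer D.Γ B) A
  rw [orbit_Dd hL hT hA mB, ncard_Dd hL hT hA] at h1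
  rw [orbit_GG hL hT hA, ncard_Dd hL hT hA, ← h1] at h2
  have h4 : Nat.card (SS t p0) = _ := Nat.eq_of_mul_eq_mul_right (by norm_num) h2
  rw [inf_right_comm, ← h4] at h3
  generalize hY : {y | ∃ h ∈ D.GG t ⊓ MulAction.stabilizer D.Γ B, h • A = y} = Y at h3
  have e1 : ∀ x : D.I × F2,
      ((DdF a).filter fun b => Eqv t A B b (D.ax x.1 x.2)).card = Y.ncard := fun x => by
    obtain ⟨g, hg, e⟩ : D.ax x.1 x.2 ∈ {y | ∃ h ∈ D.GG t, h • B = y} :=
      orbit_Dd hL hT hA mB ▸ ax_mem_Dd hL hA _ _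
    rw [← Set.ncard_coe_finset, ← Set.ncard_image_of_injective Y (MulAction.injective g), ← hY]
    congr 1
    ext b
    rw [Finset.mem_coe, Finset.mem_filter, mem_DdF]
    constructor
    · rintro ⟨-, k, hk, rfl, e'⟩
      exact ⟨_, ⟨g⁻¹ * k, Subgroup.mem_inf.2 ⟨mul_mem (inv_mem hg) hk, show (g⁻¹).1 (k.1 B) = B by
        rw [e', ← e]; exact unit_inj g B⟩, rfl⟩, unit_surj g _⟩
    · rintro ⟨_, ⟨k, ⟨hk, e'⟩, rfl⟩, rfl⟩
      exact ⟨Dd_GG hL hT hA (mul_mem hg hk) mA, g * k, mul_mem hg hk, rfl, by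
        rw [mul_ap, show k.1 B = B from e']; exact e⟩
  have e2 : ∑ x : D.I × F2, ((DdF a).filter fun b => Eqv t A B b (D.ax x.1 x.2)).card =
      ∑ b ∈ DdF a, nE t A B b := by
    simp only [nE, Finset.card_filter]
    exact Finset.sum_comm
  have e3 : ∑ b ∈ DdF a, nE t A B b = ∑ k, o k * n k := by
    rw [sum_DdF hA]
    refine Finset.sum_congr rfl fun k _ => ?_
    rw [Finset.sum_congr rfl (g := fun _ => n k) fun b hb => by
      obtain ⟨n, hn', rfl⟩ := mem_orbF.1 hb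
      rw [nE_N hn', hn], Finset.sum_const, card_orbF hL hT hA, smul_eq_mul]
  rw [Finset.sum_congr rfl fun x _ => e1 x, Finset.sum_const, Finset.card_univ, Fintype.card_prod,
    hL.card, e3, ZMod.card, smul_eq_mul] at e2
  rw [← e2, ← h3, S2]
  ring

/-! ### the subgroup generated by `CN R` and `T` -/

theorem OrbC_ap {C : Subgroup D.Γ} {b x : D.V} (h : x ∈ OrbC C b) {n : D.Γ} (hn : n ∈ C) :
    n.1 x ∈ OrbC C b := by
  obtain ⟨m, hm, rfl⟩ := h
  exact ⟨n * m, mul_mem hn hm, rfl⟩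

open Classical in
/-- the orbit under a finite subgroup as a finite set -/
def orbH (C : Subgroup D.Γ) [Finite C] (b : D.V) : Finset D.V :=
  haveI := Fintype.ofFinite C
  Finset.univ.image fun n : C => n • b

theorem mem_orbH' (C : Subgroup D.Γ) [Finite C] (b x : D.V) :
    x ∈ orbH C b ↔ ∃ n : C, n • b = x := by
  simp only [orbH, Finset.mem_image, Finset.mem_univ, true_and]

theorem mem_orbH {C : Subgroup D.Γ} [Finite C] {b x : D.V} : x ∈ orbH C b ↔ x ∈ OrbC C b :=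
  (mem_orbH' C b x).trans ⟨fun ⟨n, e⟩ => ⟨n.1, n.2, e⟩, fun ⟨n, hn, e⟩ => ⟨⟨n, hn⟩, e⟩⟩

/-- the coset representatives -/
def gH (h : Fin 7 → D.N) (u : Cl) (x : Fin 7 × F2) : D.Γ := D.xq (x.2 • u) * (h x.1).1
/-- the centraliser of the four-group -/
def BH (D : Dat) (R : Set D.Γ) : Subgroup D.Γ := D.CN R ⊓ Subgroup.centralizer {D.xq Om}

variable {R : Set D.Γ} {F : AddSubgroup Cl} {T : D.Γ} {f : Fin 7 → Cl} {h : Fin 7 → D.N} {u : Cl}
  {p1 : D.I} {m : ℕ} {b : Fin (m + 1) → D.V} {nb : Fin (m + 1) → Fin 7 → F2 → Fin (m + 1)}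
  {o' s' : Fin (m + 1) → ℕ} {par' : Fin (m + 1) → Fin (m + 1)}

namespace HypH

variable (H : HypH t a R F T f h u p1 m b nb o' s' par')
include H

theorem fin : Finite (D.CN R) := Nat.finite_of_card_ne_zero (by rw [H.card]; norm_num)

theorem ap (v : D.V) : T.1 (T.1 v) = v := by rw [← mul_ap, H.sq]; rfl

theorem gH_mem (x : Fin 7 × F2) : gH h u x ∈ D.CN R := by
  refine mul_mem ((H.qC _).2 ?_) (H.hC _).1
  rcases F2_cases x.2 with e | e <;> rw [e]
  · rw [zero_smul]; exact zero_mem _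
  · rw [one_smul]; exact H.odd.1

theorem dec : ∃ e : D.BH R × (Fin 7 × F2) ≃ D.CN R, ∀ y, (e y).1 = y.1.1 * gH h u y.2 := by
  have c1 : ∀ n : D.N, ∀ i, n • f i = Om →
      ∃ δ, n.1⁻¹ * D.xq Om * n.1⁻¹⁻¹ = D.zp δ * D.xq (f i) := fun n i e => by
    obtain ⟨δ, e'⟩ := Ah_spec n⁻¹ Om
    rw [← smul_cl, inv_smul_eq_iff.2 e.symm] at e'
    exact ⟨δ, e'⟩
  choose δ hδ using fun i => c1 (h i) i (H.hC i).2
  have c2 : ∀ x, (gH h u x)⁻¹ * D.xq Om * gH h u x = D.zp (x.2 + δ x.1) * D.xq (f x.1) := fun x => by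
    have e := D.zx_comm 0 0 Om (x.2 • u)
    rw [Bf_Om, Pi.smul_apply, H.odd.2, smul_eq_mul, mul_one, zp_zero, one_mul, one_mul,
      ← mul_assoc, ← D.zp_comm (D.xq_mem _)] at e
    rw [← conj_zx (inv_mem (h x.1).2) (hδ x.1), gH]
    calc _ = (h x.1).1⁻¹ * ((D.xq (x.2 • u))⁻¹ * (D.xq Om * D.xq (x.2 • u))) * (h x.1).1 := by group
      _ = _ := by rw [e]; group
  refine ⟨Equiv.ofBijective (fun y => ⟨y.1.1 * gH h u y.2, mul_mem y.1.2.1 (H.gH_mem _)⟩)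
    ⟨fun y y' e => ?_, fun n => ?_⟩, fun _ => rfl⟩
  · have e1 : y.1.1 * gH h u y.2 = y'.1.1 * gH h u y'.2 := congrArg Subtype.val e
    have c3 : ∀ y : D.BH R × (Fin 7 × F2), (y.1.1 * gH h u y.2)⁻¹ * D.xq Om * (y.1.1 * gH h u y.2) =
        D.zp (y.2.2 + δ y.2.1) * D.xq (f y.2.1) := fun y => by
      rw [← c2]
      calc _ = (gH h u y.2)⁻¹ * (y.1.1⁻¹ * (D.xq Om * y.1.1)) * gH h u y.2 := by group
        _ = _ := by rw [← Subgroup.mem_centralizer_singleton_iff.1 y.1.2.2, inv_mul_cancel_left]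
    obtain ⟨e2, e3⟩ := D.zp_xq_inj ((c3 y).symm.trans (e1 ▸ c3 y'))
    have e4 := H.finj e3
    rw [e4] at e2
    have e5 : y.2 = y'.2 := Prod.ext e4 (add_right_cancel e2)
    rw [e5] at e1
    exact Prod.ext (Subtype.ext (mul_right_cancel e1)) e5
  · obtain ⟨i, e⟩ := H.fr ⟨n.1, n.2.1⟩ n.2
    obtain ⟨ε, e'⟩ := c1 _ i e
    have e1 := c2 (i, ε + δ i)
    rw [add_assoc, F2_aa, add_zero, ← e'] at e1
    refine ⟨(⟨n.1 * (gH h u (i, ε + δ i))⁻¹, Subgroup.mem_inf.2 ⟨mul_mem n.2 (inv_mem (H.gH_mem _)),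
      Subgroup.mem_centralizer_singleton_iff.2 ?_⟩⟩, (i, ε + δ i)),
      Subtype.ext (inv_mul_cancel_right _ _)⟩
    generalize gH h u (i, ε + δ i) = g at e1
    calc _ = n.1 * (g⁻¹ * D.xq Om * g) * g⁻¹ := by group
      _ = _ := by rw [e1]; group

theorem step (hL : HypL D) (hT : HypT t) (hA : HypA t p0 a w s o par) {β : D.Γ} (hβ : β ∈ D.BH R)
    (x : Fin 7 × F2) (k : Fin (m + 1)) :
    T.1 ((β * gH h u x).1 (b k)) ∈ OrbC (D.CN R) (b (nb k x.1 x.2)) := by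
  have h1 : T * β * T⁻¹ ∈ D.CN R := by
    obtain ⟨g1, g2⟩ := Subgroup.mem_inf.1 H.tG
    refine Subgroup.mem_inf.2 ⟨cent_GG hL hT hA (mul_mem (mul_mem g1 (N_le_GG t hβ.1.1)) (inv_mem g1)) ?_,
      mul_mem (mul_mem g2 (Subgroup.mem_inf.1 hβ.1).2) (inv_mem g2)⟩
    obtain ⟨e, he⟩ := H.tz
    have e1 : β * (T * D.z * T⁻¹) = T * D.z * T⁻¹ * β := by
      rw [he, ← mul_assoc, D.zp_comm hβ.1.1, mul_assoc, mul_assoc,
        Subgroup.mem_centralizer_singleton_iff.1 hβ.2]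
    have e2 : T⁻¹ = T := inv_eq_of_mul_eq_one_right H.sq
    rw [e2] at e1 ⊢
    calc _ = T * (β * (T * D.z * T)) * T⁻¹ := by group
      _ = (T * T) * D.z * (T * β * T⁻¹) := by rw [e1]; group
      _ = _ := by rw [H.sq, one_mul, e2]
  have := OrbC_ap (H.nbr k x.1 x.2) h1
  rwa [mul_ap, unit_inj, mul_ap] at this

theorem disj (hL : HypL D) (hT : HypT t) (hA : HypA t p0 a w s o par) {x : D.V} {k l : Fin (m + 1)}
    (hk : x ∈ OrbC (D.CN R) (b k)) (hl : x ∈ OrbC (D.CN R) (b l)) : k = l := by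
  have key : ∀ {v y : D.V}, y ∈ OrbC (D.CN R) v → inv2 v = inv2 y := by
    rintro v _ ⟨n, hn, rfl⟩
    exact (inv23_N hn.1 v).1.symm
  refine H.sep k l ((key hk).trans (key hl).symm) fun i ε => ?_
  obtain ⟨n, hn, rfl⟩ := hk
  obtain ⟨n', hn', e'⟩ := hl
  obtain ⟨e, he⟩ := H.dec
  obtain ⟨y, hy⟩ := e.surjective ⟨gH h u (i, ε) * n⁻¹ * n',
    mul_mem (mul_mem (H.gH_mem _) (inv_mem hn)) hn'⟩
  have := H.step hL hT hA y.1.2 y.2 l
  rw [← he, hy, mul_ap, e', mul_ap, unit_inj] at this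
  exact ⟨_, _, (key (H.nbr k i ε)).trans (key this).symm⟩

open Classical in
theorem count_eq (hL : HypL D) (hT : HypT t) (hA : HypA t p0 a w s o par) [Finite (D.CN R)]
    (k l : Fin (m + 1)) :
    ((orbH (D.CN R) (b k)).filter fun x => T.1 x ∈ OrbC (D.CN R) (b l)).card * Nat.card (D.CN R) =
      (orbH (D.CN R) (b k)).card * (Finset.univ.filter fun x : Fin 7 × F2 => nb k x.1 x.2 = l).card *
        Nat.card (D.BH R) := by
  letI := Fintype.ofFinite (D.CN R)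
  haveI : Finite (D.BH R) := Finite.of_injective _ (Subgroup.inclusion_injective inf_le_left)
  letI := Fintype.ofFinite (D.BH R)
  obtain ⟨e, he⟩ := H.dec
  let φ : D.V → ℕ := fun x => if T.1 x ∈ OrbC (D.CN R) (b l) then 1 else 0
  have e1 : ∀ y, φ (e y • b k) = if nb k y.2.1 y.2.2 = l then 1 else 0 := fun y => by
    have := H.step hL hT hA y.1.2 y.2 k
    rw [← he] at this
    exact if_congr ⟨fun h => H.disj hL hT hA this h, fun h => h ▸ this⟩ rfl rfl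
  have e2 := sum_orbit (G := D.CN R) (b k) φ _ (mem_orbH' _ _)
  rw [← Equiv.sum_comp e, Fintype.sum_prod_type, Finset.sum_congr rfl fun β _ =>
    (Finset.sum_congr rfl fun x _ => e1 (β, x)).trans
      (Finset.card_filter (fun x : Fin 7 × F2 => nb k x.1 x.2 = l) _).symm,
    Finset.sum_const, ← Finset.card_filter, Finset.card_univ,
    ← Nat.card_eq_fintype_card, smul_eq_mul] at e2
  have e6 := sum_orbit (G := D.CN R) (b k) (fun _ => 1) _ (mem_orbH' _ _)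
  rw [Finset.sum_const, Finset.sum_const, smul_eq_mul, smul_eq_mul, mul_one, mul_one,
    Finset.card_univ, ← Nat.card_eq_fintype_card] at e6
  rw [e6, mul_assoc, mul_comm _ (Nat.card (D.BH R)), e2]
  ring

theorem orb0 {x : D.V} : x ∈ OrbC (D.CN R) (b 0) ↔ ∃ p η, D.cls p ∈ F ∧ x = D.ax p η := by
  constructor
  · rintro ⟨n, hn, rfl⟩
    obtain ⟨p, ε, e1, -, e3⟩ := act_ax ⟨n, hn.1⟩ p1
    exact ⟨p, 0 + ε, e1 ▸ H.inv _ hn _ H.b0.2, H.b0.1 ▸ e3 0⟩
  · rintro ⟨p, η, hp, rfl⟩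
    exact H.tr p η hp

open Classical in
theorem card_short : (Finset.univ.filter fun x : D.I × F2 => D.cls x.1 ∈ F).card = 42 := by
  have := H.sh
  rw [show (Finset.univ.filter fun x : D.I × F2 => D.cls x.1 ∈ F) =
    (Finset.univ.filter fun p => D.cls p ∈ F) ×ˢ Finset.univ from by ext; simp, Finset.card_product,
    this, Finset.card_univ, ZMod.card]

theorem card_orb0 [Finite (D.CN R)] : (orbH (D.CN R) (b 0)).card = 42 := by
  classical
  rw [← H.card_short]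
  symm
  refine Finset.card_bij (fun x _ => D.ax x.1 x.2) (fun x hx => ?_) (fun x _ y _ e => ?_)
    fun y hy => ?_
  · exact mem_orbH.2 (H.tr _ _ (Finset.mem_filter.1 hx).2)
  · exact Prod.ext (ax_inj e).1 (ax_inj e).2
  · obtain ⟨p, η, hp, rfl⟩ := H.orb0.1 (mem_orbH.1 hy)
    exact ⟨(p, η), Finset.mem_filter.2 ⟨Finset.mem_univ _, hp⟩, rfl⟩

theorem card_orb (hL : HypL D) (hT : HypT t) (hA : HypA t p0 a w s o par) [Finite (D.CN R)]
    (k : Fin (m + 1)) : (orbH (D.CN R) (b k)).card = o' k := by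
  classical
  haveI : Finite (D.BH R) := Finite.of_injective _ (Subgroup.inclusion_injective inf_le_left)
  induction k using WellFoundedLT.induction with
  | ind k ih =>
  by_cases hk : k = 0
  · rw [hk, H.card_orb0, H.o0]
  obtain ⟨h1, ⟨i, ε, h2⟩, h3⟩ := H.edge k hk
  have h4 := H.count_eq hL hT hA k (par' k)
  have h5 : ((orbH (D.CN R) (b k)).filter fun x => T.1 x ∈ OrbC (D.CN R) (b (par' k))).card =
      ((orbH (D.CN R) (b (par' k))).filter fun x => T.1 x ∈ OrbC (D.CN R) (b k)).card := by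
    refine Finset.card_nbij' (fun x => T.1 x) (fun x => T.1 x) (fun x hx => ?_) (fun x hx => ?_)
      (fun x _ => H.ap x) fun x _ => H.ap x
    all_goals
      simp only [Finset.coe_filter, mem_orbH, Set.mem_ofPred_eq, H.ap] at hx ⊢
      exact hx.symm
  rw [h5, H.count_eq hL hT hA] at h4
  replace h4 := Nat.eq_of_mul_eq_mul_right Nat.card_pos h4
  have h6 : 0 < (orbH (D.CN R) (b (par' k))).card *
      (Finset.univ.filter fun x : Fin 7 × F2 => nb (par' k) x.1 x.2 = k).card :=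
    mul_pos (Finset.card_pos.2 ⟨_, mem_orbH.2 ⟨1, one_mem _, rfl⟩⟩)
      (Finset.card_pos.2 ⟨(i, ε), Finset.mem_filter.2 ⟨Finset.mem_univ _, h2⟩⟩)
  rw [h4] at h6
  rw [ih _ h1] at h4
  exact (Nat.eq_of_mul_eq_mul_right (Nat.pos_of_mul_pos_left h6) (h3.symm.trans h4)).symm

theorem inv_K (hL : HypL D) (hT : HypT t) (hA : HypA t p0 a w s o par) {g : D.Γ}
    (hg : g ∈ D.CN R ⊔ Subgroup.zpowers T) {x : D.V} (hx : ∃ k, x ∈ OrbC (D.CN R) (b k)) :
    ∃ k, g.1 x ∈ OrbC (D.CN R) (b k) := by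
  let St : Subgroup D.Γ :=
    { carrier := {g | ∀ x, (∃ k, x ∈ OrbC (D.CN R) (b k)) ↔ ∃ k, g.1 x ∈ OrbC (D.CN R) (b k)}
      one_mem' := fun _ => Iff.rfl
      mul_mem' := fun {g h} hg hh x => (hh x).trans (hg _)
      inv_mem' := fun {g} hg x => by rw [hg ((g⁻¹).1 x), unit_surj] }
  have ht : ∀ x, (∃ k, x ∈ OrbC (D.CN R) (b k)) → ∃ k, T.1 x ∈ OrbC (D.CN R) (b k) := by
    rintro _ ⟨k, n, hn, rfl⟩
    obtain ⟨e, he⟩ := H.dec
    obtain ⟨y, hy⟩ := e.surjective ⟨n, hn⟩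
    have := H.step hL hT hA y.1.2 y.2 k
    rw [← he, hy] at this
    exact ⟨_, this⟩
  have : D.CN R ⊔ Subgroup.zpowers T ≤ St := sup_le
    (fun n hn x => ⟨fun ⟨k, hk⟩ => ⟨k, OrbC_ap hk hn⟩, fun ⟨k, hk⟩ => ⟨k, by
      have := OrbC_ap hk (inv_mem hn); rwa [unit_inj] at this⟩⟩)
    (Subgroup.zpowers_le.2 fun x => ⟨ht x, fun h => by have := ht _ h; rwa [H.ap] at this⟩)
  exact (this hg x).1 hx

theorem reach (k : Fin (m + 1)) : ∃ g ∈ D.CN R ⊔ Subgroup.zpowers T, g.1 (b 0) = b k := by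
  induction k using WellFoundedLT.induction with
  | ind k ih =>
  by_cases hk : k = 0
  · exact ⟨1, one_mem _, hk ▸ rfl⟩
  obtain ⟨h1, ⟨i, ε, h2⟩, -⟩ := H.edge k hk
  obtain ⟨g, hg, e⟩ := ih _ h1
  obtain ⟨n, hn, e'⟩ := H.nbr (par' k) i ε
  refine ⟨n⁻¹ * T * gH h u (i, ε) * g, mul_mem (mul_mem (mul_mem (Subgroup.mem_sup_left (inv_mem hn))
    (Subgroup.mem_sup_right (Subgroup.mem_zpowers T))) (Subgroup.mem_sup_left (H.gH_mem _))) hg, ?_⟩
  rw [mul_ap, e, mul_ap, mul_ap, gH, mul_ap, ← e', unit_inj, h2]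

theorem K_le : D.CN R ⊔ Subgroup.zpowers T ≤ CG t R :=
  sup_le (inf_le_inf_right _ (N_le_GG t)) (Subgroup.zpowers_le.2 H.tG)

open Classical in
theorem cnt_ap {n : D.Γ} (hn : n ∈ D.CN R) (v : D.V) :
    (Finset.univ.filter fun x : D.I × F2 => D.cls x.1 ∈ F ∧ D.ip v (D.ax x.1 x.2) = 0).card ≤
    (Finset.univ.filter fun x : D.I × F2 =>
      D.cls x.1 ∈ F ∧ D.ip (n.1 v) (D.ax x.1 x.2) = 0).card := by
  have h : ∀ x : D.I × F2, ∃ y : D.I × F2, n.1 (D.ax x.1 x.2) = D.ax y.1 y.2 ∧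
      (D.cls x.1 ∈ F → D.cls y.1 ∈ F) := fun x => by
    obtain ⟨p, ε, e1, -, e3⟩ := act_ax ⟨n, hn.1⟩ x.1
    exact ⟨(p, x.2 + ε), e3 _, fun h => e1 ▸ H.inv _ hn _ h⟩
  choose π hπ hπ' using h
  refine Finset.card_le_card_of_injOn π (fun x hx => ?_) fun x _ y _ e => ?_
  · simp only [Finset.coe_filter, Finset.mem_univ, true_and, Set.mem_ofPred_eq] at hx ⊢
    exact ⟨hπ' x hx.1, by rw [← hπ, (D.N_le_Au hn.1).1, hx.2]⟩
  · have : D.ax x.1 x.2 = D.ax y.1 y.2 := by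
      rw [← unit_inj n (D.ax x.1 x.2), hπ, e, ← hπ, unit_inj]
    exact Prod.ext (ax_inj this).1 (ax_inj this).2

end HypH

theorem card_He (hL : HypL D) (hT : HypT t) (hA : HypA t p0 a w s o par)
    (H : HypH t a R F T f h u p1 m b nb o' s' par') :
    Nat.card (D.CN R ⊔ Subgroup.zpowers T : Subgroup D.Γ) = 4030387200 := by
  classical
  have := H.fin
  set K := D.CN R ⊔ Subgroup.zpowers T with hK
  have hCK : D.CN R ≤ K := le_sup_left
  have hKA : K ≤ D.Au := fun g hg => GG_le_Au hT (H.K_le hg).1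
  let X : Finset D.V := Finset.univ.biUnion fun k => orbH (D.CN R) (b k)
  have mX : ∀ x, x ∈ X ↔ ∃ k, x ∈ OrbC (D.CN R) (b k) := fun x => by
    simp only [X, Finset.mem_biUnion, Finset.mem_univ, true_and, mem_orbH]
  have sX : ∀ φ : D.V → ℕ, ∑ x ∈ X, φ x = ∑ k, ∑ x ∈ orbH (D.CN R) (b k), φ x := fun φ =>
    Finset.sum_biUnion fun k _ l _ h => Finset.disjoint_left.2 fun x h1 h2 =>
      h (H.disj hL hT hA (mem_orbH.1 h1) (mem_orbH.1 h2))
  have b0 := H.b0.1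
  have o1 : {y | ∃ g ∈ K, g • D.ax p1 0 = y} = ↑X := by
    ext y
    rw [Finset.mem_coe, mX, ← b0]
    refine ⟨fun ⟨g, hg, e⟩ => e ▸ H.inv_K hL hT hA hg ⟨0, 1, one_mem _, rfl⟩, ?_⟩
    rintro ⟨k, n, hn, rfl⟩
    obtain ⟨g, hg, e⟩ := H.reach k
    exact ⟨n * g, mul_mem (hCK hn) hg, by rw [← e]; rfl⟩
  have c1 : X.card = 24990 := by
    rw [Finset.card_eq_sum_ones, sX, ← H.tot]
    exact Finset.sum_congr rfl fun k _ => by rw [← Finset.card_eq_sum_ones, H.card_orb hL hT hA]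
  have c2 : (X.filter fun y => D.ip y (D.ax p1 0) = 0).card = 315 := by
    have e0 : ∀ n ∈ D.CN R, ∀ v, (X.filter fun y => D.ip y v = 0).card ≤
        (X.filter fun y => D.ip y (n.1 v) = 0).card := fun n hn v => by
      refine Finset.card_le_card_of_injOn (fun y => n.1 y) (fun y hy => ?_)
        (MulAction.injective n).injOn
      simp only [Finset.coe_filter, Set.mem_ofPred_eq, mX] at hy ⊢
      exact ⟨H.inv_K hL hT hA (hCK hn) hy.1, by rw [(D.N_le_Au hn.1).1, hy.2]⟩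
    have e1 : ∑ x ∈ Finset.univ.filter fun x : D.I × F2 => D.cls x.1 ∈ F,
        (X.filter fun y => D.ip y (D.ax x.1 x.2) = 0).card =
        42 * (X.filter fun y => D.ip y (D.ax p1 0) = 0).card := by
      rw [← H.card_short, ← smul_eq_mul, ← Finset.sum_const]
      refine Finset.sum_congr rfl fun x hx => ?_
      obtain ⟨n, hn, e⟩ := H.tr x.1 x.2 (Finset.mem_filter.1 hx).2
      rw [← e, b0]
      refine le_antisymm ?_ (e0 n hn _)
      have := e0 _ (inv_mem hn) (n.1 (D.ax p1 0))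
      rwa [unit_inj] at this
    have e2 : ∑ x ∈ Finset.univ.filter fun x : D.I × F2 => D.cls x.1 ∈ F,
        (X.filter fun y => D.ip y (D.ax x.1 x.2) = 0).card = ∑ y ∈ X, (Finset.univ.filter
          fun x : D.I × F2 => D.cls x.1 ∈ F ∧ D.ip y (D.ax x.1 x.2) = 0).card := by
      rw [Finset.sum_congr rfl fun x _ => Finset.card_filter _ _, Finset.sum_comm]
      exact Finset.sum_congr rfl fun y _ => by rw [← Finset.card_filter, Finset.filter_filter]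
    have e3 : ∀ k, ∑ y ∈ orbH (D.CN R) (b k), (Finset.univ.filter
        fun x : D.I × F2 => D.cls x.1 ∈ F ∧ D.ip y (D.ax x.1 x.2) = 0).card = o' k * s' k := fun k => by
      rw [← H.card_orb hL hT hA, ← smul_eq_mul, ← Finset.sum_const]
      refine Finset.sum_congr rfl fun y hy => ?_
      obtain ⟨n, hn, rfl⟩ := mem_orbH.1 hy
      rw [← H.cnt k]
      refine le_antisymm ?_ (H.cnt_ap hn _)
      have := H.cnt_ap (inv_mem hn) (n.1 (b k))
      rwa [unit_inj] at this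
    rw [e2, sX, Finset.sum_congr rfl fun k _ => e3 k, H.totF] at e1
    omega
  have o2 : {y | ∃ g ∈ K ⊓ MulAction.stabilizer D.Γ (D.ax p1 0), g • D.ax p1 1 = y} =
      ↑(X.filter fun y => D.ip y (D.ax p1 0) = 0) := by
    ext y
    rw [Finset.mem_coe, Finset.mem_filter, mX]
    constructor
    · rintro ⟨g, ⟨hg, e⟩, rfl⟩
      refine ⟨H.inv_K hL hT hA hg ⟨0, H.tr _ _ H.b0.2⟩, ?_⟩
      have := (hKA hg).1 (D.ax p1 1) (D.ax p1 0)
      rw [ip_ax, show g.1 (D.ax p1 0) = D.ax p1 0 from e] at this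
      exact this
    · rintro ⟨⟨k, n, hn, rfl⟩, h0⟩
      obtain ⟨p, η, hp, e⟩ := H.orb0.1 ⟨n⁻¹, inv_mem hn, rfl⟩
      rw [b0] at e
      obtain ⟨g, hg, e1, e2⟩ := H.std k p η hp (by
        rw [← (D.N_le_Au hn.1).1, ← e, unit_surj, h0])
      refine ⟨n * g⁻¹, Subgroup.mem_inf.2 ⟨mul_mem (hCK hn) (inv_mem hg), ?_⟩, ?_⟩
      · change n.1 ((g⁻¹).1 (D.ax p1 0)) = D.ax p1 0
        conv_lhs => rw [← e2]
        rw [unit_inj, ← e, unit_surj]
      · change n.1 ((g⁻¹).1 (D.ax p1 1)) = _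
        rw [← e1, unit_inj]
  have o3 : K ⊓ MulAction.stabilizer D.Γ (D.ax p1 0) ⊓ MulAction.stabilizer D.Γ (D.ax p1 1) =
      D.CN R ⊓ MulAction.stabilizer D.Γ (D.ax p1 0) := by
    ext g
    constructor
    · rintro ⟨⟨hg, e0⟩, e1⟩
      refine ⟨⟨cent_GG hL hT hA (H.K_le hg).1 ?_, (H.K_le hg).2⟩, e0⟩
      have key : ∀ η, g.1 (D.ax p1 η) = D.ax p1 η →
          g * (D.zp η * D.xq (D.cls p1)) = D.zp η * D.xq (D.cls p1) * g := fun η e => by
        have := tt_conj (hKA hg) (D.ax p1 η)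
        rw [e, tt_ax (hL.ips p1)] at this
        exact Units.ext this
      have h0 := key 0 e0
      have h1 := key 1 e1
      rw [zp_zero, one_mul] at h0
      rw [zp_one, mul_assoc, ← h0, ← mul_assoc, ← mul_assoc] at h1
      exact mul_right_cancel h1
    · rintro ⟨hg, e0⟩
      refine ⟨⟨hCK hg, e0⟩, ?_⟩
      obtain ⟨s, ε, -, -, e⟩ := act_ax ⟨g, hg.1⟩ p1
      obtain ⟨rfl, h⟩ := ax_inj ((e 0).symm.trans e0)
      rw [zero_add] at h
      have := e 1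
      rwa [h, add_zero] at this
  have o4 : {y | ∃ g ∈ D.CN R, g • D.ax p1 0 = y} = ↑(orbH (D.CN R) (b 0)) :=
    Set.ext fun y => by rw [Finset.mem_coe, mem_orbH, b0]; rfl
  have h1 := card_stab_mul K (D.ax p1 0)
  have h2 := card_stab_mul (K ⊓ MulAction.stabilizer D.Γ (D.ax p1 0)) (D.ax p1 1)
  have h3 := card_stab_mul (D.CN R) (D.ax p1 0)
  rw [o1, Set.ncard_coe_finset, c1] at h1
  rw [o2, Set.ncard_coe_finset, c2, o3] at h2
  rw [o4, Set.ncard_coe_finset, H.card_orb0, H.card] at h3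
  omega

end Dat

end

end CfsgMO
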