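/-
Subgroups of the Monster: monomial class matrices.
-/
import Cfsg.Agent.MO.SbD

set_option autoImplicit false
set_option linter.unusedSimpArgs false
set_option linter.unusedVariables false
set_option maxRecDepth 100000

namespace CfsgMO
namespace Sf

open CfsgH5 CfsgH6 Cfsg Finset Matrix Cw Dat
open scoped Pointwise

noncomputable section

/-- the code of the identity -/
def idP : ℕ := 0xbdab49ca307b9ac5a928398a418820

abbrev M2 := Matrix (Fin 24) (Fin 24) F2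

/-- `A` is the class matrix of the monomial map with codes `p` and `s` -/
def MA (A : M2) (p s : ℕ) : Prop :=
  ∃ (g : Co0) (σ : Cfsg.M24), Mono g σ.1 (ts s) ∧ CM.code σ = p ∧ isC s = true ∧ ((C0 0).ρ g).1 = A

theorem ts_xor (a b : ℕ) : ts (a ^^^ b) = symmDiff (ts a) (ts b) := by
  ext x
  simp only [Enc.mem_toSet, Nat.testBit_xor, Finset.mem_symmDiff]
  cases a.testBit (E24.enc x) <;> cases b.testBit (E24.enc x) <;> simp

theorem sup_ts {a : ℕ} (h : isC a = true) : ts a ∈ CfsgH5.Sup :=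
  (mem_Sup _).2 (by rw [mk_ts (isC_lt h)]; exact h)

theorem ts_inj {a b : ℕ} (ha : isC a = true) (hb : isC b = true) (h : ts a = ts b) : a = b := by
  rw [← mk_ts (isC_lt ha), h, mk_ts (isC_lt hb)]

theorem MA.mul {A B : M2} {p s q t : ℕ} (h : MA A p s) (k : MA B q t) :
    MA (A * B) (mul24 p q) (Nat.xor s (act24 p t)) := by
  obtain ⟨g, σ, h1, rfl, h3, rfl⟩ := h
  obtain ⟨g', τ, k1, rfl, k3, rfl⟩ := k
  refine ⟨g * g', σ * τ, ?_, CM.code_mul _ _, isC_xor h3 (inM24_code σ t k3), by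
    rw [map_mul, Units.val_mul]⟩
  have := mono_mul h1 k1
  rwa [show σ.1 • ts t = ts (act24 (CM.code σ) t) from smul_ts_eq (g := σ) (isC_lt k3) rfl,
    ← ts_xor] at this

theorem MA.one : MA 1 idP 0 :=
  ⟨1, 1, by rw [show ts 0 = ∅ by decide +kernel]; exact mono_one, CM.code_one, isC_zero, by
    rw [map_one, Units.val_one]⟩

theorem MA.inj {A B : M2} {p s : ℕ} (h : MA A p s) (k : MA B p s) : A = B := by
  obtain ⟨g, σ, h1, rfl, h3, rfl⟩ := h
  obtain ⟨g', τ, k1, k2, k3, rfl⟩ := k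
  rw [CM.code_inj k2] at k1
  rw [mono_ext h1 k1]

theorem sp_neg (σ : Equiv.Perm GolayPt) (s : ℕ) (v : V) :
    signedPerm σ (ts (Nat.xor s 16777215)) v = -signedPerm σ (ts s) v := by
  funext i
  have : ∀ i : GolayPt, (16777215 : ℕ).testBit (E24.enc i) = true := by decide +kernel
  simp only [signedPerm, Enc.mem_toSet, tb_xor, this, Pi.neg_apply]
  cases s.testBit (E24.enc i) <;> simp

theorem MA.neg {A : M2} {p s : ℕ} (h : MA A p s) : MA A p (Nat.xor s 16777215) := by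
  obtain ⟨g, σ, h1, rfl, h3, rfl⟩ := h
  have h4 : isC (Nat.xor s 16777215) = true := isC_xor h3 isC_all
  obtain ⟨g', k⟩ := exists_mono σ.2 (sup_ts h4)
  refine ⟨g', σ, k, rfl, h4, (C0 0).mat_ext fun v => ?_⟩
  rw [Crd.ρ_spec, Crd.ρ_spec, show g' • v = -(g • v) from Subtype.ext (by
    rw [k, sp_neg, AddSubgroup.coe_neg, h1]), Crd.φ_neg]

theorem MA.uniq {A : M2} {p s q t : ℕ} (h : MA A p s) (k : MA A q t) :
    p = q ∧ (s = t ∨ s = Nat.xor t 16777215) := by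
  obtain ⟨g, σ, h1, rfl, h3, rfl⟩ := h
  obtain ⟨g', τ, k1, rfl, k3, e⟩ := k
  have : Pm (g'⁻¹ * g) := ((C0 0).ρ_eq_one _).1 (by
    rw [map_mul, map_inv, Units.ext e, inv_mul_cancel])
  rcases this with h | h
  · have : Mono g τ.1 (ts t) := fun v => by
      rw [← k1, ← inv_smul_eq_iff.1 ((mul_smul _ _ _).symm.trans (h v))]
    obtain ⟨e1, e2⟩ := h1.unique this
    exact ⟨congrArg _ (Subtype.ext e1), Or.inl (ts_inj h3 k3 e2)⟩
  · have : Mono g τ.1 (ts (Nat.xor t 16777215)) := fun v => by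
      rw [sp_neg, ← k1, inv_smul_eq_iff.1 ((mul_smul _ _ _).symm.trans (h v)), co_neg,
        AddSubgroup.coe_neg]
    obtain ⟨e1, e2⟩ := h1.unique this
    exact ⟨congrArg _ (Subtype.ext e1), Or.inr (ts_inj h3 (isC_xor k3 isC_all) e2)⟩

theorem ma_NN {g : Co0} (h : g ∈ NN) : ∃ p s, MA ((C0 0).ρ g).1 p s := by
  obtain ⟨σ, hσ, c, hc, hm⟩ := mono_of_NN h
  exact ⟨_, mk c, g, ⟨σ, hσ⟩, by rwa [ts_mk], rfl, (mem_Sup c).1 hc, rfl⟩

theorem ma_mk {p s : ℕ} (hp : inM24 p = true) (hs : isC s = true) : ∃ A, MA A p s := by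
  obtain ⟨σ, -, rfl⟩ := in_CM hp
  obtain ⟨g, k⟩ := exists_mono σ.2 (sup_ts hs)
  exact ⟨_, g, σ, k, rfl, hs, rfl⟩

theorem ma_fix (n : DD.N) (hn : n • Om = Om) : ∃ p s, MA (DD.Ah n).1 p s := by
  obtain ⟨U, g, -, -, e1⟩ := (C0 0).of_N n
  have e1 : DD.Ah n = (C0 0).ρ g := e1
  rw [e1]
  refine ma_NN ?_
  rw [smul_cl, e1, Om, ← red_e8, ← C0_φ (e := 0), Crd.ρ_spec, Crd.φ_eq_iff] at hn
  obtain ⟨u, hu⟩ := hn
  obtain ⟨-, w, hw⟩ := cross_iff.1 (e8_cross (pp 0))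
  refine mem_NN_of (e8_cross (pp 0)) (cross_iff.2 ⟨by rw [co_norm, norm_e8], u + w, ?_⟩)
  rw [hu]
  conv_lhs => rw [hw]
  abel

theorem MA.div {u v : M2ˣ} {p s t : ℕ} (h : MA u.1 p s) (k : MA v.1 p t) :
    ∃ r, MA (u * v⁻¹).1 idP r := by
  obtain ⟨g, σ, h1, rfl, h3, e⟩ := h
  obtain ⟨g', τ, k1, k2, k3, e'⟩ := k
  obtain ⟨q, r, h⟩ := ma_NN (mul_mem h1.mem_NN (inv_mem k1.mem_NN))
  rw [map_mul, map_inv, Units.ext e, Units.ext e'] at h
  have h2 := h.mul ⟨g', τ, k1, k2, k3, e'⟩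
  rw [← Units.val_mul, inv_mul_cancel_right] at h2
  have h4 := (h2.uniq ⟨g, σ, h1, rfl, h3, e⟩).1
  obtain ⟨-, κ, -, rfl, -⟩ := id h
  have : κ * σ = σ := CM.code_inj ((CM.code_mul _ _).trans h4)
  rw [mul_eq_right.1 this, CM.code_one] at h
  exact ⟨r, h⟩

theorem act_id {s : ℕ} (h : isC s = true) : act24 idP s = s := by
  have := mk_smulM 1 (ts s)
  rw [one_smul, mk_ts (isC_lt h), CM.code_one] at this
  exact this.symm

theorem MA.isC {A : M2} {p s : ℕ} (h : MA A p s) : isC s = true := by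
  obtain ⟨-, -, -, -, h, -⟩ := h; exact h

theorem MA.sq {A : M2} {s : ℕ} (h : MA A idP s) : A * A = 1 := by
  have := h.mul h
  rw [act_id h.isC, show Nat.xor s s = 0 from Nat.xor_self s,
    show mul24 idP idP = idP by decide +kernel] at this
  exact this.inj MA.one

/-! ### The letters -/

def lpL : List ℕ := [0xb82d5a4e5183dcd62d4941cc520c41, 0x5883388a1c8f5140b46cd317aed7, 0xbba8ab116d7c52899d90286a219a40, 0x1c8c4a5ea13cd48b26307358f12c05, 0x84a86012620bdd6bd568530656a4f1, 0x7b6aca0ad059628b8412329c324d27, 0xb120da04c2415471be4cacd60bb931, 0x8dce24bdb0054d628e849ba4c0a14b, 0xbd6939460f7358b525073148310416, 0x5883388a1c8f5140b46cd317aed7, 0xbccb5585c87da098d1ac508f2190c0, 0x92e337592821cc51354c7d414b8e01, 0x5b1558d8177346649c480d0922c1f3, 0x5c6b3121b0b96d47982c01dc324949, 0x1dcf33241550a882b42f645d65c244, 0xb31c9396f091a2400662ab5685506f]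
def lsL : List ℕ := [3416079, 8536111, 1474854, 352547, 1728778, 1327290, 1188915, 421910, 1065303, 2245426, 10558]
/-- the permutation of a letter -/
def lp (a : ℕ) : ℕ := Bool.rec (kgd lpL (Nat.sub a 36)) idP (Nat.blt a 36)
/-- the signs of a letter -/
def ls (a : ℕ) : ℕ := Bool.rec (kgd lsL (Nat.sub a 25)) 0 (Nat.blt a 25)

theorem ma_mon {a : ℕ} (h : a < 19) : MA (mat2 24 (amat (25 + a))) (lp (25 + a)) (ls (25 + a)) := by
  have key : ∀ a < 19, inM24 (lp (25 + a)) = true ∧ isC (ls (25 + a)) = true ∧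
      (∀ i j : Fin 24, (mnT a).r.getD j 0 = i ↔ app24 (lp (25 + a)) (pn (pp j)) = pn (pp i)) ∧
      ∀ i : Fin 24, (mnT a).s.testBit i = (ls (25 + a)).testBit (pn (pp i)) := by decide +kernel
  obtain ⟨h1, h2, h3, h4⟩ := key a h
  obtain ⟨A, g, σ, k1, k2, -, rfl⟩ := ma_mk h1 h2
  refine ⟨g, σ, k1, k2, h2, (coA_mat 0 g).unique ?_⟩
  convert coA_mon h using 1
  ext i j
  refine (mat_mono k1 i j).trans ?_
  simp only [spm, of_apply, h3, h4, ← k2, ← pn_smulM, Enc.mem_toSet]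
  exact if_congr ⟨congrArg _, pn_inj⟩ rfl rfl

theorem ma_let {a : ℕ} (h : a < 52) : MA (mat2 24 (amat a)) (lp a) (ls a) := by
  by_cases h1 : a < 25
  · have : ∀ a < 25, lp a = idP ∧ ls a = 0 := by decide +kernel
    rw [amat_q h1, mat2_idA, (this a h1).1, (this a h1).2]
    exact MA.one
  by_cases h2 : a < 44
  · obtain ⟨b, rfl⟩ : ∃ b, a = 25 + b := ⟨a - 25, by omega⟩
    exact ma_mon (by omega)
  obtain ⟨b, rfl⟩ : ∃ b, a = 44 + b := ⟨a - 44, by omega⟩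
  have hb : b < 8 := by omega
  have key : ∀ b < 8, inM24 (lp (44 + b)) = true ∧ isC (ls (44 + b)) = true ∧
      mul24 (lp (36 + b)) (lp (44 + b)) = idP ∧
      Nat.xor (ls (36 + b)) (act24 (lp (36 + b)) (ls (44 + b))) = 0 := by decide +kernel
  obtain ⟨k1, k2, k3, k4⟩ := key b hb
  obtain ⟨B, hB⟩ := ma_mk k1 k2
  have h0 := ma_mon (a := 11 + b) (by omega)
  rw [show 25 + (11 + b) = 36 + b by omega] at h0
  have := h0.mul hB
  rw [k3, k4] at this
  have e := this.inj MA.one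
  have e2 : B = mat2 24 (amat (44 + b)) := left_inv_eq_right_inv (mul_eq_one_comm.1 e) (inv_amat b hb)
  exact e2 ▸ hB

end

end Sf
end CfsgMO
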