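/-
Subgroups of the Monster: a search through permutations.
-/
import Cfsg.Agent.MO.Sb3a

set_option autoImplicit false
set_option linter.unusedSimpArgs false
set_option linter.unusedVariables false
set_option maxRecDepth 100000

namespace CfsgMO
namespace Sf

open CfsgH5 CfsgH6 Cfsg Finset Matrix Cw Dat
open scoped Pointwise

noncomputable section

/-- `σ u = u' σ` -/
def Com (σ : Cfsg.M24) (u u' : ℕ) : Prop :=
  ∃ τ τ' : Cfsg.M24, CM.code τ = u ∧ CM.code τ' = u' ∧ σ * τ = τ' * σ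

theorem Com.mul {σ : Cfsg.M24} {u u' v v' : ℕ} (h : Com σ u u') (k : Com σ v v') :
    Com σ (mul24 u v) (mul24 u' v') := by
  obtain ⟨a, a', rfl, rfl, e⟩ := h
  obtain ⟨b, b', rfl, rfl, e'⟩ := k
  exact ⟨a * b, a' * b', CM.code_mul _ _, CM.code_mul _ _, by
    rw [← mul_assoc, e, mul_assoc, e', mul_assoc]⟩

theorem Com.one (σ : Cfsg.M24) : Com σ idP idP := ⟨1, 1, CM.code_one, CM.code_one, by simp⟩

theorem Com.app {σ : Cfsg.M24} {u u' : ℕ} (h : Com σ u u') (a : GolayPt) :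
    ∃ a', pn a' = app24 u (pn a) ∧ pn (σ • a') = app24 u' (pn (σ • a)) := by
  obtain ⟨τ, τ', rfl, rfl, e⟩ := h
  exact ⟨τ • a, pn_smulM _ _, by rw [← pn_smulM, ← mul_smul, e, mul_smul]⟩

/-- the permutation of a word -/
def pK (f : ℕ → ℕ) (w : List ℕ) (p : ℕ) (k : ℕ → Bool) : Bool :=
  List.rec (motive := fun _ => ℕ → Bool) k (fun a _ ih p => kfo (mul24 (f a) p) ih) w p

theorem pK_com {σ : Cfsg.M24} {f g : ℕ → ℕ} (h : ∀ a, Com σ (f a) (g a)) {w : List ℕ} {p q u v : ℕ}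
    (h0 : Com σ p q) (h1 : pK f w p (Nat.beq u) = true) (h2 : pK g w q (Nat.beq v) = true) :
    Com σ u v := by
  induction w generalizing p q with
  | nil => rwa [(beq_true_iff _ _).1 h1, (beq_true_iff _ _).1 h2]
  | cons a w ih =>
    change kfo _ _ = true at h1 h2
    rw [kfo_eq] at h1 h2
    exact ih ((h a).mul h0) h1 h2

abbrev Tr := ℕ × ℕ × List ℕ
abbrev Lev := ℕ × List Tr × List Tr × List ℕ

def okT (f g : ℕ → ℕ) (x : Tr) : Bool :=
  band (pK f x.2.2 idP (Nat.beq x.1)) (pK g x.2.2 idP (Nat.beq x.2.1))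

def okLev (f g : ℕ → ℕ) (v : Lev) : Bool :=
  band (Nat.blt v.1 24) <| band (CfsgH5.allL v.2.1 fun x => band (okT f g x) (Nat.beq (app24 x.1 v.1) v.1))
    (CfsgH5.allL v.2.2.1 (okT f g))

theorem okT_sound {σ : Cfsg.M24} {f g : ℕ → ℕ} (h : ∀ a, Com σ (f a) (g a)) {x : Tr}
    (e : okT f g x = true) : Com σ x.1 x.2.1 := by
  rw [okT, band_eq, Bool.and_eq_true] at e
  exact pK_com h (Com.one σ) e.1 e.2

def domL (L : List (ℕ × ℕ)) : ℕ := List.rec 0 (fun x _ s => Nat.lor s (Nat.shiftLeft 1 x.1)) L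
def imgL (a : ℕ) (L : List (ℕ × ℕ)) : ℕ :=
  List.rec 0 (fun x _ s => Bool.rec s (Nat.lor s (Nat.shiftLeft 1 x.2)) (CfsgMO.tb a x.1)) L

theorem tb_pw (s i j : ℕ) : (Nat.lor s (Nat.shiftLeft 1 i)).testBit j = true ↔
    s.testBit j = true ∨ i = j := by
  change (s ||| 1 <<< i).testBit j = true ↔ _
  rw [Nat.testBit_or, Nat.one_shiftLeft, Nat.testBit_two_pow]; simp

theorem tb_domL (L : List (ℕ × ℕ)) (j : ℕ) : (domL L).testBit j = true ↔ ∃ x ∈ L, x.1 = j := by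
  induction L with
  | nil => simp [domL]
  | cons x L ih =>
    change (Nat.lor (domL L) _).testBit j = true ↔ _
    rw [tb_pw, ih]; simp [or_comm]

theorem tb_imgL (a : ℕ) (L : List (ℕ × ℕ)) (j : ℕ) :
    (imgL a L).testBit j = true ↔ ∃ x ∈ L, a.testBit x.1 = true ∧ x.2 = j := by
  induction L with
  | nil => simp [imgL]
  | cons x L ih =>
    change (Bool.rec (imgL a L) (Nat.lor (imgL a L) _) (CfsgMO.tb a x.1) : ℕ).testBit j = true ↔ _
    rw [CfsgMO.tb_eq]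
    cases h : a.testBit x.1
    · simp [ih, h]
    · change (Nat.lor (imgL a L) _).testBit j = true ↔ _
      rw [tb_pw, ih]; simp [h, or_comm]

/-- the pairs are values of `σ` -/
def Ok (σ : Cfsg.M24) (L : List (ℕ × ℕ)) : Prop := ∀ x ∈ L, ∃ a, pn a = x.1 ∧ pn (σ • a) = x.2

def badA (a : ℕ) (L : List (ℕ × ℕ)) : Bool :=
  band (isC a) (band (Nat.beq (Nat.land a (domL L)) a) (bnot (kfo (imgL a L) isC)))

theorem badA_false {σ : Cfsg.M24} {L : List (ℕ × ℕ)} (h : Ok σ L) (a : ℕ) : badA a L ≠ true := by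
  intro e
  simp only [badA, band_eq, bnot_eq, Bool.and_eq_true, kfo_eq, beq_true_iff] at e
  obtain ⟨e1, e2, e3⟩ := e
  have : imgL a L = mk (σ • ts a) := Nat.eq_of_testBit_eq fun j => Bool.eq_iff_iff.2 (by
    rw [tb_imgL, Enc.testBit_mask]
    constructor
    · rintro ⟨x, hx, h1, rfl⟩
      obtain ⟨b, h2, h3⟩ := h x hx
      rw [← h3]
      refine ⟨pn_lt _, ?_⟩
      rw [E24.dec_enc]
      exact Finset.smul_mem_smul_finset ((Enc.mem_toSet _ _ _).2 (by rwa [← h2] at h1))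
    · rintro ⟨h1, h2⟩
      obtain ⟨b, hb, h3⟩ := Finset.mem_smul_finset.1 h2
      rw [Enc.mem_toSet] at hb
      have h4 := hb
      rw [← e2, tb_land, Bool.and_eq_true, tb_domL] at h4
      obtain ⟨x, hx, h5⟩ := h4.2
      obtain ⟨c, h6, h7⟩ := h x hx
      rw [pn_inj (h6.trans h5), h3] at h7
      exact ⟨x, hx, by rwa [h5], h7.symm.trans (pn_pt h1)⟩)
  rw [this, (mem_Sup _).1 ((smul_mem_Sup_iff σ).2 (sup_ts e1))] at e3
  exact absurd e3 (by decide)

def extK (T : List Tr) (b y : ℕ) (L : List (ℕ × ℕ)) (k : List (ℕ × ℕ) → Bool) : Bool :=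
  List.rec (motive := fun _ => List (ℕ × ℕ) → Bool) k
    (fun x _ ih L => kfo (app24 x.1 b) fun j => kfo (app24 x.2.1 y) fun z => ih ((j, z) :: L)) T L

theorem extK_sound {σ : Cfsg.M24} {T : List Tr} (hT : ∀ x ∈ T, Com σ x.1 x.2.1) (a : GolayPt)
    {L : List (ℕ × ℕ)} (h : Ok σ L) {k : List (ℕ × ℕ) → Bool}
    (e : extK T (pn a) (pn (σ • a)) L k = true) : ∃ L', Ok σ L' ∧ k L' = true := by
  induction T generalizing L with
  | nil => exact ⟨L, h, e⟩
  | cons x T ih =>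
    change (kfo (app24 x.1 (pn a)) fun j => kfo (app24 x.2.1 (pn (σ • a))) fun z =>
      extK T (pn a) (pn (σ • a)) ((j, z) :: L) k) = true at e
    rw [kfo_eq, kfo_eq] at e
    refine ih (fun y hy => hT y (List.mem_cons_of_mem _ hy)) (fun y hy => ?_) e
    rcases List.mem_cons.1 hy with rfl | hy
    · exact (hT x List.mem_cons_self).app a
    · exact h y hy

def dfs (leaf : List (ℕ × ℕ) → Bool) (ls : List Lev) (L : List (ℕ × ℕ)) : Bool :=
  List.rec (motive := fun _ => List (ℕ × ℕ) → Bool) leaf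
    (fun v _ ih L => allLt 24 fun y => kfo y fun y =>
      bor (anyL v.2.1 fun x => bnot (Nat.beq (app24 x.2.1 y) y)) <|
      bor (anyL L fun x => band (Nat.beq x.2 y) (bnot (Nat.beq x.1 v.1))) <|
      extK v.2.2.1 v.1 y L fun L' => bor (anyL v.2.2.2 fun a => badA a L') (ih L')) ls L

theorem dfs_cons (leaf : List (ℕ × ℕ) → Bool) (v : Lev) (ls : List Lev) (L : List (ℕ × ℕ)) :
    dfs leaf (v :: ls) L = allLt 24 fun y => kfo y fun y =>
      bor (anyL v.2.1 fun x => bnot (Nat.beq (app24 x.2.1 y) y)) <|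
      bor (anyL L fun x => band (Nat.beq x.2 y) (bnot (Nat.beq x.1 v.1))) <|
      extK v.2.2.1 v.1 y L fun L' => bor (anyL v.2.2.2 fun a => badA a L') (dfs leaf ls L') := rfl

theorem dfs_sound {σ : Cfsg.M24} {f g : ℕ → ℕ} (h : ∀ a, Com σ (f a) (g a))
    {leaf : List (ℕ × ℕ) → Bool} {ls : List Lev} (hl : CfsgH5.allL ls (okLev f g) = true)
    {L : List (ℕ × ℕ)} (h0 : Ok σ L) (e : dfs leaf ls L = true) : ∃ L', Ok σ L' ∧ leaf L' = true := by
  rw [allL_iff] at hl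
  induction ls generalizing L with
  | nil => exact ⟨L, h0, e⟩
  | cons v ls ih =>
    have h1 := hl v List.mem_cons_self
    simp only [okLev, band_eq, Bool.and_eq_true, allL_iff, blt_true_iff, beq_true_iff] at h1
    obtain ⟨h1, h2, h3⟩ := h1
    rw [dfs_cons] at e
    have e1 := (allLt_iff _ _).1 e (pn (σ • pt v.1)) (pn_lt _)
    simp only [kfo_eq, bor_eq, Bool.or_eq_true, anyL_iff, band_eq, bnot_eq, Bool.and_eq_true,
      beq_true_iff, Bool.not_eq_true'] at e1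
    rcases e1 with ⟨x, hx, e1⟩ | ⟨x, hx, e1, e2⟩ | e1
    · obtain ⟨a, k1, k2⟩ := (okT_sound h (h2 x hx).1).app (pt v.1)
      rw [pn_pt h1, (h2 x hx).2, ← pn_pt h1] at k1
      rw [← k2, pn_inj k1, (beq_true_iff _ _).2 rfl] at e1
      exact absurd e1 (by decide)
    · obtain ⟨a, k1, k2⟩ := h0 x hx
      rw [← k1, MulAction.injective σ (pn_inj (k2.trans e1)), pn_pt h1, (beq_true_iff _ _).2 rfl] at e2
      exact absurd e2 (by decide)
    · rw [← pn_pt h1, pt_pn] at e1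
      obtain ⟨L', k1, k2⟩ := extK_sound (fun x hx => okT_sound h (h3 x hx)) _ h0 e1
      rw [Bool.or_eq_true, anyL_iff] at k2
      rcases k2 with ⟨a, -, k2⟩ | k2
      · exact absurd k2 (badA_false k1 a)
      · exact ih (fun w hw => hl w (List.mem_cons_of_mem _ hw)) k1 k2

/-- a table entry: word, permutation, signs, images -/
abbrev En := List ℕ × ℕ × ℕ × List ℕ

def leafP (T : List En) (L : List (ℕ × ℕ)) : Bool :=
  band (Nat.beq (domL L) 16777215)
    (anyL T fun e => CfsgH5.allL L fun x => Nat.beq (app24 e.2.1 x.1) x.2)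

theorem leafP_sound {σ : Cfsg.M24} {T : List En} {L : List (ℕ × ℕ)} (h : Ok σ L)
    (e : leafP T L = true) : ∃ x ∈ T, ∀ τ : Cfsg.M24, CM.code τ = x.2.1 → τ = σ := by
  simp only [leafP, band_eq, Bool.and_eq_true, beq_true_iff, anyL_iff, allL_iff] at e
  obtain ⟨e1, x, hx, e2⟩ := e
  refine ⟨x, hx, fun τ k => Subtype.ext (Equiv.ext fun a => pn_inj ?_)⟩
  have : ∀ i : GolayPt, (16777215 : ℕ).testBit (pn i) = true := by decide +kernel
  obtain ⟨y, hy, k1⟩ := (tb_domL L _).1 (e1 ▸ this a)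
  obtain ⟨b, k2, k3⟩ := h y hy
  rw [pn_inj (k2.trans k1)] at k3
  exact (pn_smulM τ a).trans (by rw [k, ← k1, e2 y hy]; exact k3.symm)

/-- the permutation of a monomial element which intertwines `ρ` and `ρ'` -/
theorem sift {n : DD.N} {ρ ρ' : ℕ → DD.N} {f g fs gs : ℕ → ℕ}
    (hf : ∀ a, MA (DD.Ah (ρ a)).1 (f a) (fs a)) (hg : ∀ a, MA (DD.Ah (ρ' a)).1 (g a) (gs a))
    (hc : ∀ a, DD.Ah n * DD.Ah (ρ a) = DD.Ah (ρ' a) * DD.Ah n) {p s : ℕ} (hn : MA (DD.Ah n).1 p s)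
    {ls : List Lev} (hl : CfsgH5.allL ls (okLev f g) = true) {T : List En}
    (e : dfs (leafP T) ls [] = true) :
    ∃ x ∈ T, ∀ A q, MA A x.2.1 q → p = x.2.1 := by
  obtain ⟨-, σ, -, k, -⟩ := id hn
  have : ∀ a, Com σ (f a) (g a) := fun a => by
    have h1 := hn.mul (hf a)
    have h2 := (hg a).mul hn
    rw [← Units.val_mul] at h1 h2
    rw [hc] at h1
    obtain ⟨-, τ, -, k1, -⟩ := hf a
    obtain ⟨-, τ', -, k2, -⟩ := hg a
    refine ⟨τ, τ', k1, k2, CM.code_inj ?_⟩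
    rw [CM.code_mul, CM.code_mul, k, k1, k2]
    exact (h1.uniq h2).1
  obtain ⟨L, h1, h2⟩ := dfs_sound this hl (fun x hx => absurd hx List.not_mem_nil) e
  obtain ⟨x, hx, h3⟩ := leafP_sound h1 h2
  refine ⟨x, hx, fun A q h => ?_⟩
  obtain ⟨-, τ, -, k1, -⟩ := h
  rw [← k, ← h3 τ k1, k1]

end

end Sf
end CfsgMO
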