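/-
Subgroups of the Monster: centralisers of class matrices.
-/
import Cfsg.Agent.MO.Sb3b

set_option autoImplicit false
set_option linter.unusedSimpArgs false
set_option linter.unusedVariables false
set_option maxRecDepth 100000

namespace CfsgMO
namespace Sf

open CfsgH5 CfsgH6 Cfsg Finset Matrix Cw Dat
open scoped Pointwise

noncomputable section

/-- the value of a word in `γ`; the first letter acts first -/
def wv (γ : ℕ → DD.N) (w : List ℕ) : DD.N := w.foldr (fun a g => g * γ a) 1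

theorem wv_cons (γ : ℕ → DD.N) (a : ℕ) (w : List ℕ) : wv γ (a :: w) = wv γ w * γ a := rfl

theorem wv_mem {γ : ℕ → DD.N} {K : Subgroup DD.N} (h : ∀ a, γ a ∈ K) (w : List ℕ) : wv γ w ∈ K := by
  induction w with
  | nil => exact one_mem _
  | cons a w ih => exact mul_mem ih (h a)

theorem wmK_wv {γ : ℕ → DD.N} {am : ℕ → List ℕ} (h : ∀ a, (DD.Ah (γ a)).1 = mat2 24 (am a))
    {w L : List ℕ} {k : List ℕ → Bool} (e : wmK am w L k = true) :
    ∃ L', k L' = true ∧ ∀ c, vc 24 0 L' c = wv γ w • vc 24 0 L c := by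
  induction w generalizing L with
  | nil => exact ⟨L, e, fun c => (one_smul _ _).symm⟩
  | cons a w ih =>
    change ktab 24 (fun r => kxs 24 0 L (kgd (am a) r)) (fun L => wmK am w L k) = true at e
    rw [ktab_eq] at e
    obtain ⟨L', e1, e2⟩ := ih e
    refine ⟨L', e1, fun c => ?_⟩
    rw [wv_cons, mul_smul, smul_cl (γ a), h, e2]
    refine congrArg _ (funext fun r => ?_)
    rw [← bt_kxs', vc, zero_add, getD_tab _ r.2, kgd_eq]

theorem chkF_wv {γ : ℕ → DD.N} {am : ℕ → List ℕ} (h : ∀ a, (DD.Ah (γ a)).1 = mat2 24 (am a))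
    {w : List ℕ} {x y : ℕ} (e : chkF am w x y = true) : wv γ w • cd x = cd y := by
  rw [chkF, an_eq, Bool.and_eq_true, ktab_eq] at e
  obtain ⟨L, e1, e2⟩ := wmK_wv h e.2
  rw [ktab_eq] at e1
  rw [← vc_bitf x, ← e2, eqP_sound e1, vc_bitf]

def psK (f g : ℕ → ℕ) (w : List ℕ) (p s : ℕ) (k : ℕ → ℕ → Bool) : Bool :=
  List.rec (motive := fun _ => ℕ → ℕ → Bool) k (fun a _ ih p s => kfo (mul24 (f a) p) fun p' =>
    kfo (Nat.xor (g a) (act24 (f a) s)) fun s' => ih p' s') w p s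

theorem psK_wv {γ : ℕ → DD.N} {f g : ℕ → ℕ} {N : ℕ} (h : ∀ a < N, MA (DD.Ah (γ a)).1 (f a) (g a))
    {w : List ℕ} (hw : CfsgMO.allL (fun a => Nat.blt a N) w = true) {A : M2} {p s : ℕ} (h0 : MA A p s)
    {k : ℕ → ℕ → Bool} (e : psK f g w p s k = true) :
    ∃ p' s', MA ((DD.Ah (wv γ w)).1 * A) p' s' ∧ k p' s' = true := by
  induction w generalizing A p s with
  | nil => exact ⟨p, s, by rwa [show wv γ [] = 1 from rfl, map_one, Units.val_one, one_mul], e⟩
  | cons a w ih =>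
    obtain ⟨h1, h2⟩ := allL_cons.1 hw
    change (kfo (mul24 (f a) p) fun p' => kfo (Nat.xor (g a) (act24 (f a) s)) fun s' =>
      psK f g w p' s' k) = true at e
    rw [kfo_eq, kfo_eq] at e
    rw [wv_cons, map_mul, Units.val_mul, mul_assoc]
    exact ih h2 ((h a (by simpa using h1)).mul h0) e

def chkP (f g : ℕ → ℕ) (N : ℕ) (w : List ℕ) (p s : ℕ) : Bool :=
  band (CfsgMO.allL (fun a => Nat.blt a N) w)
    (psK f g w idP 0 fun p' s' => band (Nat.beq p' p) (Nat.beq s' s))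

theorem chkP_wv {γ : ℕ → DD.N} {f g : ℕ → ℕ} {N : ℕ} (h : ∀ a < N, MA (DD.Ah (γ a)).1 (f a) (g a))
    {w : List ℕ} {p s : ℕ} (e : chkP f g N w p s = true) : MA (DD.Ah (wv γ w)).1 p s := by
  rw [chkP, band_eq, Bool.and_eq_true] at e
  obtain ⟨p', s', h1, h2⟩ := psK_wv h e.1 MA.one e.2
  simp only [band_eq, Bool.and_eq_true, beq_true_iff] at h2
  rwa [mul_one, h2.1, h2.2] at h1

/-- the letters as elements of `N` -/
def γ0 (a : ℕ) : DD.N := if h : a < 54 then ⟨gel a, gel_mem h⟩ else 1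

theorem wN_eq {w : List ℕ} (h : okN w = true) : wN w h = wv γ0 w := by
  induction w with
  | nil => rfl
  | cons a w ih =>
    obtain ⟨h1, h2⟩ := allL_cons.1 h
    rw [wv_cons, ← ih h2, γ0, dif_pos (by simpa using h1)]
    rfl

theorem maw {w : List ℕ} {h : okN w = true} {p s : ℕ} (e : chkP lp ls 52 w p s = true) :
    MA (DD.Ah (wN w h)).1 p s := by
  rw [wN_eq]
  refine chkP_wv (fun a ha => ?_) e
  obtain ⟨h1, h2⟩ := gel_N (show a < 54 by omega)
  rw [γ0, dif_pos (by omega), h2]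
  exact ma_let ha

theorem ahw {w g : List ℕ} {h : okN w = true} (e : chkM amat w g = true) :
    (DD.Ah (wN w h)).1 = mat2 24 g := (alph.chkM_sound e).2

/-- the elements whose class matrices commute with those of `ρ` -/
def CmS {D : Dat} (ρ : ℕ → D.N) : Subgroup D.N :=
  (Subgroup.centralizer (Set.range fun a => D.Ah (ρ a))).comap D.Ah

theorem mem_CmS {D : Dat} {ρ : ℕ → D.N} {n : D.N} :
    n ∈ CmS ρ ↔ ∀ a, D.Ah n * D.Ah (ρ a) = D.Ah (ρ a) * D.Ah n :=
  ⟨fun h a => (Subgroup.mem_centralizer_iff.1 h _ ⟨a, rfl⟩).symm, fun h =>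
    Subgroup.mem_centralizer_iff.2 (by rintro _ ⟨a, rfl⟩; exact (h a).symm)⟩

def okEn (am : ℕ → List ℕ) (f g : ℕ → ℕ) (N : ℕ) (B : List ℕ) (e : En) : Bool :=
  band (chkP f g N e.1 e.2.1 e.2.2.1) (wmK am e.1 B fun L => eqP L e.2.2.2)

def okSg (f : ℕ → ℕ) (M : ℕ) (T : List En) : Bool :=
  allLt 4096 fun k => kfo (cw k) fun t => bor
    (anyL (List.range M) fun a => kfo (Nat.xor t (act24 (f a) t)) fun x =>
      band (bnot (Nat.beq x 0)) (bnot (Nat.beq x 16777215)))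
    (anyL T fun e => bor (Nat.beq e.2.2.1 t) (Nat.beq (Nat.xor e.2.2.1 16777215) t))

def okKer (T U : List En) : Bool :=
  CfsgH5.allL T fun x => CfsgH5.allL U fun y => bor
    (bnot (allLt 24 fun t => Nat.beq (kgd x.2.2.2 t) (kgd y.2.2.2 t)))
    (band (Nat.beq x.2.1 idP) (Nat.beq x.2.2.1 y.2.2.1))

theorem xor_aux {a b c d : ℕ} (h : Nat.xor a b = Nat.xor (Nat.xor b c) d) : Nat.xor a c = d :=
  Nat.eq_of_testBit_eq fun i => by
    have := congrArg (·.testBit i) h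
    simp only [tb_xor] at this ⊢
    revert this
    cases a.testBit i <;> cases b.testBit i <;> cases c.testBit i <;> cases d.testBit i <;> decide

/-- the data for the stabiliser of the standard frame -/
structure Stab (ρ γ : ℕ → DD.N) (am : ℕ → List ℕ) (B : List ℕ) (f fs g gs : ℕ → ℕ) (N M : ℕ)
    (ls : List Lev) (T U : List En) : Prop where
  hf : ∀ a, MA (DD.Ah (ρ a)).1 (f a) (fs a)
  hγ : ∀ a, (DD.Ah (γ a)).1 = mat2 24 (am a)
  hm : ∀ a < N, MA (DD.Ah (γ a)).1 (g a) (gs a)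
  hc : ∀ a, γ a ∈ CmS ρ
  hl : CfsgH5.allL ls (okLev f f) = true
  hT : CfsgH5.allL T (okEn am g gs N B) = true
  hU : CfsgH5.allL U (fun e => band (okEn am g gs N B e) (Nat.beq e.2.1 idP)) = true
  hd : dfs (leafP T) ls [] = true
  hs : okSg f M U = true

variable {ρ γ : ℕ → DD.N} {am : ℕ → List ℕ} {B : List ℕ} {f fs g gs : ℕ → ℕ} {N M : ℕ}
  {ls : List Lev} {T U : List En}

theorem Stab.en (h : Stab ρ γ am B f fs g gs N M ls T U) {e : En} (k : okEn am g gs N B e = true) :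
    MA (DD.Ah (wv γ e.1)).1 e.2.1 e.2.2.1 ∧ ∀ c, vc 24 0 e.2.2.2 c = wv γ e.1 • vc 24 0 B c := by
  rw [okEn, band_eq, Bool.and_eq_true] at k
  obtain ⟨L, k1, k2⟩ := wmK_wv h.hγ k.2
  exact ⟨chkP_wv h.hm k.1, eqP_sound k1 ▸ k2⟩

theorem Stab.enU (h : Stab ρ γ am B f fs g gs N M ls T U) {e : En} (k : e ∈ U) :
    MA (DD.Ah (wv γ e.1)).1 idP e.2.2.1 ∧ ∀ c, vc 24 0 e.2.2.2 c = wv γ e.1 • vc 24 0 B c := by
  have := (allL_iff _ _).1 h.hU e k
  rw [band_eq, Bool.and_eq_true, beq_true_iff] at this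
  exact this.2 ▸ h.en this.1

theorem Stab.main (h : Stab ρ γ am B f fs g gs N M ls T U) {n : DD.N} (hn : n • Om = Om)
    (hc : n ∈ CmS ρ) : ∃ x ∈ T, ∃ y ∈ U, DD.Ah n = DD.Ah (wv γ y.1) * DD.Ah (wv γ x.1) := by
  obtain ⟨p, s, h1⟩ := ma_fix n hn
  obtain ⟨x, hx, h2⟩ := sift h.hf h.hf (mem_CmS.1 hc) h1 h.hl h.hd
  have h3 := (h.en ((allL_iff _ _).1 h.hT x hx)).1
  rw [h2 _ _ h3] at h1
  obtain ⟨r, h4⟩ := h1.div h3
  have h5 : n * (wv γ x.1)⁻¹ ∈ CmS ρ := mul_mem hc (inv_mem (wv_mem h.hc _))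
  rw [← map_inv, ← map_mul] at h4
  obtain ⟨k, hk, rfl⟩ := isC_iff.1 h4.isC
  have h6 := (allLt_iff _ _).1 h.hs k hk
  simp only [kfo_eq, bor_eq, band_eq, bnot_eq, Bool.or_eq_true, anyL_iff, Bool.and_eq_true,
    beq_true_iff, Bool.not_eq_true'] at h6
  rcases h6 with ⟨a, -, k1, k2⟩ | ⟨y, hy, h6⟩
  · have e1 := h4.mul (h.hf a)
    have e2 := (h.hf a).mul h4
    rw [← Units.val_mul] at e1 e2
    rw [mem_CmS.1 h5 a, act_id (h.hf a).isC] at e1
    rcases (e1.uniq e2).2 with e | e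
    · rw [xor_aux (d := 0) (e.trans (Nat.xor_zero _).symm)] at k1
      exact absurd k1 (by decide)
    · rw [xor_aux e] at k2
      exact absurd k2 (by decide)
  · refine ⟨x, hx, y, hy, ?_⟩
    have h7 := (h.enU hy).1
    have : DD.Ah (n * (wv γ x.1)⁻¹) = DD.Ah (wv γ y.1) := Units.ext (by
      rcases h6 with e | e <;> rw [← e] at h4
      exacts [h4.inj h7, h4.inj h7.neg])
    rw [← this, map_mul, map_inv, inv_mul_cancel_right]

theorem Stab.mem (h : Stab ρ γ am B f fs g gs N M ls T U) {n : DD.N} (hn : n • Om = Om)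
    (hc : n ∈ CmS ρ) {H : Subgroup M2ˣ} (hH : ∀ a, DD.Ah (γ a) ∈ H) : DD.Ah n ∈ H := by
  obtain ⟨x, -, y, -, e⟩ := h.main hn hc
  have := fun w => wv_mem (K := H.comap DD.Ah) hH w
  exact e ▸ mul_mem (this _) (this _)

theorem Stab.ker (h : Stab ρ γ am B f fs g gs N M ls T U) (hk : okKer T U = true) {n : DD.N}
    (hn : n • Om = Om) (hc : n ∈ CmS ρ) (hB : ∀ c, n • vc 24 0 B c = vc 24 0 B c) : DD.Ah n = 1 := by
  obtain ⟨x, hx, y, hy, e⟩ := h.main hn hc
  obtain ⟨h1, h2⟩ := h.en ((allL_iff _ _).1 h.hT x hx)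
  obtain ⟨h3, h4⟩ := h.enU hy
  have h5 := (allL_iff _ _).1 ((allL_iff _ _).1 hk x hx) y hy
  have h6 : (allLt 24 fun t => Nat.beq (kgd x.2.2.2 t) (kgd y.2.2.2 t)) = true := by
    refine (allLt_iff _ _).2 fun t ht => (beq_true_iff _ _).2 (Nat.eq_of_testBit_eq fun c => ?_)
    have : vc 24 0 x.2.2.2 c = vc 24 0 y.2.2.2 c := by
      have k := congrArg ((DD.Ah (wv γ y.1)).1 *ᵥ ·) (hB c)
      simp only [smul_cl, e, mulVec_mulVec, Units.val_mul] at k
      rw [← mul_assoc, h3.sq, one_mul] at k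
      rw [h2, h4, smul_cl, smul_cl, k]
    have := congrFun this ⟨t, ht⟩
    simp only [vc, zero_add, bt] at this
    rw [kgd_eq, kgd_eq]
    revert this
    cases (x.2.2.2.getD t 0).testBit c <;> cases (y.2.2.2.getD t 0).testBit c <;> decide
  simp only [h6, bor_eq, bnot_eq, band_eq, Bool.not_true, Bool.false_or, Bool.and_eq_true,
    beq_true_iff] at h5
  rw [h5.1, h5.2] at h1
  exact Units.ext (by rw [e, Units.val_mul, h1.inj h3, h3.sq, Units.val_one])

end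

end Sf
end CfsgMO
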