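/-
Subgroups of the Monster: the facts on class matrices from finite checks.
-/
import Cfsg.Agent.MO.Sb3c
import Cfsg.Agent.MO.Sb1

set_option autoImplicit false
set_option linter.unusedSimpArgs false
set_option linter.unusedVariables false
set_option maxRecDepth 100000

namespace CfsgMO
namespace Sf

open CfsgH5 CfsgH6 Cfsg Finset Matrix Cw Dat
open scoped Pointwise

noncomputable section

/-- row `r` of the product -/
def mm (a b : List ℕ) (r : ℕ) : ℕ := kxs 24 0 b (kgd a r)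

theorem mm_eq (a b : List ℕ) (r c : Fin 24) : (mat2 24 a * mat2 24 b) r c = bt (mm a b r) c := by
  rw [mm, kgd_eq, bt_kxs']
  simp only [mul_apply, mulVec, dotProduct, vc, zero_add]
  rfl

def cmL (a b c d : List ℕ) : Bool := allLt 24 fun r => Nat.beq (mm a b r) (mm c d r)

theorem cmL_sound {a b c d : List ℕ} (h : cmL a b c d = true) :
    mat2 24 a * mat2 24 b = mat2 24 c * mat2 24 d := by
  ext r s
  rw [mm_eq, mm_eq, (beq_true_iff _ _).1 ((allLt_iff _ _).1 h r r.2)]

theorem gd_cases {α : Type} (d : α) (l : List α) (a : ℕ) : gdL d l a ∈ l ∨ gdL d l a = d := by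
  induction l generalizing a with
  | nil => exact Or.inr rfl
  | cons x l ih => cases a with
    | zero => exact Or.inl List.mem_cons_self
    | succ a => exact (ih a).imp_left (List.mem_cons_of_mem _)

theorem gd_mem {α : Type} (d : α) {l : List α} {x : α} (h : x ∈ l) : ∃ a < l.length, gdL d l a = x := by
  obtain ⟨a, ha, rfl⟩ := List.getElem_of_mem h
  exact ⟨a, ha, by rw [gdL_eq, List.getD_eq_getElem _ _ ha]⟩

theorem gd_all {α β : Type} {P : α → β → Prop} {d : α} {d' : β} (h0 : P d d') {l : List α} {l' : List β}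
    (h : List.Forall₂ P l l') (a : ℕ) : P (gdL d l a) (gdL d' l' a) := by
  induction h generalizing a with
  | nil => exact h0
  | cons h1 _ ih => cases a with
    | zero => exact h1
    | succ a => exact ih a

/-- `A` is the class matrix of `n` -/
def AM (n : DD.N) (A : List ℕ) : Prop := (DD.Ah n).1 = mat2 24 A
/-- the codes of a monomial element -/
def PM' (n : DD.N) (x : ℕ × ℕ) : Prop := MA (DD.Ah n).1 x.1 x.2

theorem am_all {l : List DD.N} {l' : List (List ℕ)} (h : List.Forall₂ AM l l') (a : ℕ) :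
    (DD.Ah (gdL 1 l a)).1 = mat2 24 (gdL idA l' a) :=
  gd_all (P := AM) (by rw [AM, map_one, Units.val_one, mat2_idA]) h a

def f1 (l : List (ℕ × ℕ)) (a : ℕ) : ℕ := (gdL (idP, 0) l a).1
def f2 (l : List (ℕ × ℕ)) (a : ℕ) : ℕ := (gdL (idP, 0) l a).2

theorem pm_all {l : List DD.N} {l' : List (ℕ × ℕ)} (h : List.Forall₂ PM' l l') (a : ℕ) :
    MA (DD.Ah (gdL 1 l a)).1 (f1 l' a) (f2 l' a) :=
  gd_all (P := PM') (by rw [PM', map_one, Units.val_one]; exact MA.one) h a

theorem pm_pre {l m : List DD.N} {l' : List (ℕ × ℕ)} (h : List.Forall₂ PM' l l') (a : ℕ)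
    (ha : a < l.length) : MA (DD.Ah (gdL 1 (l ++ m) a)).1 (f1 l' a) (f2 l' a) := by
  rw [gdL_eq, List.getD_append _ _ _ _ ha, ← gdL_eq]
  exact pm_all h a

def okCm (G R : List (List ℕ)) : Bool := CfsgH5.allL G fun a => CfsgH5.allL R fun b => cmL a b b a

theorem cm_all {l r : List DD.N} {G R : List (List ℕ)} (h : List.Forall₂ AM l G)
    (k : List.Forall₂ AM r R) (e : okCm G R = true) (a : ℕ) : gdL 1 l a ∈ CmS (gdL 1 r) :=
  mem_CmS.2 fun b => Units.ext (by
    rw [Units.val_mul, Units.val_mul, am_all h, am_all k]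
    rcases gd_cases idA G a with h1 | h1
    · rcases gd_cases idA R b with h2 | h2
      · exact cmL_sound ((allL_iff _ _).1 ((allL_iff _ _).1 e _ h1) _ h2)
      · rw [h2, mat2_idA, one_mul, mul_one]
    · rw [h1, mat2_idA, one_mul, mul_one])

theorem cm_of {r : List DD.N} {n : DD.N} (h : ∀ x ∈ r, DD.Ah n * DD.Ah x = DD.Ah x * DD.Ah n) :
    n ∈ CmS (gdL 1 r) := mem_CmS.2 fun a => by
  rcases gd_cases 1 r a with h1 | h1
  · exact h _ h1
  · rw [h1, map_one, one_mul, mul_one]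

/-! ### The fixed classes -/

def okFX (X B C Y b : List ℕ) : Bool :=
  band (allLt 24 fun r => Nat.beq (Nat.xor (Nat.xor (mm B C r) (mm Y X r)) (kgd Y r)) (kgd idA r)) <|
  band (allLt 24 fun r => Nat.beq (mm X B r) (kgd B r)) <|
  band (allLt 24 fun j => allLt 24 fun r => Nat.beq (bitf (kgd B r) j) (bitf (kgd b j) r))
    (CfsgH5.allL b fun k => anyL (List.range b.length) fun j => Nat.beq (lin b (Nat.shiftLeft 1 j)) k)

theorem bitf_eq {a b i j : ℕ} (h : bitf a i = bitf b j) : bt a i = bt b j := by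
  have : ∀ a i, bt a i = bt (bitf a i) 0 := fun a i => by
    rw [bt, bt, bitf, tb_land, tb_shr, zero_add]; simp
  rw [this a, this b, h]

variable {x : DD.N} {X B C Y b : List ℕ}

theorem col_eq (e : okFX X B C Y b = true) (j : Fin 24) : vc 24 0 B j = cd (b.getD j 0) := by
  simp only [okFX, band_eq, Bool.and_eq_true, allLt_iff, beq_true_iff, kgd_eq] at e
  funext r
  rw [vc, zero_add]
  exact bitf_eq (e.2.2.1 j j.2 r r.2)

theorem col_fix (hX : AM x X) (e : okFX X B C Y b = true) (c : ℕ) : vc 24 0 B c ∈ FX x := by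
  simp only [okFX, band_eq, Bool.and_eq_true, allLt_iff, beq_true_iff] at e
  change (DD.Ah x).1 *ᵥ _ = _
  funext r
  rw [hX, ← bt_kxs', ← kgd_eq, ← mm, e.2.1 r r.2, vc, zero_add, kgd_eq]

theorem bas_fix (hX : AM x X) (e : okFX X B C Y b = true) {j : ℕ} (hj : j < 24) :
    cd (b.getD j 0) ∈ FX x := col_eq e ⟨j, hj⟩ ▸ col_fix hX e j

theorem cd_zero' : cd 0 = 0 := by funext k; simp [cd]

theorem FX_le (hX : AM x X) (e : okFX X B C Y b = true) (W : AddSubgroup Cl) (hW : ∀ k ∈ b, cd k ∈ W) :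
    FX x ≤ W := fun c hc => by
  have h1 : mat2 24 B * mat2 24 C + mat2 24 Y * mat2 24 X + mat2 24 Y = 1 := by
    simp only [okFX, band_eq, Bool.and_eq_true, allLt_iff, beq_true_iff] at e
    ext r s
    rw [Matrix.add_apply, Matrix.add_apply, mm_eq, mm_eq, ← mat2_idA]
    have := congrArg (bt · s) (e.1 r r.2)
    simp only [bt_xor, kgd_eq] at this
    exact this
  have h2 : mat2 24 X *ᵥ c = c := hX ▸ hc
  have h3 := congrArg (· *ᵥ c) h1
  simp only [add_mulVec, ← mulVec_mulVec, h2, one_mulVec] at h3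
  rw [add_assoc, Cl_aa, add_zero] at h3
  rw [← h3, ← univ_sum_single (mat2 24 C *ᵥ c), mulVec_sum]
  refine sum_mem fun j _ => ?_
  rcases F2_cases ((mat2 24 C *ᵥ c) j) with k | k <;> rw [k]
  · rw [Pi.single_zero, mulVec_zero]; exact zero_mem _
  · have : mat2 24 B *ᵥ Pi.single j 1 = vc 24 0 B j := by
      rw [mulVec_single_one]; funext r; rw [vc, zero_add]; rfl
    rw [this, col_eq e, ← gdL_eq]
    rcases gd_cases 0 b j with h | h
    · exact hW _ h
    · rw [h, cd_zero']; exact zero_mem _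

theorem FX_enum (hX : AM x X) (e : okFX X B C Y b = true) {c : Cl} (hc : c ∈ FX x) :
    ∃ m < 2 ^ b.length, c = cd (lin b m) := by
  let W : AddSubgroup Cl :=
    { carrier := {c | ∃ m < 2 ^ b.length, c = cd (lin b m)}
      zero_mem' := ⟨0, by positivity, by
        have := lin_xor b 0 0
        rw [Nat.xor_self, Nat.xor_self] at this
        rw [this, cd_zero']⟩
      add_mem' := by
        rintro _ _ ⟨m, hm, rfl⟩ ⟨k, hk, rfl⟩
        exact ⟨m ^^^ k, Nat.xor_lt_two_pow hm hk, by rw [lin_xor]; exact (cd_xor _ _).symm⟩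
      neg_mem' := fun {c} h => by rwa [Cl_neg] }
  refine FX_le hX e W (fun k hk => ?_) hc
  simp only [okFX, band_eq, Bool.and_eq_true, allL_iff, anyL_iff, beq_true_iff, List.mem_range] at e
  obtain ⟨j, hj, h⟩ := e.2.2.2 k hk
  exact ⟨Nat.shiftLeft 1 j, by
    change 1 <<< j < _
    rw [Nat.one_shiftLeft]; exact Nat.pow_lt_pow_right (by norm_num) hj, by rw [h]⟩

/-! ### Normal generation -/

abbrev Ins := Bool × ℕ × ℕ × List ℕ

def slp (am : ℕ → List ℕ) (I : List Ins) (acc : List (List ℕ)) (k : List (List ℕ) → Bool) : Bool :=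
  List.rec (motive := fun _ => List (List ℕ) → Bool) k (fun x _ ih acc => band
    (Bool.rec (cmL (am x.2.1) (gdL idA acc x.2.2.1) x.2.2.2 (am x.2.1))
      (cmL (gdL idA acc x.2.1) (gdL idA acc x.2.2.1) x.2.2.2 idA) x.1) (ih (x.2.2.2 :: acc))) I acc

def InL (L : Subgroup M2ˣ) (M : List ℕ) : Prop := ∃ u ∈ L, u.1 = mat2 24 M

theorem slp_sound {γ : ℕ → DD.N} {am : ℕ → List ℕ} (h : ∀ a, (DD.Ah (γ a)).1 = mat2 24 (am a))
    {L : Subgroup M2ˣ} (hL : ∀ a, ∀ l ∈ L, DD.Ah (γ a) * l * (DD.Ah (γ a))⁻¹ ∈ L) {I : List Ins}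
    {acc : List (List ℕ)} (h0 : ∀ M ∈ acc, InL L M) {k : List (List ℕ) → Bool}
    (e : slp am I acc k = true) : ∃ acc', (∀ M ∈ acc', InL L M) ∧ k acc' = true := by
  induction I generalizing acc with
  | nil => exact ⟨acc, h0, e⟩
  | cons x I ih =>
    change band _ (slp am I (x.2.2.2 :: acc) k) = true at e
    rw [band_eq, Bool.and_eq_true] at e
    have h1 : ∀ j, InL L (gdL idA acc j) := fun j => by
      rcases gd_cases idA acc j with h1 | h1
      · exact h0 _ h1
      · exact ⟨1, one_mem _, by rw [h1, mat2_idA, Units.val_one]⟩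
    refine ih (fun M hM => ?_) e.2
    rcases List.mem_cons.1 hM with rfl | hM
    · obtain ⟨t, i, j, M⟩ := x
      obtain ⟨u, hu, k1⟩ := h1 j
      cases t
      · have k2 := cmL_sound (show cmL (am i) (gdL idA acc j) M (am i) = true from e.1)
        refine ⟨_, hL i u hu, ?_⟩
        rw [Units.val_mul, Units.val_mul, k1, h, k2, ← h, mul_assoc, Units.mul_inv, mul_one]
      · obtain ⟨v, hv, k3⟩ := h1 i
        have k2 := cmL_sound (show cmL (gdL idA acc i) (gdL idA acc j) M idA = true from e.1)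
        exact ⟨_, mul_mem hv hu, by rw [Units.val_mul, k1, k3, k2, mat2_idA, mul_one]⟩
    · exact h0 M hM

/-! ### The main theorem -/

def okFr (am : ℕ → List ℕ) (b : List ℕ) (f0 : ℕ) (S : List (ℕ × List ℤ)) (W : List (ℕ × List ℕ)) : Bool :=
  allLt (2 ^ b.length) fun m => kfo (lin b m) fun k => bor (Nat.beq k 0) <|
    bor (decide (Bf (cd k) (cd k) = 1)) <|
    bor (anyL S fun v => band (Nat.beq v.1 k) (okLam v.2 k)) <|
    anyL W fun v => band (Nat.beq v.1 k) (bor (chkF am v.2 k 8388608) (chkF am v.2 k f0))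

def okNd (b : List ℕ) : Bool :=
  allLt (2 ^ b.length) fun m => kfo (lin b m) fun k => bor (Nat.beq k 0) <|
    anyL (List.range 24) fun j => decide (pol (cd k) (cd (kgd b j)) = 1)

def okSp (am : ℕ → List ℕ) (b : List ℕ) (W : List (List ℕ)) : Bool :=
  CfsgH5.allL b fun k => anyL W fun w => chkF am w 8388608 k

theorem hypM_of {R hs : List DD.N} {n0 : DD.N} {G : List (List ℕ)} {f fs g gs : ℕ → ℕ} {N M : ℕ}
    {ls : List Lev} {T U : List En}
    (h : Stab (gdL 1 R) (gdL 1 hs) (gdL idA G) B f fs g gs N M ls T U) (hG : hs.length = G.length)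
    (hk : okKer T U = true) (hX : AM x X) (e : okFX X B C Y b = true)
    (hx : ∀ n ∈ CmS (gdL 1 R), DD.Ah n * DD.Ah x = DD.Ah x * DD.Ah n) (om : Om ∈ FX x) {f0 : ℕ}
    (h0 : ∀ n ∈ CmS (gdL 1 R), n • Om ≠ cd f0) {S : List (ℕ × List ℤ)} {W : List (ℕ × List ℕ)}
    (e1 : okFr (gdL idA G) b f0 S W = true) (e2 : okNd b = true) {W' : List (List ℕ)}
    (e3 : okSp (gdL idA G) b W' = true) {A0 : List ℕ} (hA : AM n0 A0) {I : List Ins}
    (e4 : slp (gdL idA G) I [A0] (fun acc => allLt G.length fun a => anyL acc (eqP (gdL idA G a))) = true) :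
    HypM R x hs n0 where
  gen n hn := by
    have hc := cm_of hn
    have hH : ∀ a, DD.Ah (gdL 1 hs a) ∈ Subgroup.closure {A | ∃ h ∈ hs, DD.Ah h = A} := fun a => by
      rcases gd_cases 1 hs a with h1 | h1
      · exact Subgroup.subset_closure ⟨_, h1, rfl⟩
      · rw [h1, map_one]; exact one_mem _
    have h1 : n • Om ∈ FX x := by
      change (DD.Ah x).1 *ᵥ (DD.Ah n).1 *ᵥ Om = _
      rw [mulVec_mulVec, ← Units.val_mul, ← hx n hc, Units.val_mul, ← mulVec_mulVec,
        show (DD.Ah x).1 *ᵥ Om = Om from om, smul_cl]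
    have h2 : n • Om ∈ Fr DD := Fr_smul n (Omega_Fr 0)
    obtain ⟨m, hm, k⟩ := FX_enum hX e h1
    have := (allLt_iff _ _).1 e1 m hm
    simp only [kfo_eq, bor_eq, band_eq, Bool.or_eq_true, anyL_iff, Bool.and_eq_true, beq_true_iff,
      decide_eq_true_eq] at this
    rcases this with k1 | k1 | ⟨v, -, -, k1⟩ | ⟨v, -, -, k1 | k1⟩
    · exact absurd (by rw [k, k1, cd_zero']) h2.1
    · rw [← k, h2.2.1] at k1
      exact absurd k1 (by decide)
    · obtain ⟨p, k2, -⟩ := okLam_sound (e := 0) k1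
      exact absurd (k2.trans k.symm) (h2.2.2 p)
    · have k2 := h.mem (n := wv (gdL 1 hs) v.2 * n) (by rw [mul_smul, k]; exact chkF_wv h.hγ k1)
        (mul_mem (wv_mem h.hc _) hc) hH
      rw [map_mul] at k2
      have k3 := wv_mem (γ := gdL 1 hs) (K := Subgroup.comap DD.Ah _)
        (fun a => Subgroup.mem_comap.2 (hH a)) v.2
      exact (Subgroup.mul_mem_cancel_left _ (Subgroup.mem_comap.1 k3)).1 k2
    · exact absurd (by rw [mul_smul, k]; exact chkF_wv h.hγ k1) (h0 _ (mul_mem (wv_mem h.hc v.2) hc))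
  ker n hn hF := h.ker hk (hF _ om) (cm_of hn) fun c => hF _ (col_fix hX e c)
  om := om
  nd c hc hne := by
    obtain ⟨m, hm, k⟩ := FX_enum hX e hc
    have := (allLt_iff _ _).1 e2 m hm
    simp only [kfo_eq, bor_eq, Bool.or_eq_true, anyL_iff, beq_true_iff, decide_eq_true_eq,
      List.mem_range, kgd_eq] at this
    rcases this with k1 | ⟨j, hj, k1⟩
    · exact absurd (by rw [k, k1, cd_zero']) hne
    · exact ⟨_, bas_fix hX e hj, k ▸ k1⟩
  span V hV hh := FX_le hX e V fun k hk => by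
    obtain ⟨w, -, k1⟩ := (anyL_iff _ _).1 ((allL_iff _ _).1 e3 k hk)
    rw [← chkF_wv h.hγ k1]
    clear k1
    suffices ∀ c ∈ V, wv (gdL 1 hs) w • c ∈ V from this _ hV
    induction w with
    | nil => exact fun c hc => (one_smul DD.N c).symm ▸ hc
    | cons a w ih =>
      intro c hc
      rw [wv_cons, mul_smul]
      refine ih _ ?_
      rcases gd_cases 1 hs a with h1 | h1
      · exact hh _ h1 c hc
      · rwa [h1, one_smul]
  top L hL hn y hy := by
    obtain ⟨acc, k1, k2⟩ := slp_sound h.hγ (L := L) (fun a l hl => by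
      rcases gd_cases 1 hs a with h1 | h1
      · exact (hn _ h1 l hl).1
      · rwa [h1, map_one, one_mul, inv_one, mul_one])
      (fun M hM => by rw [List.mem_singleton.1 hM]; exact ⟨_, hL, hA⟩) e4
    obtain ⟨a, ha, rfl⟩ := gd_mem 1 hy
    obtain ⟨M, hM, k3⟩ := (anyL_iff _ _).1 ((allLt_iff _ _).1 k2 a (hG ▸ ha))
    obtain ⟨u, hu, k4⟩ := k1 M hM
    rwa [show DD.Ah (gdL 1 hs a) = u from Units.ext (by rw [h.hγ, k4, eqP_sound k3])]

theorem om_ne {R : List DD.N} : ∀ n ∈ CmS (gdL 1 R), n • Om ≠ cd 0 := fun n _ =>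
  cd_zero' ▸ (Fr_smul n (Omega_Fr 0)).1

end

end Sf
end CfsgMO
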