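/-
Subgroups of the Monster: the facts on class matrices from finite checks, a variant.
-/
import Cfsg.Agent.MO.Sb3d
import Cfsg.Agent.MO.Sb1b

set_option autoImplicit false
set_option linter.unusedSimpArgs false
set_option linter.unusedVariables false
set_option maxRecDepth 100000

namespace CfsgMO
namespace Sf

open CfsgH5 CfsgH6 Cfsg Finset Matrix Cw Dat
open scoped Pointwise

noncomputable section

/-- a list of small integers -/
def dv (n : ℕ) : List ℤ :=
  (List.range 24).map fun i => Int.sub (Int.ofNat (Nat.land (Nat.shiftRight n (Nat.mul 4 i)) 15)) 4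

def okSp2 (am : ℕ → List ℕ) (b : List ℕ) (Z : List (ℕ × ℕ)) : Bool :=
  CfsgH5.allL b fun k => anyL Z fun z => kfo (lin b z.2) fun u => chkF am [z.1] u (Nat.xor u k)

variable {x : DD.N} {X B C Y b : List ℕ}

theorem hypM2_of {R hs : List DD.N} {n0 : DD.N} {G : List (List ℕ)} {f fs g gs : ℕ → ℕ} {N M : ℕ}
    {ls : List Lev} {T U : List En}
    (h : Stab (gdL 1 R) (gdL 1 hs) (gdL idA G) B f fs g gs N M ls T U) (hG : hs.length = G.length)
    (hk : okKer T U = true) (hX : AM x X) (e : okFX X B C Y b = true)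
    (hx : ∀ n ∈ CmS (gdL 1 R), DD.Ah n * DD.Ah x = DD.Ah x * DD.Ah n) (om : Om ∈ FX x) {f0 : ℕ}
    (h0 : ∀ n ∈ CmS (gdL 1 R), n • Om ≠ cd f0) {S : List (ℕ × List ℤ)} {W : List (ℕ × List ℕ)}
    (e1 : okFr (gdL idA G) b f0 S W = true) (e2 : okNd b = true) {W' : List (List ℕ)} {c0 : ℕ}
    (e3 : okSp (gdL idA G) [c0] W' = true) (hb : b.length ≤ 24) {Z : List (ℕ × ℕ)}
    (e5 : okSp2 (gdL idA G) b Z = true) {A0 : List ℕ} (hA : AM n0 A0) {I : List Ins}
    (e4 : slp (gdL idA G) I [A0] (fun acc => allLt G.length fun a => anyL acc (eqP (gdL idA G a))) = true) :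
    HypM2 R x hs n0 (cd c0) where
  gen n hn := by
    have hc := cm_of hn
    have hH : ∀ a, DD.Ah (gdL 1 hs a) ∈ Subgroup.closure {A | ∃ h ∈ hs, DD.Ah h = A} := fun a => by
      rcases gd_cases 1 hs a with h1 | h1
      · exact Subgroup.subset_closure ⟨_, h1, rfl⟩
      · rw [h1, map_one]; exact one_mem _
    have h1 : n • Om ∈ FX x := by
      change (DD.Ah x).1 *ᵥ (DD.Ah n).1 *ᵥ Om = _
      rw [mulVec_mulVec, ← Units.val_mul, ← hx n hc, Units.val_mul, ← mulVec_mulVec,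
        show (DD.Ah x).1 *ᵥ Om = Om from om, smul_cl]
    have h2 : n • Om ∈ Fr DD := Fr_smul n (Omega_Fr 0)
    obtain ⟨m, hm, k⟩ := FX_enum hX e h1
    have := (allLt_iff _ _).1 e1 m hm
    simp only [kfo_eq, bor_eq, band_eq, Bool.or_eq_true, anyL_iff, Bool.and_eq_true, beq_true_iff,
      decide_eq_true_eq] at this
    rcases this with k1 | k1 | ⟨v, -, -, k1⟩ | ⟨v, -, -, k1 | k1⟩
    · exact absurd (by rw [k, k1, cd_zero']) h2.1
    · rw [← k, h2.2.1] at k1
      exact absurd k1 (by decide)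
    · obtain ⟨p, k2, -⟩ := okLam_sound (e := 0) k1
      exact absurd (k2.trans k.symm) (h2.2.2 p)
    · have k2 := h.mem (n := wv (gdL 1 hs) v.2 * n) (by rw [mul_smul, k]; exact chkF_wv h.hγ k1)
        (mul_mem (wv_mem h.hc _) hc) hH
      rw [map_mul] at k2
      have k3 := wv_mem (γ := gdL 1 hs) (K := Subgroup.comap DD.Ah _)
        (fun a => Subgroup.mem_comap.2 (hH a)) v.2
      exact (Subgroup.mul_mem_cancel_left _ (Subgroup.mem_comap.1 k3)).1 k2
    · exact absurd (by rw [mul_smul, k]; exact chkF_wv h.hγ k1) (h0 _ (mul_mem (wv_mem h.hc v.2) hc))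
  ker n hn hF := h.ker hk (hF _ om) (cm_of hn) fun c => hF _ (col_fix hX e c)
  om := om
  nd c hc hne := by
    obtain ⟨m, hm, k⟩ := FX_enum hX e hc
    have := (allLt_iff _ _).1 e2 m hm
    simp only [kfo_eq, bor_eq, Bool.or_eq_true, anyL_iff, beq_true_iff, decide_eq_true_eq,
      List.mem_range, kgd_eq] at this
    rcases this with k1 | ⟨j, hj, k1⟩
    · exact absurd (by rw [k, k1, cd_zero']) hne
    · exact ⟨_, bas_fix hX e hj, k ▸ k1⟩
  span2 V hV := FX_le hX e V fun k hk => by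
    obtain ⟨z, -, k1⟩ := (anyL_iff _ _).1 ((allL_iff _ _).1 e5 k hk)
    rw [kfo_eq] at k1
    have k2 := chkF_wv h.hγ k1
    have k3 : cd (lin b z.2) ∈ FX x := lin_induction (P := fun k => cd k ∈ FX x)
      (cd_zero' ▸ zero_mem _) (fun a c h1 h2 => (cd_xor a c).symm ▸ add_mem h1 h2) b (fun k hk => by
        obtain ⟨a, ha, rfl⟩ := gd_mem 0 hk
        rw [gdL_eq]
        exact bas_fix hX e (by omega)) _
    rw [wv_cons, show wv (gdL 1 hs) [] = 1 from rfl, one_mul, cd_xor] at k2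
    have k4 : cd k = cd (lin b z.2) + gdL 1 hs z.1 • cd (lin b z.2) := by
      rw [k2, ← add_assoc, Cl_aa, zero_add]
    rw [k4]
    rcases gd_cases 1 hs z.1 with h1 | h1
    · exact hV _ h1 _ k3
    · rw [h1, one_smul, Cl_aa]; exact zero_mem _
  span1 V hV hh := by
    obtain ⟨w, -, k1⟩ := (anyL_iff _ _).1 ((allL_iff _ _).1 e3 c0 List.mem_cons_self)
    rw [← chkF_wv h.hγ k1]
    clear k1
    suffices ∀ c ∈ V, wv (gdL 1 hs) w • c ∈ V from this _ hV
    induction w with
    | nil => exact fun c hc => (one_smul DD.N c).symm ▸ hc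
    | cons a w ih =>
      intro c hc
      rw [wv_cons, mul_smul]
      refine ih _ ?_
      rcases gd_cases 1 hs a with h1 | h1
      · exact hh _ h1 c hc
      · rwa [h1, one_smul]
  top L hL hn y hy := by
    obtain ⟨acc, k1, k2⟩ := slp_sound h.hγ (L := L) (fun a l hl => by
      rcases gd_cases 1 hs a with h1 | h1
      · exact (hn _ h1 l hl).1
      · rwa [h1, map_one, one_mul, inv_one, mul_one])
      (fun M hM => by rw [List.mem_singleton.1 hM]; exact ⟨_, hL, hA⟩) e4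
    obtain ⟨a, ha, rfl⟩ := gd_mem 1 hy
    obtain ⟨M, hM, k3⟩ := (anyL_iff _ _).1 ((allLt_iff _ _).1 k2 a (hG ▸ ha))
    obtain ⟨u, hu, k4⟩ := k1 M hM
    rwa [show DD.Ah (gdL 1 hs a) = u from Units.ext (by rw [h.hγ, k4, eqP_sound k3])]

end

end Sf
end CfsgMO
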