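/-
Subgroups of the Monster: the class-matrix facts for the Held group.
-/
import Cfsg.Agent.MO.Sb4c

set_option autoImplicit false
set_option maxRecDepth 100000

namespace CfsgMO

open Dat Matrix
open scoped Pointwise

noncomputable section

namespace Sb

/-- the centralised set -/
abbrev RSHe : Set DD.Γ := {g | ∃ r ∈ RHe, r.1 = g}
/-- the fixed classes -/
abbrev FHe : AddSubgroup Cl := FX (wN xHe)
/-- the seven frames -/
def fFn (i : Fin 7) : Cl := cd (fHe.getD i 0)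
theorem okN_hHe : ∀ i : Fin 7, okN (hHe.getD i []) = true := by decide +kernel
/-- the elements moving them to the standard frame -/
def hFn (i : Fin 7) : DD.N := wN (hHe.getD i []) (okN_hHe i)

theorem hFn_val (i : Fin 7) : (hFn i).1 = wd gel (hHe.getD i []) := rfl

namespace G2

def fL : List ℕ := [0, 2048, 476974, 479022, 665095, 667143, 876841, 878889, 3405614, 3407662, 3452928, 3454976, 3789097, 3791145, 4101639, 4103687, 4301097, 4303145, 4646407, 4648455, 4949806, 4951854, 5029888, 5031936, 7493127, 7495175, 7672105, 7674153, 7892992, 7895040, 8337198, 8339246, 8388608, 8390656, 8865582, 8867630, 9053703, 9055751, 9265449, 9267497, 11794222, 11796270, 11841536, 11843584, 12177705, 12179753, 12490247, 12492295, 12689705, 12691753, 13035015, 13037063, 13338414, 13340462, 13418496, 13420544, 15881735, 15883783, 16060713, 16062761, 16281600, 16283648, 16725806, 16727854]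
def L0 : List ℕ := [1085350949055099120, 14068334001739580220, 14068334001739580220, 14714161362241795020, 0, 14714161362241795020, 0, 0, 14714161362241795020, 14068334001739580220, 14068334001739580220, 12297829382473034410, 18374966859414961920, 17298062221247451120, 3732415143318664140, 72056494543077120, 14714161362241795020, 14068334001739580220, 14757395258967641292, 17361641481138401520, 18374966859414961920, 18374966859414961920, 18446462603027742720, 18446744069414584320]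
def tbl : List (List ℕ) := [[0, 1, 24, 25, 30, 31, 6, 7, 14, 15, 22, 23, 16, 17, 8, 9, 12, 13, 20, 21, 18, 19, 10, 11, 2, 3, 26, 27, 28, 29, 4, 5, 32, 33, 56, 57, 62, 63, 38, 39, 46, 47, 54, 55, 48, 49, 40, 41, 44, 45, 52, 53, 50, 51, 42, 43, 34, 35, 58, 59, 60, 61, 36, 37], [0, 23, 58, 45, 18, 5, 40, 63, 38, 49, 28, 11, 52, 35, 14, 25, 62, 41, 4, 19, 44, 59, 22, 1, 24, 15, 34, 53, 10, 29, 48, 39, 32, 55, 26, 13, 50, 37, 8, 31, 6, 17, 60, 43, 20, 3, 46, 57, 30, 9, 36, 51, 12, 27, 54, 33, 56, 47, 2, 21, 42, 61, 16, 7], [0, 23, 24, 15, 48, 39, 40, 63, 14, 25, 22, 1, 62, 41, 38, 49, 52, 35, 44, 59, 4, 19, 28, 11, 58, 45, 34, 53, 10, 29, 18, 5, 32, 55, 56, 47, 16, 7, 8, 31, 46, 57, 54, 33, 30, 9, 6, 17, 20, 3, 12, 27, 36, 51, 60, 43, 26, 13, 2, 21, 42, 61, 50, 37], [0, 11, 58, 49, 20, 31, 46, 37, 38, 45, 28, 23, 50, 57, 8, 3, 36, 47, 30, 21, 48, 59, 10, 1, 2, 9, 56, 51, 22, 29,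 44, 39, 32, 43, 26, 17, 52, 63, 14, 5, 6, 13, 60, 55, 18, 25, 40, 35, 4, 15, 62, 53, 16, 27, 42, 33, 34, 41, 24, 19, 54, 61, 12, 7], [0, 11, 2, 9, 44, 39, 46, 37, 8, 3, 10, 1, 36, 47, 38, 45, 50, 57, 48, 59, 30, 21, 28, 23, 58, 49, 56, 51, 22, 29, 20, 31, 32, 43, 34, 41, 12, 7, 14, 5, 40, 35, 42, 33, 4, 15, 6, 13, 18, 25, 16, 27, 62, 53, 60, 55, 26, 17, 24, 19, 54, 61, 52, 63], [0, 7, 34, 37, 36, 35, 6, 1, 8, 15, 42, 45, 44, 43, 14, 9, 48, 55, 18, 21, 20, 19, 54, 49, 56, 63, 26, 29, 28, 27, 62, 57, 32, 39, 2, 5, 4, 3, 38, 33, 40, 47, 10, 13, 12, 11, 46, 41, 16, 23, 50, 53, 52, 51, 22, 17, 24, 31, 58, 61, 60, 59, 30, 25], [0, 15, 34, 45, 36, 43, 6, 9, 8, 7, 42, 37, 44, 35, 14, 1, 16, 31, 50, 61, 52, 59, 22, 25, 24, 23, 58, 53, 60, 51, 30, 17, 32, 47, 2, 13, 4, 11, 38, 41, 40, 39, 10, 5, 12, 3, 46, 33, 48, 63, 18, 29, 20, 27, 54, 57, 56, 55, 26, 21, 28, 19, 62, 49], [0, 54,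 56, 14, 35, 21, 27, 45, 49, 7, 9, 63, 18, 36, 42, 28, 17, 39, 41, 31, 50, 4, 10, 60, 32, 22, 24, 46, 3, 53, 59, 13, 2, 52, 58, 12, 33, 23, 25, 47, 51, 5, 11, 61, 16, 38, 40, 30, 19, 37, 43, 29, 48, 6, 8, 62, 34, 20, 26, 44, 1, 55, 57, 15], [0, 3, 2, 1, 55, 52, 53, 54, 10, 9, 8, 11, 61, 62, 63, 60, 16, 19, 18, 17, 39, 36, 37, 38, 26, 25, 24, 27, 45, 46, 47, 44, 34, 33, 32, 35, 21, 22, 23, 20, 40, 43, 42, 41, 31, 28, 29, 30, 50, 49, 48, 51, 5, 6, 7, 4, 56, 59, 58, 57, 15, 12, 13, 14], [0, 1, 2, 3, 31, 30, 29, 28, 11, 10, 9, 8, 20, 21, 22, 23, 19, 18, 17, 16, 12, 13, 14, 15, 24, 25, 26, 27, 7, 6, 5, 4, 56, 57, 58, 59, 39, 38, 37, 36, 51, 50, 49, 48, 44, 45, 46, 47, 43, 42, 41, 40, 52, 53, 54, 55, 32, 33, 34, 35, 63, 62, 61, 60], [0, 54, 32, 22, 21, 35, 53, 3, 10, 60, 42, 28, 31, 41, 63, 9, 50, 4, 18, 36, 39, 17, 7, 49, 56, 14, 24, 46, 45, 27, 13, 59, 34, 20, 2, 52, 55, 1, 23,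 33, 40, 30, 8, 62, 61, 11, 29, 43, 16, 38, 48, 6, 5, 51, 37, 19, 26, 44, 58, 12, 15, 57, 47, 25], [0, 38, 58, 28, 20, 50, 46, 8, 11, 45, 49, 23, 31, 57, 37, 3, 17, 55, 43, 13, 5, 35, 63, 25, 26, 60, 32, 6, 14, 40, 52, 18, 56, 30, 2, 36, 44, 10, 22, 48, 51, 21, 9, 47, 39, 1, 29, 59, 41, 15, 19, 53, 61, 27, 7, 33, 34, 4, 24, 62, 54, 16, 12, 42], [0, 3, 26, 25, 52, 55, 46, 45, 37, 38, 63, 60, 17, 18, 11, 8, 39, 36, 61, 62, 19, 16, 9, 10, 2, 1, 24, 27, 54, 53, 44, 47, 56, 59, 34, 33, 12, 15, 22, 21, 29, 30, 7, 4, 41, 42, 51, 48, 31, 28, 5, 6, 43, 40, 49, 50, 58, 57, 32, 35, 14, 13, 20, 23]]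
def TL : List (List ℕ) := [[1, 2, 4, 8, 16, 32], [1, 24, 30, 14, 12, 32], [23, 58, 18, 38, 62, 32], [23, 24, 48, 14, 52, 32], [11, 58, 20, 38, 36, 32], [11, 2, 44, 8, 50, 32], [7, 34, 36, 8, 48, 32], [15, 34, 36, 8, 16, 32], [54, 56, 35, 49, 17, 2], [3, 2, 55, 10, 16, 34], [1, 2, 31, 11, 19, 56], [54, 32, 21, 10, 50, 34], [38, 58, 20, 11, 17, 56], [3, 26, 52, 37, 39, 56], [7, 56, 62, 14, 44, 32], [15, 24, 30, 14, 44, 32], [54, 32, 59, 42, 18, 2], [3, 26, 47, 63, 61, 34], [1, 24, 5, 22, 20, 56], [54, 56, 13, 63, 31, 34], [38, 26, 52, 37, 31, 56], [3, 2, 44, 11, 17, 56], [49, 58, 18, 38, 30, 32], [25, 26, 50, 38, 62, 32], [60, 26, 41, 25, 57, 2], [38, 58, 18, 23, 13, 34], [15, 34, 17, 37, 61, 56], [49, 58, 18, 23, 47, 34], [25, 24, 43, 22, 12, 56], [10, 32, 61, 22, 20, 56], [49, 56, 16, 14, 52, 32], [25, 24, 48, 14, 20, 32], [60, 32, 19, 42, 48, 2], [38, 26, 50, 63, 5, 34],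 [15, 24, 43, 22, 52, 56], [49, 56, 16, 63, 5, 34], [25, 26, 41, 37, 61, 56], [10, 2, 31, 11, 43, 56], [45, 58, 20, 38, 4, 32], [37, 26, 52, 38, 4, 32], [63, 26, 50, 25, 33, 2], [11, 58, 39, 23, 21, 34], [8, 34, 12, 37, 39, 56], [28, 58, 39, 23, 55, 34], [23, 24, 5, 22, 44, 56], [60, 32, 19, 22, 12, 56], [45, 34, 12, 8, 50, 32], [37, 34, 12, 8, 18, 32], [63, 56, 16, 49, 43, 2], [11, 2, 31, 10, 48, 34], [8, 2, 44, 11, 41, 56], [28, 32, 61, 10, 48, 34], [23, 58, 39, 11, 19, 56], [60, 26, 41, 37, 5, 56], [63, 26, 50, 38, 30, 32], [63, 56, 16, 14, 20, 32], [9, 2, 4, 8, 48, 32], [45, 58, 33, 49, 19, 2], [28, 58, 39, 11, 43, 56], [45, 34, 12, 37, 31, 56], [9, 56, 62, 14, 12, 32], [3, 26, 52, 38, 36, 32], [28, 58, 33, 49, 17, 2], [60, 32, 21, 10, 16, 34], [9, 2, 55, 10, 50, 34], [42, 34, 57, 45, 13, 24], [54, 56, 13, 9, 41, 58], [60, 26, 47, 3, 35, 24], [42, 34, 17, 15, 47, 58],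 [22, 24, 5, 23, 55, 34], [7, 56, 35, 49, 19, 2], [7, 34, 36, 15, 55, 58], [49, 58, 33, 28, 36, 26], [45, 58, 33, 28, 62, 26], [37, 34, 17, 42, 48, 2], [45, 34, 57, 42, 16, 2], [14, 56, 62, 9, 17, 58], [3, 2, 55, 9, 19, 58], [22, 32, 19, 42, 50, 2], [25, 26, 50, 63, 39, 34], [1, 24, 5, 23, 21, 34], [23, 24, 5, 1, 59, 26], [11, 2, 31, 1, 59, 26], [7, 34, 57, 45, 21, 24], [54, 32, 59, 28, 36, 26], [3, 26, 47, 60, 62, 58], [42, 32, 19, 22, 52, 56], [42, 32, 59, 28, 62, 26], [8, 2, 4, 9, 43, 58], [8, 2, 4, 1, 35, 26], [14, 24, 48, 23, 47, 34], [14, 24, 30, 1, 57, 26], [38, 58, 20, 45, 55, 24], [23, 58, 39, 28, 4, 26], [22, 32, 19, 60, 36, 58], [15, 34, 36, 7, 31, 26], [9, 56, 62, 7, 5, 26], [37, 26, 52, 3, 33, 24], [45, 58, 20, 11, 41, 56], [22, 24, 5, 1, 33, 26], [25, 24, 43, 15, 21, 58], [28, 32, 61, 22, 44, 56], [3, 2, 44, 8, 18, 32], [28, 32, 59, 42, 16, 2], [60, 26, 47, 63,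 31, 34], [9, 56, 13, 63, 61, 34], [42, 32, 59, 54, 20, 24], [54, 32, 21, 60, 4, 58], [60, 32, 21, 54, 44, 24], [42, 32, 19, 60, 30, 58], [22, 32, 61, 10, 18, 34], [7, 34, 57, 42, 18, 2], [7, 56, 62, 9, 43, 58], [49, 56, 35, 7, 61, 26], [45, 34, 57, 7, 61, 26], [37, 26, 41, 25, 59, 2], [14, 24, 30, 15, 55, 58], [22, 24, 43, 25, 57, 2], [25, 24, 48, 23, 13, 34], [1, 2, 31, 10, 18, 34], [11, 58, 39, 28, 30, 26], [7, 56, 35, 54, 20, 24], [54, 56, 35, 7, 39, 26], [42, 34, 17, 37, 5, 56], [42, 34, 57, 7, 39, 26], [8, 34, 36, 15, 13, 58], [8, 34, 36, 7, 5, 26], [14, 56, 16, 63, 39, 34], [14, 56, 62, 7, 31, 26], [38, 26, 52, 3, 57, 24], [22, 24, 43, 15, 47, 58], [15, 24, 30, 1, 35, 26], [9, 2, 4, 1, 57, 26], [37, 34, 12, 45, 55, 24], [22, 32, 61, 28, 4, 26], [25, 26, 41, 60, 36, 58], [15, 24, 43, 25, 59, 2], [38, 58, 18, 49, 43, 2], [38, 26, 50, 25, 35, 2], [37, 34, 17, 15, 21, 58],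 [23, 58, 18, 49, 41, 2], [9, 2, 55, 3, 59, 24], [37, 26, 41, 60, 30, 58], [63, 56, 13, 54, 44, 24], [1, 2, 4, 9, 17, 58], [10, 32, 61, 28, 30, 26], [63, 56, 13, 9, 19, 58], [15, 34, 17, 42, 50, 2], [23, 24, 48, 25, 35, 2], [9, 56, 13, 54, 52, 24], [63, 26, 47, 3, 59, 24], [1, 24, 30, 15, 13, 58], [10, 2, 31, 1, 33, 26], [63, 26, 47, 60, 4, 58], [14, 24, 48, 25, 33, 2], [8, 2, 44, 3, 33, 24], [49, 56, 35, 54, 12, 24], [10, 2, 55, 9, 41, 58], [14, 56, 16, 49, 41, 2], [8, 34, 12, 45, 47, 24], [49, 58, 33, 45, 21, 24], [10, 32, 21, 60, 62, 58], [28, 58, 33, 45, 13, 24], [11, 2, 44, 3, 57, 24], [10, 2, 55, 3, 35, 24], [28, 32, 59, 54, 12, 24], [11, 58, 20, 45, 47, 24], [10, 32, 21, 54, 52, 24]]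
def WL : List (List ℕ) := [[], [0], [1], [2], [3], [4], [5], [6], [7], [8], [9], [10], [11], [12], [5, 0], [6, 0], [7, 0], [8, 0], [9, 0], [10, 0], [11, 0], [12, 0], [5, 1], [6, 1], [7, 1], [8, 1], [9, 1], [10, 1], [11, 1], [12, 1], [5, 2], [6, 2], [7, 2], [8, 2], [9, 2], [10, 2], [11, 2], [12, 2], [5, 3], [6, 3], [7, 3], [8, 3], [9, 3], [10, 3], [11, 3], [12, 3], [5, 4], [6, 4], [7, 4], [8, 4], [9, 4], [10, 4], [11, 4], [12, 4], [1, 5], [2, 5], [6, 5], [7, 5], [9, 5], [12, 5], [0, 6], [3, 6], [7, 6], [8, 6], [10, 6], [0, 7], [1, 7], [2, 7], [3, 7], [5, 7], [8, 7], [11, 7], [12, 7], [1, 8], [5, 8], [6, 8], [7, 8], [9, 8], [10, 8], [12, 8], [0, 9], [2, 9], [4, 9], [5, 9], [10, 9], [12, 9], [0, 10], [3, 10], [7, 10], [2, 11], [3, 11], [4, 11], [5, 11], [10, 11], [12, 11], [2, 12], [4, 12], [5, 12], [6, 12], [10, 12], [12, 12], [9, 5, 0], [3, 6, 0], [7, 6, 0], [8, 6, 0], [10,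 6, 0], [0, 7, 0], [1, 7, 0], [2, 7, 0], [3, 7, 0], [5, 7, 0], [8, 7, 0], [11, 7, 0], [12, 7, 0], [1, 8, 0], [5, 8, 0], [7, 8, 0], [10, 8, 0], [12, 8, 0], [0, 9, 0], [4, 9, 0], [5, 9, 0], [10, 9, 0], [0, 10, 0], [3, 10, 0], [7, 10, 0], [2, 11, 0], [3, 11, 0], [4, 11, 0], [5, 11, 0], [12, 11, 0], [2, 12, 0], [4, 12, 0], [5, 12, 0], [10, 12, 0], [12, 12, 0], [8, 7, 1], [5, 8, 1], [6, 8, 1], [9, 8, 1], [10, 8, 1], [5, 9, 1], [7, 10, 1], [5, 11, 1], [12, 11, 1], [4, 12, 1], [12, 12, 1], [8, 7, 2], [10, 8, 2], [5, 9, 2], [5, 11, 2], [12, 11, 2], [4, 12, 2], [12, 12, 2], [8, 7, 3], [5, 9, 3], [5, 11, 3], [12, 11, 3], [8, 7, 4], [5, 9, 4], [5, 11, 4], [12, 11, 4], [5, 9, 5], [5, 12, 5], [2, 7, 6], [12, 12, 7], [10, 1, 8], [0, 10, 8]]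
def shW : List (ℕ × List ℕ) := [(1, []), (23, [1]), (11, [3]), (7, [5]), (15, [6]), (54, [7]), (3, [8]), (38, [11]), (49, [5, 1]), (25, [6, 1]), (60, [7, 1]), (10, [12, 1]), (45, [5, 3]), (37, [6, 3]), (63, [7, 3]), (8, [9, 3]), (28, [10, 3]), (9, [6, 5]), (42, [0, 7]), (22, [5, 7]), (14, [7, 8])]
def f1W : List (ℕ × List ℕ) := [(32, []), (2, [7]), (34, [8]), (56, [9]), (24, [0, 7]), (58, [1, 7]), (26, [12, 7])]
def f2W : List (ℕ × List ℕ) := [(40, []), (46, [0]), (6, [1]), (51, [7]), (29, [12]), (27, [7, 1]), (53, [8, 1])]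
def fK : List ℕ := [32, 24, 34, 56, 2, 26, 58]

def cF (k : ℕ) : Cl := cd (fL.getD k 0)

def chkA (w π : List ℕ) : Bool :=
  wmK amat w L0 fun L => kall 64 fun k =>
    an (Nat.beq (klab L k) (kgd fL (kgd π k))) (Nat.blt (kgd π k) 64)

theorem lab_L0 : kall 64 (fun k => Nat.beq (klab L0 k) (kgd fL k)) = true := by decide +kernel

theorem chkA_sound {w π : List ℕ} (h : okN w = true) (e : chkA w π = true) {k : ℕ} (hk : k < 64) :
    wN w h • cF k = cF (π.getD k 0) ∧ π.getD k 0 < 64 := by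
  obtain ⟨L, e1, e2⟩ := alph.wmK_sound h e
  have a1 := kall_iff.1 e1 k hk
  have a2 := kall_iff.1 lab_L0 k hk
  simp only [an_eq, Bool.and_eq_true, Nat.beq_eq, Nat.blt_eq, kgd_eq, klab_eq] at a1 a2
  refine ⟨?_, a1.2⟩
  rw [cF, cF, ← a1.1, ← a2, cd_lab, cd_lab, e2]
  rfl

def H (j : ℕ) : DD.N := HHe.getD j 1
def pa (j k : ℕ) : ℕ := (tbl.getD j (List.range 64)).getD k 0

theorem H_smul (j : ℕ) {k : ℕ} (hk : k < 64) : H j • cF k = cF (pa j k) ∧ pa j k < 64 := by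
  by_cases hj : j < 13
  · interval_cases j <;> exact chkA_sound (by decide +kernel) (by decide +kernel) hk
  · have e1 : H j = 1 := List.getD_eq_default _ _ (not_lt.1 hj)
    have e2 : pa j k = k := by
      rw [pa, List.getD_eq_default tbl _ (not_lt.1 hj), List.getD_eq_getElem _ _ (by simpa using hk)]
      simp
    rw [e1, e2, one_smul]
    exact ⟨rfl, hk⟩

theorem H_of_mem {h : DD.N} (hh : h ∈ HHe) : ∃ j, H j = h := by
  obtain ⟨j, hj, rfl⟩ := List.getElem_of_mem hh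
  exact ⟨j, List.getD_eq_getElem _ _ hj⟩

theorem H_mem {P : Subgroup DD.N} (h : ∀ h ∈ HHe, h ∈ P) (j : ℕ) : H j ∈ P := by
  by_cases hj : j < HHe.length
  · rw [H, List.getD_eq_getElem _ _ hj]; exact h _ (List.getElem_mem hj)
  · rw [H, List.getD_eq_default _ _ (not_lt.1 hj)]; exact one_mem _

def gW (w : List ℕ) : DD.N := w.foldr (fun j g => H j * g) 1
def ev1 (w : List ℕ) (k : ℕ) : ℕ := w.foldr pa k

theorem gW_mem {P : Subgroup DD.N} (h : ∀ h ∈ HHe, h ∈ P) (w : List ℕ) : gW w ∈ P := by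
  induction w with
  | nil => exact one_mem _
  | cons j w ih => exact mul_mem (H_mem h j) ih

theorem gW_smul (w : List ℕ) {k : ℕ} (hk : k < 64) : gW w • cF k = cF (ev1 w k) ∧ ev1 w k < 64 := by
  induction w with
  | nil => exact ⟨one_smul _ _, hk⟩
  | cons j w ih =>
    have := H_smul j ih.2
    refine ⟨?_, this.2⟩
    have e : gW (j :: w) = H j * gW w := rfl
    rw [e, mul_smul, ih.1]
    exact this.1

theorem x_smul {k : ℕ} (hk : k < 64) : wN xHe • cF k = cF k := by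
  have := (chkA_sound (w := xHe) (π := List.range 64) (by decide) (by decide +kernel) hk).1
  rwa [List.getD_eq_getElem _ _ (by simpa using hk), List.getElem_range] at this

theorem y_smul {k : ℕ} (hk : k < 64) : wN yHe • cF k = cF k := by
  have := (chkA_sound (w := yHe) (π := List.range 64) (by decide) (by decide +kernel) hk).1
  rwa [List.getD_eq_getElem _ _ (by simpa using hk), List.getElem_range] at this

theorem fL_chk : kall 64 (fun k => an (Nat.blt (kgd fL k) 16777216) (kall 64 fun l =>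
    an (Nat.beq (kgd fL (Nat.xor k l)) (Nat.xor (kgd fL k) (kgd fL l)))
      (an (Nat.blt (Nat.xor k l) 64)
        (Bool.rec true (Nat.beq k l) (Nat.beq (kgd fL k) (kgd fL l)))))) = true := by
  decide +kernel

theorem cF_xor {k l : ℕ} (hk : k < 64) (hl : l < 64) :
    cF (Nat.xor k l) = cF k + cF l ∧ Nat.xor k l < 64 := by
  have a1 := kall_iff.1 fL_chk k hk
  rw [an_eq, Bool.and_eq_true] at a1
  have a2 := kall_iff.1 a1.2 l hl
  simp only [an_eq, Bool.and_eq_true, Nat.beq_eq, Nat.blt_eq, kgd_eq] at a2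
  exact ⟨by rw [cF, a2.1, cd_xor]; rfl, a2.2.1⟩

theorem cF_inj {k l : ℕ} (hk : k < 64) (hl : l < 64) (h : cF k = cF l) : k = l := by
  have a1 := kall_iff.1 fL_chk k hk
  have a3 := kall_iff.1 fL_chk l hl
  rw [an_eq, Bool.and_eq_true] at a1 a3
  have a2 := kall_iff.1 a1.2 l hl
  simp only [an_eq, Bool.and_eq_true, Nat.beq_eq, Nat.blt_eq, kgd_eq] at a1 a2 a3
  have := a2.2.2
  rw [cd_inj a1.1 a3.1 h, Nat.beq_refl] at this
  exact Nat.eq_of_beq_eq_true this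

theorem cF_zero : cF 0 = 0 := by decide +kernel
theorem cF_Om : cF 32 = Om := rfl

theorem mem_F {c : Cl} : c ∈ FHe ↔ ∃ k < 64, c = cF k := by
  refine ⟨fun hc => ?_, fun ⟨k, hk, e⟩ => e ▸ x_smul hk⟩
  obtain ⟨m, hm, rfl⟩ := Sf.FX_enumHe hc
  have : ∀ m < 64, CfsgH5.lin bHe m = fL.getD m 0 := by decide +kernel
  exact ⟨m, hm, congrArg cd (this m hm)⟩

/-- the centraliser as a subgroup of `N` -/
abbrev C : Subgroup DD.N := (DD.CN RSHe).subgroupOf DD.N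

theorem comm_of {n : DD.N} (hn : n.1 ∈ DD.CN RSHe) {r : DD.N} (hr : r ∈ RHe) : n * r = r * n :=
  Subtype.ext (hn.2 _ ⟨r, hr, rfl⟩).symm

theorem ind {P : Subgroup DD.N} (hk : DD.Ah.ker ≤ P) (hh : ∀ h ∈ HHe, h ∈ P)
    {n : DD.N} (hn : n.1 ∈ DD.CN RSHe) : n ∈ P := by
  have h1 := Sf.mHe.gen n fun r hr => by rw [← map_mul, ← map_mul, comm_of hn hr]
  have h2 : Subgroup.closure {A | ∃ h ∈ HHe, DD.Ah h = A} ≤ P.map DD.Ah :=
    (Subgroup.closure_le _).2 fun _ ⟨h, e1, e2⟩ => ⟨h, hh h e1, e2⟩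
  obtain ⟨p, hp, e⟩ := h2 h1
  have := mul_mem hp (hk (show p⁻¹ * n ∈ DD.Ah.ker by
    rw [MonoidHom.mem_ker, map_mul, map_inv, e, inv_mul_cancel]))
  rwa [mul_inv_cancel_left] at this

theorem ker_smul {n : DD.N} (hn : n ∈ DD.Ah.ker) (c : Cl) : n • c = c := by
  rw [smul_cl, MonoidHom.mem_ker.1 hn, Units.val_one, one_mulVec]

theorem inv_set {X : Type} [MulAction DD.N X] (hk : ∀ n ∈ DD.Ah.ker, ∀ x : X, n • x = x)
    {Z : Set X} (hZ : Z.Finite) (h : ∀ j, ∀ x ∈ Z, H j • x ∈ Z) {n : DD.N}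
    (hn : n.1 ∈ DD.CN RSHe) : n • Z = Z := by
  refine ind (P := MulAction.stabilizer DD.N Z) (fun m hm => ?_) (fun m hm => ?_) hn <;>
    rw [MulAction.mem_stabilizer_set_iff_smul_set_subset hZ] <;> rintro _ ⟨x, hx, rfl⟩
  · show m • x ∈ Z
    rw [hk m hm x]; exact hx
  · obtain ⟨j, rfl⟩ := H_of_mem hm
    exact h j x hx

def tup (l : List ℕ) : Fin 6 → Cl := fun i => cF (l.getD i 0)

theorem TL_chk : (∀ l ∈ TL, l.length = 6 ∧ (∀ k ∈ l, k < 64) ∧ ∀ j < 13, l.map (pa j) ∈ TL) ∧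
    TL.Nodup ∧ TL.length = 168 ∧
    TL = WL.map fun w => [1, 2, 4, 8, 16, 32].map (ev1 w) := by decide +kernel

theorem getD_lt {l : List ℕ} (h : ∀ k ∈ l, k < 64) (i : ℕ) : l.getD i 0 < 64 := by
  by_cases hi : i < l.length
  · rw [List.getD_eq_getElem _ _ hi]; exact h _ (List.getElem_mem hi)
  · rw [List.getD_eq_default _ _ (not_lt.1 hi)]; norm_num

theorem smul_tup {n : DD.N} {f : ℕ → ℕ} (hf : ∀ k < 64, n • cF k = cF (f k)) {l : List ℕ}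
    (h1 : l.length = 6) (h2 : ∀ k ∈ l, k < 64) : n • tup l = tup (l.map f) := by
  funext i
  have hi : i.1 < l.length := by rw [h1]; exact i.2
  show n • cF _ = cF _
  rw [hf _ (getD_lt h2 _), List.getD_eq_getElem _ _ hi,
    List.getD_eq_getElem _ _ (by simpa using hi), List.getElem_map]

theorem ker_smul_tup (n : DD.N) (hn : n ∈ DD.Ah.ker) (x : Fin 6 → Cl) : n • x = x :=
  funext fun i => by rw [Pi.smul_apply, ker_smul hn]

theorem orbit_b (hh : ∀ h ∈ HHe, h.1 ∈ DD.CN RSHe) :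
    {y | ∃ h ∈ C, h • tup [1, 2, 4, 8, 16, 32] = y} = tup '' TL.toFinset := by
  ext y
  constructor
  · rintro ⟨n, hn, rfl⟩
    rw [← inv_set (Z := tup '' TL.toFinset) ker_smul_tup
      ((Finset.finite_toSet _).image _) ?_ hn]
    · exact Set.smul_mem_smul_set ⟨_, List.mem_toFinset.2 List.mem_cons_self, rfl⟩
    · rintro j _ ⟨l, hl, rfl⟩
      have hl' : l ∈ TL := List.mem_toFinset.1 hl
      obtain ⟨a1, a2, a3⟩ := TL_chk.1 l hl'
      by_cases hj : j < 13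
      · exact ⟨_, List.mem_toFinset.2 (a3 j hj),
          (smul_tup (fun k hk => (H_smul j hk).1) a1 a2).symm⟩
      · rw [show H j = 1 from List.getD_eq_default _ _ (not_lt.1 hj), one_smul]
        exact ⟨l, hl, rfl⟩
  · rintro ⟨l, hl, rfl⟩
    have hl' : l ∈ TL := List.mem_toFinset.1 hl
    rw [TL_chk.2.2.2, List.mem_map] at hl'
    obtain ⟨w, -, rfl⟩ := hl'
    exact ⟨gW w, gW_mem (P := C) hh w, smul_tup (fun k hk => (gW_smul w hk).1) rfl (by decide)⟩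

theorem ncard_orbit : (tup '' TL.toFinset).ncard = 168 := by
  rw [Set.ncard_image_of_injOn, Set.ncard_coe_finset, List.toFinset_card_of_nodup TL_chk.2.1,
    TL_chk.2.2.1]
  intro l hl m hm e
  obtain ⟨a1, a2, -⟩ := TL_chk.1 l (List.mem_toFinset.1 hl)
  obtain ⟨b1, b2, -⟩ := TL_chk.1 m (List.mem_toFinset.1 hm)
  refine List.ext_getElem (a1.trans b1.symm) fun i h1 h2 => ?_
  have := cF_inj (getD_lt a2 _) (getD_lt b2 _) (congrFun e ⟨i, a1 ▸ h1⟩)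
  rwa [List.getD_eq_getElem _ _ h1, List.getD_eq_getElem _ _ h2] at this

theorem W_chk : (∀ p ∈ shW, ev1 p.2 1 = p.1) ∧ (∀ p ∈ f1W, ev1 p.2 32 = p.1) ∧
    (∀ p ∈ f2W, ev1 p.2 40 = p.1) ∧ (shW.map Prod.fst).Nodup ∧
    (∀ k < 64, k = 0 ∨ Bf (cF k) (cF k) = 1 ∨ (∃ p ∈ shW, p.1 = k) ∨ (∃ p ∈ f1W, p.1 = k) ∨
      ∃ p ∈ f2W, p.1 = k) := by decide +kernel

theorem fr2 : cF 40 ∈ DD.Frs := by
  obtain ⟨h, e⟩ := alph.chkF_sound (w := gHe) (x := 11794222) (y := 8388608) (by decide +kernel)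
  have e' : wN gHe h • cF 40 = Om := e
  rw [← inv_smul_smul (wN gHe h) (cF 40), e']
  exact Frs_smul _ hypL.om

theorem short_of {p : DD.I} (hp : DD.cls p ∈ FHe) : ∃ q ∈ shW, DD.cls p = cF q.1 := by
  obtain ⟨k, hk, e⟩ := mem_F.1 hp
  rcases W_chk.2.2.2.2 k hk with h | h | ⟨q, h, h'⟩ | ⟨q, h, h'⟩ | ⟨q, h, h'⟩
  · exact absurd (by rw [e, h, cF_zero]) (DD.cls_ne p)
  · rw [← e, DD.cls_sing] at h; exact absurd h (by decide)
  · exact ⟨q, h, h' ▸ e⟩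
  · have := Frs_smul (gW q.2) hypL.om
    rw [← cF_Om, (gW_smul _ (by norm_num)).1, W_chk.2.1 q h, h'] at this
    exact absurd e (this.2.2 p)
  · have := Frs_smul (gW q.2) fr2
    rw [(gW_smul _ (by norm_num)).1, W_chk.2.2.1 q h, h'] at this
    exact absurd e (this.2.2 p)

theorem exists_short : ∃ p : DD.I, DD.cls p = cF 1 := by
  obtain ⟨p, h, -⟩ := okLam_sound (e := 0) (c := 2048) (v := wL.getD 23 []) (by decide +kernel)
  exact ⟨p, h⟩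

theorem of_short {q : ℕ × List ℕ} (hq : q ∈ shW) : q.1 < 64 ∧ gW q.2 • cF 1 = cF q.1 := by
  have := gW_smul q.2 (k := 1) (by norm_num)
  rw [W_chk.1 q hq] at this
  exact this.symm

theorem exists_of_short {q : ℕ × List ℕ} (hq : q ∈ shW) : ∃ s : DD.I, DD.cls s = cF q.1 := by
  obtain ⟨p, hp⟩ := exists_short
  obtain ⟨s, -, e, -⟩ := act_ax (gW q.2) p
  rw [← smul_cl, hp, (of_short hq).2] at e
  exact ⟨s, e⟩

theorem fFn_eq : ∀ i : Fin 7, fHe.getD i 0 = fL.getD (fK.getD i 0) 0 ∧ fK.getD i 0 < 64 ∧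
    (∀ j < 13, ∃ i' : Fin 7, pa j (fK.getD i 0) = fK.getD i' 0) ∧
    ∀ i' : Fin 7, fK.getD i 0 = fK.getD i' 0 → i = i' := by decide +kernel

theorem fFn_cF (i : Fin 7) : fFn i = cF (fK.getD i 0) := congrArg cd (fFn_eq i).1

end G2

open G2

theorem he_zC : DD.z ∈ DD.CN RSHe :=
  ⟨DD.z_mem, by rintro _ ⟨r, -, rfl⟩; exact DD.z_comm r.2⟩

theorem he_inv (n : DD.N) (hn : n.1 ∈ DD.CN RSHe) : ∀ c ∈ FHe, n • c ∈ FHe := fun c hc => by
  change wN xHe • n • c = n • c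
  rw [← mul_smul, ← comm_of hn List.mem_cons_self, mul_smul, show wN xHe • c = c from hc]

theorem xq_comm_of_odd {n : DD.N} {m : ℕ} (hm : Odd m) (h : n.1 ^ m = 1) {c : Cl} (hc : n • c = c) :
    n.1 * DD.xq c = DD.xq c * n.1 := by
  obtain ⟨ε, e⟩ := Ah_spec n c
  rw [← smul_cl, hc] at e
  have key : ∀ k : ℕ, n.1 ^ k * DD.xq c * (n.1 ^ k)⁻¹ = DD.zp (k * ε) * DD.xq c := fun k => by
    induction k with
    | zero => simp [zp_zero]
    | succ k ih =>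
      rw [pow_succ', show n.1 * n.1 ^ k * DD.xq c * (n.1 * n.1 ^ k)⁻¹ =
        n.1 * (n.1 ^ k * DD.xq c * (n.1 ^ k)⁻¹) * n.1⁻¹ by group, ih, conj_zx n.2 e]
      congr 2; push_cast; ring
  have h1 := key m
  obtain ⟨j, rfl⟩ := hm
  rw [h, one_mul, inv_one, mul_one, right_eq_mul, ← DD.zp_zero] at h1
  have h2 := DD.zp_inj h1
  have h3 : ε = 0 := by
    rw [← h2]; push_cast
    rw [show (2 : F2) = 0 from rfl]; ring
  rw [h3, zp_zero, one_mul] at e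
  exact mul_inv_eq_iff_eq_mul.1 e

/-- the elements `xq c`, `c ∈ F`, centralise `x` and `y` -/
theorem he_hq (hx : (wN xHe).1 ^ 7 = 1) (hy : (wN yHe).1 ^ 3 = 1) :
    ∀ c ∈ FHe, DD.xq c ∈ DD.CN RSHe := fun c hc => ⟨DD.xq_mem c, by
  rintro _ ⟨r, hr, rfl⟩
  obtain ⟨k, hk, rfl⟩ := mem_F.1 hc
  rcases List.mem_pair.1 hr with rfl | rfl
  · exact xq_comm_of_odd (by decide) hx (x_smul hk)
  · exact xq_comm_of_odd (by decide) hy (y_smul hk)⟩

theorem he_qC (hq : ∀ c ∈ FHe, DD.xq c ∈ DD.CN RSHe) (c : Cl) : DD.xq c ∈ DD.CN RSHe ↔ c ∈ FHe :=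
  ⟨fun h => smul_of_comm (n := wN xHe) (e := 0) (by
    rw [zp_zero, one_mul]; exact h.2 _ ⟨_, List.mem_cons_self, rfl⟩), hq c⟩

theorem he_card (hh : ∀ h ∈ HHe, h.1 ∈ DD.CN RSHe)
    (hq : ∀ c ∈ FHe, DD.xq c ∈ DD.CN RSHe) : Nat.card (DD.CN RSHe) = 21504 := by
  have h1 := card_stab_mul C (tup [1, 2, 4, 8, 16, 32])
  have zpC : ∀ e, DD.zp e ∈ DD.CN RSHe := zp_mem_of he_zC
  have h2 : Nat.card (F2 × Fin 64) =
      Nat.card (C ⊓ MulAction.stabilizer DD.N (tup [1, 2, 4, 8, 16, 32]) : Subgroup DD.N) := by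
    refine Nat.card_eq_of_bijective (fun a => ⟨⟨DD.zp a.1 * DD.xq (cF a.2),
      mul_mem (DD.zp_mem _) (DD.xq_mem _)⟩, mul_mem (zpC _) (hq _ (x_smul a.2.2)),
      funext fun i => zx_smul rfl _⟩) ⟨fun a b e => ?_, fun ⟨n, hn, hs⟩ => ?_⟩
    · have := DD.zp_xq_inj (congrArg (fun x => x.1.1) e)
      exact Prod.ext this.1 (Fin.ext (cF_inj a.2.2 b.2.2 this.2))
    · have a1 := Sf.mHe.ker n (fun r hr => by rw [← map_mul, ← map_mul, comm_of hn hr])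
        (Sf.FX_leHe (FX n) fun k hk => by
          simp only [bHe, List.mem_cons, List.not_mem_nil, or_false] at hk
          rcases hk with rfl | rfl | rfl | rfl | rfl | rfl
          exacts [congrFun hs 0, congrFun hs 1, congrFun hs 2, congrFun hs 3, congrFun hs 4,
            congrFun hs 5])
      obtain ⟨ε, c, e⟩ := mem_ker.1 a1
      have a2 : DD.xq c ∈ DD.CN RSHe := by
        rw [← (DD.CN RSHe).mul_mem_cancel_left (zpC ε), ← e]; exact hn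
      obtain ⟨k, hk, rfl⟩ := mem_F.1 ((he_qC hq c).1 a2)
      exact ⟨(ε, ⟨k, hk⟩), Subtype.ext (Subtype.ext e.symm)⟩
  have h3 : Nat.card C = Nat.card (DD.CN RSHe) :=
    Nat.card_congr (Subgroup.subgroupOfEquivOfLe (H := DD.CN RSHe) inf_le_left).toEquiv
  rw [orbit_b hh, ncard_orbit, ← h2, h3] at h1
  rw [← h1]; simp

theorem he_hC (hh : ∀ h ∈ HHe, h.1 ∈ DD.CN RSHe) (i : Fin 7) :
    (hFn i).1 ∈ DD.CN RSHe ∧ hFn i • fFn i = Om := by
  have : ∀ i : Fin 7, chkF amat (hHe.getD i []) (fHe.getD i 0) 8388608 = true := by decide +kernel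
  refine ⟨?_, (alph.chkF_sound (this i)).2⟩
  fin_cases i
  exacts [one_mem _, H_mem (P := C) hh 7, H_mem (P := C) hh 8, H_mem (P := C) hh 9,
    H_mem (P := C) hh 10, H_mem (P := C) hh 11, H_mem (P := C) hh 12]

theorem he_finj : Function.Injective fFn := fun i j e => by
  rw [fFn_cF, fFn_cF] at e
  exact (fFn_eq i).2.2.2 j (cF_inj (fFn_eq i).2.1 (fFn_eq j).2.1 e)

theorem he_fr (n : DD.N) (hn : n.1 ∈ DD.CN RSHe) : ∃ i, n • fFn i = Om := by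
  have h1 : Om ∈ n • Set.range fFn := by
    rw [inv_set (fun m hm => ker_smul hm) (Set.finite_range _) ?_ hn]
    · exact ⟨0, rfl⟩
    · rintro j _ ⟨i, rfl⟩
      by_cases hj : j < 13
      · obtain ⟨i', e⟩ := (fFn_eq i).2.2.1 j hj
        exact ⟨i', by rw [fFn_cF, fFn_cF, (H_smul j (fFn_eq i).2.1).1, e]⟩
      · rw [show H j = 1 from List.getD_eq_default _ _ (not_lt.1 hj), one_smul]
        exact ⟨i, rfl⟩
  obtain ⟨_, ⟨i, rfl⟩, e⟩ := h1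
  exact ⟨i, e⟩

theorem he_odd : cd 2048 ∈ FHe ∧ cd 2048 11 = 1 :=
  ⟨x_smul (k := 1) (by norm_num), by decide⟩

/-- the classes of the list `shHe` lie in `F` -/
theorem he_sh_mem : ∀ c ∈ shHe, cd c ∈ FHe := fun c hc => by
  have : ∀ c ∈ shHe, ∃ k < 64, fL.getD k 0 = c := by decide +kernel
  obtain ⟨k, hk, rfl⟩ := this c hc
  exact x_smul hk

theorem he_sh_iff (p : DD.I) : DD.cls p ∈ FHe ↔ ∃ j < 21, DD.cls p = cd (shHe.getD j 0) := by
  constructor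
  · intro hp
    obtain ⟨q, hq, e⟩ := short_of hp
    have : ∀ q ∈ shW, ∃ j < 21, fL.getD q.1 0 = shHe.getD j 0 := by decide +kernel
    obtain ⟨j, hj, e'⟩ := this q hq
    exact ⟨j, hj, e.trans (congrArg cd e')⟩
  · rintro ⟨j, hj, e⟩
    rw [e, List.getD_eq_getElem _ _ hj]
    exact he_sh_mem _ (List.getElem_mem _)

theorem he_sh_exists {j : ℕ} (hj : j < 21) : ∃ p : DD.I, DD.cls p = cd (shHe.getD j 0) := by
  have : ∀ j < 21, ∃ q ∈ shW, fL.getD q.1 0 = shHe.getD j 0 := by decide +kernel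
  obtain ⟨q, hq, e⟩ := this j hj
  obtain ⟨s, hs⟩ := exists_of_short hq
  exact ⟨s, hs.trans (congrArg cd e)⟩

open Classical in
theorem he_sh : (Finset.univ.filter fun p => DD.cls p ∈ FHe).card = 21 := by
  rw [← Finset.card_image_of_injective _ DD.cls_inj]
  have e : (Finset.univ.filter fun p => DD.cls p ∈ FHe).image DD.cls =
      (shW.map Prod.fst).toFinset.image cF := by
    ext c
    simp only [Finset.mem_image, Finset.mem_filter, Finset.mem_univ, true_and, List.mem_toFinset,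
      List.mem_map]
    constructor
    · rintro ⟨p, hp, rfl⟩
      obtain ⟨q, hq, e⟩ := short_of hp
      exact ⟨_, ⟨q, hq, rfl⟩, e.symm⟩
    · rintro ⟨_, ⟨q, hq, rfl⟩, rfl⟩
      obtain ⟨s, e⟩ := exists_of_short hq
      exact ⟨s, e ▸ x_smul (of_short hq).1, e⟩
  rw [e, Finset.card_image_of_injOn, List.toFinset_card_of_nodup W_chk.2.2.2.1]
  · rfl
  · intro k hk l hl
    obtain ⟨q, hq, rfl⟩ := List.mem_map.1 (List.mem_toFinset.1 hk)
    obtain ⟨q', hq', rfl⟩ := List.mem_map.1 (List.mem_toFinset.1 hl)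
    exact cF_inj (of_short hq).1 (of_short hq').1

theorem he_tr (hh : ∀ h ∈ HHe, h.1 ∈ DD.CN RSHe)
    (hq : ∀ c ∈ FHe, DD.xq c ∈ DD.CN RSHe) {p1 : DD.I} (h1 : DD.cls p1 ∈ FHe) (p : DD.I) (η : F2)
    (hp : DD.cls p ∈ FHe) : DD.ax p η ∈ OrbC (DD.CN RSHe) (DD.ax p1 0) := by
  obtain ⟨a, ha, e1⟩ := short_of h1
  obtain ⟨b, hb, e2⟩ := short_of hp
  obtain ⟨s, ε, e3, -, e4⟩ := act_ax (gW b.2 * (gW a.2)⁻¹) p1
  rw [← smul_cl, e1, ← (of_short ha).2, mul_smul, inv_smul_smul, (of_short hb).2, ← e2] at e3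
  obtain rfl := DD.cls_inj e3
  have hn : gW b.2 * (gW a.2)⁻¹ ∈ C := mul_mem (gW_mem (P := C) hh _) (inv_mem (gW_mem (P := C) hh _))
  by_cases e : ε = η
  · exact ⟨(gW b.2 * (gW a.2)⁻¹).1, hn, by rw [e4, zero_add, e]⟩
  obtain ⟨u, hu, e5⟩ := Sf.mHe.nd _ hp (DD.cls_ne s)
  refine ⟨DD.zp 0 * DD.xq u * (gW b.2 * (gW a.2)⁻¹).1,
    mul_mem (mul_mem (zp_mem_of he_zC 0) (hq u hu)) hn, ?_⟩
  rw [mul_ap, e4, zx_ax, pol_comm, e5, zero_add]
  congr 1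
  clear e4
  revert ε η
  decide

end Sb

end

end CfsgMO
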