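/-
Subgroups of the Monster: kernel functions.
-/
import Cfsg.Agent.MO.AxS

set_option autoImplicit false

namespace CfsgMO

noncomputable section

variable (tab : ℕ → List Lay) (av : ℕ → List ℕ) (amat : ℕ → List ℕ)

/-- `w1` and `w2` map the vectors `k` and `l` to the same vector -/
def chkL (k l d1 d2 : ℕ) (w1 w2 : List ℕ) : Bool :=
  runW tab w1 (sx d1 (av k)) fun a => runW tab w2 (sx d2 (av l)) fun b => eqP a b

/-- the inner product of an axis and its image under a standard involution -/
def chkX (k d : ℕ) (g h : List ℕ) (e : Bool) (i0 i1 : ℤ) : Bool :=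
  runW tab h (sx d (av k)) fun b => runW tab (eW e) b fun c => runI tab (g ++ h) c fun x => okI x i0 i1

/-- two words of `N` have the same class matrix -/
def chkE (w1 w2 : List ℕ) : Bool :=
  an (okN w1) <| an (okN w2) <| ktab 24 (fun t => Nat.shiftLeft 1 t) fun L =>
    wmK amat w1 L fun L1 => wmK amat w2 L fun L2 => eqP L1 L2

/-- the trace of the product of the first blocks -/
def tr3 (u v : List ℕ) : ℤ :=
  Nat.rec 0 (fun i s => Int.add s (Nat.rec 0 (fun j s => Int.add s
    (Int.mul (valN u (Nat.add (Nat.mul 128 i) j)) (valN v (Nat.add (Nat.mul 128 j) i)))) 24)) 24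

/-- the inner products of the vector `k` with the two axes of the short class at the position `pos` -/
def chkP (k l pos : ℕ) (i0 i1 : ℤ) : Bool :=
  mapK (fun p => Nat.land p (ones 3072)) (av k) fun u =>
    mapK (fun p => Nat.land p (ones 3072)) (av l) fun v =>
      (fun a b => an (eqZ (Int.sub a b) (Int.mul 512 i0)) (eqZ (Int.add a b) (Int.mul 512 i1)))
        (tr3 u v) (Int.mul 1024 (valN (av k) pos))

end

end CfsgMO
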