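/-
Subgroups of the Monster: soundness of the checks for pairs of axes.
-/
import Cfsg.Agent.MO.Ax3
import Cfsg.Agent.MO.SbK
import Cfsg.Agent.MO.Sb1

set_option autoImplicit false

namespace CfsgMO

open Matrix Dat

noncomputable section

variable {D : Dat} {B : Lb} {tab : ℕ → List Lay} {amat : ℕ → List ℕ} {gel : ℕ → D.Γ}
  {av : ℕ → List ℕ} {p0 : D.I}

theorem Alph.chkL_sound (hA : Alph D B tab amat gel) (hV : OkAv B av) {k l d1 d2 : ℕ}
    {w1 w2 : List ℕ} (e : chkL tab av k l d1 d2 w1 w2 = true) :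
    (wd gel w1).1 (VV D B av k) = (wd gel w2).1 (VV D B av l) := by
  obtain ⟨u1, r1, e⟩ := hA.runW ((hA.rp hV k).sx d1) e
  obtain ⟨u2, r2, e⟩ := hA.runW ((hA.rp hV l).sx d2) e
  exact r1.eq hA.good r2 e

theorem Alph.chkE_sound (hA : Alph D B tab amat gel) {w1 w2 : List ℕ}
    (e : chkE amat w1 w2 = true) : ∃ (h1 : okN w1 = true) (h2 : okN w2 = true),
      D.Ah ⟨wd gel w1, hA.wd_N h1⟩ = D.Ah ⟨wd gel w2, hA.wd_N h2⟩ := by
  rw [chkE, an_eq, an_eq, Bool.and_eq_true, Bool.and_eq_true, ktab_eq] at e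
  obtain ⟨h1, h2, e⟩ := e
  obtain ⟨L1, e, e1⟩ := hA.wmK_sound h1 e
  obtain ⟨L2, e, e2⟩ := hA.wmK_sound h2 e
  refine ⟨h1, h2, Units.ext (ext_of_mulVec_single fun j => ?_)⟩
  have h3 : vc 24 0 ((List.range 24).map fun t => Nat.shiftLeft 1 t) j = Pi.single j 1 := by
    funext r
    rw [vc, zero_add, getD_tab _ r.2, bt, tb_shl, Nat.one_shiftLeft, Nat.testBit_two_pow,
      Pi.single_apply]
    simp [Fin.ext_iff]
  rw [← h3, ← e1, ← e2, eqP_sound e]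

/-- the stabiliser in `Q` is trivial -/
def TrivQ (D : Dat) (b : D.V) : Prop := ∀ e c, (D.zp e * D.xq c).1 b = b → e = 0 ∧ c = 0

theorem Alph.eq_of (hA : Alph D B tab amat gel) (hV : OkAv B av) {k d : ℕ}
    (hk : TrivQ D (VV D B av k)) {w1 w2 : List ℕ} (e1 : chkE amat w1 w2 = true)
    (e2 : chkL tab av k k d d w1 w2 = true) : wd gel w1 = wd gel w2 := by
  obtain ⟨h1, h2, e⟩ := hA.chkE_sound e1
  obtain ⟨ε, c, h⟩ := mem_ker.1 (show (⟨wd gel w2, hA.wd_N h2⟩ : D.N)⁻¹ * ⟨wd gel w1, hA.wd_N h1⟩ ∈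
    D.Ah.ker by rw [MonoidHom.mem_ker, map_mul, map_inv, e, inv_mul_cancel])
  change (wd gel w2)⁻¹ * wd gel w1 = _ at h
  obtain ⟨rfl, rfl⟩ := hk ε c (by rw [← h, mul_ap, hA.chkL_sound hV e2, unit_inj])
  rw [zp_zero, xq_zero, mul_one, inv_mul_eq_one] at h
  exact h.symm

theorem pol_lin (c d : Cl) : pol c d = d ⬝ᵥ fun i => pol c (Pi.single i 1) := by
  conv_lhs => rw [← Finset.univ_sum_single d]
  rw [dotProduct]
  refine Finset.induction_on Finset.univ (by simp [pol_comm c, pol_zero]) fun i s hi ih => ?_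
  rw [Finset.sum_insert hi, Finset.sum_insert hi, pol_add', ih]
  congr 1
  rcases F2_cases (d i) with h | h <;> rw [h]
  · rw [Pi.single_zero, pol_comm, pol_zero, zero_mul]
  · rw [one_mul]

theorem Alph.trivQ (hA : Alph D B tab amat gel) (hV : OkAv B av) {k x : ℕ} {ps cs S : List ℕ}
    (hp : ∀ i < 24, tb B.X (kgd ps i) = true ∧ klab B.L (kgd ps i) = kgd cs i ∧
      valN (av k) (kgd ps i) ≠ 0) (hS : mm S cs = idm) (hx : x < 4096)
    (hw : valN (av k) (posW 0 x) ≠ 0) : TrivQ D (VV D B av k) := fun e c h => by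
  have hr := hA.rp hV k
  have h1 : ∀ i : Fin 24, pol c (cd (cs.getD i 0)) = 0 := fun i => by
    obtain ⟨a1, a2, a3⟩ := hp i i.2
    rw [tb_eq] at a1
    rw [klab_eq, kgd_eq cs] at a2
    obtain ⟨p, hp⟩ := (hA.good.hX _ a1).2
    have h2 := congrArg (fun v : D.V => v.2.1 p) h
    simp only [mul_ap, xq_apply, zp_apply] at h2
    rw [← co_X hA.good _ a1 hp, hr, hp, a2] at h2
    have h3 : ((1 / 512 : ℚ) • valQ (av k)) (kgd ps i) ≠ 0 := by
      simpa [valQ, ← valN_eq] using a3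
    exact sg_inj ((mul_left_eq_self₀.1 h2).resolve_right h3)
  have h2 : mat2 24 cs *ᵥ (fun i => pol c (Pi.single i 1)) = 0 := funext fun i =>
    (pol_lin c _).symm.trans (h1 i)
  have h3 : (fun i => pol c (Pi.single i 1)) = 0 := by
    rw [← one_mulVec (fun i => pol c (Pi.single i 1)), ← mat2_idm, ← hS, mat2_mm', ← mulVec_mulVec,
      h2, mulVec_zero]
  obtain rfl : c = 0 := eq_zero_of_Bf fun d => (pol_lin c d).trans (by rw [h3, dotProduct_zero])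
  refine ⟨(F2_cases e).resolve_right ?_, rfl⟩
  rintro rfl
  rw [xq_zero, mul_one, zp_one, z_apply] at h
  have h4 := congrArg (fun v : D.V => v.2.2 (ce x) 0) h
  change -(VV D B av k).2.2 (ce x) 0 = (VV D B av k).2.2 (ce x) 0 at h4
  rw [← co_W hA.good _ 0 hx, hr] at h4
  refine hw ?_
  have h5 : ((1 / 512 : ℚ) • valQ (av k)) (posW (0 : Fin 24) x) = 0 := by linarith
  simpa [valQ, ← valN_eq] using h5

/-! ### powers of the product -/

/-- the `n`-th power of the product of the two involutions is trivial -/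
def OdN (D : Dat) (n : ℕ) (b c : D.V) : Prop := (D.tt b * D.tt c) ^ n = 1

theorem OdN.move {n : ℕ} {b c : D.V} (h : OdN D n b c) {g : D.Γ} (hg : g ∈ D.Au) :
    OdN D n (g.1 b) (g.1 c) := by
  have e : ∀ a, D.tt (g.1 a) = g.1 * D.tt a * (g⁻¹).1 := fun a => by
    rw [tt_conj hg a, mul_assoc, Units.mul_inv, mul_one]
  have e2 : D.tt (g.1 b) * D.tt (g.1 c) = g.1 * (D.tt b * D.tt c) * (g⁻¹).1 := by
    rw [e, e]
    simp only [mul_assoc]
    rw [← mul_assoc (g⁻¹).1, Units.inv_mul, one_mul]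
  rw [OdN, e2, Units.conj_pow, h, mul_one, Units.mul_inv]

theorem odN_iff {n : ℕ} {b c : D.V} {x y : D.Γ} (hb : D.tt b = x.1) (hc : D.tt c = y.1) :
    OdN D n b c ↔ (x * y) ^ n = 1 := by
  rw [OdN, hb, hc, ← Units.val_mul, ← Units.val_pow_eq_pow_val, Units.val_eq_one]

section dihedral

variable {b c : D.V} {x y : D.Γ} (hx : x ∈ D.Au) (hy : y ∈ D.Au) (xx : x * x = 1) (yy : y * y = 1)
  (hb : D.tt b = x.1) (hc : D.tt c = y.1)
include hb hc hy xx yy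

theorem on2 (e : y.1 b = b) : OdN D 2 b c := by
  have h := tt_unit hy hb
  rw [e, hb, inv_eq_of_mul_eq_one_right yy] at h
  have h := Units.ext h
  rw [odN_iff hb hc, pow_two, show x * y * (x * y) = x * (y * x * y) by group, ← h, xx]

include hx

theorem on4 (e : x.1 (y.1 b) = y.1 b) : OdN D 4 b c := by
  have h1 := tt_unit hy hb
  have h := tt_unit hx h1
  rw [e, h1, inv_eq_of_mul_eq_one_right yy, inv_eq_of_mul_eq_one_right xx] at h
  have h := Units.ext h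
  rw [odN_iff hb hc,
    show (x * y) ^ 4 = x * (y * x * y) * x * (y * x * y) by simp only [pow_succ]; group, ← h,
    show y * x * y * (y * x * y) = y * x * (y * y) * x * y by group, yy, mul_one, mul_assoc y, xx,
    mul_one, yy]

end dihedral

/-- a product of order six has another inner product -/
def Six (D : Dat) (u v : D.V) : Prop := ∀ e1 e2 : D.Γ, D.tt u = e1.1 → D.tt v = e2.1 →
  orderOf (e1 * e2) = 6 → D.ip u (e2.1 u) ≠ 1 / 8

theorem Six.of_move {u v : D.V} {g : D.Γ} (hg : g ∈ D.Au) (h : Six D (g.1 u) (g.1 v)) : Six D u v :=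
  fun e1 e2 h1 h2 h3 => by
    have := h _ _ (tt_unit hg h1) (tt_unit hg h2) (by
      rw [conj_mul]; exact ((MulAut.conj g).orderOf_eq (e1 * e2)).trans h3)
    rwa [mul_ap, mul_ap, unit_inj, hg.1] at this

theorem OdN.six {n : ℕ} {u v : D.V} (h : OdN D n u v) (hn : ¬ 6 ∣ n) : Six D u v :=
  fun _ _ h1 h2 h3 => absurd (h3 ▸ orderOf_dvd_of_pow_eq_one ((odN_iff h1 h2).1 h)) hn

namespace Ctx2

variable (h : Ctx2 D B tab amat gel av p0) {k : ℕ} {g w : List ℕ} (hg : Ch D B av gel k g)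
  (ho : okW (g ++ w) = true)
include h hg ho

theorem on2 {d : ℕ} {e : Bool} (c : chk2 tab av k d w e = true) :
    OdN D 2 ((wd gel w).1 (VV D B av k)) (D.ax p0 (eF e)) := by
  obtain ⟨u1, r1, c⟩ := h.al.runW ((h.al.rp h.ok k).sx d) c
  obtain ⟨u2, r2, c⟩ := h.al.runW r1 c
  exact CfsgMO.on2 (h.eW_au e) (h.x_sq _) (h.eW_sq e) (h.tt_b hg ho) (h.tt_e e)
    (r1.eq h.al.good r2 c).symm

theorem on4 {d : ℕ} {e : Bool} (c : chk4 tab av k d g w e = true) :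
    OdN D 4 ((wd gel w).1 (VV D B av k)) (D.ax p0 (eF e)) := by
  obtain ⟨u1, r1, c⟩ := h.al.runW ((h.al.rp h.ok k).sx d) c
  obtain ⟨u2, r2, c⟩ := h.al.runW r1 c
  obtain ⟨u3, r3, c⟩ := h.al.runI r2 c
  obtain ⟨u4, r4, c⟩ := h.al.runW r3 c
  refine CfsgMO.on4 (h.x_au ho) (h.eW_au e) (h.x_sq _) (h.eW_sq e) (h.tt_b hg ho) (h.tt_e e) ?_
  rw [mul_ap, mul_ap, ← r3.eq h.al.good r4 c, unit_surj]

theorem ipX {d : ℕ} {e : Bool} {i0 i1 : ℤ} (c : chkX tab av k d g w e i0 i1 = true) :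
    D.ip ((wd gel w).1 (VV D B av k)) ((wd gel (eW e)).1 ((wd gel w).1 (VV D B av k))) = i0 / 512 := by
  obtain ⟨u1, r1, c⟩ := h.al.runW ((h.al.rp h.ok k).sx d) c
  obtain ⟨u2, r2, c⟩ := h.al.runW r1 c
  obtain ⟨u3, r3, c⟩ := h.al.runI r2 c
  simp only [okI, an_eq, Bool.and_eq_true, eqZ_iff, valN_eq] at c
  obtain ⟨rfl, -⟩ := c
  rw [← (inv_mem (h.wd_au ho)).1]
  conv_lhs => enter [2]; rw [← hg, ← mul_ap (wd gel w), ← wd_append, unit_inj, h.e0]
  rw [ip_comm, h.st.ip h.al.good, r3, sg_zero]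
  simp only [Pi.smul_apply, valQ, smul_eq_mul]
  change _ = ((val u3 0 + val u3 129 - (val u3 1 + val u3 128) - 2 * val u3 192 : ℤ) : ℚ) / 512
  push_cast
  ring

theorem sixX {d : ℕ} {e : Bool} {i0 i1 : ℤ} (c : chkX tab av k d g w e i0 i1 = true) (hi : i0 ≠ 64) :
    Six D ((wd gel w).1 (VV D B av k)) (D.ax p0 (eF e)) := fun _ e2 _ h2 _ => by
  obtain rfl : e2 = wd gel (eW e) := Units.ext (h2.symm.trans (h.tt_e e))
  rw [h.ipX hg ho c]
  intro e
  exact hi (by exact_mod_cast (by linarith : (i0 : ℚ) = 64))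

end Ctx2

/-! ### equivalent pairs -/

variable {t : D.Γ} {A C A' C' : D.V}

theorem Dat.Eqv.move {u v : D.V} (h : Eqv t A C u v) {g : D.Γ} (hg : g ∈ D.GG t) :
    Eqv t A C (g.1 u) (g.1 v) := by
  obtain ⟨f, hf, rfl, rfl⟩ := h
  exact ⟨g * f, mul_mem hg hf, rfl, rfl⟩

theorem eqv_iff {u v : D.V} {g : D.Γ} (hg : g ∈ D.GG t) :
    Eqv t A C (g.1 u) (g.1 v) ↔ Eqv t A C u v :=
  ⟨fun h => by simpa only [unit_inj] using h.move (inv_mem hg), fun h => h.move hg⟩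

theorem Dat.Eqv.ip (hT : t ∈ D.Au) {u v : D.V} (h : Eqv t A C u v) : D.ip u v = D.ip A C := by
  obtain ⟨f, hf, rfl, rfl⟩ := h
  exact ((sup_le D.N_le_Au (Subgroup.zpowers_le.2 hT) : D.GG t ≤ D.Au) hf).1 _ _

theorem Dat.Eqv.odN (hT : t ∈ D.Au) {u v : D.V} (h : Eqv t A C u v) {n : ℕ} :
    OdN D n u v ↔ OdN D n A C := by
  obtain ⟨f, hf, rfl, rfl⟩ := h
  have hf := (sup_le D.N_le_Au (Subgroup.zpowers_le.2 hT) : D.GG t ≤ D.Au) hf
  exact ⟨fun h => by simpa only [unit_inj] using h.move (inv_mem hf), fun h => h.move hf⟩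

/-- the pair of a word and a sign is equivalent to `(A, C)` -/
def Pos (D : Dat) (B : Lb) (av : ℕ → List ℕ) (gel : ℕ → D.Γ) (p0 : D.I) (A C : D.V) (k : ℕ)
    (w : List ℕ) (e : Bool) : Prop :=
  Eqv (gel 54) A C ((wd gel w).1 (VV D B av k)) (D.ax p0 (eF e))

theorem Ctx2.link (h : Ctx2 D B tab amat gel av p0) {k l d1 d2 : ℕ} {w w' g g' : List ℕ} {e e' : Bool}
    (e1 : chkL tab av k l d1 d2 (w ++ g) (w' ++ g') = true)
    (e2 : chkL tab av (eN e) (eN e') 0 0 g g' = true) (ho : okW g = true ∧ okW g' = true) :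
    Pos D B av gel p0 A C k w e ↔ Pos D B av gel p0 A C l w' e' := by
  have h1 := h.al.chkL_sound h.ok e1
  have h2 := h.al.chkL_sound h.ok e2
  rw [wd_append, wd_append, mul_ap, mul_ap] at h1
  rw [h.VV_eN, h.VV_eN] at h2
  rw [Pos, Pos, ← eqv_iff (h.al.wd_G ho.1), h1, h2, eqv_iff (h.al.wd_G ho.2)]

/-- the type of a pair -/
structure Ty (t : D.Γ) (A C A' C' u v : D.V) (a a' : Bool) : Prop where
  e3 : Eqv t A C u v ↔ a = true
  e5 : Eqv t A' C' u v ↔ a' = true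
  six : Six D u v

/-- the facts on the two standard pairs -/
structure StdP (t : D.Γ) (A C A' C' : D.V) : Prop where
  au : t ∈ D.Au
  i3 : D.ip A C = (64 : ℤ) / 512
  i5 : D.ip A' C' = (96 : ℤ) / 512
  o3 : OdN D 3 A C
  n4 : ¬ OdN D 4 A C
  o5 : OdN D 5 A' C'

namespace StdP

variable (s : StdP t A C A' C') {u v : D.V} {i : ℤ} (hi : D.ip u v = i / 512)
include s hi

theorem ne3 (h : i ≠ 64) : ¬ Eqv t A C u v := fun e => h (by
  have := (e.ip s.au).trans s.i3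
  rw [hi, div_left_inj' (by norm_num)] at this
  exact_mod_cast this)

theorem ne5 (h : i ≠ 96) : ¬ Eqv t A' C' u v := fun e => h (by
  have := (e.ip s.au).trans s.i5
  rw [hi, div_left_inj' (by norm_num)] at this
  exact_mod_cast this)

theorem ty3 (h : Eqv t A C u v) (h5 : i ≠ 96) : Ty t A C A' C' u v true false :=
  ⟨iff_of_true h rfl, iff_of_false (s.ne5 hi h5) (by simp), ((h.odN s.au).2 s.o3).six (by norm_num)⟩

theorem ty5 (h : Eqv t A' C' u v) (h3 : i ≠ 64) : Ty t A C A' C' u v false true :=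
  ⟨iff_of_false (s.ne3 hi h3) (by simp), iff_of_true h rfl, ((h.odN s.au).2 s.o5).six (by norm_num)⟩

theorem ty4 (h : OdN D 4 u v) (h5 : i ≠ 96) : Ty t A C A' C' u v false false :=
  ⟨iff_of_false (fun e => s.n4 ((e.odN s.au).1 h)) (by simp), iff_of_false (s.ne5 hi h5) (by simp),
    h.six (by norm_num)⟩

theorem ty6 (h : Six D u v) (h5 : i ≠ 64 ∧ i ≠ 96) : Ty t A C A' C' u v false false :=
  ⟨iff_of_false (s.ne3 hi h5.1) (by simp), iff_of_false (s.ne5 hi h5.2) (by simp), h⟩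

theorem ty2 (h : OdN D 2 u v) (h5 : i ≠ 64 ∧ i ≠ 96) : Ty t A C A' C' u v false false :=
  s.ty6 hi (h.six (by norm_num)) h5

end StdP

open Classical in
/-- the number of axes of the short class which are equivalent -/
def cE (t : D.Γ) (A C b : D.V) (p : D.I) : ℕ :=
  (Finset.univ.filter fun η : F2 => Eqv t A C b (D.ax p η)).card

/-- the third meaning of the labels -/
def Lab3 (t : D.Γ) (A C A' C' b : D.V) (c : Cl) (j : ℕ) : Prop :=
  ∃ p, D.cls p = c ∧ cE t A C b p = (j - 1) % 3 ∧ cE t A' C' b p = (j - 1) / 3 ∧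
    ∀ η, Six D b (D.ax p η)

theorem cE_move {b : D.V} {p s : D.I} {u : D.Γ} (hu : u ∈ D.GG t) {ε : F2}
    (h : ∀ η, u.1 (D.ax p η) = D.ax s (η + ε)) : cE t A C (u.1 b) s = cE t A C b p := by
  classical
  have hη : ∀ η : F2, η + ε + ε = η := fun η => by rw [add_assoc, F2_aa, add_zero]
  refine Finset.card_bij (fun η _ => η + ε) (fun η k => ?_) (fun a _ b _ e => add_right_cancel e)
    fun η k => ⟨η + ε, ?_, hη η⟩
  · rw [Finset.mem_filter] at k ⊢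
    refine ⟨Finset.mem_univ _, (eqv_iff hu).1 ?_⟩
    rw [h, hη]; exact k.2
  · rw [Finset.mem_filter] at k ⊢
    exact ⟨Finset.mem_univ _, by rw [← h]; exact k.2.move hu⟩

theorem Lab3.move {b : D.V} {c : Cl} {j : ℕ} (h : Lab3 t A C A' C' b c j) (u : D.N) :
    Lab3 t A C A' C' (u.1.1 b) ((D.Ah u).1 *ᵥ c) j := by
  obtain ⟨p, rfl, h1, h2, h3⟩ := h
  obtain ⟨s, ε, e1, -, e3⟩ := act_ax u p
  refine ⟨s, e1, (cE_move (N_le_GG t u.2) e3).trans h1, (cE_move (N_le_GG t u.2) e3).trans h2,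
    fun η => Six.of_move (inv_mem (D.N_le_Au u.2)) ?_⟩
  have := e3 (η + ε)
  rw [add_assoc, F2_aa, add_zero] at this
  rw [← this, unit_inj, unit_inj]
  exact h3 _

theorem cls_lab3 {b : D.V} {gens : List (List ℕ)} (h : ∀ g ∈ gens, Gn D b g) :
    Cls (Lab3 t A C A' C' b) gens := fun g hg => by
  obtain ⟨h1, u, h2, h3⟩ := h g hg
  refine ⟨h1, fun c l hc => ?_⟩
  have := hc.move u
  rwa [h2, h3] at this

theorem cE_eq {b : D.V} {a0 a1 : Bool} (h0 : Eqv t A C b (D.ax p0 (eF false)) ↔ a0 = true)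
    (h1 : Eqv t A C b (D.ax p0 (eF true)) ↔ a1 = true) : cE t A C b p0 = a0.toNat + a1.toNat := by
  classical
  rw [cE, Finset.card_filter, sum_F2]
  congr 1
  · exact (if_congr h0 rfl rfl).trans (by cases a0 <;> rfl)
  · exact (if_congr h1 rfl rfl).trans (by cases a1 <;> rfl)

theorem Ctx.lab3 (h : Ctx D B tab amat gel av p0) (k : Fin 12) {c j : ℕ} {w : List ℕ}
    {a0 a1 b0 b1 : Bool} (e1 : chkF amat w c 7028736 = true)
    (h0 : Ty t A C A' C' ((wd gel w).1 (VV D B av k.1)) (D.ax p0 (eF false)) a0 b0)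
    (h1 : Ty t A C A' C' ((wd gel w).1 (VV D B av k.1)) (D.ax p0 (eF true)) a1 b1)
    (hj : a0.toNat + a1.toNat = (j - 1) % 3 ∧ b0.toNat + b1.toNat = (j - 1) / 3) :
    Lab3 t A C A' C' (aa D B av k) (cd c) j := by
  obtain ⟨h2, h3⟩ := h.al.chkF_sound e1
  have h5 : Lab3 t A C A' C' ((wd gel w).1 (VV D B av k.1)) (D.cls p0) j :=
    ⟨p0, rfl, (cE_eq h0.e3 h1.e3).trans hj.1, (cE_eq h0.e5 h1.e5).trans hj.2,
      fun η => by rcases F2_cases η with rfl | rfl; exacts [h0.six, h1.six]⟩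
  have h6 := h5.move (⟨wd gel w, h.al.wd_N h2⟩ : D.N)⁻¹
  rw [h.cls0, ← h3, ← smul_cl, ← smul_cl, inv_smul_smul] at h6
  rwa [show ((⟨wd gel w, h.al.wd_N h2⟩ : D.N)⁻¹).1.1 ((wd gel w).1 (VV D B av k.1)) = aa D B av k
    from unit_inj _ _] at h6

theorem sum_lab (hI : Fintype.card D.I = 98280) {S : ℕ → Finset Cl} {m : ℕ}
    (h2 : ∀ l l', l ≠ l' → Disjoint (S l) (S l'))
    (h1 : ∀ j ∈ Finset.Icc 1 m, ∀ c ∈ S j, c ∈ Set.range D.cls)
    (h3 : ∑ j ∈ Finset.Icc 1 m, (S j).card = 98280) :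
    (∀ p, ∃ j ∈ Finset.Icc 1 m, D.cls p ∈ S j) ∧ ∀ (f : D.I → ℕ) (φ : ℕ → ℕ),
      (∀ j ∈ Finset.Icc 1 m, ∀ p, D.cls p ∈ S j → f p = φ j) →
      ∑ p, f p = ∑ j ∈ Finset.Icc 1 m, (S j).card * φ j := by
  classical
  have h4 := cover_of_card (U := Set.range D.cls) (Set.finite_range _) (Finset.Icc 1 m) S h2 h1
    (by rw [Set.ncard_range_of_injective D.cls_inj, Nat.card_eq_fintype_card, hI, h3])
  have h5 : ∀ p, ∃ j ∈ Finset.Icc 1 m, D.cls p ∈ S j := fun p =>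
    Finset.mem_biUnion.1 (Finset.mem_coe.1 (h4 ▸ ⟨p, rfl⟩ : D.cls p ∈ (↑((Finset.Icc 1 m).biUnion S) : Set Cl)))
  refine ⟨h5, fun f φ hf => ?_⟩
  have e1 : ∀ p, f p = ∑ j ∈ Finset.Icc 1 m, if D.cls p ∈ S j then φ j else 0 := fun p => by
    obtain ⟨j, hj, h⟩ := h5 p
    rw [Finset.sum_eq_single_of_mem j hj fun i _ hne =>
      if_neg fun k => Finset.disjoint_left.1 (h2 i j hne) k h, if_pos h, hf j hj p h]
  rw [Finset.sum_congr rfl fun p _ => e1 p, Finset.sum_comm]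
  refine Finset.sum_congr rfl fun j hj => ?_
  rw [← Finset.sum_filter, Finset.sum_const, smul_eq_mul]
  congr 1
  refine Finset.card_bij (fun p _ => D.cls p) (fun p hp => (Finset.mem_filter.1 hp).2)
    (fun _ _ _ _ e => D.cls_inj e) fun c hc => ?_
  obtain ⟨p, rfl⟩ := h1 j hj c hc
  exact ⟨p, Finset.mem_filter.2 ⟨Finset.mem_univ _, hc⟩, rfl⟩

theorem nE_eq (b : D.V) : nE t A C b = ∑ p, cE t A C b p := by
  classical
  rw [nE, Finset.card_filter, Fintype.sum_prod_type]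
  exact Finset.sum_congr rfl fun p _ => by rw [cE, Finset.card_filter]

theorem lab3_run (hI : Fintype.card D.I = 98280) {b : D.V} {n v mx : ℕ} {N : List ℕ}
    (h : InvN (Lab3 t A C A' C' b) n v) (hc : (List.range mx).map (fun l => cntN n v (l + 1)) = N)
    {n3 n5 : ℕ} (h3 : mx < 2 ^ n ∧ ∑ j ∈ Finset.Icc 1 7, kgd N (j - 1) = 98280 ∧
      ∑ j ∈ Finset.Icc 1 7, kgd N (j - 1) * ((j - 1) % 3) = n3 ∧
      ∑ j ∈ Finset.Icc 1 7, kgd N (j - 1) * ((j - 1) / 3) = n5) :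
    nE t A C b = n3 ∧ nE t A' C' b = n5 ∧ ∀ p η, Six D b (D.ax p η) := by
  obtain ⟨S, h1, h2⟩ := part_bf h hc h3.1
  have h0 : ∀ j ∈ Finset.Icc 1 7, j ≠ 0 := fun j hj => by rw [Finset.mem_Icc] at hj; omega
  have h4 : ∀ j ∈ Finset.Icc 1 7, ∀ p, D.cls p ∈ S j → cE t A C b p = (j - 1) % 3 ∧
      cE t A' C' b p = (j - 1) / 3 ∧ ∀ η, Six D b (D.ax p η) := fun j hj p hp => by
    obtain ⟨s, e, k⟩ := (h1 j (h0 j hj)).2 _ hp
    rwa [D.cls_inj e] at k
  obtain ⟨h5, h6⟩ := sum_lab hI (m := 7) h2 (fun j hj c hc => by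
    obtain ⟨p, e, -⟩ := (h1 j (h0 j hj)).2 c hc
    exact ⟨p, e⟩) (by rw [← h3.2.1]; exact Finset.sum_congr rfl fun j hj => (h1 j (h0 j hj)).1)
  refine ⟨?_, ?_, fun p η => ?_⟩
  · rw [nE_eq, h6 _ (fun j => (j - 1) % 3) fun j hj p hp => (h4 j hj p hp).1, ← h3.2.2.1]
    exact Finset.sum_congr rfl fun j hj => by rw [(h1 j (h0 j hj)).1]
  · rw [nE_eq, h6 _ (fun j => (j - 1) / 3) fun j hj p hp => (h4 j hj p hp).2.1, ← h3.2.2.2]
    exact Finset.sum_congr rfl fun j hj => by rw [(h1 j (h0 j hj)).1]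
  · obtain ⟨j, hj, k⟩ := h5 p
    exact (h4 j hj p k).2.2 η

theorem six_all {a : Fin 12 → D.V} {w : Fin 12 → Fin 12 → ℕ} {s o : Fin 12 → ℕ} {par : Fin 12 → Fin 12}
    (hL : HypL D) (hT : HypT t) (hA : HypA t p0 a w s o par) (h : ∀ k p η, Six D (a k) (D.ax p η))
    {u v : D.V} (hu : u ∈ Dd a) (hv : v ∈ Dd a) : Six D u v := by
  obtain ⟨g, hg, rfl⟩ := Dd_std hL hT hA hu
  obtain ⟨f, hf, rfl⟩ := Dd_std hL hT hA hv
  obtain ⟨x, hx, k, p, η, e1, e2⟩ := pair_std hL hT hA hg hf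
  exact Six.of_move (GG_le_Au hT hx) (by rw [e1, e2]; exact h k p η)

end

end CfsgMO
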