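/-
Subgroups of the Monster: words, and the stabiliser of two axes.
-/
import Cfsg.Agent.MO.Sb6
import Cfsg.Agent.MO.SbD

set_option autoImplicit false
set_option maxRecDepth 100000

namespace CfsgMO

open Matrix Dat

noncomputable section

theorem trivQ11 : TrivQ DD (VV DD BB av 11) :=
  alph.trivQ Ck.okav (x := 50)
    (ps := [4171, 4268, 4365, 4559, 4753, 5723, 6208, 6305, 6984, 7275, 7663, 7760, 8245, 8439, 9021, 9215, 9894, 10088, 10282, 10670, 12416, 17557, 25414, 56842])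
    (cs := [10534914, 7831555, 3694598, 10829832, 14217228, 15618074, 6529058, 7671846, 4116536, 11903043, 9551950, 5107792, 15863907, 4497510, 11460731, 8155265, 4407444, 16642201, 11567266, 14172332, 8388864, 15569411, 12952578, 3541002])
    (S := [11873, 421148, 310533, 772295, 756542, 574422, 560757, 1020549, 1376165, 2454974, 5102918, 8562777, 591830, 891020, 900517, 773657, 913989, 956927, 760206, 587975, 978167, 319748, 1012385, 327589])
    (by decide +kernel) (by decide +kernel) (by norm_num) (by decide +kernel)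

/-- equality of two words of `N` -/
theorem weq {d : ℕ} {w1 w2 : List ℕ} (e2 : chkL tab av 11 11 d d w1 w2 = true)
    (e1 : chkE amat w1 w2 = true := by decide +kernel) : wd gel w1 = wd gel w2 :=
  alph.eq_of Ck.okav trivQ11 e1 e2

theorem wordG_eq (w : List ℕ) : wordG w = wd gel w := by
  induction w with
  | nil => rfl
  | cons a w ih => rw [wordG, ih]; rfl

/-- the conjugates of the letters -/
def twX (a : ℕ) : List ℕ :=
  Bool.rec ((gdL [] twL (a - 8)).tail.reverse ++ [a]) (gdL [] twL a) (Nat.blt a 44)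

theorem twX_inv : ∀ b < 8, chkE amat (gdL [] twL (36 + b) ++ twX (44 + b)) [] = true ∧
    chkL tab av 11 11 0 0 (gdL [] twL (36 + b) ++ twX (44 + b)) [] = true := by
  decide +kernel

theorem gel_twX {a : ℕ} (ha : a < 52) (h11 : a ≠ 11) :
    gel 54 * gel a * (gel 54)⁻¹ = wd gel (twX a) := by
  by_cases h : a < 44
  · rw [(gel_conj h h11).1, wordG_eq, twX, show Nat.blt a 44 = true by rw [Nat.blt_eq]; exact h]
  · obtain ⟨b, rfl⟩ : ∃ b, a = 44 + b := ⟨a - 44, by omega⟩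
    have h1 := (gel_conj (a := 36 + b) (by omega) (by omega)).1
    have h2 := weq (twX_inv b (by omega)).2 (twX_inv b (by omega)).1
    rw [wd_append, ← wordG_eq (gdL _ _ _), ← h1] at h2
    rw [gel_inv (by omega), eq_inv_of_mul_eq_one_left h2]
    group

theorem tconj {w : List ℕ} (h : ∀ a ∈ w, a < 52 ∧ a ≠ 11) :
    gel 54 * wd gel w * (gel 54)⁻¹ = wd gel (w.flatMap twX) := by
  induction w with
  | nil => exact (mul_inv_eq_one.2 (mul_one _))
  | cons a w ih =>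
    rw [List.flatMap_cons, wd_append, wd_cons, ← ih fun b hb => h b (List.mem_cons_of_mem _ hb),
      ← gel_twX (h a List.mem_cons_self).1 (h a List.mem_cons_self).2]
    group

/-- the class of a word in the letters of `Q` -/
def qcl (w : List ℕ) : ℕ := w.foldr (fun a s => Nat.xor s (if a < 24 then 2 ^ a else 0)) 0

theorem cd_nil : cd 0 = 0 := by decide

theorem wd_q {w : List ℕ} (h : ∀ a ∈ w, a < 25) : ∃ e, wd gel w = DD.zp e * DD.xq (cd (qcl w)) := by
  induction w with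
  | nil => exact ⟨0, by rw [show qcl [] = 0 from rfl, cd_nil, xq_zero, zp_zero, one_mul]; rfl⟩
  | cons a w ih =>
    obtain ⟨e, ih⟩ := ih fun b hb => h b (List.mem_cons_of_mem _ hb)
    have ha := h a List.mem_cons_self
    change ∃ e, wd gel w * gel a = DD.zp e * DD.xq (cd (Nat.xor (qcl w) _))
    rw [ih, cd_xor]
    split_ifs with h1
    · exact ⟨_, by rw [gel_q h1, ← one_mul (DD.xq (cd (2 ^ a))), ← DD.zp_zero, zx_mul]⟩
    · exact ⟨_, by rw [show a = 24 by omega, gel_z, ← mul_one DD.z, ← DD.zp_one, ← DD.xq_zero, zx_mul,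
        cd_nil]⟩

theorem xq_of_wd {K : Subgroup DD.Γ} (hz : DD.z ∈ K) {w : List ℕ} (hw : wd gel w ∈ K) {c : ℕ}
    (h : (∀ a ∈ w, a < 25) ∧ qcl w = c := by decide) : DD.xq (cd c) ∈ K := by
  obtain ⟨e, k⟩ := wd_q h.1
  rw [k, h.2] at hw
  exact (mul_mem_cancel_left (zp_mem_of hz e)).1 hw

/-- the classes of the elements of `Q` in `K` -/
def qSub (K : Subgroup DD.Γ) (hz : DD.z ∈ K) : AddSubgroup Cl where
  carrier := {c | DD.xq c ∈ K}
  zero_mem' := by change DD.xq 0 ∈ K; rw [xq_zero]; exact one_mem _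
  add_mem' := fun {a b} ha hb => by
    have := K.mul_mem ha hb
    rw [xq_mul] at this
    exact (mul_mem_cancel_left (zp_mem_of hz _)).1 this
  neg_mem' := fun {a} ha => by rwa [neg_eq_of_add_eq_zero_right (Cl_aa a)]

theorem mem_FX {w : List ℕ} {c : ℕ} (h : okN w = true) (e : chkF amat w c c = true) :
    cd c ∈ FX (wN w h) := (alph.chkF_sound e).2

/-- the conjugate of an element of `Q` under `t` -/
theorem t_xq {w m n0 : List ℕ} {c : ℕ} (h : (∀ a ∈ w, a < 25 ∧ a ≠ 11) ∧ qcl w = c)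
    (hm : okN m = true) (h0 : okN n0 = true) (e : chkE amat (w.flatMap twX ++ m) (m ++ n0) = true) :
    ∃ n : DD.N, wd gel (54 :: m) * DD.xq (cd c) * (wd gel (54 :: m))⁻¹ = n.1 ∧
      DD.Ah n = DD.Ah (wN n0 h0) := by
  obtain ⟨ε, k⟩ := wd_q fun a ha => (h.1 a ha).1
  have k1 := tconj (w := w) fun a ha => ⟨by have := (h.1 a ha).1; omega, (h.1 a ha).2⟩
  have k2 : wd gel (w.flatMap twX) ∈ DD.N := k1 ▸ (alph.wd_T (w := w) (by
    clear k k1 e
    replace h := h.1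
    induction w with
    | nil => rfl
    | cons a w ih =>
      refine allL_cons.2 ⟨?_, ?_⟩
      · obtain ⟨h1, h2⟩ := h a List.mem_cons_self
        interval_cases a <;> first | rfl | exact absurd rfl h2
      · exact ih fun b hb => h b (List.mem_cons_of_mem _ hb))).2
  obtain ⟨h1, h2, e⟩ := alph.chkE_sound e
  have e1 : DD.Ah (wN m hm * ⟨_, k2⟩) = DD.Ah (wN n0 h0 * wN m hm) := by
    convert e using 2 <;> exact Subtype.ext (wd_append _ _).symm
  have k3 : (⟨_, hypT.zp_mem ε⟩ : DD.N) ∈ DD.Ah.ker := by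
    rcases F2_cases ε with rfl | rfl
    · exact mem_ker.2 ⟨0, 0, by simp [zp_zero, xq_zero]⟩
    · obtain ⟨e, k⟩ := hypT.tz
      exact mem_ker.2 ⟨e, Om, k⟩
  refine ⟨wN m hm * (⟨_, hypT.zp_mem ε⟩⁻¹ * ⟨_, k2⟩) * (wN m hm)⁻¹, ?_, ?_⟩
  · change wd gel m * gel 54 * _ * (wd gel m * gel 54)⁻¹ =
      wd gel m * ((gel 54 * DD.zp ε * (gel 54)⁻¹)⁻¹ * wd gel (w.flatMap twX)) * (wd gel m)⁻¹
    rw [← k1, k, h.2]
    group
  · rw [map_mul, map_mul, map_mul, map_inv, MonoidHom.mem_ker.1 k3, inv_one, one_mul, ← map_mul, e1,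
      map_mul, map_inv, mul_inv_cancel_right]

theorem t_z {m : List ℕ} (e : chkF amat m 8388608 8388608 = true) :
    ∃ e, wd gel (54 :: m) * DD.z * (wd gel (54 :: m))⁻¹ = DD.zp e * DD.xq Om := by
  obtain ⟨ε, k⟩ := hypT.tz
  obtain ⟨h1, h2⟩ := alph.chkF_sound e
  obtain ⟨δ, k1⟩ := Ah_spec ⟨wd gel m, alph.wd_N h1⟩ Om
  rw [show Om = cd 8388608 from rfl, h2] at k1
  refine ⟨_, Eq.trans ?_ (conj_zx (alph.wd_N h1) k1 ε)⟩
  rw [wd_cons, ← show Om = cd 8388608 from rfl, ← k]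
  group

theorem ord_of {w : List ℕ} {p c c' : ℕ} [Fact p.Prime] (h : wd gel w ^ p = 1)
    (e : chkF amat w c c' = true) (hc : c < 2 ^ 24 ∧ c' < 2 ^ 24 ∧ c ≠ c') : orderOf (wd gel w) = p := by
  refine orderOf_eq_prime h fun h1 => hc.2.2 (cd_inj hc.1 hc.2.1 ?_)
  obtain ⟨h2, h3⟩ := alph.chkF_sound e
  rwa [show (⟨wd gel w, alph.wd_N h2⟩ : DD.N) = 1 from Subtype.ext h1, map_one, Units.val_one,
    one_mulVec] at h3

/-! ### two axes -/

/-- a translate of the axis number one -/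
def axW (w : List ℕ) : DD.V := (wd gel w).1 (VV DD BB av 1)

theorem axW_Dd {w : List ℕ} (h : okN w = true := by decide) : axW w ∈ Dd (aa DD BB av) :=
  ⟨1, wd gel w, alph.wd_N h, rfl⟩

theorem mem_axW {w w' h : List ℕ} {d1 d2 d3 d4 : ℕ} (e1 : chkL tab av 1 1 d1 d2 (w ++ h) w = true)
    (e2 : chkL tab av 1 1 d3 d4 (w' ++ h) w' = true) (ho : okW h = true := by decide) :
    wd gel h ∈ S2 (gel 54) (axW w) (axW w') := by
  have h1 := alph.chkL_sound Ck.okav e1
  have h2 := alph.chkL_sound Ck.okav e2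
  rw [wd_append] at h1 h2
  exact mem_S2.2 ⟨alph.wd_G ho, h1, h2⟩

theorem tt_axW {w mu d d' : List ℕ} (h : DD.tt (axW w) = (wd gel d).1)
    (e : wd gel (d ++ mu) = wd gel (mu ++ d')) (ho : okW mu = true := by decide) :
    DD.tt (axW (w ++ mu)) = (wd gel d').1 := by
  rw [show axW (w ++ mu) = (wd gel mu).1 (axW w) by rw [axW, wd_append]; rfl,
    tt_unit (ctx2.wd_au ho) h, ← wd_append, e, wd_append, mul_inv_cancel_right]

theorem hypK_pair {A C : DD.V} {d1 d2 x n0 : DD.N} {hs : List DD.N} (hM : HypM [d1, d2] x hs n0)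
    (hA : A ∈ Dd (aa DD BB av)) (hC : C ∈ Dd (aa DD BB av)) (t1 : DD.tt A = d1.1.1)
    (t2 : DD.tt C = d2.1.1) (hx : x = d1 * d2) (hz : DD.z ∈ S2 (gel 54) A C)
    (hq : ∀ c ∈ FX x, DD.xq c ∈ S2 (gel 54) A C) (hh : ∀ h ∈ hs, h.1 ∈ S2 (gel 54) A C)
    {g : DD.Γ} (hg : g ∈ S2 (gel 54) A C) (gz : ∃ e, g * DD.z * g⁻¹ = DD.zp e * DD.xq Om) {c : Cl}
    (hc : c ∈ FX x) (gc : ∃ n : DD.N, g * DD.xq c * g⁻¹ = n.1 ∧ DD.Ah n = DD.Ah n0) :
    IsSimpleGroup (S2 (gel 54) A C) ∧ ∀ k ∈ S2 (gel 54) A C, k * x.1 = x.1 * k := by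
  obtain ⟨e, gz⟩ := gz
  obtain ⟨n, gc, hn⟩ := gc
  have e1 := S2_eq hypL hypT hypA hypS hA hC t1 t2
  have e2 : ∀ k ∈ S2 (gel 54) A C, k * x.1 = x.1 * k := fun k hk => by
    rw [e1] at hk
    have h1 := Subgroup.mem_centralizer_iff.1 hk.2
    rw [hx, Subgroup.coe_mul, ← mul_assoc, ← h1 d1.1 (Or.inl rfl), mul_assoc, ← h1 d2.1 (Or.inr rfl),
      mul_assoc]
  refine ⟨simple_K hypL hypT hypA (hypK_of hypL hM (le_of_eq (e1.trans ?_)) hz
    (fun n hn => Subtype.ext (e2 _ hn)) hq hh hg gz hc gc hn), e2⟩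
  congr 1
  ext g
  simp [eq_comm]

theorem pos_root {w mu r : List ℕ} {d1 d2 : ℕ} (e : chkL tab av 1 0 d1 d2 (w ++ mu ++ r) [] = true)
    (ho : okW r = true := by decide) :
    Pos DD BB av gel pp0 (axW w) (axW (w ++ mu)) 1 (w ++ r) false := by
  have h1 := alph.chkL_sound Ck.okav e
  rw [wd_append] at h1
  exact ⟨wd gel r, alph.wd_G ho, by rw [wd_append]; rfl, h1.trans ctx.e0⟩

theorem ip_root {w mu r g d' : List ℕ} {d d1 d2 : ℕ} {i : ℤ}
    (e : chkL tab av 1 0 d1 d2 (w ++ mu ++ r) [] = true) (hg : Ch DD BB av gel 1 g)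
    (c : chkX tab av 1 d g (w ++ r) false 64 i = true) (h : DD.tt (axW (w ++ mu)) = (wd gel d').1)
    (ho : okW r = true ∧ okW (g ++ (w ++ r)) = true := by decide) :
    DD.ip (axW w) ((wd gel d').1 (axW w)) = 1 / 8 := by
  have h1 := alph.chkL_sound Ck.okav e
  rw [wd_append] at h1
  have h2 := tt_unit (ctx2.wd_au ho.1) h
  rw [show (wd gel r).1 (axW (w ++ mu)) = DD.ax pp0 (eF false) from h1.trans ctx.e0, ctx2.tt_e] at h2
  have h3 := ctx2.ipX hg ho.2 c
  rw [h2, wd_append, mul_ap, mul_ap, mul_ap, unit_inj, (ctx2.wd_au ho.1).1] at h3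
  exact h3.trans (by norm_num)

end

end CfsgMO
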