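/-
The Held group: soundness of the checks.
-/
import Cfsg.Agent.MO.Sb7
import Cfsg.Agent.MO.SbE

set_option autoImplicit false
set_option maxRecDepth 100000

namespace CfsgMO

open Matrix Dat

noncomputable section

section gen

variable {D : Dat} {B : Lb} {tab : ℕ → List Lay} {amat : ℕ → List ℕ} {gel : ℕ → D.Γ}
  {av : ℕ → List ℕ} {p0 : D.I}

theorem Ctx.entA (h : Ctx D B tab amat gel av p0) (k : ℕ) (i j : Fin 24) :
    (VV D B av k).1.1 i j = (1 / 512 : ℚ) *
      valN ((av k).map fun p => Nat.land p (ones 3072)) (Nat.add (Nat.mul 128 i) j) := by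
  have : posA i j < 3072 := by unfold posA; omega
  rw [← co_A h.al.good, VV, co_vec h.al.good _ (h.ok k), valN_eq,
    val_map (j := posA i j) (fun p => by
      change (Nat.land p _).testBit (posA i j) = _
      simp [ones_bit, this])]
  rfl

theorem Ctx.entX (h : Ctx D B tab amat gel av p0) (k : ℕ) {pos : ℕ} {p : D.I}
    (hx : tb B.X pos = true) (hp : D.cls p = cd (klab B.L pos)) :
    (VV D B av k).2.1 p = (1 / 512 : ℚ) * valN (av k) pos := by
  rw [tb_eq] at hx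
  rw [klab_eq] at hp
  rw [← co_X h.al.good _ hx hp, h.al.rp h.ok k, valN_eq]
  rfl

theorem Ctx.ipP (h : Ctx D B tab amat gel av p0) {k l pos : ℕ} {i0 i1 : ℤ} {p : D.I} {θ : F2}
    (hl : VV D B av l = D.ax p θ) (hx : tb B.X pos = true) (hp : D.cls p = cd (klab B.L pos))
    (e : chkP av k l pos i0 i1 = true) :
    D.ip (VV D B av k) (D.ax p 0) = i0 / 512 ∧ D.ip (VV D B av k) (D.ax p 1) = i1 / 512 := by
  rw [chkP, mapK_eq, mapK_eq] at e
  simp only [an_eq, Bool.and_eq_true, eqZ_iff] at e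
  have h1 : trace ((VV D B av k).1.1 * (VV D B av l).1.1) =
      (tr3 ((av k).map fun p => Nat.land p (ones 3072)) ((av l).map fun p => Nat.land p (ones 3072)) : ℤ)
        / 262144 := by
    rw [tr3, sum_rec, trace]
    simp only [diag_apply, mul_apply, sum_rec, h.entA]
    push_cast
    rw [Finset.sum_div]
    refine Finset.sum_congr rfl fun i _ => ?_
    rw [Finset.sum_div]
    refine Finset.sum_congr rfl fun j _ => ?_
    change _ = ((_ * _ : ℤ) : ℚ) / _
    push_cast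
    ring
  have h2 : ∀ η, D.ip (VV D B av k) (D.ax p η) = trace ((VV D B av k).1.1 * (VV D B av l).1.1) +
      (1 / 512 : ℚ) * valN (av k) pos * (-2 * sg η) := fun η => by
    rw [← h.entX k hx hp, hl]
    change trace ((VV D B av k).1.1 * (D.ax p θ).1.1) +
      (VV D B av k).2.1 ⬝ᵥ Pi.single p (-2 * sg η) + trace ((VV D B av k).2.2ᵀ * (0 : MW)) = _
    rw [dotProduct_single, Matrix.mul_zero, trace_zero, add_zero]
  rw [h2, h2, h1, sg_zero, sg_one]
  generalize tr3 _ _ = a at e ⊢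
  generalize valN (av k) pos = b at e ⊢
  have e1 : ((a - 1024 * b : ℤ) : ℚ) = (512 * i0 : ℤ) := congrArg _ e.1
  have e2 : ((a + 1024 * b : ℤ) : ℚ) = (512 * i1 : ℤ) := congrArg _ e.2
  push_cast at e1 e2
  constructor <;> linarith

theorem Ctx.axAt (h : Ctx D B tab amat gel av p0) {a l l' pos c : ℕ} {w : List ℕ}
    (e1 : chkW tab av 0 l 0 0 w = true) (e2 : chkW tab av 12 l' 0 0 w = true)
    (e3 : chkF amat w 7028736 c = true ∧ tb B.X pos = true ∧ klab B.L pos = c ∧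
      valN (av a) pos = -1024 ∧ (l = a ∧ l' = a + 1 ∨ l = a + 1 ∧ l' = a)) :
    tb B.X pos = true ∧ klab B.L pos = c ∧
      ∃ p, D.cls p = cd c ∧ VV D B av a = D.ax p 0 ∧ VV D B av (a + 1) = D.ax p 1 := by
  obtain ⟨e3, hx, hc, hv, hl⟩ := e3
  obtain ⟨h1, h2⟩ := h.al.chkF_sound e3
  obtain ⟨s, ε, k1, -, k2⟩ := act_ax ⟨wd gel w, h.al.wd_N h1⟩ p0
  rw [h.cls0, h2] at k1
  have k3 := h.al.chkW_sound h.ok e1
  have k4 := h.al.chkW_sound h.ok e2
  rw [h.e0] at k3
  rw [h.e1] at k4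
  replace k3 := k3.symm.trans (k2 0)
  replace k4 := k4.symm.trans (k2 1)
  have k5 : VV D B av a ≠ D.ax s 1 := fun e => by
    have := h.entX a hx (k1.trans (by rw [hc]))
    rw [e, hv] at this
    change (Pi.single s (-2 * sg 1) : D.I → ℚ) s = _ at this
    rw [Pi.single_eq_same, sg_one] at this
    norm_num at this
  refine ⟨hx, hc, s, k1, ?_⟩
  rcases F2_cases ε with rfl | rfl <;> rcases hl with ⟨rfl, rfl⟩ | ⟨rfl, rfl⟩
  exacts [⟨k3, k4⟩, absurd k4 k5, absurd k3 k5, ⟨k4, k3⟩]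

theorem cnt_gen {I : Type} [Fintype I] {n : ℕ} {P : I × F2 → Prop} [DecidablePred P]
    {Q : Fin n × F2 → Prop} [DecidablePred Q] {pj : Fin n → I} (hi : Function.Injective pj)
    (h : ∀ x, P x → ∃ j, x.1 = pj j) (hQ : ∀ j η, P (pj j, η) ↔ Q (j, η)) :
    (Finset.univ.filter P).card = (Finset.univ.filter Q).card := by
  symm
  refine Finset.card_bij (fun y _ => (pj y.1, y.2)) (fun y hy => ?_) (fun a _ b _ e => ?_) fun x hx => ?_
  · exact Finset.mem_filter.2 ⟨Finset.mem_univ _, (hQ _ _).2 (Finset.mem_filter.1 hy).2⟩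
  · exact Prod.ext (hi (Prod.ext_iff.1 e).1) (Prod.ext_iff.1 e).2
  · obtain ⟨p, η⟩ := x
    obtain ⟨j, rfl⟩ := h _ (Finset.mem_filter.1 hx).2
    exact ⟨(j, η), Finset.mem_filter.2 ⟨Finset.mem_univ _, (hQ _ _).1 (Finset.mem_filter.1 hx).2⟩, rfl⟩

end gen

namespace Sb

theorem okavH : OkAv BB avH := fun k => by
  have h : ∀ k < 66, okV BB (avH k) = true := by decide +kernel
  by_cases hk : k < 66
  · exact h k hk
  · rw [show avH k = [] by rw [avH, gdL_eq, List.getD_eq_default _ _ (by simpa using hk)]]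
    decide +kernel

theorem ctxH : Ctx DD BB tab amat gel avH pp0 where
  al := alph
  ok := okavH
  st := ctx.st
  v0 := by decide +kernel
  v1 := by decide +kernel
  c0 := lab_192

/-- the vectors -/
abbrev VH (k : ℕ) : DD.V := VV DD BB avH k
/-- the centralised elements -/
abbrev RH : Set DD.Γ := {g | ∃ r ∈ RHe, r.1 = g}
/-- the Held group -/
abbrev KH : Subgroup DD.Γ := DD.CN RH ⊔ Subgroup.zpowers (gel 54)

theorem cent_RH {g : DD.Γ} (h1 : wd gel xW * g = g * wd gel xW) (h2 : wd gel yW * g = g * wd gel yW) :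
    g ∈ Subgroup.centralizer RH := by
  rw [Subgroup.mem_centralizer_iff]
  rintro _ ⟨r, hr, rfl⟩
  simp only [RHe, List.mem_cons, List.not_mem_nil, or_false] at hr
  rcases hr with rfl | rfl
  exacts [h1, h2]

theorem memC {w : List ℕ} (e1 : chkL tab av 11 11 0 0 (w ++ xW) (xW ++ w) = true)
    (e2 : chkL tab av 11 11 0 0 (w ++ yW) (yW ++ w) = true)
    (h : okN w = true ∧ chkE amat (w ++ xW) (xW ++ w) = true ∧ chkE amat (w ++ yW) (yW ++ w) = true) :
    wd gel w ∈ DD.CN RH := by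
  have h1 := weq e1 h.2.1
  have h2 := weq e2 h.2.2
  rw [wd_append, wd_append] at h1 h2
  exact ⟨alph.wd_N h.1, cent_RH h1 h2⟩

theorem z_C : DD.z ∈ DD.CN RH :=
  ⟨DD.z_mem, cent_RH (DD.z_comm (alph.wd_N (by decide))) (DD.z_comm (alph.wd_N (by decide)))⟩

theorem wd_one (a : ℕ) : wd gel [a] = gel a := by
  rw [wd_cons, show wd gel [] = 1 from rfl, one_mul]

theorem t_C (e1 : chkL tab av 11 11 0 0 (xW.flatMap twX) xW = true)
    (e2 : chkL tab av 11 11 0 0 (yW.flatMap twX) yW = true) : gel 54 ∈ CG (gel 54) RH := by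
  have h1 := (tconj (w := xW) (by decide)).trans (weq e1)
  have h2 := (tconj (w := yW) (by decide)).trans (weq e2)
  rw [mul_inv_eq_iff_eq_mul] at h1 h2
  exact ⟨t_mem_GG _, cent_RH h1.symm h2.symm⟩

theorem fl_cons (a : ℕ) (L : List ℕ) : wd gel (fl (a :: L)) = wd gel (fl L) * wd gel (gdL [] blk a) :=
  wd_append _ _

theorem fl_mem {K : Subgroup DD.Γ} {n : ℕ} (h : ∀ a < n, wd gel (gdL [] blk a) ∈ K) {L : List ℕ}
    (hL : ∀ a ∈ L, a < n) : wd gel (fl L) ∈ K := by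
  induction L with
  | nil => exact one_mem _
  | cons a L ih =>
    rw [fl_cons]
    exact mul_mem (ih fun b hb => hL b (List.mem_cons_of_mem _ hb)) (h a (hL a List.mem_cons_self))

/-- the blocks lie in the centraliser -/
def BlkC : Prop := ∀ a < 21, wd gel (gdL [] blk a) ∈ DD.CN RH

theorem BlkC.K (h : BlkC) : ∀ a < 22, wd gel (gdL [] blk a) ∈ KH := fun a ha => by
  by_cases h1 : a < 21
  · exact Subgroup.mem_sup_left (h a h1)
  · rw [show a = 21 by omega, show gdL [] blk 21 = [54] from rfl, wd_one]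
    exact Subgroup.mem_sup_right (Subgroup.mem_zpowers _)

/-- a neighbour -/
def NbH (k i s : ℕ) : Prop := (gel 54).1 ((wd gel (gdL [] blk (14 * s))).1
  ((wd gel (gdL [] blk i)).1 (VH (13 + k)))) ∈ OrbC (DD.CN RH) (VH (13 + nbN k i s))

theorem BlkC.nb (h : BlkC) {k i s d1 d2 : ℕ} {L1 L2 : List ℕ} (e : chkN k i s d1 d2 L1 L2 = true)
    (hL : (∀ a ∈ L1, a < 21) ∧ ∀ a ∈ L2, a < 21 := by decide) : NbH k i s := by
  have h1 := alph.chkL_sound okavH e
  rw [fl_cons, fl_cons, fl_cons, show gdL [] blk 21 = [54] from rfl, wd_one, mul_ap, mul_ap,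
    mul_ap] at h1
  exact ⟨(wd gel (fl L1))⁻¹ * wd gel (fl L2), mul_mem (inv_mem (fl_mem h hL.1)) (fl_mem h hL.2), by
    rw [mul_ap, ← h1, unit_inj]⟩

theorem BlkC.tr (h : BlkC) {j d1 d2 : ℕ} {L : List ℕ}
    (e : chkL tab avH (24 + 2 * j) 13 d1 d2 (fl L) (fl []) = true)
    (hL : ∀ a ∈ L, a < 21 := by decide) : VH (24 + 2 * j) ∈ OrbC (DD.CN RH) (VH 13) := by
  have h1 := alph.chkL_sound okavH e
  refine ⟨(wd gel (fl L))⁻¹, inv_mem (fl_mem h hL), ?_⟩
  rw [show VH 13 = (wd gel (fl L)).1 (VH (24 + 2 * j)) from h1.symm, unit_inj]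

/-- an orthogonal pair is equivalent to the standard pair -/
def StH (k x : ℕ) : Prop := ∃ g ∈ KH, g.1 (VH (13 + k)) = VH 35 ∧ g.1 (VH (24 + x)) = VH 34

theorem BlkC.root (h : BlkC) {a : ℕ} (e1 : chkL tab avH (13 + 0) 35 0 0 (fl [a]) [] = true)
    (e2 : chkL tab avH (24 + 11) 34 0 0 (fl [a]) [] = true) (hL : ∀ b ∈ [a], b < 22 := by decide) :
    StH 0 11 :=
  ⟨_, fl_mem h.K hL, alph.chkL_sound okavH e1, alph.chkL_sound okavH e2⟩

theorem BlkC.link (h : BlkC) {k l x y d1 d2 d3 d4 : ℕ} {L1 L2 : List ℕ}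
    (e1 : chkL tab avH (13 + k) (13 + l) d1 d2 (fl L1) (fl L2) = true)
    (e2 : chkL tab avH (24 + x) (24 + y) d3 d4 (fl L1) (fl L2) = true)
    (hL : (∀ a ∈ L1, a < 22) ∧ ∀ a ∈ L2, a < 22) : StH k x ↔ StH l y := by
  have h1 := alph.chkL_sound okavH e1
  have h2 := alph.chkL_sound okavH e2
  have m1 := fl_mem h.K hL.1
  have m2 := fl_mem h.K hL.2
  constructor
  · rintro ⟨g, hg, a, b⟩
    exact ⟨g * ((wd gel (fl L1))⁻¹ * wd gel (fl L2)), mul_mem hg (mul_mem (inv_mem m1) m2),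
      by rw [mul_ap, mul_ap, ← h1, unit_inj, a], by rw [mul_ap, mul_ap, ← h2, unit_inj, b]⟩
  · rintro ⟨g, hg, a, b⟩
    exact ⟨g * ((wd gel (fl L2))⁻¹ * wd gel (fl L1)), mul_mem hg (mul_mem (inv_mem m2) m1),
      by rw [mul_ap, mul_ap, h1, unit_inj, a], by rw [mul_ap, mul_ap, h2, unit_inj, b]⟩

/-- the two vectors of number `j` are short axes -/
def AxJ (j : ℕ) : Prop := tb BB.X (posT j) = true ∧ klab BB.L (posT j) = shHe.getD j 0 ∧
  ∃ p, DD.cls p = cd (shHe.getD j 0) ∧ VH (24 + 2 * j) = DD.ax p 0 ∧ VH (24 + 2 * j + 1) = DD.ax p 1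

end Sb

end

end CfsgMO
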