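/-
The Held group: the orbits on the axes.
-/
import Cfsg.Agent.MO.Sb9a
import Cfsg.Agent.MO.SbF0
import Cfsg.Agent.MO.SbF1
import Cfsg.Agent.MO.SbF2
import Cfsg.Agent.MO.SbF3
import Cfsg.Agent.MO.SbF4
import Cfsg.Agent.MO.SbF5
import Cfsg.Agent.MO.SbF6
import Cfsg.Agent.MO.SbF7

set_option autoImplicit false
set_option maxRecDepth 100000

namespace CfsgMO.Sb

open Matrix Dat

noncomputable section

theorem blkC : BlkC := fun a ha => by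
  interval_cases a
  · exact one_mem _
  · exact memC Cs.cx1 Cs.cy1 (by decide +kernel)
  · exact memC Cs.cx2 Cs.cy2 (by decide +kernel)
  · exact memC Cs.cx3 Cs.cy3 (by decide +kernel)
  · exact memC Cs.cx4 Cs.cy4 (by decide +kernel)
  · exact memC Cs.cx5 Cs.cy5 (by decide +kernel)
  · exact memC Cs.cx6 Cs.cy6 (by decide +kernel)
  · exact memC Cs.cx7 Cs.cy7 (by decide +kernel)
  · exact memC Cs.cx8 Cs.cy8 (by decide +kernel)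
  · exact memC Cs.cx9 Cs.cy9 (by decide +kernel)
  · exact memC Cs.cx10 Cs.cy10 (by decide +kernel)
  · exact memC Cs.cx11 Cs.cy11 (by decide +kernel)
  · exact memC Cs.cx12 Cs.cy12 (by decide +kernel)
  · exact memC Cs.cx13 Cs.cy13 (by decide +kernel)
  · exact memC Cs.cx14 Cs.cy14 (by decide +kernel)
  · exact memC Cs.cx15 Cs.cy15 (by decide +kernel)
  · exact memC Cs.cx16 Cs.cy16 (by decide +kernel)
  · exact memC Cs.cx17 Cs.cy17 (by decide +kernel)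
  · exact memC Cs.cx18 Cs.cy18 (by decide +kernel)
  · exact memC Cs.cx19 Cs.cy19 (by decide +kernel)
  · rw [show gdL [] blk 20 = [24] from rfl, wd_one, gel_z]
    exact z_C

theorem tG_H : gel 54 ∈ CG (gel 54) RH := t_C Cs.tx Cs.ty

theorem hs_C : ∀ h ∈ HHe, h.1 ∈ DD.CN RH :=
  List.forall_mem_cons.2 ⟨blkC 7 (by norm_num),
  List.forall_mem_cons.2 ⟨blkC 8 (by norm_num),
  List.forall_mem_cons.2 ⟨blkC 9 (by norm_num),
  List.forall_mem_cons.2 ⟨blkC 10 (by norm_num),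
  List.forall_mem_cons.2 ⟨blkC 11 (by norm_num),
  List.forall_mem_cons.2 ⟨blkC 12 (by norm_num),
  List.forall_mem_cons.2 ⟨blkC 13 (by norm_num),
  List.forall_mem_cons.2 ⟨blkC 1 (by norm_num),
  List.forall_mem_cons.2 ⟨blkC 2 (by norm_num),
  List.forall_mem_cons.2 ⟨blkC 3 (by norm_num),
  List.forall_mem_cons.2 ⟨blkC 4 (by norm_num),
  List.forall_mem_cons.2 ⟨blkC 5 (by norm_num),
  List.forall_mem_cons.2 ⟨blkC 6 (by norm_num),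
  List.forall_mem_nil _⟩⟩⟩⟩⟩⟩⟩⟩⟩⟩⟩⟩⟩

theorem q_C : ∀ c ∈ bHe, DD.xq (cd c) ∈ DD.CN RH :=
  List.forall_mem_cons.2 ⟨xq_of_wd z_C (blkC 14 (by norm_num)),
  List.forall_mem_cons.2 ⟨xq_of_wd z_C (blkC 15 (by norm_num)),
  List.forall_mem_cons.2 ⟨xq_of_wd z_C (blkC 16 (by norm_num)),
  List.forall_mem_cons.2 ⟨xq_of_wd z_C (blkC 17 (by norm_num)),
  List.forall_mem_cons.2 ⟨xq_of_wd z_C (blkC 18 (by norm_num)),
  List.forall_mem_cons.2 ⟨xq_of_wd z_C (blkC 19 (by norm_num)),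
  List.forall_mem_nil _⟩⟩⟩⟩⟩⟩

theorem nbH0 : ∀ i < 7, ∀ s < 2, NbH 0 i s := fun i hi s hs => by
  interval_cases i <;> interval_cases s
  exacts [blkC.nb Cs.n0_0_0, blkC.nb Cs.n0_0_1, blkC.nb Cs.n0_1_0, blkC.nb Cs.n0_1_1, blkC.nb Cs.n0_2_0, blkC.nb Cs.n0_2_1, blkC.nb Cs.n0_3_0, blkC.nb Cs.n0_3_1, blkC.nb Cs.n0_4_0, blkC.nb Cs.n0_4_1, blkC.nb Cs.n0_5_0, blkC.nb Cs.n0_5_1, blkC.nb Cs.n0_6_0, blkC.nb Cs.n0_6_1]

theorem nbH1 : ∀ i < 7, ∀ s < 2, NbH 1 i s := fun i hi s hs => by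
  interval_cases i <;> interval_cases s
  exacts [blkC.nb Cs.n1_0_0, blkC.nb Cs.n1_0_1, blkC.nb Cs.n1_1_0, blkC.nb Cs.n1_1_1, blkC.nb Cs.n1_2_0, blkC.nb Cs.n1_2_1, blkC.nb Cs.n1_3_0, blkC.nb Cs.n1_3_1, blkC.nb Cs.n1_4_0, blkC.nb Cs.n1_4_1, blkC.nb Cs.n1_5_0, blkC.nb Cs.n1_5_1, blkC.nb Cs.n1_6_0, blkC.nb Cs.n1_6_1]

theorem nbH2 : ∀ i < 7, ∀ s < 2, NbH 2 i s := fun i hi s hs => by
  interval_cases i <;> interval_cases s
  exacts [blkC.nb Cs.n2_0_0, blkC.nb Cs.n2_0_1, blkC.nb Cs.n2_1_0, blkC.nb Cs.n2_1_1, blkC.nb Cs.n2_2_0, blkC.nb Cs.n2_2_1, blkC.nb Cs.n2_3_0, blkC.nb Cs.n2_3_1, blkC.nb Cs.n2_4_0, blkC.nb Cs.n2_4_1, blkC.nb Cs.n2_5_0, blkC.nb Cs.n2_5_1, blkC.nb Cs.n2_6_0, blkC.nb Cs.n2_6_1]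

theorem nbH3 : ∀ i < 7, ∀ s < 2, NbH 3 i s := fun i hi s hs => by
  interval_cases i <;> interval_cases s
  exacts [blkC.nb Cs.n3_0_0, blkC.nb Cs.n3_0_1, blkC.nb Cs.n3_1_0, blkC.nb Cs.n3_1_1, blkC.nb Cs.n3_2_0, blkC.nb Cs.n3_2_1, blkC.nb Cs.n3_3_0, blkC.nb Cs.n3_3_1, blkC.nb Cs.n3_4_0, blkC.nb Cs.n3_4_1, blkC.nb Cs.n3_5_0, blkC.nb Cs.n3_5_1, blkC.nb Cs.n3_6_0, blkC.nb Cs.n3_6_1]

theorem nbH4 : ∀ i < 7, ∀ s < 2, NbH 4 i s := fun i hi s hs => by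
  interval_cases i <;> interval_cases s
  exacts [blkC.nb Cs.n4_0_0, blkC.nb Cs.n4_0_1, blkC.nb Cs.n4_1_0, blkC.nb Cs.n4_1_1, blkC.nb Cs.n4_2_0, blkC.nb Cs.n4_2_1, blkC.nb Cs.n4_3_0, blkC.nb Cs.n4_3_1, blkC.nb Cs.n4_4_0, blkC.nb Cs.n4_4_1, blkC.nb Cs.n4_5_0, blkC.nb Cs.n4_5_1, blkC.nb Cs.n4_6_0, blkC.nb Cs.n4_6_1]

theorem nbH5 : ∀ i < 7, ∀ s < 2, NbH 5 i s := fun i hi s hs => by
  interval_cases i <;> interval_cases s
  exacts [blkC.nb Cs.n5_0_0, blkC.nb Cs.n5_0_1, blkC.nb Cs.n5_1_0, blkC.nb Cs.n5_1_1, blkC.nb Cs.n5_2_0, blkC.nb Cs.n5_2_1, blkC.nb Cs.n5_3_0, blkC.nb Cs.n5_3_1, blkC.nb Cs.n5_4_0, blkC.nb Cs.n5_4_1, blkC.nb Cs.n5_5_0, blkC.nb Cs.n5_5_1, blkC.nb Cs.n5_6_0, blkC.nb Cs.n5_6_1]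

theorem nbH6 : ∀ i < 7, ∀ s < 2, NbH 6 i s := fun i hi s hs => by
  interval_cases i <;> interval_cases s
  exacts [blkC.nb Cs.n6_0_0, blkC.nb Cs.n6_0_1, blkC.nb Cs.n6_1_0, blkC.nb Cs.n6_1_1, blkC.nb Cs.n6_2_0, blkC.nb Cs.n6_2_1, blkC.nb Cs.n6_3_0, blkC.nb Cs.n6_3_1, blkC.nb Cs.n6_4_0, blkC.nb Cs.n6_4_1, blkC.nb Cs.n6_5_0, blkC.nb Cs.n6_5_1, blkC.nb Cs.n6_6_0, blkC.nb Cs.n6_6_1]

theorem nbH7 : ∀ i < 7, ∀ s < 2, NbH 7 i s := fun i hi s hs => by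
  interval_cases i <;> interval_cases s
  exacts [blkC.nb Cs.n7_0_0, blkC.nb Cs.n7_0_1, blkC.nb Cs.n7_1_0, blkC.nb Cs.n7_1_1, blkC.nb Cs.n7_2_0, blkC.nb Cs.n7_2_1, blkC.nb Cs.n7_3_0, blkC.nb Cs.n7_3_1, blkC.nb Cs.n7_4_0, blkC.nb Cs.n7_4_1, blkC.nb Cs.n7_5_0, blkC.nb Cs.n7_5_1, blkC.nb Cs.n7_6_0, blkC.nb Cs.n7_6_1]

theorem nbH8 : ∀ i < 7, ∀ s < 2, NbH 8 i s := fun i hi s hs => by
  interval_cases i <;> interval_cases s
  exacts [blkC.nb Cs.n8_0_0, blkC.nb Cs.n8_0_1, blkC.nb Cs.n8_1_0, blkC.nb Cs.n8_1_1, blkC.nb Cs.n8_2_0, blkC.nb Cs.n8_2_1, blkC.nb Cs.n8_3_0, blkC.nb Cs.n8_3_1, blkC.nb Cs.n8_4_0, blkC.nb Cs.n8_4_1, blkC.nb Cs.n8_5_0, blkC.nb Cs.n8_5_1, blkC.nb Cs.n8_6_0, blkC.nb Cs.n8_6_1]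

theorem nbH9 : ∀ i < 7, ∀ s < 2, NbH 9 i s := fun i hi s hs => by
  interval_cases i <;> interval_cases s
  exacts [blkC.nb Cs.n9_0_0, blkC.nb Cs.n9_0_1, blkC.nb Cs.n9_1_0, blkC.nb Cs.n9_1_1, blkC.nb Cs.n9_2_0, blkC.nb Cs.n9_2_1, blkC.nb Cs.n9_3_0, blkC.nb Cs.n9_3_1, blkC.nb Cs.n9_4_0, blkC.nb Cs.n9_4_1, blkC.nb Cs.n9_5_0, blkC.nb Cs.n9_5_1, blkC.nb Cs.n9_6_0, blkC.nb Cs.n9_6_1]

theorem nbH10 : ∀ i < 7, ∀ s < 2, NbH 10 i s := fun i hi s hs => by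
  interval_cases i <;> interval_cases s
  exacts [blkC.nb Cs.n10_0_0, blkC.nb Cs.n10_0_1, blkC.nb Cs.n10_1_0, blkC.nb Cs.n10_1_1, blkC.nb Cs.n10_2_0, blkC.nb Cs.n10_2_1, blkC.nb Cs.n10_3_0, blkC.nb Cs.n10_3_1, blkC.nb Cs.n10_4_0, blkC.nb Cs.n10_4_1, blkC.nb Cs.n10_5_0, blkC.nb Cs.n10_5_1, blkC.nb Cs.n10_6_0, blkC.nb Cs.n10_6_1]

theorem nbH : ∀ k < 11, ∀ i < 7, ∀ s < 2, NbH k i s := fun k hk => by
  interval_cases k
  exacts [nbH0, nbH1, nbH2, nbH3, nbH4, nbH5, nbH6, nbH7, nbH8, nbH9, nbH10]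

theorem axJ : ∀ j < 21, AxJ j := fun j hj => by
  interval_cases j
  exacts [ctxH.axAt Cs.u0 Cs.v0 (by decide +kernel),
    ctxH.axAt Cs.u1 Cs.v1 (by decide +kernel),
    ctxH.axAt Cs.u2 Cs.v2 (by decide +kernel),
    ctxH.axAt Cs.u3 Cs.v3 (by decide +kernel),
    ctxH.axAt Cs.u4 Cs.v4 (by decide +kernel),
    ctxH.axAt Cs.u5 Cs.v5 (by decide +kernel),
    ctxH.axAt Cs.u6 Cs.v6 (by decide +kernel),
    ctxH.axAt Cs.u7 Cs.v7 (by decide +kernel),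
    ctxH.axAt Cs.u8 Cs.v8 (by decide +kernel),
    ctxH.axAt Cs.u9 Cs.v9 (by decide +kernel),
    ctxH.axAt Cs.u10 Cs.v10 (by decide +kernel),
    ctxH.axAt Cs.u11 Cs.v11 (by decide +kernel),
    ctxH.axAt Cs.u12 Cs.v12 (by decide +kernel),
    ctxH.axAt Cs.u13 Cs.v13 (by decide +kernel),
    ctxH.axAt Cs.u14 Cs.v14 (by decide +kernel),
    ctxH.axAt Cs.u15 Cs.v15 (by decide +kernel),
    ctxH.axAt Cs.u16 Cs.v16 (by decide +kernel),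
    ctxH.axAt Cs.u17 Cs.v17 (by decide +kernel),
    ctxH.axAt Cs.u18 Cs.v18 (by decide +kernel),
    ctxH.axAt Cs.u19 Cs.v19 (by decide +kernel),
    ctxH.axAt Cs.u20 Cs.v20 (by decide +kernel)]

theorem trJ : ∀ j < 21, VH (24 + 2 * j) ∈ OrbC (DD.CN RH) (VH 13) := fun j hj => by
  interval_cases j
  exacts [blkC.tr Cs.t0, blkC.tr Cs.t1, blkC.tr Cs.t2, blkC.tr Cs.t3, blkC.tr Cs.t4, blkC.tr Cs.t5, blkC.tr Cs.t6, blkC.tr Cs.t7, blkC.tr Cs.t8, blkC.tr Cs.t9, blkC.tr Cs.t10, blkC.tr Cs.t11, blkC.tr Cs.t12, blkC.tr Cs.t13, blkC.tr Cs.t14, blkC.tr Cs.t15, blkC.tr Cs.t16, blkC.tr Cs.t17, blkC.tr Cs.t18, blkC.tr Cs.t19, blkC.tr Cs.t20]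

theorem ppJ : ∀ k < 11, allL (chkPP k) (List.range 21) = true := fun k hk => by
  interval_cases k
  exacts [Cs.pp0, Cs.pp1, Cs.pp2, Cs.pp3, Cs.pp4, Cs.pp5, Cs.pp6, Cs.pp7, Cs.pp8, Cs.pp9, Cs.pp10]

theorem st2 : StH 0 11 := blkC.root Cs.rH1 Cs.rH2

theorem st5 : StH 0 30 := (blkC.link Cs.lH3 Cs.mH3 (by decide)).1 st2

theorem st6 : StH 0 31 := (blkC.link Cs.lH4 Cs.mH4 (by decide)).1 st5

theorem st0 : StH 0 6 := (blkC.link Cs.lH7 Cs.mH7 (by decide)).2 st5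

theorem st19 : StH 2 31 := (blkC.link Cs.lH9 Cs.mH9 (by decide)).1 st0

theorem st13 : StH 2 11 := (blkC.link Cs.lH0 Cs.mH0 (by decide)).2 st19

theorem st12 : StH 2 10 := (blkC.link Cs.lH1 Cs.mH1 (by decide)).1 st19

theorem st18 : StH 2 30 := (blkC.link Cs.lH2 Cs.mH2 (by decide)).1 st12

theorem st1 : StH 0 7 := (blkC.link Cs.lH8 Cs.mH8 (by decide)).2 st12

theorem st11 : StH 2 7 := (blkC.link Cs.lH15 Cs.mH15 (by decide)).2 st18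

theorem st22 : StH 6 20 := (blkC.link Cs.lH26 Cs.mH26 (by decide)).2 st1

theorem st23 : StH 6 40 := (blkC.link Cs.lH19 Cs.mH19 (by decide)).1 st22

theorem st25 : StH 9 22 := (blkC.link Cs.lH24 Cs.mH24 (by decide)).2 st22

theorem st9 : StH 1 25 := (blkC.link Cs.lH25 Cs.mH25 (by decide)).2 st25

theorem st10 : StH 1 39 := (blkC.link Cs.lH5 Cs.mH5 (by decide)).1 st9

theorem st4 : StH 0 21 := (blkC.link Cs.lH6 Cs.mH6 (by decide)).2 st10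

theorem st3 : StH 0 20 := (blkC.link Cs.lH10 Cs.mH10 (by decide)).2 st10

theorem st8 : StH 0 41 := (blkC.link Cs.lH11 Cs.mH11 (by decide)).2 st9

theorem st21 : StH 4 37 := (blkC.link Cs.lH12 Cs.mH12 (by decide)).2 st10

theorem st20 : StH 4 14 := (blkC.link Cs.lH13 Cs.mH13 (by decide)).2 st21

theorem st7 : StH 0 40 := (blkC.link Cs.lH14 Cs.mH14 (by decide)).2 st9

theorem st15 : StH 2 15 := (blkC.link Cs.lH16 Cs.mH16 (by decide)).2 st20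

theorem st14 : StH 2 14 := (blkC.link Cs.lH17 Cs.mH17 (by decide)).2 st15

theorem st17 : StH 2 29 := (blkC.link Cs.lH18 Cs.mH18 (by decide)).1 st20

theorem st24 : StH 8 41 := (blkC.link Cs.lH21 Cs.mH21 (by decide)).1 st25

theorem st16 : StH 2 28 := (blkC.link Cs.lH23 Cs.mH23 (by decide)).1 st14

theorem st27 : StH 10 26 := (blkC.link Cs.lH20 Cs.mH20 (by decide)).2 st24

theorem st26 : StH 10 13 := (blkC.link Cs.lH22 Cs.mH22 (by decide)).2 st27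

theorem stH : ∀ e ∈ [(0, 6), (0, 7), (0, 11), (0, 20), (0, 21), (0, 30), (0, 31), (0, 40), (0, 41), (1, 25), (1, 39), (2, 7), (2, 10), (2, 11), (2, 14), (2, 15), (2, 28), (2, 29), (2, 30), (2, 31), (4, 14), (4, 37), (6, 20), (6, 40), (8, 41), (9, 22), (10, 13), (10, 26)], StH e.1 e.2 :=
  List.forall_mem_cons.2 ⟨st0,
  List.forall_mem_cons.2 ⟨st1,
  List.forall_mem_cons.2 ⟨st2,
  List.forall_mem_cons.2 ⟨st3,
  List.forall_mem_cons.2 ⟨st4,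
  List.forall_mem_cons.2 ⟨st5,
  List.forall_mem_cons.2 ⟨st6,
  List.forall_mem_cons.2 ⟨st7,
  List.forall_mem_cons.2 ⟨st8,
  List.forall_mem_cons.2 ⟨st9,
  List.forall_mem_cons.2 ⟨st10,
  List.forall_mem_cons.2 ⟨st11,
  List.forall_mem_cons.2 ⟨st12,
  List.forall_mem_cons.2 ⟨st13,
  List.forall_mem_cons.2 ⟨st14,
  List.forall_mem_cons.2 ⟨st15,
  List.forall_mem_cons.2 ⟨st16,
  List.forall_mem_cons.2 ⟨st17,
  List.forall_mem_cons.2 ⟨st18,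
  List.forall_mem_cons.2 ⟨st19,
  List.forall_mem_cons.2 ⟨st20,
  List.forall_mem_cons.2 ⟨st21,
  List.forall_mem_cons.2 ⟨st22,
  List.forall_mem_cons.2 ⟨st23,
  List.forall_mem_cons.2 ⟨st24,
  List.forall_mem_cons.2 ⟨st25,
  List.forall_mem_cons.2 ⟨st26,
  List.forall_mem_cons.2 ⟨st27,
  List.forall_mem_nil _⟩⟩⟩⟩⟩⟩⟩⟩⟩⟩⟩⟩⟩⟩⟩⟩⟩⟩⟩⟩⟩⟩⟩⟩⟩⟩⟩⟩

theorem stH2 {k x : ℕ} (hk : k < 11) (hx : x < 42) (h : ipT k x = 0) : StH k x :=
  stH (k, x) (((by decide +kernel : ∀ k : Fin 11, ∀ x : Fin 42, ipT k x ≠ 0 ∨ (k.1, x.1) ∈ [(0, 6), (0, 7), (0, 11), (0, 20), (0, 21), (0, 30), (0, 31), (0, 40), (0, 41), (1, 25), (1, 39), (2, 7), (2, 10), (2, 11), (2, 14), (2, 15), (2, 28), (2, 29), (2, 30), (2, 31), (4, 14), (4, 37), (6, 20), (6, 40), (8, 41), (9, 22), (10, 13), (10, 26)])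
    ⟨k, hk⟩ ⟨x, hx⟩).resolve_left (not_not.2 h))

instance factSeven : Fact (Nat.Prime 7) := ⟨by norm_num⟩

theorem ordHe : orderOf (wd gel xHe) = 7 := by
  have h := weq Cs.x7
  simp only [wd_append] at h
  refine ord_of (c := 1) (c' := 5219604) ?_ (by decide +kernel) (by norm_num)
  simp only [pow_succ, pow_zero, one_mul, mul_assoc]
  exact h

def oH : Fin 11 → ℕ := ![42, 336, 84, 1344, 672, 10752, 336, 2688, 5376, 2688, 672]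
def sH : Fin 11 → ℕ := ![9, 2, 9, 0, 2, 0, 2, 0, 1, 1, 2]
def pH : Fin 11 → Fin 11 := ![0, 0, 0, 1, 1, 3, 3, 4, 5, 5, 7]
def tH : Fin 11 → ℤ := ![1048576, 106496, 131072, 59392, 49152, 46720, 106496, 45056, 50176, 63616, 49152]
/-- the orbit representatives -/
def bH (k : Fin 11) : DD.V := VH (13 + k.1)
/-- the neighbours -/
def nH (k : Fin 11) (i : Fin 7) (ε : F2) : Fin 11 := ⟨nbN k i ε.val, Nat.mod_lt _ (by norm_num)⟩

theorem inv2_bH (k : Fin 11) : inv2 (bH k) = tH k / 262144 :=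
  ctxH.inv2_eq ((by decide +kernel : ∀ k : Fin 11, chkT avH (13 + k.1) (tH k) = true) k)

theorem inv2_iff {k l : Fin 11} (h : inv2 (bH k) = inv2 (bH l)) : tH k = tH l := by
  rw [inv2_bH, inv2_bH, div_left_inj' (by norm_num)] at h
  exact_mod_cast h

theorem allL_range {f : ℕ → Bool} {w : List ℕ} (h : allL f w = true) : ∀ a ∈ w, f a = true := by
  induction w with
  | nil => exact List.forall_mem_nil _
  | cons a w ih => exact List.forall_mem_cons.2 ⟨(allL_cons.1 h).1, ih (allL_cons.1 h).2⟩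

/-- the short classes -/
def pJ (j : Fin 21) : DD.I := (axJ j j.2).2.2.choose

theorem pJ_cls (j : Fin 21) : DD.cls (pJ j) = cd (shHe.getD j 0) := (axJ j j.2).2.2.choose_spec.1

theorem pJ_ax (j : Fin 21) (η : F2) : VH (24 + (2 * j + η.val)) = DD.ax (pJ j) η := by
  rcases F2_cases η with rfl | rfl
  exacts [(axJ j j.2).2.2.choose_spec.2.1, (axJ j j.2).2.2.choose_spec.2.2]

theorem pJ_inj : Function.Injective pJ := fun i j h => by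
  have h1 := (pJ_cls i).symm.trans ((congrArg DD.cls h).trans (pJ_cls j))
  revert i j
  suffices ∀ i j : Fin 21, cd (shHe.getD i 0) = cd (shHe.getD j 0) → i = j from
    fun i j _ h => this i j h
  have h1 : ∀ i : Fin 21, shHe.getD i 0 < 2 ^ 24 := by decide
  have h2 : ∀ i j : Fin 21, shHe.getD i 0 = shHe.getD j 0 → i = j := by decide +kernel
  exact fun i j h => h2 i j (cd_inj (h1 i) (h1 j) h)

theorem ip_bH (k : Fin 11) (j : Fin 21) (η : F2) :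
    DD.ip (bH k) (DD.ax (pJ j) η) = 0 ↔ ipT k (2 * j + η.val) = 0 := by
  have h := ctxH.ipP (pJ_ax j 0) (axJ j j.2).1 ((pJ_cls j).trans (congrArg cd (axJ j j.2).2.1.symm))
    (allL_range (ppJ k k.2) j (List.mem_range.2 j.2))
  rcases F2_cases η with rfl | rfl
  · rw [bH, h.1]; simp
  · rw [bH, h.2]; simp; rfl

theorem hypH (hnd : ∀ c ∈ FX (wN xHe), c ≠ 0 → ∃ u ∈ FX (wN xHe), pol c u = 1)
    {h : Fin 7 → DD.N} (hh : ∀ i : Fin 7, (h i).1 = wd gel (hHe.getD i []))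
    (card : Nat.card (DD.CN RH) = 21504) (qC : ∀ c, DD.xq c ∈ DD.CN RH ↔ c ∈ FX (wN xHe))
    (inv : ∀ n : DD.N, n.1 ∈ DD.CN RH → ∀ c ∈ FX (wN xHe), n • c ∈ FX (wN xHe))
    (hc : ∀ i : Fin 7, h i • cd (fHe.getD i 0) = Om)
    (finj : Function.Injective fun i : Fin 7 => cd (fHe.getD i 0))
    (fr : ∀ n : DD.N, n.1 ∈ DD.CN RH → ∃ i : Fin 7, n • cd (fHe.getD i 0) = Om)
    (sh : ∀ p, DD.cls p ∈ FX (wN xHe) ↔ ∃ j < 21, DD.cls p = cd (shHe.getD j 0)) :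
    HypH (gel 54) (aa DD BB av) RH (FX (wN xHe)) (gel 54) (fun i => cd (fHe.getD i 0)) h (cd 2048)
      (pJ 5) 10 bH nH oH sH pH := by
  have hb : ∀ i : Fin 7, (h i).1 = wd gel (gdL [] blk i) := fun i =>
    (hh i).trans (congrArg _ ((by decide : ∀ i : Fin 7, hHe.getD i [] = gdL [] blk i) i))
  have s1 : ∀ p, DD.cls p ∈ FX (wN xHe) → ∃ j, p = pJ j := fun p hp => by
    obtain ⟨j, hj, e⟩ := (sh p).1 hp
    exact ⟨⟨j, hj⟩, DD.cls_inj (e.trans (pJ_cls ⟨j, hj⟩).symm)⟩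
  have s2 : ∀ j, DD.cls (pJ j) ∈ FX (wN xHe) := fun j => (sh _).2 ⟨j, j.2, pJ_cls j⟩
  have e0 : VH 34 = DD.ax (pJ 5) 0 := pJ_ax 5 0
  have e1 : VH 35 = DD.ax (pJ 5) 1 := pJ_ax 5 1
  refine ⟨tG_H, t_sq, hypT.tz, card, z_C, qC, inv, fun i => ⟨hb i ▸ blkC i (by omega), hc i⟩, finj, fr,
    ⟨mem_FX _ (by decide +kernel), by decide⟩, ⟨e0, s2 5⟩, ?_, fun p η hp => ?_, fun k i ε => ?_,
    fun k l e1 e2 => ?_, rfl, by decide +kernel, by decide +kernel, fun k => ?_, by decide +kernel,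
    fun k p η hp hi => ?_⟩
  · classical
    rw [show (21 : ℕ) = (Finset.univ : Finset (Fin 21)).card by simp]
    symm
    refine Finset.card_bij (fun j _ => pJ j) (fun j _ => ?_) (fun _ _ _ _ e => pJ_inj e) fun p hp => ?_
    · exact Finset.mem_filter.2 ⟨Finset.mem_univ _, s2 j⟩
    · obtain ⟨j, rfl⟩ := s1 p (Finset.mem_filter.1 hp).2
      exact ⟨j, Finset.mem_univ _, rfl⟩
  · obtain ⟨j, rfl⟩ := s1 p hp
    obtain ⟨n, hn, e⟩ := trJ j j.2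
    replace e : n.1 (bH 0) = DD.ax (pJ j) 0 := e.trans (pJ_ax j 0)
    rcases F2_cases η with rfl | rfl
    · exact ⟨n, hn, e⟩
    · obtain ⟨u, hu, k⟩ := hnd _ hp (DD.cls_ne _)
      refine ⟨DD.xq u * n, mul_mem ((qC u).2 hu) hn, ?_⟩
      rw [mul_ap, e, xq_ax, zero_add, add_comm]
      exact congrArg _ k
  · have := nbH k k.2 i i.2 ε.val (ZMod.val_lt ε)
    rw [hb, show DD.xq (ε • cd 2048) = wd gel (gdL [] blk (14 * ε.val)) by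
      rcases F2_cases ε with rfl | rfl
      · rw [zero_smul, xq_zero]; rfl
      · rw [one_smul, show gdL [] blk (14 * (1 : F2).val) = [11] from rfl, wd_one, gel_q (by norm_num)]
        rfl]
    exact this
  · exact (by decide +kernel : ∀ k l : Fin 11, tH k = tH l →
      (∀ i ε, ∃ j δ, tH (nH k i ε) = tH (nH l j δ)) → k = l) k l (inv2_iff e1) fun i ε =>
        (e2 i ε).imp fun _ a => a.imp fun _ => inv2_iff
  · classical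
    refine (cnt_gen (Q := fun y : Fin 21 × F2 => ipT k (2 * y.1 + y.2.val) = 0) pJ_inj
      (fun x hx => s1 _ hx.1) fun j η => ?_).trans ?_
    · exact (and_iff_right (s2 j)).trans (ip_bH k j η)
    · revert k
      decide +kernel
  · obtain ⟨j, rfl⟩ := s1 p hp
    have := stH2 k.2 (by have := ZMod.val_lt η; omega) ((ip_bH k j η).1 hi)
    rwa [StH, pJ_ax, e0, e1] at this

end

end CfsgMO.Sb
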