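/-
The Held group in the Monster.
-/
import Cfsg.Agent.MO.Sb9
import Cfsg.Agent.MO.Sb2
import Cfsg.Agent.MO.Sb4c

set_option autoImplicit false
set_option maxRecDepth 100000

namespace CfsgMO.Sb

open Matrix Dat

noncomputable section

theorem KH_le : KH ≤ CG (gel 54) RH :=
  sup_le (fun _ hg => ⟨N_le_GG _ hg.1, hg.2⟩) (Subgroup.zpowers_le.2 tG_H)

theorem KH_comm {k : DD.Γ} (hk : k ∈ KH) : k * wd gel xHe = wd gel xHe * k :=
  (Subgroup.mem_centralizer_iff.1 (KH_le hk).2 _ ⟨_, List.mem_cons_self, rfl⟩).symm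

theorem qF_C : ∀ c ∈ FX (wN xHe), DD.xq c ∈ DD.CN RH := Sf.FX_leHe (qSub _ z_C) q_C

theorem simple_KH : IsSimpleGroup KH := by
  obtain ⟨e, gz⟩ := t_z (m := []) (by decide +kernel)
  obtain ⟨n, gc, hn⟩ := t_xq (w := [14, 16, 17, 18, 1, 2, 3, 5, 8, 9, 10]) (m := []) (n0 := nHe) (c := cHe)
    (by decide) (by decide) (by decide) (by decide +kernel)
  exact simple_K hypL hypT hypA (hypK_of2 hypL Sf.mHe KH_le (Subgroup.mem_sup_left z_C)
    (fun n hn => Subtype.ext (KH_comm hn)) (fun c hc => Subgroup.mem_sup_left (qF_C c hc))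
    (fun h hh => Subgroup.mem_sup_left (hs_C h hh))
    (by rw [wd_one]; exact Subgroup.mem_sup_right (Subgroup.mem_zpowers _)) gz gc hn)

theorem qC_H (c : Cl) : DD.xq c ∈ DD.CN RH ↔ c ∈ FX (wN xHe) :=
  ⟨fun h => smul_of_comm (n := wN xHe) (e := 0) (by
    rw [zp_zero, one_mul]; exact (KH_comm (Subgroup.mem_sup_left h)).symm), qF_C c⟩

theorem inv_H (n : DD.N) (hn : n.1 ∈ DD.CN RH) (c : Cl) (hc : c ∈ FX (wN xHe)) :
    n • c ∈ FX (wN xHe) := by
  change wN xHe • n • c = n • c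
  rw [← mul_smul, ← show n * wN xHe = wN xHe * n from Subtype.ext (KH_comm (Subgroup.mem_sup_left hn)),
    mul_smul, hc]

/-- the elements moving the frames -/
def hH (i : Fin 7) : DD.N := wN (hHe.getD i []) (by revert i; decide)

theorem hc_H (i : Fin 7) : hH i • cd (fHe.getD i 0) = Om :=
  (alph.chkF_sound ((by decide +kernel :
    ∀ i : Fin 7, chkF amat (hHe.getD i []) (fHe.getD i 0) 8388608 = true) i)).2

theorem finj_H : Function.Injective fun i : Fin 7 => cd (fHe.getD i 0) := fun i j h =>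
  (by decide +kernel : ∀ i j : Fin 7, fHe.getD i 0 = fHe.getD j 0 → i = j) i j
    (cd_inj ((by decide : ∀ i : Fin 7, fHe.getD i 0 < 2 ^ 24) i)
      ((by decide : ∀ i : Fin 7, fHe.getD i 0 < 2 ^ 24) j) h)

theorem card_KH (card : Nat.card (DD.CN RH) = 21504)
    (fr : ∀ n : DD.N, n.1 ∈ DD.CN RH → ∃ i : Fin 7, n • cd (fHe.getD i 0) = Om)
    (sh : ∀ p, DD.cls p ∈ FX (wN xHe) ↔ ∃ j < 21, DD.cls p = cd (shHe.getD j 0)) :
    Nat.card KH = 4030387200 :=
  card_He hypL hypT hypA (hypH Sf.mHe.nd (h := hH) (fun _ => rfl) card qC_H inv_H hc_H finj_H fr sh)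

end

end CfsgMO.Sb
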