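/-
The Thompson group and the Harada-Norton group in the Monster.
-/
import Cfsg.Agent.MO.Sb8
import Cfsg.Agent.MO.Sb2
import Cfsg.Agent.MO.Sb4a
import Cfsg.Agent.MO.Sb4b

set_option autoImplicit false
set_option maxRecDepth 100000

namespace CfsgMO.Sb

open Dat

noncomputable section

/-- the Thompson group -/
abbrev KTh : Subgroup DD.Γ := S2 (gel 54) (axW [39, 53]) (axW ([39, 53] ++ muTh))
/-- the Harada-Norton group -/
abbrev KHN : Subgroup DD.Γ := S2 (gel 54) (axW [39, 53]) (axW ([39, 53] ++ muHN))

theorem card_KTh : Nat.card KTh = 90745943887872000 := by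
  have h := card_pair hypL hypT hypA axW_Dd axW_Dd fun k => (run_all k).1
  rw [card_SS hypL hypT hypA, show ∑ k, Ck.oO k * n3 k =
    196560 * 2 * 4154781481226426191177580544000000 / 90745943887872000 by decide +kernel] at h
  exact Nat.eq_of_mul_eq_mul_right (by norm_num) (h.trans (by norm_num))

theorem card_KHN : Nat.card KHN = 273030912000000 := by
  have h := card_pair hypL hypT hypA axW_Dd axW_Dd fun k => (run_all k).2.1
  rw [card_SS hypL hypT hypA, show ∑ k, Ck.oO k * n5 k =
    196560 * 2 * 4154781481226426191177580544000000 / 273030912000000 by decide +kernel] at h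
  exact Nat.eq_of_mul_eq_mul_right (by norm_num) (h.trans (by norm_num))

theorem simple_KTh : IsSimpleGroup KTh := (simpleTh Sf.mTh Sf.FX_leTh).1
theorem simple_KHN : IsSimpleGroup KHN := (simpleHN Sf.mHN Sf.FX_leHN).1

theorem cent_Th {x : DD.GG (gel 54)} (hx : x.1 = wd gel d1w * wd gel d2Th) :
    Nat.card (Subgroup.centralizer ({x} : Set (DD.GG (gel 54)))) = 3 * 90745943887872000 :=
  cent3 hypL hypT hypA hypS axW_Dd axW_Dd ttA ttTh ordTh card_KTh simple_KTh ipTh
    (fun _ hu _ hv e1 _ e2 _ => six_all hypL hypT hypA (fun k => (run_all k).2.2) hu hv e1 e2)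
    (Sf.cN_Th (hsTh _ List.mem_cons_self) (hsTh _ (List.mem_cons_of_mem _ List.mem_cons_self))
      (qTh 8388608 (by decide)) (wd_append _ _).symm ordTh) zTh hx

end

end CfsgMO.Sb
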