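/-
The letters: checkers and words.
-/
import Cfsg.Agent.MO.Tab0
import Cfsg.Agent.MO.K2c

set_option autoImplicit false

namespace CfsgMO

noncomputable section

variable {D : Dat} {B : Lb}

/-- symbolic comparison in three pieces -/
def symEq3 (B : Lb) (P Q : List Lay) : Bool :=
  (fun M1 => (fun M2 => (fun M3 => an (symPart M1 B.L P Q) (an (symPos 16 M3 P Q)
    (symPos 18 (Nat.xor M2 M3) P Q))) (Nat.land M2 (ones 52736))) (Nat.xor B.M M1))
    (Nat.land B.M (ones 4096))

theorem symEq3_sound {P Q : List Lay} (hP : wf P = true) (hQ : wf Q = true)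
    (e : symEq3 B P Q = true) (x : ℕ → ℚ) : sem P (lv B.M B.L x) = sem Q (lv B.M B.L x) := by
  simp only [symEq3, an_eq, Bool.and_eq_true] at e
  refine sem_lv_split (C := ones 4096) (symPart_sound hP hQ e.1 x)
    (sem_lv_split (C := ones 52736) ?_ ?_)
  · rw [lv_eq_rs]; exact symPos_sound hP hQ e.2.1 _
  · rw [lv_eq_rs]; exact symPos_sound hP hQ e.2.2 _

theorem Sem.eq3 (hG : Good D B) {P Q : List Lay} {g h : Module.End ℚ D.V} (hg : Sem D B P g)
    (hh : Sem D B Q h) (e : symEq3 B P Q = true) : g = h :=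
  LinearMap.ext fun v => co_inj hG (by
    rw [hg.2, hh.2]; exact symEq3_sound hg.1 hh.1 e _)

theorem Sem.uniq (hG : Good D B) {P : List Lay} {g h : Module.End ℚ D.V} (hg : Sem D B P g)
    (hh : Sem D B P h) : g = h :=
  LinearMap.ext fun v => co_inj hG (by rw [hg.2, hh.2])

theorem exists_unit3 (hG : Good D B) {P : List Lay} (hP : wf P = true)
    (h0 : subM (supp P B.M) B.M = true) (hs : symEq3 B P (P ++ trP) = true) :
    ∃ g : D.Γ, Sem D B P g.1 :=
  exists_unit' hG hP fun v => exists_co hG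
    (fun k hk => supp_sound hP (fun _ hi => co_out v hi) k (subM_bit' h0 hk))
    (by rw [← sem_append]; exact (symEq3_sound hP (wf_append hP wf_trP) hs _).symm)

/-- the program of a word -/
def flatW (w : List ℕ) : List Lay := List.rec [] (fun a _ ih => tab a ++ ih) w

/-- all letters are below 54 -/
def lt54 (w : List ℕ) : Bool := List.rec true (fun a _ ih => an (Nat.blt a 54) ih) w

/-- the conjugates of the letters by `t` -/
def twL : List (List ℕ) := [[25, 0, 24], [26, 23, 1], [27, 2], [28, 3, 24], [29, 4], [30, 5], [31, 6, 24], [32, 7], [33, 8, 24], [34, 9], [35, 10], [], [12], [13], [14], [15], [16], [17], [18], [19], [20], [21], [22], [24], [23], [25, 23, 24], [26, 23, 24], [27], [28, 23, 24], [29], [30], [31, 23, 24], [32], [33, 23, 24], [34], [35], [36, 14, 16, 17, 19, 21, 22], [37, 12, 15, 18, 20], [38], [39, 12, 14, 17, 20, 21, 22], [40, 12, 14, 15, 16, 19, 20, 21], [41, 12, 13, 15, 17, 18, 20], [42, 12, 14, 15, 16, 19, 20, 21], [43, 12, 13, 15, 18, 20, 22]]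

def relOK (a : ℕ) : Bool :=
  an (lt54 (gdL [] twL a)) (symEq3 BB (tab a ++ tab 54) (tab 54 ++ flatW (gdL [] twL a)))

/-- the monomial letters which normalise the situation -/
def tabM (a : ℕ) : List Lay := Bool.rec [] (Bool.rec (tab a) [] (Nat.beq a 11)) (Nat.blt a 52)

def RX : ℕ := Nat.land BB.X (kgd BB.L 11)
def RY : ℕ := Nat.land mW (kgd BB.L 11)
def RZ : ℕ := Nat.xor mW RY
def R0 : ℕ := Nat.land BB.M (ones 52736)
def sO : ℕ := Nat.land (Nat.lor mW BB.X) (kgd BB.L 11)

end

end CfsgMO
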