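/-
The letters: kernel checks.
-/
import Cfsg.Agent.MO.TabA

set_option autoImplicit false
set_option maxRecDepth 100000
set_option Elab.async false

namespace CfsgMO

theorem rel_0 : relOK 0 = true := by decide +kernel
theorem rel_4 : relOK 4 = true := by decide +kernel
theorem rel_8 : relOK 8 = true := by decide +kernel
theorem rel_13 : relOK 13 = true := by decide +kernel
theorem rel_17 : relOK 17 = true := by decide +kernel
theorem rel_21 : relOK 21 = true := by decide +kernel
theorem rel_25 : relOK 25 = true := by decide +kernel
theorem rel_29 : relOK 29 = true := by decide +kernel
theorem rel_33 : relOK 33 = true := by decide +kernel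
theorem rel_37 : relOK 37 = true := by decide +kernel
theorem rel_41 : relOK 41 = true := by decide +kernel

end CfsgMO
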