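/-
The letters: kernel checks.
-/
import Cfsg.Agent.MO.TabA

set_option autoImplicit false
set_option maxRecDepth 100000
set_option Elab.async false

namespace CfsgMO

theorem rel_1 : relOK 1 = true := by decide +kernel
theorem rel_5 : relOK 5 = true := by decide +kernel
theorem rel_9 : relOK 9 = true := by decide +kernel
theorem rel_14 : relOK 14 = true := by decide +kernel
theorem rel_18 : relOK 18 = true := by decide +kernel
theorem rel_22 : relOK 22 = true := by decide +kernel
theorem rel_26 : relOK 26 = true := by decide +kernel
theorem rel_30 : relOK 30 = true := by decide +kernel
theorem rel_34 : relOK 34 = true := by decide +kernel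
theorem rel_38 : relOK 38 = true := by decide +kernel
theorem rel_42 : relOK 42 = true := by decide +kernel

end CfsgMO
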