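/-
The letters: kernel checks.
-/
import Cfsg.Agent.MO.TabA

set_option autoImplicit false
set_option maxRecDepth 100000
set_option Elab.async false

namespace CfsgMO

theorem rel_2 : relOK 2 = true := by decide +kernel
theorem rel_6 : relOK 6 = true := by decide +kernel
theorem rel_10 : relOK 10 = true := by decide +kernel
theorem rel_15 : relOK 15 = true := by decide +kernel
theorem rel_19 : relOK 19 = true := by decide +kernel
theorem rel_23 : relOK 23 = true := by decide +kernel
theorem rel_27 : relOK 27 = true := by decide +kernel
theorem rel_31 : relOK 31 = true := by decide +kernel
theorem rel_35 : relOK 35 = true := by decide +kernel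
theorem rel_39 : relOK 39 = true := by decide +kernel
theorem rel_43 : relOK 43 = true := by decide +kernel

end CfsgMO
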