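/-
The letters: kernel checks.
-/
import Cfsg.Agent.MO.TabA

set_option autoImplicit false
set_option maxRecDepth 100000
set_option Elab.async false

namespace CfsgMO

theorem rel_3 : relOK 3 = true := by decide +kernel
theorem rel_7 : relOK 7 = true := by decide +kernel
theorem rel_12 : relOK 12 = true := by decide +kernel
theorem rel_16 : relOK 16 = true := by decide +kernel
theorem rel_20 : relOK 20 = true := by decide +kernel
theorem rel_24 : relOK 24 = true := by decide +kernel
theorem rel_28 : relOK 28 = true := by decide +kernel
theorem rel_32 : relOK 32 = true := by decide +kernel
theorem rel_36 : relOK 36 = true := by decide +kernel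
theorem rel_40 : relOK 40 = true := by decide +kernel

end CfsgMO
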