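/-
The letters as elements, and the hypotheses on the lattice and on the triality element.
-/
import Cfsg.Agent.MO.TabB
import Cfsg.Agent.MO.TabK0
import Cfsg.Agent.MO.TabK1
import Cfsg.Agent.MO.TabK2
import Cfsg.Agent.MO.TabK3
import Cfsg.Agent.MO.TabK4
import Cfsg.Agent.MO.TabP0
import Cfsg.Agent.MO.TabP1
import Cfsg.Agent.MO.TabP2
import Cfsg.Agent.MO.Top

set_option autoImplicit false
set_option maxRecDepth 100000

namespace CfsgMO

open Matrix

noncomputable section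

def DD : Dat := D0 0

theorem coA_mon {a : ℕ} (h : a < 19) : CoA (spm (mnT a).r (mnT a).s) (mat2 24 (amat (25 + a))) := by
  have := mon_all h
  rw [monOK, an_eq, Bool.and_eq_true] at this
  rw [← smat_spmL]
  exact okG_sound this.2

theorem good : Good DD BB := by
  obtain ⟨p0, h0, -⟩ := okLam_sound (e := 0) lam_0
  refine good_of okB_BB (card_I 0) (short_sub BB.C p0 ?_ ?_ ?_)
  · rw [h0]; exact mem_C okB_BB (by norm_num) look_p0
  · intro σ hσ
    simp only [gP, List.mem_cons, List.not_mem_nil, or_false] at hσ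
    rcases hσ with rfl | rfl | rfl | rfl
    · exact ⟨_, coA_mon (a := 11) (by norm_num), okX_sound okB_BB okX_36⟩
    · exact ⟨_, coA_mon (a := 12) (by norm_num), okX_sound okB_BB okX_37⟩
    · exact ⟨_, coA_mon (a := 13) (by norm_num), okX_sound okB_BB okX_38⟩
    · exact ⟨_, coA_mon (a := 0) (by norm_num), okX_sound okB_BB okX_25⟩
  · refine ⟨_, _, okG_sound xi_G, ?_, okX_sound okB_BB okX_52⟩
    show ((1 : ℤ) : ℚ) / 2 = 1 / 2
    norm_num

theorem let_gen {a : ℕ} (h : a < 19) :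
    ∃ n, Let DD BB (tab (25 + a)) (amat (25 + a)) (spm (mnT a).r (mnT a).s) n := by
  have := mon_all h
  rw [monOK, an_eq, Bool.and_eq_true] at this
  exact (let_mon good this.1 fun U h1 h2 => isN_of (coA_mon h) h1 h2).2

theorem tab_q {a : ℕ} (h : a < 24) : tab a = qP BB a := by interval_cases a <;> rfl
theorem amat_q {a : ℕ} (h : a < 25) : amat a = idA := by interval_cases a <;> rfl
theorem tab_rev {a : ℕ} (h : a < 8) : tab (44 + a) = (tab (36 + a)).reverse := by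
  interval_cases a <;> rfl
theorem tab_52 : tab 52 = xiP Dt.xP1 Dt.xP2 := by
  rw [xiP, hadP, ← xH_eq.1, ← xH_eq.2.1, ← xH_eq.2.2.1, ← xH_eq.2.2.2.1, ← xH_eq.2.2.2.2]
  rfl
theorem tab_53 : tab 53 = (tab 52).reverse := rfl
theorem tab_big {a : ℕ} (h : 54 < a) : tab a = [] := by
  rw [tab, gdL_eq]
  exact List.getD_eq_default _ _ h
theorem mat2_idA : mat2 24 idA = 1 := by decide +kernel

/-- the properties of a letter -/
def Gel (a : ℕ) (g : DD.Γ) : Prop :=
  Sem DD BB (tab a) g.1 ∧ (a < 54 → ∃ h : g ∈ DD.N, (DD.Ah ⟨g, h⟩).1 = mat2 24 (amat a))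

theorem Gel.inv {a b : ℕ} {g : DD.Γ} (h : Gel a g) (ha : a < 54) (e : tab b = (tab a).reverse)
    (hm : mat2 24 (amat a) * mat2 24 (amat b) = 1) : Gel b g⁻¹ := by
  obtain ⟨h1, h2⟩ := h.2 ha
  refine ⟨e ▸ h.1.inv, fun _ => ⟨DD.N.inv_mem h1, ?_⟩⟩
  have : (⟨g⁻¹, DD.N.inv_mem h1⟩ : DD.N) = (⟨g, h1⟩ : DD.N)⁻¹ := rfl
  rw [this, map_inv]
  exact Units.inv_eq_of_mul_eq_one_right (h2 ▸ hm)

theorem gel_ker {a : ℕ} (ha : a < 25) {g : DD.Γ} (h : Sem DD BB (tab a) g.1) (e : F2) (c : Cl)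
    (hg : g = DD.zp e * DD.xq c) : Gel a g := by
  have h1 : g ∈ DD.N := hg ▸ DD.N.mul_mem (DD.zp_mem e) (DD.xq_mem c)
  refine ⟨h, fun _ => ⟨h1, ?_⟩⟩
  have : (⟨g, h1⟩ : DD.N) ∈ DD.Ah.ker := Dat.mem_ker.2 ⟨e, c, hg⟩
  rw [MonoidHom.mem_ker.1 this, amat_q ha, mat2_idA]
  rfl

theorem gel_mon {a : ℕ} (h : a < 19) : ∃ g, Gel (25 + a) g := by
  obtain ⟨n, h1, h2, -⟩ := let_gen h
  exact ⟨n.1, h1, fun _ => ⟨n.2, h2⟩⟩

theorem gel_xi : ∃ g, Gel 52 g := by
  obtain ⟨n, h1, h2, -⟩ := (let_xi good xi_ok fun U h1 h2 => isN_of (okG_sound xi_G) h1 h2).2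
  exact ⟨n.1, tab_52 ▸ h1, fun _ => ⟨n.2, h2⟩⟩

theorem exists_gel (a : ℕ) : ∃ g, Gel a g := by
  by_cases h1 : a < 24
  · exact ⟨_, gel_ker (by omega) (tab_q h1 ▸ (sem_qP good h1).2) 0 _
      (by rw [Dat.zp_zero, one_mul])⟩
  by_cases h2 : a = 24
  · subst h2
    exact ⟨_, gel_ker (by omega) (sem_z good) 1 0 (by rw [Dat.zp_one, Dat.xq_zero, mul_one])⟩
  by_cases h3 : a < 44
  · obtain ⟨b, rfl⟩ : ∃ b, a = 25 + b := ⟨a - 25, by omega⟩
    exact gel_mon (by omega)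
  by_cases h4 : a < 52
  · obtain ⟨b, rfl⟩ : ∃ b, a = 44 + b := ⟨a - 44, by omega⟩
    obtain ⟨g, hg⟩ := gel_mon (a := 11 + b) (by omega)
    rw [← add_assoc] at hg
    exact ⟨_, hg.inv (by omega) (tab_rev (by omega)) (inv_amat b (by omega))⟩
  by_cases h5 : a = 52
  · exact h5 ▸ gel_xi
  by_cases h6 : a = 53
  · obtain ⟨g, hg⟩ := gel_xi
    exact ⟨_, h6 ▸ hg.inv (by omega) tab_53 inv_xi⟩
  by_cases h7 : a = 54
  · obtain ⟨g, hg⟩ := exists_unit3 good wf_54 supp_54 sym_54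
    exact ⟨g, h7 ▸ hg, fun h => by omega⟩
  · exact ⟨1, by rw [tab_big (by omega)]; exact Sem.one, fun h => by omega⟩

/-- the elements given by the letters -/
def gel (a : ℕ) : DD.Γ := (exists_gel a).choose

theorem sem_gel (a : ℕ) : Sem DD BB (tab a) (gel a).1 := (exists_gel a).choose_spec.1

theorem gel_N {a : ℕ} (ha : a < 54) :
    ∃ h : gel a ∈ DD.N, (DD.Ah ⟨gel a, h⟩).1 = mat2 24 (amat a) := (exists_gel a).choose_spec.2 ha

theorem gel_mem {a : ℕ} (ha : a < 54) : gel a ∈ DD.N := (gel_N ha).1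

theorem gel_eq {a : ℕ} {g : DD.Γ} (h : Sem DD BB (tab a) g.1) : gel a = g :=
  Units.ext ((sem_gel a).uniq good h)

theorem gel_q {a : ℕ} (h : a < 24) : gel a = DD.xq (cd (2 ^ a)) :=
  gel_eq (tab_q h ▸ (sem_qP good h).2)

theorem gel_z : gel 24 = DD.z := gel_eq (sem_z good)

theorem gel_11 : gel 11 = DD.m0 := gel_q (by norm_num)

theorem gel_inv {a : ℕ} (h : a < 8) : gel (44 + a) = (gel (36 + a))⁻¹ :=
  gel_eq (tab_rev h ▸ (sem_gel _).inv)

theorem gel_53 : gel 53 = (gel 52)⁻¹ := gel_eq (tab_53 ▸ (sem_gel _).inv)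

/-- the element of a word, first letter first -/
def wordG : List ℕ → DD.Γ
  | [] => 1
  | a :: w => wordG w * gel a

theorem sem_word (w : List ℕ) : Sem DD BB (flatW w) (wordG w).1 := by
  induction w with
  | nil => exact Sem.one
  | cons a w ih => exact (sem_gel a).mul ih

theorem word_mem {w : List ℕ} (h : lt54 w = true) : wordG w ∈ DD.N := by
  induction w with
  | nil => exact DD.N.one_mem
  | cons a w ih =>
    change an _ (lt54 w) = true at h
    rw [an_eq, Bool.and_eq_true, Nat.blt_eq] at h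
    exact DD.N.mul_mem (ih h.2) (gel_mem h.1)

theorem rel_all {a : ℕ} (h : a < 44) (h11 : a ≠ 11) : relOK a = true := by
  interval_cases a
  · exact rel_0
  · exact rel_1
  · exact rel_2
  · exact rel_3
  · exact rel_4
  · exact rel_5
  · exact rel_6
  · exact rel_7
  · exact rel_8
  · exact rel_9
  · exact rel_10
  · exact absurd rfl h11
  · exact rel_12
  · exact rel_13
  · exact rel_14
  · exact rel_15
  · exact rel_16
  · exact rel_17
  · exact rel_18
  · exact rel_19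
  · exact rel_20
  · exact rel_21
  · exact rel_22
  · exact rel_23
  · exact rel_24
  · exact rel_25
  · exact rel_26
  · exact rel_27
  · exact rel_28
  · exact rel_29
  · exact rel_30
  · exact rel_31
  · exact rel_32
  · exact rel_33
  · exact rel_34
  · exact rel_35
  · exact rel_36
  · exact rel_37
  · exact rel_38
  · exact rel_39
  · exact rel_40
  · exact rel_41
  · exact rel_42
  · exact rel_43

theorem gel_conj {a : ℕ} (h : a < 44) (h11 : a ≠ 11) :
    gel 54 * gel a * (gel 54)⁻¹ = wordG (gdL [] twL a) ∧ wordG (gdL [] twL a) ∈ DD.N := by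
  have := rel_all h h11
  rw [relOK, an_eq, Bool.and_eq_true] at this
  refine ⟨?_, word_mem this.1⟩
  rw [mul_inv_eq_iff_eq_mul]
  exact Units.ext (Sem.eq3 good ((sem_gel a).mul (sem_gel 54)) ((sem_gel 54).mul (sem_word _)) this.2)

theorem gel_T {a : ℕ} (ha : a < 52) (h11 : a ≠ 11) : gel 54 * gel a * (gel 54)⁻¹ ∈ DD.N := by
  by_cases h : a < 44
  · rw [(gel_conj h h11).1]; exact (gel_conj h h11).2
  · obtain ⟨b, rfl⟩ : ∃ b, a = 44 + b := ⟨a - 44, by omega⟩
    have h1 := gel_conj (a := 36 + b) (by omega) (by omega)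
    have := DD.N.inv_mem h1.2
    rw [← h1.1] at this
    rw [gel_inv (by omega)]
    convert this using 1
    group

theorem tabOK : TabOK DD BB (gel 54) tabM := fun a => by
  have h0 : mono ([] : List Lay) = true ∧ ∃ g ∈ DD.Au, Sem DD BB [] g.1 ∧
      gel 54 * g * (gel 54)⁻¹ ∈ DD.Au :=
    ⟨rfl, 1, DD.Au.one_mem, Sem.one, by rw [mul_one, mul_inv_cancel]; exact DD.Au.one_mem⟩
  rw [tabM, beq_eq_dec]
  by_cases h : a < 52
  · rw [show Nat.blt a 52 = true by rw [Nat.blt_eq]; exact h]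
    by_cases h11 : a = 11
    · simp only [h11, decide_true]; exact h0
    · simp only [h11, decide_false]
      exact ⟨mono_tab a h, gel a, DD.N_le_Au (gel_mem (by omega)), sem_gel a,
        DD.N_le_Au (gel_T h h11)⟩
  · have : Nat.blt a 52 = false := by
      rw [← Bool.not_eq_true, Nat.blt_eq]; exact h
    rw [this]; exact h0

theorem t_Au : gel 54 ∈ DD.Au := by
  have k : ∀ {T : List ℕ} {l1 l2 : ℕ} {s1 s2 : List ℕ},
      okPairC BB okLam 0 (tab 54) T l1 l2 s1 s2 = true → Gd (gel 54) (bv DD l1) (bv DD l2) :=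
    fun h => okPairC_sound good (ips 0) (fun _ _ h => okLam_sound h) rfl (sem_gel 54) h
  have r0 := okRow_sound good tabOK
    (List.forall_mem_cons.2 ⟨k pr_16777216_16777216, List.forall_mem_cons.2 ⟨k pr_16777216_16777217, List.forall_mem_cons.2 ⟨k pr_16777216_16777249, List.forall_mem_cons.2 ⟨k pr_16777216_16777250, List.forall_mem_cons.2 ⟨k pr_16777216_7028736, List.forall_mem_cons.2 ⟨k pr_16777216_2588672, List.forall_mem_cons.2 ⟨k pr_16777216_8388609, List.forall_mem_cons.2 ⟨k pr_16777216_7340035, List.forall_mem_cons.2 ⟨k pr_16777216_33554432, List.forall_mem_cons.2 ⟨k pr_16777216_33556480, List.forall_mem_cons.2 ⟨k pr_16777216_2048, List.forall_mem_cons.2 ⟨k pr_16777216_33558528, List.forall_mem_cons.2 ⟨k pr_16777216_33560576, List.forall_mem_cons.2 ⟨k pr_16777216_7030784, List.forall_mem_nil _⟩⟩⟩⟩⟩⟩⟩⟩⟩⟩⟩⟩⟩⟩) row_0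
  have r1 := okRow_sound good tabOK
    (List.forall_mem_cons.2 ⟨k pr_16777217_16777216, List.forall_mem_cons.2 ⟨k pr_16777217_16777217, List.forall_mem_cons.2 ⟨k pr_16777217_16777218, List.forall_mem_cons.2 ⟨k pr_16777217_7028736, List.forall_mem_cons.2 ⟨k pr_16777217_16777282, List.forall_mem_cons.2 ⟨k pr_16777217_16777283, List.forall_mem_cons.2 ⟨k pr_16777217_5029888, List.forall_mem_cons.2 ⟨k pr_16777217_1785856, List.forall_mem_cons.2 ⟨k pr_16777217_8388609, List.forall_mem_cons.2 ⟨k pr_16777217_7340035, List.forall_mem_cons.2 ⟨k pr_16777217_4, List.forall_mem_cons.2 ⟨k pr_16777217_33554432, List.forall_mem_cons.2 ⟨k pr_16777217_33556480, List.forall_mem_cons.2 ⟨k pr_16777217_2048, List.forall_mem_cons.2 ⟨k pr_16777217_33562624, List.forall_mem_cons.2 ⟨k pr_16777217_33564672, List.forall_mem_cons.2 ⟨k pr_16777217_5031936, List.forall_mem_nil _⟩⟩⟩⟩⟩⟩⟩⟩⟩⟩⟩⟩⟩⟩⟩⟩⟩) row_1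
  have r2 := okRow_sound good tabOK
    (List.forall_mem_cons.2 ⟨k pr_7028736_16777216, List.forall_mem_cons.2 ⟨k pr_7028736_16777217, List.forall_mem_cons.2 ⟨k pr_7028736_16777218, List.forall_mem_cons.2 ⟨k pr_7028736_7028736, List.forall_mem_cons.2 ⟨k pr_7028736_15417344, List.forall_mem_cons.2 ⟨k pr_7028736_16777282, List.forall_mem_cons.2 ⟨k pr_7028736_16777283, List.forall_mem_cons.2 ⟨k pr_7028736_5029888, List.forall_mem_cons.2 ⟨k pr_7028736_1785856, List.forall_mem_cons.2 ⟨k pr_7028736_8388609, List.forall_mem_cons.2 ⟨k pr_7028736_5029889, List.forall_mem_cons.2 ⟨k pr_7028736_7340035, List.forall_mem_cons.2 ⟨k pr_7028736_4, List.forall_mem_cons.2 ⟨k pr_7028736_33554432, List.forall_mem_cons.2 ⟨k pr_7028736_33556480, List.forall_mem_cons.2 ⟨k pr_7028736_2048, List.forall_mem_cons.2 ⟨k pr_7028736_2052, List.forall_mem_cons.2 ⟨k pr_7028736_33562624, List.forall_mem_cons.2 ⟨k pr_7028736_33564672, List.forall_mem_cons.2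 ⟨k pr_7028736_5031936, List.forall_mem_cons.2 ⟨k pr_7028736_13420548, List.forall_mem_nil _⟩⟩⟩⟩⟩⟩⟩⟩⟩⟩⟩⟩⟩⟩⟩⟩⟩⟩⟩⟩⟩) row_2
  have r3 := okRow_sound good tabOK
    (List.forall_mem_cons.2 ⟨k pr_8388609_16777216, List.forall_mem_cons.2 ⟨k pr_8388609_16777217, List.forall_mem_cons.2 ⟨k pr_8388609_16777224, List.forall_mem_cons.2 ⟨k pr_8388609_7028736, List.forall_mem_cons.2 ⟨k pr_8388609_15417344, List.forall_mem_cons.2 ⟨k pr_8388609_16777480, List.forall_mem_cons.2 ⟨k pr_8388609_16777481, List.forall_mem_cons.2 ⟨k pr_8388609_7491584, List.forall_mem_cons.2 ⟨k pr_8388609_6111232, List.forall_mem_cons.2 ⟨k pr_8388609_14499840, List.forall_mem_cons.2 ⟨k pr_8388609_8388609, List.forall_mem_cons.2 ⟨k pr_8388609_8388610, List.forall_mem_cons.2 ⟨k pr_8388609_7028737, List.forall_mem_cons.2 ⟨k pr_8388609_7028738, List.forall_mem_cons.2 ⟨k pr_8388609_15728641, List.forall_mem_cons.2 ⟨k pr_8388609_14012418, List.forall_mem_cons.2 ⟨k pr_8388609_2965506,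 List.forall_mem_cons.2 ⟨k pr_8388609_12976130, List.forall_mem_cons.2 ⟨k pr_8388609_6160414, List.forall_mem_cons.2 ⟨k pr_8388609_8601630, List.forall_mem_cons.2 ⟨k pr_8388609_3014686, List.forall_mem_cons.2 ⟨k pr_8388609_6283294, List.forall_mem_cons.2 ⟨k pr_8388609_299044, List.forall_mem_cons.2 ⟨k pr_8388609_15155236, List.forall_mem_cons.2 ⟨k pr_8388609_593956, List.forall_mem_cons.2 ⟨k pr_8388609_3924004, List.forall_mem_cons.2 ⟨k pr_8388609_33554432, List.forall_mem_cons.2 ⟨k pr_8388609_33556480, List.forall_mem_cons.2 ⟨k pr_8388609_2048, List.forall_mem_cons.2 ⟨k pr_8388609_2050, List.forall_mem_cons.2 ⟨k pr_8388609_6162462, List.forall_mem_cons.2 ⟨k pr_8388609_301092, List.forall_mem_cons.2 ⟨k pr_8388609_596006, List.forall_mem_cons.2 ⟨k pr_8388609_16771114, List.forall_mem_cons.2 ⟨k pr_8388609_33587200, List.forall_mem_cons.2 ⟨k pr_8388609_33589248, List.forall_mem_cons.2 ⟨k pr_8388609_7493632, List.forall_mem_cons.2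 ⟨k pr_8388609_7493634, List.forall_mem_cons.2 ⟨k pr_8388609_10377222, List.forall_mem_cons.2 ⟨k pr_8388609_11294750, List.forall_mem_cons.2 ⟨k pr_8388609_7784484, List.forall_mem_cons.2 ⟨k pr_8388609_8079398, List.forall_mem_cons.2 ⟨k pr_8388609_899114, List.forall_mem_nil _⟩⟩⟩⟩⟩⟩⟩⟩⟩⟩⟩⟩⟩⟩⟩⟩⟩⟩⟩⟩⟩⟩⟩⟩⟩⟩⟩⟩⟩⟩⟩⟩⟩⟩⟩⟩⟩⟩⟩⟩⟩⟩⟩) row_3
  have r4 := okRow_sound good tabOK
    (List.forall_mem_cons.2 ⟨k pr_2048_33554432, List.forall_mem_cons.2 ⟨k pr_2048_33558528, List.forall_mem_nil _⟩⟩) row_4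
  exact mem_Au good (sem_gel 54) (DD.N_le_Au (gel_mem (a := 23) (by norm_num))) (sem_gel 23) reg_54
    (okCol_sound good tabOK (List.forall_mem_cons.2 ⟨r0, List.forall_mem_cons.2 ⟨r1,
      List.forall_mem_cons.2 ⟨r2, List.forall_mem_cons.2 ⟨r3, List.forall_mem_nil _⟩⟩⟩⟩) col_0)
    (okCol_sound good tabOK (List.forall_mem_cons.2 ⟨r4, List.forall_mem_nil _⟩) col_1)

theorem t_sq : gel 54 * gel 54 = 1 := by
  have : gel 54 = (gel 54)⁻¹ := Units.ext (Sem.eq3 good (sem_gel 54) (sem_gel 54).inv inv_54)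
  nth_rewrite 2 [this]
  exact mul_inv_cancel _

theorem hypT : Dat.HypT (gel 54) where
  au := t_Au
  sq := t_sq
  tz := ⟨0, by
    rw [← gel_z, (gel_conj (a := 24) (by norm_num) (by norm_num)).1, Dat.zp_zero, Om,
      ← gel_q (by norm_num)]
    rfl⟩
  tq k hk h11 := by rw [← gel_q hk]; exact gel_T (by omega) h11
  gen := by
    refine ⟨{n | ∃ a ∈ [36, 37, 38, 25], n.1 = gel a}, ?_, fun H hz hq hS n hn => ?_⟩
    · rintro ⟨g, hg⟩ ⟨a, ha, rfl⟩
      have k1 : ∀ a ∈ [36, 37, 38, 25], a < 52 ∧ a ≠ 11 ∧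
          mat2 24 (amat a) *ᵥ cd (2 ^ 23) = cd (2 ^ 23) := by decide +kernel
      obtain ⟨a1, a2, a3⟩ := k1 a ha
      refine ⟨?_, gel_T a1 a2⟩
      rw [(gel_N (a := a) (by omega)).2]
      exact a3
    · have k : ∀ a < 19, 25 + a ∈ [36, 37, 38, 25] → ∃ U, DD.IsN U (spm (mnT a).r (mnT a).s) ∧
          ∃ h ∈ H, h.1 = DD.actL U (spm (mnT a).r (mnT a).s) := fun a ha hm => by
        obtain ⟨m, h1, -, U, h2, h3⟩ := let_gen ha
        exact ⟨U, h2, m.1, hS m ⟨_, hm, (gel_eq h1).symm⟩, h3⟩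
      refine stab_gen H hz hq (fun σ hσ => ?_) n hn
      simp only [gP, List.mem_cons, List.not_mem_nil, or_false] at hσ
      rcases hσ with rfl | rfl | rfl | rfl
      · exact k 11 (by norm_num) (by decide)
      · exact k 12 (by norm_num) (by decide)
      · exact k 13 (by norm_num) (by decide)
      · exact k 0 (by norm_num) (by decide)
  out := by
    refine ⟨cd (2 ^ 0), ⟨by decide, by decide, fun p hp => ?_⟩,
      ⟨gel 24, gel_mem (by norm_num)⟩ * ⟨gel 0, gel_mem (by norm_num)⟩ *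
        ⟨gel 25, gel_mem (by norm_num)⟩, ?_, fun h => ?_⟩
    · obtain ⟨k, h1, h2⟩ := good.surj p
      have h3 : lab BB.L k = 1 :=
        cd_inj (good.hX k h1).1 (by norm_num) (h2.symm.trans hp)
      have := (testBit_look BB.L BB.X (l := 1) (by rw [good.len]; norm_num) k).2 ⟨h1, h3⟩
      rw [look_one] at this
      exact absurd this (by simp)
    · rw [← gel_q (by norm_num), (gel_conj (a := 0) (by norm_num) (by norm_num)).1]
      show 1 * gel 24 * gel 0 * gel 25 = gel 24 * gel 0 * gel 25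
      rw [one_mul]
    · have h1 := congrArg Units.val h
      rw [map_mul, map_mul, Units.val_mul, Units.val_mul, (gel_N (a := 24) (by norm_num)).2,
        (gel_N (a := 0) (by norm_num)).2, (gel_N (a := 25) (by norm_num)).2,
        amat_q (by norm_num), amat_q (by norm_num), mat2_idA, one_mul, one_mul] at h1
      exact absurd (congrFun (congrFun h1 0) 11) (by decide +kernel)

theorem hypL : Dat.HypL DD where
  ips := ips 0
  card := card_I 0
  co1 := isCo1_range 0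
  trans := trans_ax 0
  nFr := ncard_Fr 0
  om := Omega_Fr 0
  tri := by
    obtain ⟨p, hp, -⟩ := okLam_sound (e := 0) lam_0
    obtain ⟨s, hs, -⟩ := okLam_sound (e := 0) lam_1
    obtain ⟨r, hr, -⟩ := okLam_sound (e := 0) lam_2
    refine ⟨p, s, r, hr.trans ?_⟩
    show cd 5029888 = (D0 0).cls p + (D0 0).cls s
    rw [hp, hs, ← cd_xor]; rfl

end

end CfsgMO
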